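import Mathlib

set_option autoImplicit false

namespace Cfsg.Agent.Lib.Helper99

open Module

section gram
variable {F : Type*} [Field F]

/-- Change of basis for Gram determinants, any index types. -/
theorem gram_det_change' {ι κ : Type*} [Fintype ι] [DecidableEq ι] [Fintype κ] [DecidableEq κ]
    (B : LinearMap.BilinForm F (κ → F)) (b : Basis ι F (κ → F)) :
    ∃ p : F, p ≠ 0 ∧ (Matrix.of fun i j : ι => B (b i) (b j)).det
      = p * p * (LinearMap.BilinForm.toMatrix' B).det := by
  let e : ι ≃ κ := b.indexEquiv (Pi.basisFun F κ)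
  let b' : Basis κ F (κ → F) := b.reindex e
  have h1 : (Matrix.of fun i j : ι => B (b i) (b j)).det
      = (LinearMap.BilinForm.toMatrix b' B).det := by
    have h : Matrix.of (fun i j : ι => B (b i) (b j))
        = (LinearMap.BilinForm.toMatrix b' B).submatrix e e := by
      ext i j
      simp [LinearMap.BilinForm.toMatrix_apply, b']
    rw [h, Matrix.det_submatrix_equiv_self]
  have h2 := LinearMap.BilinForm.toMatrix_mul_basis_toMatrix (b := Pi.basisFun F κ) b' B
  rw [LinearMap.BilinForm.toMatrix_basisFun] at h2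
  have h3 : ((Pi.basisFun F κ).toMatrix b').det ≠ 0 := by
    have h4 := Module.Basis.toMatrix_mul_toMatrix_flip (Pi.basisFun F κ) b'
    intro h0
    have h5 := congrArg Matrix.det h4
    rw [Matrix.det_mul, h0, zero_mul, Matrix.det_one] at h5
    exact zero_ne_one h5
  refine ⟨_, h3, ?_⟩
  rw [h1, ← h2, Matrix.det_mul, Matrix.det_mul, Matrix.det_transpose]
  ring

theorem det_swap (m : ℕ) (h2 : (2 : F) ≠ 0) :
    (Matrix.fromBlocks (0 : Matrix (Fin m) (Fin m) F) (1 : Matrix (Fin m) (Fin m) F)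
      (1 : Matrix (Fin m) (Fin m) F) (0 : Matrix (Fin m) (Fin m) F)).det = (-1) ^ m := by
  have hT : Matrix.fromBlocks (0 : Matrix (Fin m) (Fin m) F) (1 : Matrix (Fin m) (Fin m) F)
      (1 : Matrix (Fin m) (Fin m) F) (0 : Matrix (Fin m) (Fin m) F)
      * Matrix.fromBlocks (1 : Matrix (Fin m) (Fin m) F) (1 : Matrix (Fin m) (Fin m) F)
          (1 : Matrix (Fin m) (Fin m) F) (-1 : Matrix (Fin m) (Fin m) F)
      = Matrix.fromBlocks (1 : Matrix (Fin m) (Fin m) F) (1 : Matrix (Fin m) (Fin m) F)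
          (1 : Matrix (Fin m) (Fin m) F) (-1 : Matrix (Fin m) (Fin m) F)
        * Matrix.fromBlocks (1 : Matrix (Fin m) (Fin m) F) (0 : Matrix (Fin m) (Fin m) F)
          (0 : Matrix (Fin m) (Fin m) F) (-1 : Matrix (Fin m) (Fin m) F) := by
    simp [Matrix.fromBlocks_multiply]
  have hdT : (Matrix.fromBlocks (1 : Matrix (Fin m) (Fin m) F) (1 : Matrix (Fin m) (Fin m) F)
          (1 : Matrix (Fin m) (Fin m) F) (-1 : Matrix (Fin m) (Fin m) F)).det = (-2) ^ m := by
    rw [Matrix.det_fromBlocks_one₁₁]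
    have h : (-1 : Matrix (Fin m) (Fin m) F) - 1 * 1
        = (-2 : F) • (1 : Matrix (Fin m) (Fin m) F) := by
      rw [mul_one, neg_smul, two_smul]; abel
    rw [h, Matrix.det_smul, Matrix.det_one, Fintype.card_fin, mul_one]
  have hdD : (Matrix.fromBlocks (1 : Matrix (Fin m) (Fin m) F) (0 : Matrix (Fin m) (Fin m) F)
          (0 : Matrix (Fin m) (Fin m) F) (-1 : Matrix (Fin m) (Fin m) F)).det = (-1) ^ m := by
    rw [Matrix.det_fromBlocks_zero₂₁, Matrix.det_one, one_mul, Matrix.det_neg, Matrix.det_one,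
      Fintype.card_fin, mul_one]
  have h := congrArg Matrix.det hT
  rw [Matrix.det_mul, Matrix.det_mul, hdT, hdD] at h
  have hne : ((-2 : F)) ^ m ≠ 0 := pow_ne_zero _ (neg_ne_zero.mpr h2)
  exact mul_right_cancel₀ hne (h.trans (mul_comm _ _))

/-- Determinant of a symmetric block matrix with vanishing top-left block. -/
theorem det_zero_block (m : ℕ) (h2 : (2 : F) ≠ 0) (A C : Matrix (Fin m) (Fin m) F) :
    (Matrix.fromBlocks (0 : Matrix (Fin m) (Fin m) F) A A.transpose C).det
      = (-1) ^ m * (A.det * A.det) := by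
  have h : Matrix.fromBlocks (0 : Matrix (Fin m) (Fin m) F) A A.transpose C
      = Matrix.fromBlocks A (0 : Matrix (Fin m) (Fin m) F) C A.transpose
        * Matrix.fromBlocks (0 : Matrix (Fin m) (Fin m) F) (1 : Matrix (Fin m) (Fin m) F)
          (1 : Matrix (Fin m) (Fin m) F) (0 : Matrix (Fin m) (Fin m) F) := by
    simp [Matrix.fromBlocks_multiply]
  rw [h, Matrix.det_mul, det_swap m h2, Matrix.det_fromBlocks_zero₁₂, Matrix.det_transpose]
  ring

end gram

end Cfsg.Agent.Lib.Helper99
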