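import Mathlib
import Cfsg.Agent.Lib.Helper99.Quad
import Cfsg.Agent.Lib.Helper99.Gram

set_option autoImplicit false

namespace Cfsg.Agent.Lib.Helper99

open Module QuadraticMap

section disc
variable {F V : Type*} [Field F] [AddCommGroup V] [Module F V]

/-- Gram determinants in two bases differ by a nonzero square. -/
theorem gram_det_bases {ι κ : Type*} [Fintype ι] [DecidableEq ι] [Fintype κ] [DecidableEq κ]
    (B : LinearMap.BilinForm F V) (b : Basis ι F V) (c : Basis κ F V) :
    ∃ p : F, p ≠ 0 ∧ (Matrix.of fun i j : ι => B (b i) (b j)).det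
      = p * p * (Matrix.of fun i j : κ => B (c i) (c j)).det := by
  let e : ι ≃ κ := b.indexEquiv c
  let b' : Basis κ F V := b.reindex e
  have h1 : (Matrix.of fun i j : ι => B (b i) (b j)).det
      = (LinearMap.BilinForm.toMatrix b' B).det := by
    have h : Matrix.of (fun i j : ι => B (b i) (b j))
        = (LinearMap.BilinForm.toMatrix b' B).submatrix e e := by
      ext i j
      simp [LinearMap.BilinForm.toMatrix_apply, b']
    rw [h, Matrix.det_submatrix_equiv_self]
  have h2 := LinearMap.BilinForm.toMatrix_mul_basis_toMatrix (b := c) b' B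
  have h3 : (c.toMatrix b').det ≠ 0 := by
    have h4 := Module.Basis.toMatrix_mul_toMatrix_flip c b'
    intro h0
    have h5 := congrArg Matrix.det h4
    rw [Matrix.det_mul, h0, zero_mul, Matrix.det_one] at h5
    exact zero_ne_one h5
  have h6 : LinearMap.BilinForm.toMatrix c B = Matrix.of fun i j : κ => B (c i) (c j) := by
    ext i j
    simp [LinearMap.BilinForm.toMatrix_apply]
  refine ⟨_, h3, ?_⟩
  rw [h1, ← h2, Matrix.det_mul, Matrix.det_mul, Matrix.det_transpose, h6]
  ring

/-- A totally isotropic subspace of half the dimension forces the Gram determinant to be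
`(-1)^n` times a square. -/
theorem ti_half_disc [FiniteDimensional F V] (h2 : (2 : F) ≠ 0) (B : LinearMap.BilinForm F V)
    (hsymm : ∀ x y, B x y = B y x) (n : ℕ) (hV : finrank F V = 2 * n)
    (X : Submodule F V) (hX : finrank F X = n) (hti : ∀ x ∈ X, ∀ y ∈ X, B x y = 0)
    {ι : Type*} [Fintype ι] [DecidableEq ι] (b : Basis ι F V) :
    ∃ s : F, (Matrix.of fun i j : ι => B (b i) (b j)).det = (-1) ^ n * (s * s) := by
  classical
  obtain ⟨X', hXX'⟩ := Submodule.exists_isCompl X
  have hX' : finrank F X' = n := by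
    have h1 := Submodule.finrank_add_eq_of_isCompl hXX'
    omega
  obtain ⟨w, hw, hws⟩ := exists_family_of_finrank X hX
  obtain ⟨w', hw', hws'⟩ := exists_family_of_finrank X' hX'
  have hwX : ∀ i, w i ∈ X := fun i => hws ▸ Submodule.subset_span ⟨i, rfl⟩
  have hli : LinearIndependent F (Sum.elim w w') := by
    apply LinearIndependent.sum_type hw hw'
    rw [hws, hws']
    exact hXX'.disjoint
  let c : Basis (Fin n ⊕ Fin n) F V :=
    basisOfLinearIndependentOfCardEqFinrank' _ hli (by
      rw [hV, Fintype.card_sum, Fintype.card_fin]; ring)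
  have hc : ∀ s, c s = Sum.elim w w' s := fun s => by simp [c]
  obtain ⟨p, hp0, hp⟩ := gram_det_bases B b c
  set A : Matrix (Fin n) (Fin n) F := Matrix.of (fun i j => B (w i) (w' j)) with hA
  set C : Matrix (Fin n) (Fin n) F := Matrix.of (fun i j => B (w' i) (w' j)) with hC
  have hG : Matrix.of (fun i j : Fin n ⊕ Fin n => B (c i) (c j))
      = Matrix.fromBlocks 0 A A.transpose C := by
    ext i j
    rcases i with i | i <;> rcases j with j | j
    · simp [hc, hti (w i) (hwX i) (w j) (hwX j)]
    · simp [hc, hA]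
    · simp [hc, hA, hsymm (w' i) (w j)]
    · simp [hc, hC]
  rw [hG, det_zero_block n h2] at hp
  exact ⟨p * A.det, by rw [hp]; ring⟩

/-- Gram determinant of a tensor product form in a tensor product basis. -/
theorem gram_tmul_det {U W : Type*} [AddCommGroup U] [Module F U] [AddCommGroup W] [Module F W]
    {ι₁ ι₂ : Type*} [Fintype ι₁] [DecidableEq ι₁] [Fintype ι₂] [DecidableEq ι₂]
    (B₁ : LinearMap.BilinForm F U) (B₂ : LinearMap.BilinForm F W) (b₁ : Basis ι₁ F U)
    (b₂ : Basis ι₂ F W) :
    (Matrix.of fun p p' : ι₁ × ι₂ =>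
        (B₁.tmul B₂) (b₁.tensorProduct b₂ p) (b₁.tensorProduct b₂ p')).det
      = (Matrix.of fun i j : ι₁ => B₁ (b₁ i) (b₁ j)).det ^ Fintype.card ι₂
        * (Matrix.of fun i j : ι₂ => B₂ (b₂ i) (b₂ j)).det ^ Fintype.card ι₁ := by
  rw [← Matrix.det_kronecker]
  congr 1
  ext ⟨i, j⟩ ⟨i', j'⟩
  rw [Matrix.of_apply, Basis.tensorProduct_apply, Basis.tensorProduct_apply]
  show B₂ (b₂ j) (b₂ j') * B₁ (b₁ i) (b₁ i') = _
  simp [Matrix.kroneckerMap_apply, mul_comm]

/-- If `(-1)^k` times the Gram determinant is a square, a nondegenerate symmetric form in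
dimension `2k` over a finite field of odd order has a totally isotropic `k`-subspace. -/
theorem exists_ti_of_disc [Fintype F] [FiniteDimensional F V] (h2 : (2 : F) ≠ 0)
    (B : LinearMap.BilinForm F V) (hB : B.Nondegenerate) (hsymm : ∀ x y, B x y = B y x) (k : ℕ)
    (hV : finrank F V = 2 * k) {ι : Type*} [Fintype ι] [DecidableEq ι] (b : Basis ι F V)
    (hsq : IsSquare ((-1) ^ k * (Matrix.of fun i j : ι => B (b i) (b j)).det)) :
    ∃ X : Submodule F V, finrank F X = k ∧ ∀ x ∈ X, ∀ y ∈ X, B x y = 0 := by
  classical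
  let Q : QuadraticForm F V := LinearMap.BilinMap.toQuadraticMap B
  have hQ : ∀ x, Q x = B x x := fun _ => rfl
  have hpol : ∀ x y, polar Q x y = 2 * B x y := by
    intro x y
    simp only [polar, hQ, map_add, LinearMap.add_apply]
    rw [hsymm y x]
    ring
  have hQnd : Q.polarBilin.Nondegenerate := by
    have hL : ∀ x, (∀ y, polar Q x y = 0) → x = 0 := by
      intro x hx
      apply hB.1
      intro u
      have h3 := hx u
      rw [hpol] at h3
      exact (mul_eq_zero.mp h3).resolve_left h2
    exact ⟨fun x hx => hL x hx, fun y hy => hL y (fun x => by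
      have h := hy x
      rw [polarBilin_apply_apply] at h
      rw [polar_comm]; exact h)⟩
  obtain ⟨k', e, f, hH, h | h | h⟩ := witt Q hQnd
  · obtain ⟨c, hc1, hc2⟩ := h
    have hk' : k' = k := by
      have h3 := Module.finrank_eq_card_basis c
      simp only [Fintype.card_sum, Fintype.card_fin] at h3
      omega
    subst hk'
    have hli : LinearIndependent F e := by
      have h3 := c.linearIndependent.comp (Sum.inl : Fin k' → Fin k' ⊕ Fin k') Sum.inl_injective
      have h4 : e = c ∘ Sum.inl := funext fun i => (hc1 i).symm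
      rw [h4]
      exact h3
    refine ⟨Submodule.span F (Set.range e), by
      rw [finrank_span_eq_card hli, Fintype.card_fin], ?_⟩
    have h1 : ∀ i j, B (e i) (e j) = 0 := by
      intro i j
      have h3 := (hH.2.2 i j).1
      rw [hpol] at h3
      exact (mul_eq_zero.mp h3).resolve_left h2
    have h3 : ∀ i, ∀ y ∈ Submodule.span F (Set.range e), B (e i) y = 0 := by
      intro i y hy
      have h4 : Submodule.span F (Set.range e) ≤ LinearMap.ker (B (e i)) := by
        rw [Submodule.span_le]
        rintro _ ⟨j, rfl⟩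
        exact h1 i j
      exact h4 hy
    intro x hx y hy
    have h4 : Submodule.span F (Set.range e) ≤ LinearMap.ker (B.flip y) := by
      rw [Submodule.span_le]
      rintro _ ⟨i, rfl⟩
      exact h3 i y hy
    exact h4 hx
  · obtain ⟨x, c, -⟩ := h
    have h3 := Module.finrank_eq_card_basis c
    simp only [Fintype.card_sum, Fintype.card_fin, Fintype.card_unit] at h3
    omega
  · obtain ⟨x, y, c, hQx, hxy, ht, hxe, hye, hc1, hc2, hc3, hc4⟩ := h
    exfalso
    have hk' : k = k' + 1 := by
      have h3 := Module.finrank_eq_card_basis c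
      simp only [Fintype.card_sum, Fintype.card_fin] at h3
      omega
    subst hk'
    obtain ⟨p, hp0, hp⟩ := gram_det_bases B b c
    have hG : Matrix.of (fun s t => polar Q (c s) (c t))
        = Matrix.fromBlocks (Matrix.fromBlocks (0 : Matrix (Fin k') (Fin k') F) 1 1 0) 0 0
          (Matrix.of ![![2, 1], ![1, 2 * Q y]]) := by
      ext s t
      rcases s with (i | i) | i <;> rcases t with (j | j) | j
      · simp [hc1, (hH.2.2 i j).1]
      · simp [hc1, hc2, hH.2.1 i j, Matrix.one_apply]
      · fin_cases j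
        · simp [hc1, hc3]
          rw [polar_comm]; exact (hxe i).1
        · simp [hc1, hc4]
          rw [polar_comm]; exact (hye i).1
      · simp only [Matrix.of_apply, hc1, hc2, Matrix.fromBlocks_apply₁₁,
          Matrix.fromBlocks_apply₂₁, Matrix.one_apply]
        rw [polar_comm, hH.2.1 j i]
        simp [eq_comm]
      · simp [hc2, (hH.2.2 i j).2]
      · fin_cases j
        · simp [hc2, hc3]
          rw [polar_comm]; exact (hxe i).2
        · simp [hc2, hc4]
          rw [polar_comm]; exact (hye i).2
      · fin_cases i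
        · simp [hc1, hc3, (hxe j).1]
        · simp [hc1, hc4, (hye j).1]
      · fin_cases i
        · simp [hc2, hc3, (hxe j).2]
        · simp [hc2, hc4, (hye j).2]
      · fin_cases i <;> fin_cases j
        · simp [hc3, polar_self, hQx]
        · simp [hc3, hc4, hxy]
        · simp [hc3, hc4]
          rw [polar_comm]; exact hxy
        · simp [hc4, polar_self]
    have hdetG : (Matrix.fromBlocks (Matrix.fromBlocks (0 : Matrix (Fin k') (Fin k') F) 1 1 0)
        (0 : Matrix (Fin k' ⊕ Fin k') (Fin 2) F) (0 : Matrix (Fin 2) (Fin k' ⊕ Fin k') F)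
          (Matrix.of ![![2, 1], ![1, 2 * Q y]])).det = (-1) ^ k' * (4 * Q y - 1) := by
      rw [Matrix.det_fromBlocks_zero₁₂, det_swap k' h2, Matrix.det_fin_two_of]
      ring
    have hsm : Matrix.of (fun s t => polar Q (c s) (c t))
        = (2 : F) • Matrix.of (fun s t => B (c s) (c t)) := by
      ext s t
      simp [hpol]
    have hdet2 : (2 : F) ^ (k' + 1) * (2 : F) ^ (k' + 1)
        * (Matrix.of (fun s t => B (c s) (c t))).det = (-1) ^ k' * (4 * Q y - 1) := by
      rw [← hdetG, ← hG, hsm, Matrix.det_smul]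
      simp only [Fintype.card_sum, Fintype.card_fin]
      ring
    obtain ⟨r, hr⟩ := hsq
    rw [hp] at hr
    have hone : ((-1 : F) ^ k') * ((-1) ^ k') = 1 := by
      rw [← mul_pow]; simp
    have hs : (r * 2 ^ (k' + 1)) ^ 2 = p ^ 2 * (1 - 4 * Q y) := by
      rw [pow_succ (-1 : F) k'] at hr
      linear_combination (-(2 : F) ^ (k' + 1) * (2 : F) ^ (k' + 1)) * hr
        + (-((-1 : F) ^ k' * p * p)) * hdet2 + (-(p * p * (4 * Q y - 1))) * hone
    apply ht ((r * 2 ^ (k' + 1) / p - 1) / 2)
    field_simp
    linear_combination hs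

end disc

end Cfsg.Agent.Lib.Helper99
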