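import Mathlib
import Cfsg.Agent.Lib.Helper99.TvCalc

set_option autoImplicit false

namespace Cfsg.Agent.Lib.Helper99

open Matrix

section Flag

variable {N : ℕ} {k : Type*} [Field k]

/-- the element `1 + v φᵀ` of `SL_N(k)` (for `φ v = 0`) -/
def tvS (v φ : Fin N → k) (h : φ ⬝ᵥ v = 0) : Matrix.SpecialLinearGroup (Fin N) k :=
  ⟨tvm v φ, by rw [tvm_det, h, add_zero]⟩

theorem tvS_coe (v φ : Fin N → k) (h : φ ⬝ᵥ v = 0) :
    ((tvS v φ h : Matrix.SpecialLinearGroup (Fin N) k) : Matrix (Fin N) (Fin N) k) = tvm v φ := rfl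

theorem tvm_mulVec (w χ v : Fin N → k) : tvm w χ *ᵥ v = v + (χ ⬝ᵥ v) • w := by
  rw [tvm, add_mulVec, one_mulVec, vecMulVec_mulVec, op_smul_eq_smul]

theorem vecMul_tvm (φ w χ : Fin N → k) : φ ᵥ* tvm w χ = φ + (φ ⬝ᵥ w) • χ := by
  rw [tvm, vecMul_add, vecMul_one, vecMul_vecMulVec]

theorem tvm_zero_left (φ : Fin N → k) : tvm (0 : Fin N → k) φ = 1 := by
  simp [tvm]

theorem tvm_mul_same (v v' φ : Fin N → k) (h : φ ⬝ᵥ v' = 0) :
    tvm v φ * tvm v' φ = tvm (v + v') φ := by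
  rw [tvm_mul_tvm, h, zero_smul, add_zero, tvm, add_vecMulVec, add_assoc]

theorem tvS_inv (v φ : Fin N → k) (h : φ ⬝ᵥ v = 0) :
    (tvS v φ h)⁻¹ = tvS (-v) φ (by rw [dotProduct_neg, h, neg_zero]) := by
  apply inv_eq_of_mul_eq_one_right
  apply Subtype.ext
  rw [Matrix.SpecialLinearGroup.coe_mul, tvS_coe, tvS_coe,
    tvm_mul_same _ _ _ (by rw [dotProduct_neg, h, neg_zero]), add_neg_cancel, tvm_zero_left]
  rfl

theorem conj_tvm (g : Matrix.SpecialLinearGroup (Fin N) k) (v φ : Fin N → k) :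
    (g : Matrix (Fin N) (Fin N) k) * tvm v φ *
      ((g⁻¹ : Matrix.SpecialLinearGroup (Fin N) k) : Matrix (Fin N) (Fin N) k) =
    tvm ((g : Matrix (Fin N) (Fin N) k) *ᵥ v)
      (φ ᵥ* ((g⁻¹ : Matrix.SpecialLinearGroup (Fin N) k) : Matrix (Fin N) (Fin N) k)) := by
  rw [tvm, tvm, mul_add, add_mul, mul_one, mul_vecMulVec, vecMulVec_mul]
  congr 1
  rw [← Matrix.SpecialLinearGroup.coe_mul, mul_inv_cancel, Matrix.SpecialLinearGroup.coe_one]

theorem sl_vecMul_inv' (a : Matrix.SpecialLinearGroup (Fin N) k) (φ : Fin N → k) :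
    (φ ᵥ* ((a⁻¹ : Matrix.SpecialLinearGroup (Fin N) k) : Matrix (Fin N) (Fin N) k)) ᵥ*
      (a : Matrix (Fin N) (Fin N) k) = φ := by
  rw [vecMul_vecMul, ← Matrix.SpecialLinearGroup.coe_mul, inv_mul_cancel,
    Matrix.SpecialLinearGroup.coe_one, vecMul_one]

theorem sl_mulVec_inv' (a : Matrix.SpecialLinearGroup (Fin N) k) (v : Fin N → k) :
    (a : Matrix (Fin N) (Fin N) k) *ᵥ
      (((a⁻¹ : Matrix.SpecialLinearGroup (Fin N) k) : Matrix (Fin N) (Fin N) k) *ᵥ v) = v := by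
  rw [mulVec_mulVec, ← Matrix.SpecialLinearGroup.coe_mul, mul_inv_cancel,
    Matrix.SpecialLinearGroup.coe_one, one_mulVec]

theorem sl_mulVec_ne_zero (g : Matrix.SpecialLinearGroup (Fin N) k) {v : Fin N → k} (hv : v ≠ 0) :
    (g : Matrix (Fin N) (Fin N) k) *ᵥ v ≠ 0 := by
  intro h
  apply hv
  rw [← sl_inv_mulVec g v, h, mulVec_zero]

theorem sl_vecMul_ne_zero (g : Matrix.SpecialLinearGroup (Fin N) k) {φ : Fin N → k} (hφ : φ ≠ 0) :
    φ ᵥ* (g : Matrix (Fin N) (Fin N) k) ≠ 0 := by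
  intro h
  apply hφ
  rw [← sl_vecMul_inv g φ, h, zero_vecMul]

theorem sl_dot_conj (g : Matrix.SpecialLinearGroup (Fin N) k) (v φ : Fin N → k) :
    (φ ᵥ* ((g⁻¹ : Matrix.SpecialLinearGroup (Fin N) k) : Matrix (Fin N) (Fin N) k)) ⬝ᵥ
      ((g : Matrix (Fin N) (Fin N) k) *ᵥ v) = φ ⬝ᵥ v := by
  rw [dotProduct_mulVec, sl_vecMul_inv']

theorem tvm_ne_one {v φ : Fin N → k} (hv : v ≠ 0) (hφ : φ ≠ 0) : tvm v φ ≠ 1 := by
  intro h
  obtain ⟨i, hi⟩ := Function.ne_iff.1 hv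
  obtain ⟨j, hj⟩ := Function.ne_iff.1 hφ
  have h1 : vecMulVec v φ = 0 := by
    have : (1 : Matrix (Fin N) (Fin N) k) + vecMulVec v φ = 1 + 0 := by rw [add_zero]; exact h
    exact add_left_cancel this
  have h2 := congrFun (congrFun h1 i) j
  rw [vecMulVec_apply] at h2
  simp only [Matrix.zero_apply, mul_eq_zero] at h2
  rcases h2 with h2 | h2
  · exact hi h2
  · exact hj h2

theorem tvS_ne_one {v φ : Fin N → k} (hv : v ≠ 0) (hφ : φ ≠ 0) (h : φ ⬝ᵥ v = 0) :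
    tvS v φ h ≠ 1 := by
  intro h1
  apply tvm_ne_one hv hφ
  have := congrArg (fun x : Matrix.SpecialLinearGroup (Fin N) k => (x : Matrix (Fin N) (Fin N) k)) h1
  simpa [tvS_coe] using this

theorem transvection_eq_tvm' (i j : Fin N) (c : k) :
    Matrix.transvection i j c = tvm (c • Pi.single i 1) (Pi.single j 1) := by
  rw [Matrix.transvection, tvm]
  congr 1
  ext a b
  simp only [vecMulVec_apply, Matrix.single_apply, Pi.single_apply, Pi.smul_apply, smul_eq_mul,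
    eq_comm (a := i), eq_comm (a := j)]
  by_cases h1 : a = i <;> by_cases h2 : b = j <;> simp [h1, h2]

/-- the flags `(v, φ)` and `(v', φ')` are in the same `SL`-orbit -/
def flagR (v φ v' φ' : Fin N → k) : Prop :=
  ∃ g : Matrix.SpecialLinearGroup (Fin N) k, (g : Matrix (Fin N) (Fin N) k) *ᵥ v = v' ∧
    φ ᵥ* ((g⁻¹ : Matrix.SpecialLinearGroup (Fin N) k) : Matrix (Fin N) (Fin N) k) = φ'

theorem flagR.refl (v φ : Fin N → k) : flagR v φ v φ := ⟨1, by simp, by simp⟩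

theorem flagR.trans {v φ v' φ' v'' φ'' : Fin N → k} (h : flagR v φ v' φ')
    (h' : flagR v' φ' v'' φ'') : flagR v φ v'' φ'' := by
  obtain ⟨g, hg1, hg2⟩ := h
  obtain ⟨g', hg1', hg2'⟩ := h'
  refine ⟨g' * g, ?_, ?_⟩
  · rw [Matrix.SpecialLinearGroup.coe_mul, ← mulVec_mulVec, hg1, hg1']
  · rw [_root_.mul_inv_rev, Matrix.SpecialLinearGroup.coe_mul, ← vecMul_vecMul, hg2, hg2']

theorem flagR.dot {v φ v' φ' : Fin N → k} (h : flagR v φ v' φ') : φ' ⬝ᵥ v' = φ ⬝ᵥ v := by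
  obtain ⟨g, hg1, hg2⟩ := h
  rw [← hg1, ← hg2, sl_dot_conj]

theorem flagR.ne_zero {v φ v' φ' : Fin N → k} (h : flagR v φ v' φ') (hφ : φ ≠ 0) : φ' ≠ 0 := by
  obtain ⟨g, hg1, hg2⟩ := h
  rw [← hg2]
  exact sl_vecMul_ne_zero _ hφ

theorem flagR.step (v φ w χ : Fin N → k) (h : χ ⬝ᵥ w = 0) :
    flagR v φ (v + (χ ⬝ᵥ v) • w) (φ - (φ ⬝ᵥ w) • χ) := by
  refine ⟨tvS w χ h, ?_, ?_⟩
  · rw [tvS_coe, tvm_mulVec]
  · rw [tvS_inv, tvS_coe, vecMul_tvm, dotProduct_neg, neg_smul, sub_eq_add_neg]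

end Flag

section Std

variable {n : ℕ} {k : Type*} [Field k]

theorem flag_stage1a (v φ : Fin (n + 3) → k) (i : Fin (n + 3)) (hi : i ≠ 0) (hvi : v i ≠ 0) :
    ∃ v' φ', flagR v φ v' φ' ∧ v' 0 = 1 := by
  have h0 : (Pi.single i (1 : k) : Fin (n + 3) → k) ⬝ᵥ
      (((1 - v 0) / v i) • (Pi.single 0 (1 : k) : Fin (n + 3) → k)) = 0 := by
    rw [single_one_dotProduct]
    simp [hi]
  refine ⟨_, _, flagR.step v φ _ _ h0, ?_⟩
  rw [single_one_dotProduct]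
  simp only [Pi.add_apply, Pi.smul_apply, Pi.single_eq_same, smul_eq_mul, mul_one]
  field_simp
  ring

theorem flag_stage1 (v φ : Fin (n + 3) → k) (hv : v ≠ 0) :
    ∃ v' φ', flagR v φ v' φ' ∧ v' 0 = 1 := by
  by_cases h : ∃ i, i ≠ 0 ∧ v i ≠ 0
  · obtain ⟨i, hi, hvi⟩ := h
    exact flag_stage1a v φ i hi hvi
  · push Not at h
    have hv0 : v 0 ≠ 0 := by
      intro h0
      apply hv
      funext i
      by_cases hi : i = 0
      · rw [hi]; exact h0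
      · exact h i hi
    have h10 : (1 : Fin (n + 3)) ≠ 0 := by
      intro h'
      have := congrArg Fin.val h'
      rw [Fin.val_one] at this
      simp at this
    have h1 : (Pi.single 0 (1 : k) : Fin (n + 3) → k) ⬝ᵥ Pi.single 1 1 = 0 := by
      rw [single_one_dotProduct]
      simp [h10.symm]
    have s := flagR.step v φ (Pi.single 1 1) (Pi.single 0 1) h1
    obtain ⟨v', φ', hR, hv'⟩ := flag_stage1a (v + ((Pi.single 0 (1 : k) : Fin (n + 3) → k) ⬝ᵥ v) •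
        (Pi.single 1 (1 : k) : Fin (n + 3) → k))
      (φ - (φ ⬝ᵥ (Pi.single 1 (1 : k) : Fin (n + 3) → k)) • (Pi.single 0 (1 : k) : Fin (n + 3) → k)) 1 h10
      (by
        rw [single_one_dotProduct]
        simp only [Pi.add_apply, Pi.smul_apply, Pi.single_eq_same, smul_eq_mul, mul_one]
        rw [h 1 h10, zero_add]
        exact hv0)
    exact ⟨v', φ', s.trans hR, hv'⟩

theorem flag_stage2 (v φ : Fin (n + 3) → k) (hv0 : v 0 = 1) :
    ∃ φ', flagR v φ (Pi.single 0 1) φ' := by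
  have h0 : (Pi.single 0 (1 : k) : Fin (n + 3) → k) ⬝ᵥ (Pi.single 0 1 - v) = 0 := by
    rw [single_one_dotProduct]
    simp [hv0]
  have s := flagR.step v φ _ _ h0
  rw [single_one_dotProduct, hv0, one_smul, add_sub_cancel] at s
  exact ⟨_, s⟩

theorem flag_stage3a (φ : Fin (n + 3) → k) (j : Fin (n + 3)) (hj1 : j ≠ 1) (hφj : φ j ≠ 0) :
    ∃ φ', flagR (Pi.single 0 1) φ (Pi.single 0 1) φ' ∧ φ' 1 = 1 := by
  have h10 : (1 : Fin (n + 3)) ≠ 0 := by
    intro h'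
    have := congrArg Fin.val h'
    rw [Fin.val_one] at this
    simp at this
  have h0 : (((φ 1 - 1) / φ j) • (Pi.single 1 (1 : k) : Fin (n + 3) → k)) ⬝ᵥ
      (Pi.single j (1 : k) : Fin (n + 3) → k) = 0 := by
    rw [dotProduct_single_one]
    simp [hj1]
  have s := flagR.step (Pi.single 0 1) φ (Pi.single j 1) _ h0
  have e : (((φ 1 - 1) / φ j) • (Pi.single 1 (1 : k) : Fin (n + 3) → k)) ⬝ᵥ
      (Pi.single 0 (1 : k) : Fin (n + 3) → k) = 0 := by
    rw [dotProduct_single_one]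
    simp [h10.symm]
  rw [e, zero_smul, add_zero] at s
  refine ⟨_, s, ?_⟩
  rw [dotProduct_single_one]
  simp only [Pi.sub_apply, Pi.smul_apply, Pi.single_eq_same, smul_eq_mul, mul_one]
  field_simp
  ring

theorem flag_stage3 (φ : Fin (n + 3) → k) (hφ : φ ≠ 0) (hφ0 : φ 0 = 0) :
    ∃ φ', flagR (Pi.single 0 1) φ (Pi.single 0 1) φ' ∧ φ' 1 = 1 := by
  have h10 : (1 : Fin (n + 3)) ≠ 0 := by
    intro h'
    have := congrArg Fin.val h'
    rw [Fin.val_one] at this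
    simp at this
  have h21 : (2 : Fin (n + 3)) ≠ 1 := by
    intro h'
    have := congrArg Fin.val h'
    rw [Fin.val_one, Fin.val_two] at this
    simp at this
  have h20 : (2 : Fin (n + 3)) ≠ 0 := by
    intro h'
    have := congrArg Fin.val h'
    rw [Fin.val_two] at this
    simp at this
  by_cases h : ∃ j, j ≠ 0 ∧ j ≠ 1 ∧ φ j ≠ 0
  · obtain ⟨j, -, h1, hj⟩ := h
    exact flag_stage3a φ j h1 hj
  · push Not at h
    have hφ1 : φ 1 ≠ 0 := by
      intro h1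
      apply hφ
      funext i
      by_cases hi0 : i = 0
      · rw [hi0]; exact hφ0
      · by_cases hi1 : i = 1
        · rw [hi1]; exact h1
        · exact h i hi0 hi1
    have h0 : (Pi.single 2 (1 : k) : Fin (n + 3) → k) ⬝ᵥ Pi.single 1 1 = 0 := by
      rw [single_one_dotProduct]
      simp [h21]
    have s := flagR.step (Pi.single 0 1) φ (Pi.single 1 1) (Pi.single 2 1) h0
    have e : (Pi.single 2 (1 : k) : Fin (n + 3) → k) ⬝ᵥ Pi.single 0 1 = 0 := by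
      rw [single_one_dotProduct]
      simp [h20]
    rw [e, zero_smul, add_zero] at s
    obtain ⟨φ', hR, h1⟩ := flag_stage3a
      (φ - (φ ⬝ᵥ (Pi.single 1 (1 : k) : Fin (n + 3) → k)) • (Pi.single 2 (1 : k) : Fin (n + 3) → k))
      2 h21
      (by
        rw [dotProduct_single_one]
        simp only [Pi.sub_apply, Pi.smul_apply, Pi.single_eq_same, smul_eq_mul, mul_one]
        rw [h 2 h20 h21, zero_sub]
        exact neg_ne_zero.2 hφ1)
    exact ⟨φ', s.trans hR, h1⟩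

theorem flag_stage4 (φ : Fin (n + 3) → k) (hφ0 : φ 0 = 0) (hφ1 : φ 1 = 1) :
    flagR (Pi.single 0 1) φ (Pi.single 0 1) (Pi.single 1 1) := by
  have h0 : (φ - Pi.single 1 1) ⬝ᵥ (Pi.single 1 (1 : k) : Fin (n + 3) → k) = 0 := by
    rw [dotProduct_single_one]
    simp [hφ1]
  have s := flagR.step (Pi.single 0 1) φ (Pi.single 1 1) _ h0
  have h10 : (1 : Fin (n + 3)) ≠ 0 := by
    intro h'
    have := congrArg Fin.val h'
    rw [Fin.val_one] at this
    simp at this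
  have e : (φ - Pi.single 1 1) ⬝ᵥ (Pi.single 0 (1 : k) : Fin (n + 3) → k) = 0 := by
    rw [dotProduct_single_one]
    simp [hφ0, h10.symm]
  rw [e, zero_smul, add_zero, dotProduct_single_one, hφ1, one_smul, sub_sub_cancel] at s
  exact s

/-- `SL_{n+3}(k)` is transitive on incident point-hyperplane flags. -/
theorem flagR_std (v φ : Fin (n + 3) → k) (hv : v ≠ 0) (hφ : φ ≠ 0) (h : φ ⬝ᵥ v = 0) :
    flagR v φ (Pi.single 0 1) (Pi.single 1 1) := by
  obtain ⟨v1, φ1, hR1, hv1⟩ := flag_stage1 v φ hv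
  obtain ⟨φ2, hR2⟩ := flag_stage2 v1 φ1 hv1
  have hR12 := hR1.trans hR2
  have hφ2 : φ2 ≠ 0 := hR12.ne_zero hφ
  have hφ20 : φ2 0 = 0 := by
    have := hR12.dot
    rw [h, dotProduct_single_one] at this
    exact this
  obtain ⟨φ3, hR3, hφ31⟩ := flag_stage3 φ2 hφ2 hφ20
  have hφ30 : φ3 0 = 0 := by
    have := hR3.dot
    rw [dotProduct_single_one, dotProduct_single_one, hφ20] at this
    exact this
  exact (hR12.trans hR3).trans (flag_stage4 φ3 hφ30 hφ31)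

theorem exists_sl_flag (v φ : Fin (n + 3) → k) (hv : v ≠ 0) (hφ : φ ≠ 0) (h : φ ⬝ᵥ v = 0) :
    ∃ g : Matrix.SpecialLinearGroup (Fin (n + 3)) k,
      (g : Matrix (Fin (n + 3)) (Fin (n + 3)) k) *ᵥ Pi.single 0 1 = v ∧
      (Pi.single 1 1 : Fin (n + 3) → k) ᵥ*
        ((g⁻¹ : Matrix.SpecialLinearGroup (Fin (n + 3)) k) : Matrix (Fin (n + 3)) (Fin (n + 3)) k) = φ := by
  obtain ⟨g, hg1, hg2⟩ := flagR_std v φ hv hφ h
  refine ⟨g⁻¹, ?_, ?_⟩
  · rw [← hg1, sl_inv_mulVec]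
  · rw [inv_inv, ← hg2, sl_vecMul_inv']

theorem exists_sl_conj_tvm (v φ : Fin (n + 3) → k) (hv : v ≠ 0) (hφ : φ ≠ 0) (h : φ ⬝ᵥ v = 0) :
    ∃ g : Matrix.SpecialLinearGroup (Fin (n + 3)) k,
      (g : Matrix (Fin (n + 3)) (Fin (n + 3)) k) * tvm (Pi.single 0 1) (Pi.single 1 1) *
        ((g⁻¹ : Matrix.SpecialLinearGroup (Fin (n + 3)) k) : Matrix (Fin (n + 3)) (Fin (n + 3)) k) =
      tvm v φ := by
  obtain ⟨g, hg1, hg2⟩ := exists_sl_flag v φ hv hφ h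
  exact ⟨g, by rw [conj_tvm, hg1, hg2]⟩

end Std

end Cfsg.Agent.Lib.Helper99
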