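import Mathlib
import Cfsg.Prelude.Def_RootSubgroups
import Cfsg.Agent.Lib.Helper99.Flag
import Cfsg.Agent.Lib.Helper5.SLGen

set_option autoImplicit false

namespace Cfsg.Agent.Lib.Helper99

open Matrix

section RootGrp

variable {N : ℕ} {k : Type*} [Field k]

/-- the root group `{1 + c v φᵀ}` -/
def rootGrp (v φ : Fin N → k) : Subgroup (Matrix.SpecialLinearGroup (Fin N) k) :=
  Subgroup.closure {t | ∃ c : k, (t : Matrix (Fin N) (Fin N) k) = tvm (c • v) φ}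

theorem mem_rootGrp {v φ : Fin N → k} (h : φ ⬝ᵥ v = 0) (t : Matrix.SpecialLinearGroup (Fin N) k) :
    t ∈ rootGrp v φ ↔ ∃ c : k, (t : Matrix (Fin N) (Fin N) k) = tvm (c • v) φ := by
  constructor
  · intro ht
    induction ht using Subgroup.closure_induction with
    | mem x hx => exact hx
    | one => exact ⟨0, by rw [zero_smul, tvm_zero_left]; rfl⟩
    | mul x y _ _ hx hy =>
      obtain ⟨c, hc⟩ := hx
      obtain ⟨d, hd⟩ := hy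
      refine ⟨c + d, ?_⟩
      rw [Matrix.SpecialLinearGroup.coe_mul, hc, hd,
        tvm_mul_same _ _ _ (by rw [dotProduct_smul, h, smul_zero]), add_smul]
    | inv x _ hx =>
      obtain ⟨c, hc⟩ := hx
      refine ⟨-c, ?_⟩
      have hcv : φ ⬝ᵥ (c • v) = 0 := by rw [dotProduct_smul, h, smul_zero]
      have : x = tvS (c • v) φ hcv := Subtype.ext hc
      rw [this, tvS_inv, tvS_coe, neg_smul]
  · intro ht
    exact Subgroup.subset_closure ht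

theorem conjBy_rootGrp (g : Matrix.SpecialLinearGroup (Fin N) k) (v φ : Fin N → k) :
    Cfsg.conjBy (rootGrp v φ) g = rootGrp ((g : Matrix (Fin N) (Fin N) k) *ᵥ v)
      (φ ᵥ* ((g⁻¹ : Matrix.SpecialLinearGroup (Fin N) k) : Matrix (Fin N) (Fin N) k)) := by
  rw [Cfsg.conjBy, rootGrp, MonoidHom.map_closure, rootGrp]
  congr 1
  ext t
  constructor
  · rintro ⟨s, ⟨c, hc⟩, rfl⟩
    refine ⟨c, ?_⟩
    show ((g * s * g⁻¹ : Matrix.SpecialLinearGroup (Fin N) k) : Matrix (Fin N) (Fin N) k) = _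
    rw [Matrix.SpecialLinearGroup.coe_mul, Matrix.SpecialLinearGroup.coe_mul, hc, conj_tvm,
      Matrix.mulVec_smul]
  · rintro ⟨c, hc⟩
    refine ⟨g⁻¹ * t * g, ⟨c, ?_⟩, ?_⟩
    · rw [Matrix.SpecialLinearGroup.coe_mul, Matrix.SpecialLinearGroup.coe_mul, hc]
      have := conj_tvm g⁻¹ (c • ((g : Matrix (Fin N) (Fin N) k) *ᵥ v))
        (φ ᵥ* ((g⁻¹ : Matrix.SpecialLinearGroup (Fin N) k) : Matrix (Fin N) (Fin N) k))
      rw [inv_inv] at this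
      rw [this, Matrix.mulVec_smul, sl_inv_mulVec, sl_vecMul_inv']
    · show g * (g⁻¹ * t * g) * g⁻¹ = t
      group

theorem rootGrp_smul (a b : k) (ha : a ≠ 0) (hb : b ≠ 0) (v φ : Fin N → k) :
    rootGrp (a • v) (b • φ) = rootGrp v φ := by
  rw [rootGrp, rootGrp]
  congr 1
  ext t
  constructor
  · rintro ⟨c, hc⟩
    refine ⟨b * c * a, ?_⟩
    rw [hc, ← tvm_smul, smul_smul, smul_smul]
  · rintro ⟨c, hc⟩
    refine ⟨c / (a * b), ?_⟩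
    rw [hc, ← tvm_smul, smul_smul, smul_smul]
    congr 2
    field_simp

theorem rootGrp_commute {v φ w ψ : Fin N → k} (hv : φ ⬝ᵥ v = 0) (hw : ψ ⬝ᵥ w = 0)
    (hα : φ ⬝ᵥ w = 0) (hβ : ψ ⬝ᵥ v = 0) {a b : Matrix.SpecialLinearGroup (Fin N) k}
    (ha : a ∈ rootGrp v φ) (hb : b ∈ rootGrp w ψ) : a * b = b * a := by
  obtain ⟨c, hc⟩ := (mem_rootGrp hv a).1 ha
  obtain ⟨d, hd⟩ := (mem_rootGrp hw b).1 hb
  apply Subtype.ext
  rw [Matrix.SpecialLinearGroup.coe_mul, Matrix.SpecialLinearGroup.coe_mul, hc, hd, tvm_mul_tvm,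
    tvm_mul_tvm]
  simp only [dotProduct_smul, hα, hβ, smul_zero, zero_smul, add_zero]
  rw [add_right_comm]

theorem rootGrp_isNilpotent {v φ : Fin N → k} (hv : φ ⬝ᵥ v = 0) :
    Group.IsNilpotent (rootGrp v φ) := by
  let _ : CommGroup (rootGrp v φ) :=
    { (inferInstance : Group (rootGrp v φ)) with
      mul_comm := fun a b => Subtype.ext (rootGrp_commute hv hv hv hv a.2 b.2) }
  exact CommGroup.isNilpotent

theorem rootGrp_isMulCommutative {v φ : Fin N → k} (hv : φ ⬝ᵥ v = 0) :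
    IsMulCommutative (rootGrp v φ) :=
  ⟨⟨fun a b => Subtype.ext (rootGrp_commute hv hv hv hv a.2 b.2)⟩⟩

theorem tvS_mem_rootGrp {v φ : Fin N → k} (hv : φ ⬝ᵥ v = 0) : tvS v φ hv ∈ rootGrp v φ :=
  Subgroup.subset_closure ⟨1, by rw [one_smul]; rfl⟩

theorem rootGrp_eq_imp {v φ w ψ : Fin N → k} (hv : φ ⬝ᵥ v = 0) (hw : ψ ⬝ᵥ w = 0) (hvn : v ≠ 0)
    (h : rootGrp v φ = rootGrp w ψ) (x : Fin N → k) (hx : ψ ⬝ᵥ x = 0) : φ ⬝ᵥ x = 0 := by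
  have h1 : tvS v φ hv ∈ rootGrp w ψ := by rw [← h]; exact tvS_mem_rootGrp hv
  obtain ⟨c, hc⟩ := (mem_rootGrp hw _).1 h1
  rw [tvS_coe] at hc
  have h2 := congrArg (fun Z : Matrix (Fin N) (Fin N) k => Z *ᵥ x) hc
  simp only [tvm_mulVec, hx, zero_smul, add_zero] at h2
  have h3 : (φ ⬝ᵥ x) • v = 0 := by
    have : x + (φ ⬝ᵥ x) • v = x + 0 := by rw [add_zero]; exact h2
    exact add_left_cancel this
  rcases smul_eq_zero.1 h3 with h4 | h4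
  · exact h4
  · exact absurd h4 hvn

theorem rootGrp_eq_imp' {v φ w ψ : Fin N → k} (hv : φ ⬝ᵥ v = 0) (hw : ψ ⬝ᵥ w = 0) (hφn : φ ≠ 0)
    (h : rootGrp v φ = rootGrp w ψ) (χ : Fin N → k) (hχ : χ ⬝ᵥ w = 0) : χ ⬝ᵥ v = 0 := by
  have h1 : tvS v φ hv ∈ rootGrp w ψ := by rw [← h]; exact tvS_mem_rootGrp hv
  obtain ⟨c, hc⟩ := (mem_rootGrp hw _).1 h1
  rw [tvS_coe] at hc
  have h2 := congrArg (fun Z : Matrix (Fin N) (Fin N) k => χ ᵥ* Z) hc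
  simp only [vecMul_tvm, dotProduct_smul, hχ, smul_zero, zero_smul, add_zero] at h2
  have h3 : (χ ⬝ᵥ v) • φ = 0 := by
    have : χ + (χ ⬝ᵥ v) • φ = χ + 0 := by rw [add_zero]; exact h2
    exact add_left_cancel this
  rcases smul_eq_zero.1 h3 with h4 | h4
  · exact h4
  · exact absurd h4 hφn

theorem rootGrp_ne {v φ w ψ : Fin N → k} (hv : φ ⬝ᵥ v = 0) (hw : ψ ⬝ᵥ w = 0) (hvn : v ≠ 0)
    (hα : φ ⬝ᵥ w ≠ 0) : rootGrp v φ ≠ rootGrp w ψ :=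
  fun h => hα (rootGrp_eq_imp hv hw hvn h w hw)

theorem conjBy_inv_rootGrp {v φ w ψ : Fin N → k} (hw : ψ ⬝ᵥ w = 0) (t : k)
    (b : Matrix.SpecialLinearGroup (Fin N) k)
    (hb : (b : Matrix (Fin N) (Fin N) k) = tvm (t • w) ψ) :
    Cfsg.conjBy (rootGrp v φ) b⁻¹ =
      rootGrp (v - ((ψ ⬝ᵥ v) * t) • w) (φ + (t * (φ ⬝ᵥ w)) • ψ) := by
  have htw : ψ ⬝ᵥ (t • w) = 0 := by rw [dotProduct_smul, hw, smul_zero]
  have hb' : b = tvS (t • w) ψ htw := Subtype.ext hb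
  rw [conjBy_rootGrp, inv_inv, hb', tvS_inv, tvS_coe, tvS_coe, tvm_mulVec, vecMul_tvm]
  congr 1
  · rw [smul_neg, smul_smul, sub_eq_add_neg]
  · rw [dotProduct_smul, smul_eq_mul]

theorem rankOneCond {v φ w ψ : Fin N → k} (hv : φ ⬝ᵥ v = 0) (hw : ψ ⬝ᵥ w = 0)
    (hwn : w ≠ 0) (hψn : ψ ≠ 0) (hα : φ ⬝ᵥ w ≠ 0) (hβ : ψ ⬝ᵥ v ≠ 0) :
    Cfsg.RankOneCondition (rootGrp v φ) (rootGrp w ψ) := by
  intro a ha ha1
  obtain ⟨s, hs⟩ := (mem_rootGrp hv a).1 ha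
  have hs0 : s ≠ 0 := by
    rintro rfl
    apply ha1
    apply Subtype.ext
    rw [hs, zero_smul, tvm_zero_left]
    rfl
  have ht0 : (s * (φ ⬝ᵥ w) * (ψ ⬝ᵥ v))⁻¹ ≠ 0 := inv_ne_zero (mul_ne_zero (mul_ne_zero hs0 hα) hβ)
  have htw : ψ ⬝ᵥ ((s * (φ ⬝ᵥ w) * (ψ ⬝ᵥ v))⁻¹ • w) = 0 := by rw [dotProduct_smul, hw, smul_zero]
  refine ⟨tvS ((s * (φ ⬝ᵥ w) * (ψ ⬝ᵥ v))⁻¹ • w) ψ htw, Subgroup.subset_closure ⟨_, rfl⟩,
    tvS_ne_one (smul_ne_zero ht0 hwn) hψn htw, ?_⟩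
  rw [conjBy_inv_rootGrp hw _ _ rfl, conjBy_inv_rootGrp hv s a hs]
  generalize ht : (s * (φ ⬝ᵥ w) * (ψ ⬝ᵥ v))⁻¹ = t at ht0
  have h1 : (ψ ⬝ᵥ v) * t * ((φ ⬝ᵥ w) * s) = 1 := by
    rw [← ht]
    field_simp
  have e1 : v - ((ψ ⬝ᵥ v) * t) • w = (-((ψ ⬝ᵥ v) * t)) • (w - ((φ ⬝ᵥ w) * s) • v) := by
    have : (-((ψ ⬝ᵥ v) * t)) • (w - ((φ ⬝ᵥ w) * s) • v) =
        v - ((ψ ⬝ᵥ v) * t) • w + (((ψ ⬝ᵥ v) * t * ((φ ⬝ᵥ w) * s)) - 1) • v := by module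
    rw [this, h1, sub_self, zero_smul, add_zero]
  have e2 : φ + (t * (φ ⬝ᵥ w)) • ψ = (t * (φ ⬝ᵥ w)) • (ψ + (s * (ψ ⬝ᵥ v)) • φ) := by
    have : (t * (φ ⬝ᵥ w)) • (ψ + (s * (ψ ⬝ᵥ v)) • φ) =
        φ + (t * (φ ⬝ᵥ w)) • ψ + (((ψ ⬝ᵥ v) * t * ((φ ⬝ᵥ w) * s)) - 1) • φ := by module
    rw [this, h1, sub_self, zero_smul, add_zero]
  rw [e1, e2, rootGrp_smul _ _ (neg_ne_zero.2 (mul_ne_zero hβ ht0)) (mul_ne_zero ht0 hα)]

theorem rootGrp_rankOne {v φ w ψ : Fin N → k} (hv : φ ⬝ᵥ v = 0) (hw : ψ ⬝ᵥ w = 0)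
    (hvn : v ≠ 0) (hφn : φ ≠ 0) (hwn : w ≠ 0) (hψn : ψ ≠ 0) (hα : φ ⬝ᵥ w ≠ 0) (hβ : ψ ⬝ᵥ v ≠ 0) :
    Cfsg.IsRankOnePair (rootGrp v φ) (rootGrp w ψ) :=
  ⟨rootGrp_ne hv hw hvn hα, rootGrp_isNilpotent hv, rootGrp_isNilpotent hw,
    rankOneCond hv hw hwn hψn hα hβ, rankOneCond hw hv hvn hφn hβ hα⟩

theorem rankOne_imp {v φ w ψ : Fin N → k} (hv : φ ⬝ᵥ v = 0) (hw : ψ ⬝ᵥ w = 0)
    (hvn : v ≠ 0) (hφn : φ ≠ 0)
    (h : Cfsg.IsRankOnePair (rootGrp v φ) (rootGrp w ψ)) : φ ⬝ᵥ w ≠ 0 ∧ ψ ⬝ᵥ v ≠ 0 := by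
  obtain ⟨b, hb, hb1, hconj⟩ := h.cond_left _ (tvS_mem_rootGrp hv) (tvS_ne_one hvn hφn hv)
  obtain ⟨t, ht⟩ := (mem_rootGrp hw b).1 hb
  rw [conjBy_inv_rootGrp hw t b ht,
    conjBy_inv_rootGrp hv 1 (tvS v φ hv) (by rw [one_smul]; rfl)] at hconj
  by_cases hα : φ ⬝ᵥ w = 0
  · by_cases hβ : ψ ⬝ᵥ v = 0
    · exfalso
      simp only [hα, hβ, zero_mul, mul_zero, zero_smul, sub_zero, add_zero] at hconj
      exact h.ne hconj
    · exfalso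
      simp only [hα, zero_mul, mul_zero, zero_smul, sub_zero, add_zero, one_mul] at hconj
      apply hβ
      have h1 := rootGrp_eq_imp' (v := v - ((ψ ⬝ᵥ v) * t) • w) (φ := φ) (w := w)
        (ψ := ψ + (ψ ⬝ᵥ v) • φ)
        (by rw [dotProduct_sub, dotProduct_smul, hv, hα, smul_zero, sub_zero])
        (by rw [add_dotProduct, smul_dotProduct, hw, hα, smul_zero, add_zero])
        hφn hconj ψ hw
      rw [dotProduct_sub, dotProduct_smul, hw, smul_zero, sub_zero] at h1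
      exact h1
  · by_cases hβ : ψ ⬝ᵥ v = 0
    · exfalso
      simp only [hβ, zero_mul, mul_zero, zero_smul, sub_zero, add_zero, mul_one] at hconj
      apply hα
      have h1 := rootGrp_eq_imp (v := v) (φ := φ + (t * (φ ⬝ᵥ w)) • ψ)
        (w := w - (φ ⬝ᵥ w) • v) (ψ := ψ)
        (by rw [add_dotProduct, smul_dotProduct, hv, hβ, smul_zero, add_zero])
        (by rw [dotProduct_sub, dotProduct_smul, hw, hβ, smul_zero, sub_zero])
        hvn hconj w hw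
      rw [add_dotProduct, smul_dotProduct, hw, smul_zero, add_zero] at h1
      exact h1
    · exact ⟨hα, hβ⟩

/-- the commutator of two root elements when `ψ v = 0` -/
theorem comm_root {v φ w ψ : Fin N → k} (hv : φ ⬝ᵥ v = 0) (hw : ψ ⬝ᵥ w = 0) (hβ : ψ ⬝ᵥ v = 0)
    (s t : k) (a b : Matrix.SpecialLinearGroup (Fin N) k)
    (ha : (a : Matrix (Fin N) (Fin N) k) = tvm (s • v) φ)
    (hb : (b : Matrix (Fin N) (Fin N) k) = tvm (t • w) ψ) :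
    ((a * b * a⁻¹ * b⁻¹ : Matrix.SpecialLinearGroup (Fin N) k) : Matrix (Fin N) (Fin N) k) =
      tvm ((s * t * (φ ⬝ᵥ w)) • v) ψ := by
  have hsv : φ ⬝ᵥ (s • v) = 0 := by rw [dotProduct_smul, hv, smul_zero]
  have htw : ψ ⬝ᵥ (t • w) = 0 := by rw [dotProduct_smul, hw, smul_zero]
  have ha' : a = tvS (s • v) φ hsv := Subtype.ext ha
  have hb' : b = tvS (t • w) ψ htw := Subtype.ext hb
  have e1 : ((a * b * a⁻¹ : Matrix.SpecialLinearGroup (Fin N) k) : Matrix (Fin N) (Fin N) k) =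
      tvm (t • w + (s * t * (φ ⬝ᵥ w)) • v) ψ := by
    rw [Matrix.SpecialLinearGroup.coe_mul, Matrix.SpecialLinearGroup.coe_mul, hb, conj_tvm, ha',
      tvS_inv, tvS_coe, tvS_coe, tvm_mulVec, vecMul_tvm]
    congr 1
    · rw [dotProduct_smul, smul_smul, smul_eq_mul]
      congr 2
      ring
    · rw [dotProduct_neg, dotProduct_smul, hβ, smul_zero, neg_zero, zero_smul, add_zero]
  rw [Matrix.SpecialLinearGroup.coe_mul, e1, hb', tvS_inv, tvS_coe,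
    tvm_mul_same _ _ _ (by rw [dotProduct_neg, htw, neg_zero])]
  congr 1
  abel

theorem rootGrp_commutator {v φ w ψ : Fin N → k} (hv : φ ⬝ᵥ v = 0) (hw : ψ ⬝ᵥ w = 0)
    (hα : φ ⬝ᵥ w ≠ 0) (hβ : ψ ⬝ᵥ v = 0) : ⁅rootGrp v φ, rootGrp w ψ⁆ = rootGrp v ψ := by
  apply le_antisymm
  · rw [Subgroup.commutator_le]
    intro a ha b hb
    obtain ⟨s, hs⟩ := (mem_rootGrp hv a).1 ha
    obtain ⟨t, ht⟩ := (mem_rootGrp hw b).1 hb
    rw [commutatorElement_def]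
    exact Subgroup.subset_closure ⟨_, comm_root hv hw hβ s t a b hs ht⟩
  · rw [rootGrp, Subgroup.closure_le]
    rintro x ⟨c, hc⟩
    have h1v : φ ⬝ᵥ ((1 : k) • v) = 0 := by rw [dotProduct_smul, hv, smul_zero]
    have htw : ψ ⬝ᵥ ((c / (φ ⬝ᵥ w)) • w) = 0 := by rw [dotProduct_smul, hw, smul_zero]
    have hx : x = tvS ((1 : k) • v) φ h1v * tvS ((c / (φ ⬝ᵥ w)) • w) ψ htw *
        (tvS ((1 : k) • v) φ h1v)⁻¹ * (tvS ((c / (φ ⬝ᵥ w)) • w) ψ htw)⁻¹ := by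
      apply Subtype.ext
      rw [comm_root hv hw hβ 1 (c / (φ ⬝ᵥ w)) _ _ rfl rfl, hc]
      congr 2
      field_simp
    rw [hx, ← commutatorElement_def]
    exact Subgroup.commutator_mem_commutator (Subgroup.subset_closure ⟨1, rfl⟩)
      (Subgroup.subset_closure ⟨c / (φ ⬝ᵥ w), rfl⟩)

theorem rootGrp_commCase (S : Set (Subgroup (Matrix.SpecialLinearGroup (Fin N) k)))
    {v φ w ψ : Fin N → k} (hv : φ ⬝ᵥ v = 0) (hw : ψ ⬝ᵥ w = 0)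
    (hα : φ ⬝ᵥ w ≠ 0) (hβ : ψ ⬝ᵥ v = 0) (hS : rootGrp v ψ ∈ S) :
    Cfsg.RootCommutatorCase S (rootGrp v φ) (rootGrp w ψ) := by
  have hcomm := rootGrp_commutator hv hw hα hβ
  refine ⟨by rw [hcomm]; exact hS, ?_, ?_, ?_⟩
  · rw [hcomm]
    intro c hc x hx
    have h1 : rootGrp v φ ≤ Subgroup.centralizer (rootGrp v ψ : Set (Matrix.SpecialLinearGroup (Fin N) k)) := by
      intro a ha
      rw [Subgroup.mem_centralizer_iff]
      intro d hd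
      exact rootGrp_commute hβ hv hβ hv hd ha
    have h2 : rootGrp w ψ ≤ Subgroup.centralizer (rootGrp v ψ : Set (Matrix.SpecialLinearGroup (Fin N) k)) := by
      intro b hb
      rw [Subgroup.mem_centralizer_iff]
      intro d hd
      exact rootGrp_commute hβ hw hw hβ hd hb
    have h3 := (sup_le h1 h2) hx
    rw [Subgroup.mem_centralizer_iff] at h3
    exact h3 c hc
  · intro a ha ha1
    obtain ⟨s, hs⟩ := (mem_rootGrp hv a).1 ha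
    have hs0 : s ≠ 0 := by
      rintro rfl
      apply ha1
      apply Subtype.ext
      rw [hs, zero_smul, tvm_zero_left]
      rfl
    rw [hcomm, rootGrp]
    congr 1
    ext x
    constructor
    · rintro ⟨b, hb, rfl⟩
      obtain ⟨t, ht⟩ := (mem_rootGrp hw b).1 hb
      exact ⟨_, comm_root hv hw hβ s t a b hs ht⟩
    · rintro ⟨c, hc⟩
      have htw : ψ ⬝ᵥ ((c / (s * (φ ⬝ᵥ w))) • w) = 0 := by rw [dotProduct_smul, hw, smul_zero]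
      refine ⟨tvS ((c / (s * (φ ⬝ᵥ w))) • w) ψ htw, Subgroup.subset_closure ⟨_, rfl⟩, ?_⟩
      apply Subtype.ext
      rw [comm_root hv hw hβ s (c / (s * (φ ⬝ᵥ w))) _ _ hs rfl, hc]
      congr 2
      field_simp
  · intro b hb hb1
    obtain ⟨t, ht⟩ := (mem_rootGrp hw b).1 hb
    have ht0 : t ≠ 0 := by
      rintro rfl
      apply hb1
      apply Subtype.ext
      rw [ht, zero_smul, tvm_zero_left]
      rfl
    rw [hcomm, rootGrp]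
    congr 1
    ext x
    constructor
    · rintro ⟨a, ha, rfl⟩
      obtain ⟨s, hs⟩ := (mem_rootGrp hv a).1 ha
      exact ⟨_, comm_root hv hw hβ s t a b hs ht⟩
    · rintro ⟨c, hc⟩
      have hsv : φ ⬝ᵥ ((c / (t * (φ ⬝ᵥ w))) • v) = 0 := by rw [dotProduct_smul, hv, smul_zero]
      refine ⟨tvS ((c / (t * (φ ⬝ᵥ w))) • v) φ hsv, Subgroup.subset_closure ⟨_, rfl⟩, ?_⟩
      apply Subtype.ext
      rw [comm_root hv hw hβ (c / (t * (φ ⬝ᵥ w))) t _ _ rfl ht, hc]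
      congr 2
      field_simp

theorem rootCommCase_symm {G : Type*} [Group G] (S : Set (Subgroup G)) (A B : Subgroup G)
    (h : Cfsg.RootCommutatorCase S A B) : Cfsg.RootCommutatorCase S B A := by
  obtain ⟨h1, h2, h3, h4⟩ := h
  have hc : ⁅B, A⁆ = ⁅A, B⁆ := Subgroup.commutator_comm B A
  refine ⟨by rw [hc]; exact h1, ?_, ?_, ?_⟩
  · rw [hc, sup_comm]
    exact h2
  · intro b hb hb1
    rw [hc, ← h4 b hb hb1]
    apply le_antisymm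
    · rw [Subgroup.closure_le]
      rintro x ⟨a, ha, rfl⟩
      have : b * a * b⁻¹ * a⁻¹ = (a * b * a⁻¹ * b⁻¹)⁻¹ := by group
      show b * a * b⁻¹ * a⁻¹ ∈ _
      rw [this]
      exact inv_mem (Subgroup.subset_closure ⟨a, ha, rfl⟩)
    · rw [Subgroup.closure_le]
      rintro x ⟨a, ha, rfl⟩
      have : a * b * a⁻¹ * b⁻¹ = (b * a * b⁻¹ * a⁻¹)⁻¹ := by group
      show a * b * a⁻¹ * b⁻¹ ∈ _
      rw [this]
      exact inv_mem (Subgroup.subset_closure ⟨a, ha, rfl⟩)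
  · intro a ha ha1
    rw [hc, ← h3 a ha ha1]
    apply le_antisymm
    · rw [Subgroup.closure_le]
      rintro x ⟨b, hb, rfl⟩
      have : b * a * b⁻¹ * a⁻¹ = (a * b * a⁻¹ * b⁻¹)⁻¹ := by group
      show b * a * b⁻¹ * a⁻¹ ∈ _
      rw [this]
      exact inv_mem (Subgroup.subset_closure ⟨b, hb, rfl⟩)
    · rw [Subgroup.closure_le]
      rintro x ⟨b, hb, rfl⟩
      have : a * b * a⁻¹ * b⁻¹ = (b * a * b⁻¹ * a⁻¹)⁻¹ := by group
      show a * b * a⁻¹ * b⁻¹ ∈ _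
      rw [this]
      exact inv_mem (Subgroup.subset_closure ⟨b, hb, rfl⟩)

end RootGrp

end Cfsg.Agent.Lib.Helper99
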