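import Mathlib
import Cfsg.Prelude.Def_RootSubgroups
import Cfsg.Agent.Lib.Helper99.RootGrp

set_option autoImplicit false

namespace Cfsg.Agent.Lib.Helper99

open Matrix

section PSL2

variable {N : ℕ} {k : Type*} [Field k]

/-- the matrix with columns `v, w` -/
def colMat (v w : Fin N → k) : Matrix (Fin N) (Fin 2) k :=
  Matrix.of fun i j => if j = 0 then v i else w i

/-- the matrix with rows `φ, ψ` -/
def rowMat (φ ψ : Fin N → k) : Matrix (Fin 2) (Fin N) k :=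
  Matrix.of fun i j => if i = 0 then φ j else ψ j

theorem rowMat_mul_colMat (φ ψ v w : Fin N → k) :
    rowMat φ ψ * colMat v w = !![φ ⬝ᵥ v, φ ⬝ᵥ w; ψ ⬝ᵥ v, ψ ⬝ᵥ w] := by
  ext i j
  fin_cases i <;> fin_cases j <;> simp [rowMat, colMat, Matrix.mul_apply, dotProduct]

theorem colMat_mul_mul_rowMat (v w φ ψ : Fin N → k) (X : Matrix (Fin 2) (Fin 2) k) :
    colMat v w * X * rowMat φ ψ = X 0 0 • vecMulVec v φ + X 0 1 • vecMulVec v ψ +
      X 1 0 • vecMulVec w φ + X 1 1 • vecMulVec w ψ := by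
  ext i j
  simp only [colMat, rowMat, Matrix.mul_apply, Fin.sum_univ_two, vecMulVec_apply, Matrix.of_apply,
    Matrix.add_apply, Matrix.smul_apply, smul_eq_mul]
  simp
  ring

/-- `M ↦ 1 + B (M - 1) B'` -/
def embHom (B : Matrix (Fin N) (Fin 2) k) (B' : Matrix (Fin 2) (Fin N) k) (h : B' * B = 1) :
    Matrix.SpecialLinearGroup (Fin 2) k →* Matrix.SpecialLinearGroup (Fin N) k where
  toFun M := ⟨1 + B * ((M : Matrix (Fin 2) (Fin 2) k) - 1) * B', by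
    rw [Matrix.det_one_add_mul_comm, ← Matrix.mul_assoc, h, Matrix.one_mul, add_sub_cancel]
    exact M.2⟩
  map_one' := by
    apply Subtype.ext
    simp
  map_mul' M M' := by
    apply Subtype.ext
    show 1 + B * (((M * M' : Matrix.SpecialLinearGroup (Fin 2) k) : Matrix (Fin 2) (Fin 2) k) - 1) * B' =
      (1 + B * ((M : Matrix (Fin 2) (Fin 2) k) - 1) * B') *
        (1 + B * ((M' : Matrix (Fin 2) (Fin 2) k) - 1) * B')
    rw [Matrix.SpecialLinearGroup.coe_mul]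
    have e : (B * ((M : Matrix (Fin 2) (Fin 2) k) - 1) * B') *
        (B * ((M' : Matrix (Fin 2) (Fin 2) k) - 1) * B') =
        B * (((M : Matrix (Fin 2) (Fin 2) k) - 1) * ((M' : Matrix (Fin 2) (Fin 2) k) - 1)) * B' := by
      calc (B * ((M : Matrix (Fin 2) (Fin 2) k) - 1) * B') *
            (B * ((M' : Matrix (Fin 2) (Fin 2) k) - 1) * B')
          = B * ((M : Matrix (Fin 2) (Fin 2) k) - 1) * (B' * B) *
              ((M' : Matrix (Fin 2) (Fin 2) k) - 1) * B' := by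
            simp only [Matrix.mul_assoc]
        _ = _ := by
            rw [h, Matrix.mul_one]
            simp only [Matrix.mul_assoc]
    have e2 : (M : Matrix (Fin 2) (Fin 2) k) * (M' : Matrix (Fin 2) (Fin 2) k) - 1 =
        ((M : Matrix (Fin 2) (Fin 2) k) - 1) + ((M' : Matrix (Fin 2) (Fin 2) k) - 1) +
          ((M : Matrix (Fin 2) (Fin 2) k) - 1) * ((M' : Matrix (Fin 2) (Fin 2) k) - 1) := by
      noncomm_ring
    rw [e2, Matrix.mul_add, Matrix.mul_add, Matrix.add_mul, Matrix.add_mul, ← e]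
    noncomm_ring

theorem embHom_coe (B : Matrix (Fin N) (Fin 2) k) (B' : Matrix (Fin 2) (Fin N) k) (h : B' * B = 1)
    (M : Matrix.SpecialLinearGroup (Fin 2) k) :
    ((embHom B B' h M : Matrix.SpecialLinearGroup (Fin N) k) : Matrix (Fin N) (Fin N) k) =
      1 + B * ((M : Matrix (Fin 2) (Fin 2) k) - 1) * B' := rfl

theorem embHom_injective (B : Matrix (Fin N) (Fin 2) k) (B' : Matrix (Fin 2) (Fin N) k)
    (h : B' * B = 1) : Function.Injective (embHom B B' h) := by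
  intro M M' hMM
  have h1 := congrArg (fun x : Matrix.SpecialLinearGroup (Fin N) k =>
    (x : Matrix (Fin N) (Fin N) k)) hMM
  simp only [embHom_coe] at h1
  have h2 : B * ((M : Matrix (Fin 2) (Fin 2) k) - 1) * B' =
      B * ((M' : Matrix (Fin 2) (Fin 2) k) - 1) * B' := add_left_cancel h1
  have e : ∀ X : Matrix (Fin 2) (Fin 2) k, B' * (B * X * B') * B = X := by
    intro X
    calc B' * (B * X * B') * B = (B' * B) * X * (B' * B) := by simp only [Matrix.mul_assoc]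
      _ = X := by rw [h, Matrix.one_mul, Matrix.mul_one]
  have h3 : (M : Matrix (Fin 2) (Fin 2) k) - 1 = (M' : Matrix (Fin 2) (Fin 2) k) - 1 := by
    rw [← e ((M : Matrix (Fin 2) (Fin 2) k) - 1), h2, e]
  apply Subtype.ext
  exact sub_left_injective h3

theorem sl2_top : Cfsg.upperUnipotentSL2 k ⊔ Cfsg.lowerUnipotentSL2 k = ⊤ := by
  apply Cfsg.Agent.Lib.Helper5.eq_top_of_transvection_mem
  intro i j hij c
  fin_cases i <;> fin_cases j
  · exact absurd rfl hij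
  · apply Subgroup.mem_sup_left
    apply Subgroup.subset_closure
    simp [Matrix.SpecialLinearGroup.transvection_coe]
  · apply Subgroup.mem_sup_right
    apply Subgroup.subset_closure
    simp [Matrix.SpecialLinearGroup.transvection_coe]
  · exact absurd rfl hij

theorem rootGrp_psl2 {v φ w ψ : Fin N → k} (hv : φ ⬝ᵥ v = 0) (hw : ψ ⬝ᵥ w = 0)
    (hα : φ ⬝ᵥ w ≠ 0) (hβ : ψ ⬝ᵥ v ≠ 0) :
    Cfsg.IsPSL2PairOver k (rootGrp v φ) (rootGrp w ψ) := by
  have h : rowMat ((ψ ⬝ᵥ v)⁻¹ • ψ) ((φ ⬝ᵥ w)⁻¹ • φ) * colMat v w = 1 := by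
    rw [rowMat_mul_colMat]
    simp only [smul_dotProduct, hv, hw, smul_eq_mul, mul_zero]
    rw [inv_mul_cancel₀ hα, inv_mul_cancel₀ hβ]
    exact Matrix.one_fin_two.symm
  have hρ : ∀ M : Matrix.SpecialLinearGroup (Fin 2) k,
      ((embHom (colMat v w) (rowMat ((ψ ⬝ᵥ v)⁻¹ • ψ) ((φ ⬝ᵥ w)⁻¹ • φ)) h M :
        Matrix.SpecialLinearGroup (Fin N) k) : Matrix (Fin N) (Fin N) k) =
      1 + (((M : Matrix (Fin 2) (Fin 2) k) 0 0 - 1) • vecMulVec v ((ψ ⬝ᵥ v)⁻¹ • ψ) +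
        (M : Matrix (Fin 2) (Fin 2) k) 0 1 • vecMulVec v ((φ ⬝ᵥ w)⁻¹ • φ) +
        (M : Matrix (Fin 2) (Fin 2) k) 1 0 • vecMulVec w ((ψ ⬝ᵥ v)⁻¹ • ψ) +
        ((M : Matrix (Fin 2) (Fin 2) k) 1 1 - 1) • vecMulVec w ((φ ⬝ᵥ w)⁻¹ • φ)) := by
    intro M
    rw [embHom_coe, colMat_mul_mul_rowMat]
    simp
  have hup : (Cfsg.upperUnipotentSL2 k).map
      (embHom (colMat v w) (rowMat ((ψ ⬝ᵥ v)⁻¹ • ψ) ((φ ⬝ᵥ w)⁻¹ • φ)) h) = rootGrp v φ := by
    rw [Cfsg.upperUnipotentSL2, MonoidHom.map_closure, rootGrp]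
    congr 1
    ext t
    constructor
    · rintro ⟨g, ⟨h10, h00, h11⟩, rfl⟩
      refine ⟨(g : Matrix (Fin 2) (Fin 2) k) 0 1 * (φ ⬝ᵥ w)⁻¹, ?_⟩
      rw [hρ, h10, h00, h11, tvm]
      simp only [sub_self, zero_smul, zero_add, add_zero, vecMulVec_smul, smul_vecMulVec, smul_smul,
        zero_mul]
    · rintro ⟨c, hc⟩
      obtain ⟨x, hx⟩ : ∃ x : Matrix.SpecialLinearGroup (Fin 2) k,
          (x : Matrix (Fin 2) (Fin 2) k) = !![1, c * (φ ⬝ᵥ w); 0, 1] :=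
        ⟨⟨!![1, c * (φ ⬝ᵥ w); 0, 1], by simp [Matrix.det_fin_two]⟩, rfl⟩
      refine ⟨x, ⟨by rw [hx]; simp, by rw [hx]; simp, by rw [hx]; simp⟩, ?_⟩
      apply Subtype.ext
      rw [hρ, hc, tvm, hx]
      simp only [Matrix.of_apply, Matrix.cons_val', Matrix.cons_val_zero, Matrix.cons_val_one,
        Matrix.cons_val_fin_one, sub_self, zero_smul, zero_add, add_zero, vecMulVec_smul,
        smul_vecMulVec, smul_smul, zero_mul, mul_inv_cancel_right₀ hα]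
  have hlow : (Cfsg.lowerUnipotentSL2 k).map
      (embHom (colMat v w) (rowMat ((ψ ⬝ᵥ v)⁻¹ • ψ) ((φ ⬝ᵥ w)⁻¹ • φ)) h) = rootGrp w ψ := by
    rw [Cfsg.lowerUnipotentSL2, MonoidHom.map_closure, rootGrp]
    congr 1
    ext t
    constructor
    · rintro ⟨g, ⟨h01, h00, h11⟩, rfl⟩
      refine ⟨(g : Matrix (Fin 2) (Fin 2) k) 1 0 * (ψ ⬝ᵥ v)⁻¹, ?_⟩
      rw [hρ, h01, h00, h11, tvm]
      simp only [sub_self, zero_smul, zero_add, add_zero, vecMulVec_smul, smul_vecMulVec, smul_smul,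
        zero_mul]
    · rintro ⟨c, hc⟩
      obtain ⟨x, hx⟩ : ∃ x : Matrix.SpecialLinearGroup (Fin 2) k,
          (x : Matrix (Fin 2) (Fin 2) k) = !![1, 0; c * (ψ ⬝ᵥ v), 1] :=
        ⟨⟨!![1, 0; c * (ψ ⬝ᵥ v), 1], by simp [Matrix.det_fin_two]⟩, rfl⟩
      refine ⟨x, ⟨by rw [hx]; simp, by rw [hx]; simp, by rw [hx]; simp⟩, ?_⟩
      apply Subtype.ext
      rw [hρ, hc, tvm, hx]
      simp only [Matrix.of_apply, Matrix.cons_val', Matrix.cons_val_zero, Matrix.cons_val_one,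
        Matrix.cons_val_fin_one, sub_self, zero_smul, zero_add, add_zero, vecMulVec_smul,
        smul_vecMulVec, smul_smul, zero_mul, mul_inv_cancel_right₀ hβ]
  refine ⟨embHom (colMat v w) (rowMat ((ψ ⬝ᵥ v)⁻¹ • ψ) ((φ ⬝ᵥ w)⁻¹ • φ)) h, ?_, ?_, hup, hlow⟩
  · rw [MonoidHom.range_eq_map, ← sl2_top, Subgroup.map_sup, hup, hlow]
  · intro M hM
    rw [MonoidHom.mem_ker] at hM
    have : M = 1 := embHom_injective _ _ h (by rw [hM, map_one])
    rw [this]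
    exact one_mem _

end PSL2

section Class

variable {n : ℕ} {k : Type*} [Field k]

/-- the class of point-hyperplane root subgroups of `SL_{n+3}(k)` -/
def rootClass (n : ℕ) (k : Type*) [Field k] :
    Set (Subgroup (Matrix.SpecialLinearGroup (Fin (n + 3)) k)) :=
  {A | ∃ v φ : Fin (n + 3) → k, v ≠ 0 ∧ φ ≠ 0 ∧ φ ⬝ᵥ v = 0 ∧ A = rootGrp v φ}

theorem single_ne_zero'' (i : Fin (n + 3)) : (Pi.single i (1 : k) : Fin (n + 3) → k) ≠ 0 := by
  intro h
  have := congrFun h i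
  simp at this

theorem single_dot_single {i j : Fin (n + 3)} (h : i ≠ j) :
    (Pi.single i (1 : k) : Fin (n + 3) → k) ⬝ᵥ Pi.single j 1 = 0 := by
  rw [single_one_dotProduct]
  simp [h]

theorem single_dot_self (i : Fin (n + 3)) :
    (Pi.single i (1 : k) : Fin (n + 3) → k) ⬝ᵥ Pi.single i 1 = 1 := by
  rw [single_one_dotProduct]
  simp

theorem fin_one_ne_zero : (1 : Fin (n + 3)) ≠ 0 := by
  intro h'
  have := congrArg Fin.val h'
  rw [Fin.val_one] at this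
  simp at this

theorem fin_two_ne_zero : (2 : Fin (n + 3)) ≠ 0 := by
  intro h'
  have := congrArg Fin.val h'
  rw [Fin.val_two] at this
  simp at this

theorem fin_two_ne_one : (2 : Fin (n + 3)) ≠ 1 := by
  intro h'
  have := congrArg Fin.val h'
  rw [Fin.val_one, Fin.val_two] at this
  simp at this

theorem stmt_class_eq :
    {A : Subgroup (Matrix.SpecialLinearGroup (Fin (n + 3)) k) |
        ∃ g : Matrix.SpecialLinearGroup (Fin (n + 3)) k,
          A = Cfsg.conjBy (Subgroup.closure {t : Matrix.SpecialLinearGroup (Fin (n + 3)) k |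
            ∃ c : k, (t : Matrix (Fin (n + 3)) (Fin (n + 3)) k) = Matrix.transvection 0 1 c}) g} =
      rootClass n k := by
  have h0 : Subgroup.closure {t : Matrix.SpecialLinearGroup (Fin (n + 3)) k |
      ∃ c : k, (t : Matrix (Fin (n + 3)) (Fin (n + 3)) k) = Matrix.transvection 0 1 c} =
      rootGrp (Pi.single 0 1) (Pi.single 1 1) := by
    rw [rootGrp]
    congr 1
    ext t
    simp only [Set.mem_ofPred_eq, transvection_eq_tvm']
  rw [h0]
  ext A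
  constructor
  · rintro ⟨g, rfl⟩
    rw [conjBy_rootGrp]
    exact ⟨_, _, sl_mulVec_ne_zero g (single_ne_zero'' 0), sl_vecMul_ne_zero g⁻¹ (single_ne_zero'' 1),
      by rw [sl_dot_conj]; exact single_dot_single fin_one_ne_zero, rfl⟩
  · rintro ⟨v, φ, hv, hφ, h, rfl⟩
    obtain ⟨g, hg1, hg2⟩ := exists_sl_flag v φ hv hφ h
    exact ⟨g, by rw [conjBy_rootGrp, hg1, hg2]⟩

theorem conjBy_conjBy {G : Type*} [Group G] (A : Subgroup G) (g h : G) :
    Cfsg.conjBy (Cfsg.conjBy A g) h = Cfsg.conjBy A (h * g) := by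
  rw [Cfsg.conjBy, Cfsg.conjBy, Cfsg.conjBy, Subgroup.map_map]
  congr 1
  ext x
  simp [mul_assoc]

theorem rootClass_conj {A : Subgroup (Matrix.SpecialLinearGroup (Fin (n + 3)) k)}
    (hA : A ∈ rootClass n k) (g : Matrix.SpecialLinearGroup (Fin (n + 3)) k) :
    Cfsg.conjBy A g ∈ rootClass n k := by
  obtain ⟨v, φ, hv, hφ, h, rfl⟩ := hA
  rw [conjBy_rootGrp]
  exact ⟨_, _, sl_mulVec_ne_zero g hv, sl_vecMul_ne_zero g⁻¹ hφ, by rw [sl_dot_conj]; exact h, rfl⟩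

theorem rootClass_pair {A B : Subgroup (Matrix.SpecialLinearGroup (Fin (n + 3)) k)}
    (hA : A ∈ rootClass n k) (hB : B ∈ rootClass n k) :
    ⁅A, B⁆ = ⊥ ∨ Cfsg.IsRankOnePair A B ∨ Cfsg.RootCommutatorCase (rootClass n k) A B := by
  obtain ⟨v, φ, hvn, hφn, hv, rfl⟩ := hA
  obtain ⟨w, ψ, hwn, hψn, hw, rfl⟩ := hB
  by_cases hα : φ ⬝ᵥ w = 0
  · by_cases hβ : ψ ⬝ᵥ v = 0
    · left
      rw [Subgroup.commutator_eq_bot_iff_le_centralizer]
      intro a ha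
      rw [Subgroup.mem_centralizer_iff]
      intro b hb
      exact rootGrp_commute hw hv hβ hα hb ha
    · right; right
      exact rootCommCase_symm _ _ _
        (rootGrp_commCase (rootClass n k) hw hv hβ hα ⟨w, φ, hwn, hφn, hα, rfl⟩)
  · by_cases hβ : ψ ⬝ᵥ v = 0
    · right; right
      exact rootGrp_commCase (rootClass n k) hv hw hα hβ ⟨v, ψ, hvn, hψn, hβ, rfl⟩
    · right; left
      exact rootGrp_rankOne hv hw hvn hφn hwn hψn hα hβ

theorem rootClass_generates : (⨆ A ∈ rootClass n k, A) = ⊤ := by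
  apply Cfsg.Agent.Lib.Helper5.eq_top_of_transvection_mem
  intro i j hij c
  have hmem : rootGrp (Pi.single i (1 : k)) (Pi.single j (1 : k)) ∈ rootClass n k :=
    ⟨_, _, single_ne_zero'' i, single_ne_zero'' j, single_dot_single hij.symm, rfl⟩
  have hle : rootGrp (Pi.single i (1 : k)) (Pi.single j (1 : k)) ≤ ⨆ A ∈ rootClass n k, A :=
    le_iSup₂ (f := fun (A : Subgroup (Matrix.SpecialLinearGroup (Fin (n + 3)) k))
      (_ : A ∈ rootClass n k) => A) _ hmem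
  apply hle
  apply Subgroup.subset_closure
  refine ⟨c, ?_⟩
  rw [Matrix.SpecialLinearGroup.transvection_coe]
  exact transvection_eq_tvm' i j c

theorem rootClass_isRootSubgroupSet : Cfsg.IsRootSubgroupSet (rootClass n k) := by
  refine ⟨?_, ?_, rootClass_generates, fun A hA g => rootClass_conj hA g,
    fun A hA B hB => rootClass_pair hA hB⟩
  · rintro A ⟨v, φ, hvn, hφn, hv, rfl⟩
    exact rootGrp_isMulCommutative hv
  · rintro A ⟨v, φ, hvn, hφn, hv, rfl⟩ h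
    have h1 := tvS_mem_rootGrp hv
    rw [h, Subgroup.mem_bot] at h1
    exact tvS_ne_one hvn hφn hv h1

theorem rootClass_isConjClass : Cfsg.IsConjClassOfSubgroups (rootClass n k) := by
  rw [← stmt_class_eq]
  refine ⟨⟨_, 1, rfl⟩, ?_⟩
  rintro A ⟨g, rfl⟩ B ⟨g', rfl⟩
  refine ⟨g' * g⁻¹, ?_⟩
  rw [conjBy_conjBy, inv_mul_cancel_right]

theorem rootClass_nondegenerate : Cfsg.IsNondegenerateRootSet (rootClass n k) := by
  have h01 : (Pi.single 1 (1 : k) : Fin (n + 3) → k) ⬝ᵥ Pi.single 0 1 = 0 :=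
    single_dot_single fin_one_ne_zero
  have h02 : (Pi.single 2 (1 : k) : Fin (n + 3) → k) ⬝ᵥ Pi.single 0 1 = 0 :=
    single_dot_single fin_two_ne_zero
  have h10 : (Pi.single 0 (1 : k) : Fin (n + 3) → k) ⬝ᵥ Pi.single 1 1 = 0 :=
    single_dot_single fin_one_ne_zero.symm
  have h12 : (Pi.single 2 (1 : k) : Fin (n + 3) → k) ⬝ᵥ Pi.single 1 1 = 0 :=
    single_dot_single fin_two_ne_one
  have m01 : rootGrp (Pi.single 0 (1 : k)) (Pi.single 1 (1 : k)) ∈ rootClass n k :=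
    ⟨_, _, single_ne_zero'' 0, single_ne_zero'' 1, h01, rfl⟩
  have m02 : rootGrp (Pi.single 0 (1 : k)) (Pi.single 2 (1 : k)) ∈ rootClass n k :=
    ⟨_, _, single_ne_zero'' 0, single_ne_zero'' 2, h02, rfl⟩
  have m10 : rootGrp (Pi.single 1 (1 : k)) (Pi.single 0 (1 : k)) ∈ rootClass n k :=
    ⟨_, _, single_ne_zero'' 1, single_ne_zero'' 0, h10, rfl⟩
  have m12 : rootGrp (Pi.single 1 (1 : k)) (Pi.single 2 (1 : k)) ∈ rootClass n k :=
    ⟨_, _, single_ne_zero'' 1, single_ne_zero'' 2, h12, rfl⟩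
  refine ⟨⟨_, m01, _, m02, ?_, ?_⟩, ⟨_, m01, _, m10, ?_⟩, ⟨_, m01, _, m12, ?_⟩⟩
  · intro h
    have h1 := rootGrp_eq_imp h01 h02 (single_ne_zero'' 0) h (Pi.single 1 1) h12
    rw [single_dot_self] at h1
    exact one_ne_zero h1
  · rw [Subgroup.commutator_eq_bot_iff_le_centralizer]
    intro a ha
    rw [Subgroup.mem_centralizer_iff]
    intro b hb
    exact rootGrp_commute h02 h01 h02 h01 hb ha
  · exact rootGrp_rankOne h01 h10 (single_ne_zero'' 0) (single_ne_zero'' 1) (single_ne_zero'' 1)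
      (single_ne_zero'' 0) (by rw [single_dot_self]; exact one_ne_zero)
      (by rw [single_dot_self]; exact one_ne_zero)
  · exact rootGrp_commCase (rootClass n k) h01 h12 (by rw [single_dot_self]; exact one_ne_zero) h02 m02

theorem rootClass_kRoot : Cfsg.IsKRootSubgroupSet k (rootClass n k) := by
  refine ⟨rootClass_isRootSubgroupSet, ?_⟩
  rintro A ⟨v, φ, hvn, hφn, hv, rfl⟩ B ⟨w, ψ, hwn, hψn, hw, rfl⟩ h
  obtain ⟨hα, hβ⟩ := rankOne_imp hv hw hvn hφn h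
  exact rootGrp_psl2 hv hw hα hβ

theorem exists_off (φ ψ : Fin (n + 3) → k) (hφ : φ ≠ 0) (hψ : ψ ≠ 0) :
    ∃ u : Fin (n + 3) → k, φ ⬝ᵥ u ≠ 0 ∧ ψ ⬝ᵥ u ≠ 0 := by
  obtain ⟨i, hi⟩ := Function.ne_iff.1 hφ
  obtain ⟨j, hj⟩ := Function.ne_iff.1 hψ
  have hx : φ ⬝ᵥ (Pi.single i (1 : k) : Fin (n + 3) → k) ≠ 0 := by
    rw [dotProduct_single_one]; exact hi
  have hy : ψ ⬝ᵥ (Pi.single j (1 : k) : Fin (n + 3) → k) ≠ 0 := by
    rw [dotProduct_single_one]; exact hj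
  by_cases h1 : ψ ⬝ᵥ (Pi.single i (1 : k) : Fin (n + 3) → k) = 0
  · by_cases h2 : φ ⬝ᵥ (Pi.single j (1 : k) : Fin (n + 3) → k) = 0
    · refine ⟨Pi.single i 1 + Pi.single j 1, ?_, ?_⟩
      · rw [dotProduct_add, h2, add_zero]; exact hx
      · rw [dotProduct_add, h1, zero_add]; exact hy
    · exact ⟨_, h2, hy⟩
  · exact ⟨_, hx, h1⟩

theorem exists_off' (v w : Fin (n + 3) → k) (hv : v ≠ 0) (hw : w ≠ 0) :
    ∃ χ : Fin (n + 3) → k, χ ⬝ᵥ v ≠ 0 ∧ χ ⬝ᵥ w ≠ 0 := by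
  obtain ⟨u, h1, h2⟩ := exists_off v w hv hw
  exact ⟨u, by rw [dotProduct_comm]; exact h1, by rw [dotProduct_comm]; exact h2⟩

/-- for `u` outside the hyperplane `φ` and `v` inside, some functional kills `u` but not `v` -/
theorem exists_kill (u v φ : Fin (n + 3) → k) (hv : v ≠ 0) (hφv : φ ⬝ᵥ v = 0) (hφu : φ ⬝ᵥ u ≠ 0) :
    ∃ χ : Fin (n + 3) → k, χ ⬝ᵥ u = 0 ∧ χ ⬝ᵥ v ≠ 0 := by
  obtain ⟨j, hj⟩ := Function.ne_iff.1 hv
  refine ⟨(φ ⬝ᵥ u) • Pi.single j 1 - u j • φ, ?_, ?_⟩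
  · rw [sub_dotProduct, smul_dotProduct, smul_dotProduct, single_one_dotProduct, smul_eq_mul,
      smul_eq_mul]
    ring
  · rw [sub_dotProduct, smul_dotProduct, smul_dotProduct, single_one_dotProduct, hφv, smul_zero,
      sub_zero, smul_eq_mul]
    exact mul_ne_zero hφu hj

theorem rootClass_connected :
    Cfsg.IsConnectedFamily (Cfsg.FAdj (rootClass n k)) (rootClass n k) := by
  rintro A ⟨v, φ, hvn, hφn, hv, rfl⟩ B ⟨w, ψ, hwn, hψn, hw, rfl⟩
  obtain ⟨u, hφu, hψu⟩ := exists_off φ ψ hφn hψn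
  obtain ⟨χ₁, h1u, h1v⟩ := exists_kill u v φ hvn hv hφu
  obtain ⟨χ₂, h2u, h2w⟩ := exists_kill u w ψ hwn hw hψu
  have hun : u ≠ 0 := by
    rintro rfl
    exact hφu (dotProduct_zero φ)
  have key : ∃ χ : Fin (n + 3) → k, χ ⬝ᵥ u = 0 ∧ χ ⬝ᵥ v ≠ 0 ∧ χ ⬝ᵥ w ≠ 0 := by
    by_cases h1 : χ₁ ⬝ᵥ w = 0
    · by_cases h2 : χ₂ ⬝ᵥ v = 0
      · refine ⟨χ₁ + χ₂, ?_, ?_, ?_⟩
        · rw [add_dotProduct, h1u, h2u, add_zero]
        · rw [add_dotProduct, h2, add_zero]; exact h1v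
        · rw [add_dotProduct, h1, zero_add]; exact h2w
      · exact ⟨χ₂, h2u, h2, h2w⟩
    · exact ⟨χ₁, h1u, h1v, h1⟩
  obtain ⟨χ, hχu, hχv, hχw⟩ := key
  have hχn : χ ≠ 0 := by
    rintro rfl
    exact hχv (zero_dotProduct v)
  have mA : rootGrp v φ ∈ rootClass n k := ⟨v, φ, hvn, hφn, hv, rfl⟩
  have mB : rootGrp w ψ ∈ rootClass n k := ⟨w, ψ, hwn, hψn, hw, rfl⟩
  have mC : rootGrp u χ ∈ rootClass n k := ⟨u, χ, hun, hχn, hχu, rfl⟩
  have s1 : Cfsg.FAdj (rootClass n k) (rootGrp v φ) (rootGrp u χ) :=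
    ⟨mA, mC, rootGrp_rankOne hv hχu hvn hφn hun hχn hφu hχv⟩
  have s2 : Cfsg.FAdj (rootClass n k) (rootGrp u χ) (rootGrp w ψ) :=
    ⟨mC, mB, rootGrp_rankOne hχu hw hun hχn hwn hψn hχw hψu⟩
  exact (Relation.ReflTransGen.single s1).tail s2

end Class

end Cfsg.Agent.Lib.Helper99
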