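import Mathlib
import Cfsg.Prelude.Def_GeometricClasses
import Cfsg.Agent.Lib.Helper44.Dickson
import Cfsg.Agent.Lib.Helper8.OmegaConj
import Cfsg.Agent.Lib.Helper14.MaxTS3
import Cfsg.Agent.Lib.Helper45.OrthZeros

/-! Nonsingular 1-spaces of orthogonal spaces in characteristic two: counting lines against
vectors, eigenvalues on nonsingular vectors, membership in `Ω` through the Dickson invariant. -/

set_option autoImplicit false

namespace Cfsg.Agent.Lib.Helper99

open Matrix Module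

section nsl

variable {ι : Type} [Fintype ι] [DecidableEq ι] {F : Type*} [Field F]

/-- Each nonsingular line contains exactly `q - 1` nonsingular vectors. -/
theorem nsl_card_lines [Fintype F] (Qf : (ι → F) → F) (Q : QuadraticForm F (ι → F))
    (hQf : ⇑Q = Qf) :
    Nat.card {v : ι → F // Qf v ≠ 0} =
      Nat.card {W : Submodule F (ι → F) // Module.finrank F ↥W = 1 ∧ ∃ v ∈ W, Qf v ≠ 0} *
        (Fintype.card F - 1) := by
  classical
  subst hQf
  have hsm : ∀ (c : F) (v : ι → F), Q (c • v) = c * c * Q v := fun c v => by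
    rw [QuadraticMap.map_smul, smul_eq_mul]
  have h0 : Q 0 = 0 := map_zero Q
  have hgen_mem : ∀ W : {W : Submodule F (ι → F) // Module.finrank F ↥W = 1 ∧ ∃ v ∈ W, Q v ≠ 0},
      Classical.choose W.2.2 ∈ W.1 := fun W => (Classical.choose_spec W.2.2).1
  have hgen_ne : ∀ W : {W : Submodule F (ι → F) // Module.finrank F ↥W = 1 ∧ ∃ v ∈ W, Q v ≠ 0},
      Q (Classical.choose W.2.2) ≠ 0 := fun W => (Classical.choose_spec W.2.2).2
  have hgen0 : ∀ W : {W : Submodule F (ι → F) // Module.finrank F ↥W = 1 ∧ ∃ v ∈ W, Q v ≠ 0},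
      Classical.choose W.2.2 ≠ 0 := fun W h => hgen_ne W (by rw [h, h0])
  have hspan : ∀ W : {W : Submodule F (ι → F) // Module.finrank F ↥W = 1 ∧ ∃ v ∈ W, Q v ≠ 0},
      W.1 = Submodule.span F {Classical.choose W.2.2} := by
    intro W
    symm
    apply Submodule.eq_of_le_of_finrank_eq
    · rw [Submodule.span_singleton_le_iff_mem]; exact hgen_mem W
    · rw [finrank_span_singleton (hgen0 W), W.2.1]
  let φ : {W : Submodule F (ι → F) // Module.finrank F ↥W = 1 ∧ ∃ v ∈ W, Q v ≠ 0} × Fˣ →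
      {v : ι → F // Q v ≠ 0} := fun p => ⟨(p.2 : F) • Classical.choose p.1.2.2, by
    rw [hsm]; exact mul_ne_zero (mul_ne_zero p.2.ne_zero p.2.ne_zero) (hgen_ne p.1)⟩
  have hinj : Function.Injective φ := by
    rintro ⟨W, c⟩ ⟨W', c'⟩ h
    have h' : (c : F) • Classical.choose W.2.2 = (c' : F) • Classical.choose W'.2.2 :=
      congrArg Subtype.val h
    have hW : W = W' := by
      apply Subtype.ext
      rw [hspan W, hspan W', ← Submodule.span_singleton_smul_eq c.isUnit,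
        ← Submodule.span_singleton_smul_eq c'.isUnit (Classical.choose W'.2.2), h']
    subst hW
    have : (c : F) = c' := smul_left_injective F (hgen0 W) h'
    rw [Units.ext this]
  have hsurj : Function.Surjective φ := by
    rintro ⟨v, hv⟩
    have hv0 : v ≠ 0 := fun h => hv (by rw [h, h0])
    obtain ⟨W, hW⟩ : ∃ W : {W : Submodule F (ι → F) //
        Module.finrank F ↥W = 1 ∧ ∃ v ∈ W, Q v ≠ 0}, W.1 = Submodule.span F {v} :=
      ⟨⟨Submodule.span F {v}, finrank_span_singleton hv0, v,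
        Submodule.mem_span_singleton_self v, hv⟩, rfl⟩
    have hm : Classical.choose W.2.2 ∈ Submodule.span F {v} := by
      rw [← hW]; exact hgen_mem W
    obtain ⟨c, hc⟩ := Submodule.mem_span_singleton.mp hm
    have hc0 : c ≠ 0 := by
      rintro rfl
      rw [zero_smul] at hc
      exact hgen0 W hc.symm
    refine ⟨⟨W, (Units.mk0 c hc0)⁻¹⟩, ?_⟩
    apply Subtype.ext
    show (((Units.mk0 c hc0)⁻¹ : Fˣ) : F) • Classical.choose W.2.2 = v
    rw [← hc, Units.val_inv_eq_inv_val, Units.val_mk0, smul_smul, inv_mul_cancel₀ hc0, one_smul]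
  rw [Nat.card_congr (Equiv.ofBijective φ ⟨hinj, hsurj⟩).symm, Nat.card_prod, Nat.card_units,
    Nat.card_eq_fintype_card (α := F)]

/-- In characteristic two an isometry has eigenvalue one on every nonsingular eigenvector. -/
theorem nsl_eigen_one (h2 : (2 : F) = 0) (Qf : (ι → F) → F) (Q : QuadraticForm F (ι → F))
    (hQf : ⇑Q = Qf) (T : Matrix ι ι F) (hiso : ∀ u, Qf (T *ᵥ u) = Qf u) (v : ι → F)
    (hv : Qf v ≠ 0) (μ : F) (hμ : T *ᵥ v = μ • v) : μ = 1 := by
  subst hQf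
  have h1 := hiso v
  rw [hμ, QuadraticMap.map_smul, smul_eq_mul] at h1
  have hμ2 : μ * μ = 1 := by
    have : (μ * μ - 1) * Q v = 0 := by linear_combination h1
    rcases mul_eq_zero.mp this with h | h
    · linear_combination h
    · exact absurd h hv
  have : (μ - 1) * (μ - 1) = 0 := by linear_combination hμ2 + (1 - μ) * h2
  have := mul_self_eq_zero.mp this
  linear_combination this

/-- An isometry all of whose fixed vectors are singular fixes no nonsingular line. -/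
theorem nsl_no_fixed (h2 : (2 : F) = 0) (Qf : (ι → F) → F) (Q : QuadraticForm F (ι → F))
    (hQf : ⇑Q = Qf) (T : Matrix ι ι F) (hiso : ∀ u, Qf (T *ᵥ u) = Qf u)
    (hfix : ∀ v, T *ᵥ v = v → Qf v = 0)
    (W : Submodule F (ι → F)) (hW : Module.finrank F ↥W = 1) (hns : ∃ v ∈ W, Qf v ≠ 0)
    (hmap : W.map (Matrix.toLin' T) ≤ W) : False := by
  obtain ⟨v, hvW, hQv⟩ := hns
  have hv0 : v ≠ 0 := fun h => hQv (by rw [h, ← hQf, map_zero])
  have hspan : W = Submodule.span F {v} := by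
    symm
    apply Submodule.eq_of_le_of_finrank_eq
    · rw [Submodule.span_singleton_le_iff_mem]; exact hvW
    · rw [finrank_span_singleton hv0, hW]
  have hTv : T *ᵥ v ∈ W := hmap ⟨v, hvW, by rw [Matrix.toLin'_apply]⟩
  rw [hspan] at hTv
  obtain ⟨μ, hμ⟩ := Submodule.mem_span_singleton.mp hTv
  have hμ1 := nsl_eigen_one h2 Qf Q hQf T hiso v hQv μ hμ.symm
  rw [hμ1, one_smul] at hμ
  exact hQv (hfix v hμ.symm)

/-- Such an isometry is not a scalar. -/
theorem nsl_not_scalar (h2 : (2 : F) = 0) (Qf : (ι → F) → F) (Q : QuadraticForm F (ι → F))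
    (hQf : ⇑Q = Qf) (T : Matrix ι ι F) (hiso : ∀ u, Qf (T *ᵥ u) = Qf u)
    (hfix : ∀ v, T *ᵥ v = v → Qf v = 0) (v₀ : ι → F) (hv₀ : Qf v₀ ≠ 0) (z : F) :
    T ≠ z • (1 : Matrix ι ι F) := by
  intro h
  have hμ : T *ᵥ v₀ = z • v₀ := by rw [h, Matrix.smul_mulVec, Matrix.one_mulVec]
  have hz := nsl_eigen_one h2 Qf Q hQf T hiso v₀ hv₀ z hμ
  rw [hz, one_smul] at hμ
  exact hv₀ (hfix v₀ hμ)

/-- An isometry with scalar square is an involution (characteristic two). -/
theorem nsl_sq_one (h2 : (2 : F) = 0) (Qf : (ι → F) → F) (Q : QuadraticForm F (ι → F))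
    (hQf : ⇑Q = Qf) (T : Matrix ι ι F) (hiso : ∀ u, Qf (T *ᵥ u) = Qf u) (z : F)
    (hz : T * T = z • (1 : Matrix ι ι F)) (v₀ : ι → F) (hv₀ : Qf v₀ ≠ 0) : T * T = 1 := by
  have hiso2 : ∀ u, Qf ((T * T) *ᵥ u) = Qf u := fun u => by
    rw [← Matrix.mulVec_mulVec, hiso, hiso]
  have hμ : (T * T) *ᵥ v₀ = z • v₀ := by rw [hz, Matrix.smul_mulVec, Matrix.one_mulVec]
  have h1 := nsl_eigen_one h2 Qf Q hQf (T * T) hiso2 v₀ hv₀ z hμ
  rw [hz, h1, one_smul]

variable [Fintype F]

/-- Characteristic two: isometries with even Dickson rank lie in `Ω`. -/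
theorem nsl_mem_omega (h2 : (2 : F) = 0) (Qf : (ι → F) → F) (Q : QuadraticForm F (ι → F))
    (hQf : ⇑Q = Qf) (hQ : (QuadraticMap.polarBilin Q).Nondegenerate)
    (hcard : Fintype.card F ≠ 2 ∨ Fintype.card ι ≠ 4)
    (x : GL ι F) (hiso : ∀ u, Qf ((x : Matrix ι ι F) *ᵥ u) = Qf u)
    (hev : Even ((x : Matrix ι ι F) - 1).rank) : x ∈ Cfsg.Geo.omegaGL Qf := by
  subst hQf
  exact ⟨⟨x, fun u _ => hiso u⟩,
    (Cfsg.Agent.Lib.Helper44.mem_commutator_iff_even_rank h2 Q hQ hcard
      ⟨x, fun u _ => hiso u⟩).mpr hev, rfl⟩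

/-- Characteristic two: elements of `Ω` are isometries of even Dickson rank. -/
theorem nsl_of_mem_omega (h2 : (2 : F) = 0) (Qf : (ι → F) → F) (Q : QuadraticForm F (ι → F))
    (hQf : ⇑Q = Qf) (hQ : (QuadraticMap.polarBilin Q).Nondegenerate)
    (hcard : Fintype.card F ≠ 2 ∨ Fintype.card ι ≠ 4)
    (x : GL ι F) (hx : x ∈ Cfsg.Geo.omegaGL Qf) :
    (∀ u, Qf ((x : Matrix ι ι F) *ᵥ u) = Qf u) ∧ Even ((x : Matrix ι ι F) - 1).rank := by
  subst hQf
  obtain ⟨g, hg, rfl⟩ := hx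
  exact ⟨fun u => g.2 u u,
    (Cfsg.Agent.Lib.Helper44.mem_commutator_iff_even_rank h2 Q hQ hcard g).mp hg⟩

/-- A matrix of order dividing the prime `r ∣ q ^ d - 1` without eigenvalue one. -/
theorem nsl_exists_A (d : ℕ) (hd : 1 ≤ d) (r : ℕ) (hr : r.Prime)
    (hdvd : r ∣ Fintype.card F ^ d - 1) :
    ∃ A : Matrix (Fin d) (Fin d) F, A ^ r = 1 ∧ IsUnit (A - 1) := by
  classical
  obtain ⟨p, hp⟩ := CharP.exists F
  have hpp : Fact p.Prime := ⟨CharP.char_is_prime F p⟩
  have hdz : NeZero d := ⟨by omega⟩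
  let K := FiniteField.Extension F p d
  have hfin : Module.finrank F K = d := FiniteField.finrank_extension F p d
  have : Fintype K := Fintype.ofFinite K
  let b : Module.Basis (Fin d) F K := Module.finBasisOfFinrankEq F K hfin
  let L : K →ₐ[F] Matrix (Fin d) (Fin d) F := Algebra.leftMulMatrix b
  have hcardK : Fintype.card K = Fintype.card F ^ d := by
    rw [← Nat.card_eq_fintype_card, FiniteField.natCard_extension, Nat.card_eq_fintype_card]
  have hcardU : Nat.card Kˣ = Fintype.card F ^ d - 1 := by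
    rw [Nat.card_eq_fintype_card, Fintype.card_units, hcardK]
  have hrf : Fact r.Prime := ⟨hr⟩
  obtain ⟨ζ, hζ⟩ := exists_prime_orderOf_dvd_card' r (hcardU ▸ hdvd)
  have hζ1 : (ζ : K) ≠ 1 := by
    intro h
    have h1 : ζ = 1 := Units.ext h
    rw [h1, orderOf_one] at hζ
    exact hr.one_lt.ne hζ
  have hζr : (ζ : K) ^ r = 1 := by
    rw [← Units.val_pow_eq_pow_val, ← hζ, pow_orderOf_eq_one, Units.val_one]
  refine ⟨L (ζ : K), ?_, ?_⟩
  · rw [← map_pow, hζr, map_one]
  · have hne : (ζ : K) - 1 ≠ 0 := sub_ne_zero.mpr hζ1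
    have e : L (ζ : K) - 1 = L ((ζ : K) - 1) := by rw [map_sub, map_one]
    rw [e]
    exact (isUnit_iff_ne_zero.mpr hne).map L

end nsl

end Cfsg.Agent.Lib.Helper99
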