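import Mathlib
import Cfsg.Agent.Lib.Helper99.NsLine

/-! Nonsingular 1-spaces of the plus-type orthogonal space in characteristic two: the count
and two explicit elements of `Ω⁺` all of whose fixed vectors are singular. -/

set_option autoImplicit false

namespace Cfsg.Agent.Lib.Helper99

open Matrix Module Cfsg.Agent.Lib.Helper14

section nsp

variable {F : Type*} [Field F]

theorem nsp_eq (d : ℕ) (v : Fin d ⊕ Fin d → F) :
    Cfsg.quadFormPlus d F v = (v ∘ Sum.inl) ⬝ᵥ (v ∘ Sum.inr) := rfl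

variable [Fintype F]

/-- A prime dividing the number of nonsingular lines of the plus-type space (`q` even) is `2`
or divides `q ^ d - 1`. -/
theorem nsp_dvd {p : ℕ} [Fact p.Prime] [CharP F p] (hp : p = 2) (d : ℕ) (hd : 1 ≤ d) (r : ℕ)
    (hr : r.Prime)
    (hrΩ : r ∣ Nat.card {W : Submodule F (Fin d ⊕ Fin d → F) //
      Module.finrank F ↥W = 1 ∧ ∃ v ∈ W, Cfsg.quadFormPlus d F v ≠ 0}) :
    r = 2 ∨ r ∣ Fintype.card F ^ d - 1 := by
  classical
  obtain ⟨n, hpn, hcard⟩ := FiniteField.card F p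
  have hlines := nsl_card_lines (Cfsg.quadFormPlus d F) (plusQF d F) (plusQF_coe d F)
  have hzeros := Cfsg.Agent.Lib.Helper45.card_zeros_plus (F := F) rfl d hd
  have hsplit : Nat.card {v : Fin d ⊕ Fin d → F // Cfsg.quadFormPlus d F v ≠ 0} +
      Nat.card {v : Fin d ⊕ Fin d → F // Cfsg.quadFormPlus d F v = 0} =
        Fintype.card F ^ (2 * d) := by
    rw [Nat.card_eq_fintype_card, Nat.card_eq_fintype_card]
    have h1 := Fintype.card_subtype_compl (fun v : Fin d ⊕ Fin d → F => Cfsg.quadFormPlus d F v = 0)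
    have h2 := Fintype.card_subtype_le (fun v : Fin d ⊕ Fin d → F => Cfsg.quadFormPlus d F v = 0)
    have h3 : Fintype.card (Fin d ⊕ Fin d → F) = Fintype.card F ^ (2 * d) := by
      rw [Fintype.card_fun, Fintype.card_sum, Fintype.card_fin, two_mul]
    have h4 : Fintype.card {v : Fin d ⊕ Fin d → F // Cfsg.quadFormPlus d F v ≠ 0} =
        Fintype.card {v : Fin d ⊕ Fin d → F // ¬ Cfsg.quadFormPlus d F v = 0} := rfl
    omega
  obtain ⟨e, rfl⟩ : ∃ e, d = e + 1 := ⟨d - 1, by omega⟩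
  have hq1 : 1 < Fintype.card F := Fintype.one_lt_card
  obtain ⟨s, hs⟩ : ∃ s, Fintype.card F = s + 1 := ⟨Fintype.card F - 1, by omega⟩
  rw [hlines, hzeros] at hsplit
  have e1 : 2 * (e + 1) - 1 = e + e + 1 := by omega
  have e2 : e + 1 - 1 = e := by omega
  rw [e1, e2, hs] at hsplit
  have e3 : s + 1 - 1 = s := by omega
  rw [e3] at hsplit
  have ha : 1 ≤ (s + 1) ^ e := Nat.one_le_pow _ _ (by omega)
  obtain ⟨a, hadef⟩ : ∃ a, a = (s + 1) ^ e := ⟨_, rfl⟩
  obtain ⟨t, ht⟩ : ∃ t, a * (s + 1) = t + 1 := ⟨a * (s + 1) - 1, by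
    have : 1 ≤ a * (s + 1) := by rw [hadef]; exact Nat.mul_pos ha (by omega)
    omega⟩
  have e4 : (s + 1) ^ (e + e + 1) = a * a * (s + 1) := by rw [hadef]; ring
  have e5 : (s + 1) ^ (e + 1) = a * (s + 1) := by rw [hadef]; ring
  have e6 : (s + 1) ^ (2 * (e + 1)) = a * a * (s + 1) * (s + 1) := by rw [hadef]; ring
  rw [e4, e5, e6, ← hadef] at hsplit
  have e7 : a * a * (s + 1) + a * (s + 1) - a = a * a * (s + 1) + a * s := by
    have : a * (s + 1) = a * s + a := by ring
    omega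
  rw [e7] at hsplit
  have key : Nat.card {W : Submodule F (Fin (e + 1) ⊕ Fin (e + 1) → F) //
      Module.finrank F ↥W = 1 ∧ ∃ v ∈ W, Cfsg.quadFormPlus (e + 1) F v ≠ 0} * s = a * s * t := by
    have e8 : a * s * t + (a * a * (s + 1) + a * s) = a * a * (s + 1) * (s + 1) := by
      have : a * s * t + a * s = a * s * (t + 1) := by ring
      have h9 : a * s * (t + 1) = a * s * (a * (s + 1)) := by rw [ht]
      nlinarith [this, h9]
    omega
  have hdv : r ∣ a * s * t := by rw [← key]; exact Dvd.dvd.mul_right hrΩ s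
  rcases (Nat.Prime.dvd_mul hr).mp hdv with h | h
  · rcases (Nat.Prime.dvd_mul hr).mp h with h | h
    · left
      rw [hadef] at h
      have h1 := hr.dvd_of_dvd_pow h
      rw [← hs, hcard, hp] at h1
      exact (Nat.prime_dvd_prime_iff_eq hr Nat.prime_two).mp (hr.dvd_of_dvd_pow h1)
    · right
      have h1 := Nat.sub_dvd_pow_sub_pow (x := s + 1) (y := 1) (n := e + 1)
      rw [one_pow, e3] at h1
      rw [hs]
      exact h.trans h1
  · right
    rw [hs, e5, ht]
    simpa using h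

/-- The element `diag(A, A⁻ᵀ)` of `Ω⁺`, for `A` of finite order without eigenvalue one: all
fixed vectors are singular (there are none besides zero). -/
theorem nsp_witness_odd (h2 : (2 : F) = 0) (d : ℕ) (hd : 3 ≤ d) (r : ℕ) (hr : 1 ≤ r)
    (A : Matrix (Fin d) (Fin d) F) (hA : A ^ r = 1) (hA1 : IsUnit (A - 1)) :
    ∃ x : GL (Fin d ⊕ Fin d) F, x ∈ Cfsg.Geo.omegaGL (Cfsg.quadFormPlus d F) ∧
      ((x ^ r : GL (Fin d ⊕ Fin d) F) : Matrix (Fin d ⊕ Fin d) (Fin d ⊕ Fin d) F) = 1 ∧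
      (∀ u, Cfsg.quadFormPlus d F ((x : Matrix (Fin d ⊕ Fin d) (Fin d ⊕ Fin d) F) *ᵥ u) =
        Cfsg.quadFormPlus d F u) ∧
      (∀ v, (x : Matrix (Fin d ⊕ Fin d) (Fin d ⊕ Fin d) F) *ᵥ v = v →
        Cfsg.quadFormPlus d F v = 0) := by
  classical
  obtain ⟨k, rfl⟩ : ∃ k, r = k + 1 := ⟨r - 1, by omega⟩
  obtain ⟨B, hB⟩ : ∃ B, B = A ^ k := ⟨_, rfl⟩
  have hAB : A * B = 1 := by rw [hB, ← pow_succ', hA]
  have hBA : B * A = 1 := by rw [hB, ← pow_succ, hA]
  have hBr : B ^ (k + 1) = 1 := by rw [hB, ← pow_mul, mul_comm, pow_mul, hA, one_pow]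
  obtain ⟨M, hM⟩ : ∃ M : Matrix (Fin d ⊕ Fin d) (Fin d ⊕ Fin d) F, M = fromBlocks A 0 0 Bᵀ :=
    ⟨_, rfl⟩
  have hMM' : M * fromBlocks B 0 0 Aᵀ = 1 := by
    rw [hM, fromBlocks_multiply]
    simp only [Matrix.mul_zero, Matrix.zero_mul, add_zero, zero_add]
    rw [hAB, ← Matrix.transpose_mul, hAB, Matrix.transpose_one, fromBlocks_one]
  have hM'M : fromBlocks B 0 0 Aᵀ * M = 1 := by
    rw [hM, fromBlocks_multiply]
    simp only [Matrix.mul_zero, Matrix.zero_mul, add_zero, zero_add]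
    rw [hBA, ← Matrix.transpose_mul, hBA, Matrix.transpose_one, fromBlocks_one]
  have hiso : ∀ u, Cfsg.quadFormPlus d F (M *ᵥ u) = Cfsg.quadFormPlus d F u := by
    intro u
    rw [nsp_eq, nsp_eq, hM, fromBlocks_mulVec]
    simp only [Matrix.zero_mulVec, add_zero, zero_add]
    rw [Sum.elim_comp_inl, Sum.elim_comp_inr, Matrix.mulVec_transpose, dotProduct_comm,
      Matrix.dotProduct_mulVec, Matrix.vecMul_vecMul, hBA, Matrix.vecMul_one, dotProduct_comm]
  have hdetA : (A - 1).det ≠ 0 := ((Matrix.isUnit_iff_isUnit_det _).mp hA1).ne_zero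
  have hfix : ∀ v, M *ᵥ v = v → Cfsg.quadFormPlus d F v = 0 := by
    intro v hv
    have h1 : A *ᵥ (v ∘ Sum.inl) = v ∘ Sum.inl := by
      have := congrArg (fun w => w ∘ Sum.inl) hv
      simp only [hM, fromBlocks_mulVec, Matrix.zero_mulVec, add_zero, Sum.elim_comp_inl] at this
      exact this
    have h0 : v ∘ Sum.inl = 0 := by
      apply Matrix.eq_zero_of_mulVec_eq_zero hdetA
      rw [Matrix.sub_mulVec, Matrix.one_mulVec, h1, sub_self]
    rw [nsp_eq, h0, zero_dotProduct]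
  have hunit : IsUnit (M - 1) := by
    have hBu : IsUnit B := (Matrix.isUnit_iff_isUnit_det B).mpr (Matrix.isUnit_det_of_left_inverse hAB)
    have hB1 : IsUnit (B - 1) := by
      have e : B - 1 = -(B * (A - 1)) := by rw [Matrix.mul_sub, hBA, Matrix.mul_one]; abel
      rw [e]
      exact (hBu.mul hA1).neg
    have e : M - 1 = fromBlocks (A - 1) 0 0 ((B - 1)ᵀ) := by
      rw [hM]
      ext (i | i) (j | j) <;> simp [Matrix.one_apply]
    rw [e, Matrix.isUnit_iff_isUnit_det, det_fromBlocks_zero₂₁, det_transpose]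
    exact ((Matrix.isUnit_iff_isUnit_det _).mp hA1).mul ((Matrix.isUnit_iff_isUnit_det _).mp hB1)
  refine ⟨⟨M, fromBlocks B 0 0 Aᵀ, hMM', hM'M⟩, ?_, ?_, hiso, hfix⟩
  · apply nsl_mem_omega h2 _ (plusQF d F) (plusQF_coe d F) (plusQF_nondegenerate d F)
      (Or.inr (by rw [Fintype.card_sum, Fintype.card_fin]; omega)) _ hiso
    show Even (M - 1).rank
    rw [Matrix.rank_of_isUnit _ hunit, Fintype.card_sum, Fintype.card_fin]
    exact ⟨d, rfl⟩
  · rw [Units.val_pow_eq_pow_val]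
    show M ^ (k + 1) = 1
    rw [hM, fromBlocks_diagonal_pow, hA, ← Matrix.transpose_pow, hBr, Matrix.transpose_one,
      fromBlocks_one]

/-- For `d` even, the involution `[[1, A], [0, 1]]` of `Ω⁺` (`A` the matrix of a fixed-point-free
involution of the coordinates): all fixed vectors are singular. -/
theorem nsp_witness_two (h2 : (2 : F) = 0) (d : ℕ) (hd : 3 ≤ d) (hev : Even d) :
    ∃ x : GL (Fin d ⊕ Fin d) F, x ∈ Cfsg.Geo.omegaGL (Cfsg.quadFormPlus d F) ∧
      ((x ^ 2 : GL (Fin d ⊕ Fin d) F) : Matrix (Fin d ⊕ Fin d) (Fin d ⊕ Fin d) F) = 1 ∧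
      (∀ u, Cfsg.quadFormPlus d F ((x : Matrix (Fin d ⊕ Fin d) (Fin d ⊕ Fin d) F) *ᵥ u) =
        Cfsg.quadFormPlus d F u) ∧
      (∀ v, (x : Matrix (Fin d ⊕ Fin d) (Fin d ⊕ Fin d) F) *ᵥ v = v →
        Cfsg.quadFormPlus d F v = 0) := by
  classical
  have hσ : ∃ σ : Fin d → Fin d, (∀ i, σ (σ i) = i) ∧ ∀ i, σ i ≠ i := by
    obtain ⟨k, hk⟩ := hev
    refine ⟨fun i => if h : i.val % 2 = 0 then ⟨i.val + 1, by have := i.2; omega⟩
      else ⟨i.val - 1, by have := i.2; omega⟩, ?_, ?_⟩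
    · intro i
      apply Fin.ext
      by_cases h : i.val % 2 = 0
      · have h' : ¬ (i.val + 1) % 2 = 0 := by omega
        simp only [h, dite_true, h', dite_false]
        omega
      · have h' : (i.val - 1) % 2 = 0 := by omega
        simp only [h, dite_false, h', dite_true]
        omega
    · intro i h
      have h1 := congrArg Fin.val h
      by_cases h' : i.val % 2 = 0
      · simp only [h', dite_true] at h1
        omega
      · simp only [h', dite_false] at h1
        omega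
  obtain ⟨σ, hσ2, hσ1⟩ := hσ
  obtain ⟨A, hAdef⟩ : ∃ A : Matrix (Fin d) (Fin d) F,
      A = Matrix.of fun i j => if j = σ i then 1 else 0 := ⟨_, rfl⟩
  have hAv : ∀ b : Fin d → F, A *ᵥ b = b ∘ σ := by
    intro b
    funext i
    simp [hAdef, Matrix.mulVec, dotProduct]
  have hAA : A + A = 0 := by rw [← two_smul F A, h2, zero_smul]
  obtain ⟨M, hM⟩ : ∃ M : Matrix (Fin d ⊕ Fin d) (Fin d ⊕ Fin d) F, M = fromBlocks 1 A 0 1 :=
    ⟨_, rfl⟩
  have hMM : M * M = 1 := by
    rw [hM, fromBlocks_multiply]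
    simp only [Matrix.mul_zero, Matrix.zero_mul, Matrix.one_mul, Matrix.mul_one, add_zero,
      zero_add]
    rw [hAA, fromBlocks_one]
  have hMv : ∀ v : Fin d ⊕ Fin d → F,
      M *ᵥ v = Sum.elim (v ∘ Sum.inl + (v ∘ Sum.inr) ∘ σ) (v ∘ Sum.inr) := by
    intro v
    rw [hM, fromBlocks_mulVec, Matrix.one_mulVec, Matrix.one_mulVec, Matrix.zero_mulVec, zero_add,
      hAv]
  have halt : ∀ b : Fin d → F, (b ∘ σ) ⬝ᵥ b = 0 := by
    intro b
    show ∑ i, b (σ i) * b i = 0
    apply Finset.sum_involution (fun i _ => σ i)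
    · intro i _
      rw [hσ2]
      linear_combination (b i * b (σ i)) * h2
    · intro i _ _
      exact hσ1 i
    · intro i _
      exact Finset.mem_univ _
    · intro i _
      exact hσ2 i
  have hiso : ∀ u, Cfsg.quadFormPlus d F (M *ᵥ u) = Cfsg.quadFormPlus d F u := by
    intro u
    rw [nsp_eq, nsp_eq, hMv, Sum.elim_comp_inl, Sum.elim_comp_inr, add_dotProduct, halt, add_zero]
  have hfixiff : ∀ v, M *ᵥ v = v ↔ v ∘ Sum.inr = 0 := by
    intro v
    rw [hMv]
    constructor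
    · intro h
      have h1 := congrArg (fun w => w ∘ Sum.inl) h
      simp only [Sum.elim_comp_inl] at h1
      have h3 : (v ∘ Sum.inr) ∘ σ = 0 := by simpa using h1
      funext i
      have := congrFun h3 (σ i)
      simpa [hσ2] using this
    · intro h
      rw [h]
      funext i
      rcases i with i | i
      · simp
      · simpa using (congrFun h i).symm
  have hfix : ∀ v, M *ᵥ v = v → Cfsg.quadFormPlus d F v = 0 := by
    intro v hv
    rw [nsp_eq, (hfixiff v).mp hv, dotProduct_zero]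
  have hker : LinearMap.ker (M - 1).mulVecLin = stdE d F := by
    ext v
    rw [LinearMap.mem_ker, Matrix.mulVecLin_apply, Matrix.sub_mulVec, Matrix.one_mulVec,
      sub_eq_zero, hfixiff, mem_stdE]
    constructor
    · intro h i
      exact congrFun h i
    · intro h
      funext i
      exact h i
  have hrank := Cfsg.Agent.Lib.Helper8.OmegaConj.rank_le_finrank_ker h2 M hMM
  rw [hker, (stdE_isMTS d F).1, Fintype.card_sum, Fintype.card_fin] at hrank
  refine ⟨⟨M, M, hMM, hMM⟩, ?_, ?_, hiso, hfix⟩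
  · apply nsl_mem_omega h2 _ (plusQF d F) (plusQF_coe d F) (plusQF_nondegenerate d F)
      (Or.inr (by rw [Fintype.card_sum, Fintype.card_fin]; omega)) _ hiso
    show Even (M - 1).rank
    have : (M - 1).rank = d := by omega
    rw [this]
    exact hev
  · rw [Units.val_pow_eq_pow_val]
    show M ^ 2 = 1
    rw [pow_two, hMM]

end nsp

end Cfsg.Agent.Lib.Helper99
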