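import Mathlib
import Cfsg.Agent.Lib.Helper99.Quad

set_option autoImplicit false

namespace Cfsg.Agent.Lib.Helper99

open Module QuadraticMap

section q3
variable {F V : Type*} [Field F] [AddCommGroup V] [Module F V]

/-- A nondegenerate subspace containing a totally singular subspace of dimension at least `k`
contains `k` mutually orthogonal hyperbolic pairs. -/
theorem hyp_of_singular [FiniteDimensional F V] (Q : QuadraticForm F V) :
    ∀ (k : ℕ) (M W : Submodule F V), QNondegOn Q M → W ≤ M → (∀ w ∈ W, Q w = 0) →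
      k ≤ finrank F W →
      ∃ e f : Fin k → V, HypFam Q e f ∧ ∀ i, e i ∈ M ∧ f i ∈ M := by
  intro k
  induction k with
  | zero =>
    intro M W _ _ _ _
    exact ⟨Fin.elim0, Fin.elim0, ⟨fun i => i.elim0, fun i => i.elim0, fun i => i.elim0⟩,
      fun i => i.elim0⟩
  | succ k ih =>
    intro M W hM hWM hW hk
    have hWne : W ≠ ⊥ := by
      intro h
      rw [h] at hk
      simp at hk
    obtain ⟨v, hvW, hv0⟩ := Submodule.exists_mem_ne_zero_of_ne_bot hWne
    have hv : v ∈ M := hWM hvW
    have hQv : Q v = 0 := hW v hvW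
    obtain ⟨w, hw, hQw, hvw⟩ := exists_hyp_partner Q M hM hv hv0 hQv
    have hWpol : ∀ x ∈ W, ∀ y ∈ W, polar Q x y = 0 := by
      intro x hx y hy
      unfold polar
      rw [hW _ (W.add_mem hx hy), hW x hx, hW y hy]
      simp
    obtain ⟨T, hT⟩ : ∃ T : Submodule F V, T = LinearMap.ker (Q.polarBilin w) := ⟨_, rfl⟩
    have hdim : k ≤ finrank F (W ⊓ T : Submodule F V) := by
      have h1 := Submodule.finrank_sup_add_finrank_inf_eq W T
      have h2 := LinearMap.finrank_range_add_finrank_ker (Q.polarBilin w)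
      have h3 : finrank F (LinearMap.range (Q.polarBilin w)) ≤ 1 := by
        have := Submodule.finrank_le (LinearMap.range (Q.polarBilin w))
        rwa [finrank_self] at this
      have h4 := Submodule.finrank_le (W ⊔ T)
      rw [← hT] at h2
      omega
    have hW'M : W ⊓ T ≤ M ⊓ qperp Q v w := by
      intro x hx
      obtain ⟨hxW, hxT⟩ := Submodule.mem_inf.mp hx
      refine Submodule.mem_inf.mpr ⟨hWM hxW, (mem_qperp Q v w x).mpr ⟨hWpol x hxW v hvW, ?_⟩⟩
      rw [hT] at hxT
      have h1 : Q.polarBilin w x = 0 := LinearMap.mem_ker.mp hxT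
      rw [polar_comm]
      exact h1
    obtain ⟨e, f, hH, hmem⟩ := ih (M ⊓ qperp Q v w) (W ⊓ T)
      (hyp_nondegOn Q hM hv hw hQv hQw hvw) hW'M
      (fun x hx => hW x (Submodule.mem_inf.mp hx).1) hdim
    have hpM' : ∀ y ∈ M ⊓ qperp Q v w, polar Q y v = 0 ∧ polar Q y w = 0 := fun y hy =>
      (mem_qperp Q v w y).mp (Submodule.mem_inf.mp hy).2
    have hvv : polar Q v v = 0 := by rw [polar_self, hQv]; simp
    have hww : polar Q w w = 0 := by rw [polar_self, hQw]; simp
    refine ⟨Fin.cons v e, Fin.cons w f, ⟨?_, ?_, ?_⟩, ?_⟩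
    · intro i
      rcases Fin.eq_zero_or_eq_succ i with rfl | ⟨i, rfl⟩
      · simp [hQv, hQw]
      · simp [hH.1 i]
    · intro i j
      rcases Fin.eq_zero_or_eq_succ i with rfl | ⟨i, rfl⟩ <;>
        rcases Fin.eq_zero_or_eq_succ j with rfl | ⟨j, rfl⟩
      · simp [hvw]
      · have h1 := (hpM' (f j) (hmem j).2).1
        rw [polar_comm] at h1
        simp [h1, (Fin.succ_ne_zero j).symm]
      · have h1 := (hpM' (e i) (hmem i).1).2
        simp [h1, Fin.succ_ne_zero i]
      · simp [hH.2.1 i j]
    · intro i j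
      rcases Fin.eq_zero_or_eq_succ i with rfl | ⟨i, rfl⟩ <;>
        rcases Fin.eq_zero_or_eq_succ j with rfl | ⟨j, rfl⟩
      · simp [hvv, hww]
      · have h1 := (hpM' (e j) (hmem j).1).1
        have h2 := (hpM' (f j) (hmem j).2).2
        rw [polar_comm] at h1 h2
        simp [h1, h2]
      · have h1 := (hpM' (e i) (hmem i).1).1
        have h2 := (hpM' (f i) (hmem i).2).2
        simp [h1, h2]
      · simp [hH.2.2 i j]
    · intro i
      rcases Fin.eq_zero_or_eq_succ i with rfl | ⟨i, rfl⟩
      · simp [hv, hw]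
      · simp only [Fin.cons_succ]
        exact ⟨inf_le_left (a := M) ((hmem i).1), inf_le_left (a := M) ((hmem i).2)⟩

/-- Hyperbolic pairs together with an orthogonal independent family are independent. -/
theorem hyp_li (Q : QuadraticForm F V) {k : ℕ} (e f : Fin k → V) (hH : HypFam Q e f)
    {κ : Type*} [Fintype κ] (z : κ → V) (hz : LinearIndependent F z)
    (hperp : ∀ j i, polar Q (z j) (e i) = 0 ∧ polar Q (z j) (f i) = 0) :
    LinearIndependent F (Sum.elim (Sum.elim e f) z : (Fin k ⊕ Fin k) ⊕ κ → V) := by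
  classical
  rw [Fintype.linearIndependent_iff]
  intro g hg
  simp only [Fintype.sum_sum_type, Sum.elim_inl, Sum.elim_inr] at hg
  have hA : ∀ j0, g (Sum.inl (Sum.inl j0)) = 0 := by
    intro j0
    have h1 := congrArg (fun m => Q.polarBilin m (f j0)) hg
    simp only [map_add, map_sum, map_smul, LinearMap.add_apply, LinearMap.sum_apply,
      LinearMap.smul_apply, polarBilin_apply_apply, smul_eq_mul, LinearMap.zero_apply,
      hH.2.1, hH.2.2, (hperp _ _).2, mul_zero, Finset.sum_const_zero, add_zero, mul_ite, mul_one,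
      Finset.sum_ite_eq', Finset.mem_univ, if_true, map_zero] at h1
    exact h1
  have hB : ∀ j0, g (Sum.inl (Sum.inr j0)) = 0 := by
    intro j0
    have h1 := congrArg (fun m => Q.polarBilin m (e j0)) hg
    have h2 : ∀ i, polar Q (f i) (e j0) = if j0 = i then 1 else 0 := by
      intro i
      rw [polar_comm, hH.2.1]
    simp only [map_add, map_sum, map_smul, LinearMap.add_apply, LinearMap.sum_apply,
      LinearMap.smul_apply, polarBilin_apply_apply, smul_eq_mul, LinearMap.zero_apply,
      h2, hH.2.2, (hperp _ _).1, mul_zero, Finset.sum_const_zero, add_zero, zero_add, mul_ite,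
      mul_one, Finset.sum_ite_eq, Finset.mem_univ, if_true, map_zero] at h1
    exact h1
  have hC : ∑ j, g (Sum.inr j) • z j = 0 := by
    simpa [hA, hB] using hg
  have hC' := Fintype.linearIndependent_iff.mp hz (fun j => g (Sum.inr j)) hC
  rintro ((i | i) | j)
  · exact hA i
  · exact hB i
  · exact hC' j

/-- A basis from hyperbolic pairs and an orthogonal independent family, by counting. -/
theorem mkBasis' [FiniteDimensional F V] (Q : QuadraticForm F V) {k : ℕ} (e f : Fin k → V)
    (hH : HypFam Q e f) {κ : Type*} [Fintype κ] (z : κ → V) (hz : LinearIndependent F z)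
    (hperp : ∀ j i, polar Q (z j) (e i) = 0 ∧ polar Q (z j) (f i) = 0)
    (hcard : finrank F V = 2 * k + Fintype.card κ) :
    ∃ b : Basis ((Fin k ⊕ Fin k) ⊕ κ) F V, (∀ i, b (Sum.inl (Sum.inl i)) = e i) ∧
      (∀ i, b (Sum.inl (Sum.inr i)) = f i) ∧ (∀ j, b (Sum.inr j) = z j) := by
  classical
  have hli := hyp_li Q e f hH z hz hperp
  have hc : Fintype.card ((Fin k ⊕ Fin k) ⊕ κ) = finrank F V := by
    rw [hcard]
    simp
    omega
  refine ⟨basisOfLinearIndependentOfCardEqFinrank' _ hli hc, ?_, ?_, ?_⟩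
  · intro i; rw [coe_basisOfLinearIndependentOfCardEqFinrank']; rfl
  · intro i; rw [coe_basisOfLinearIndependentOfCardEqFinrank']; rfl
  · intro j; rw [coe_basisOfLinearIndependentOfCardEqFinrank']; rfl

/-- A combination of mutually orthogonal singular vectors is singular. -/
theorem sing_sum (Q : QuadraticForm F V) {ι : Type*} (s : Finset ι) (e : ι → V) (a : ι → F)
    (h0 : ∀ i, Q (e i) = 0) (h1 : ∀ i j, polar Q (e i) (e j) = 0) :
    Q (∑ i ∈ s, a i • e i) = 0 := by
  classical
  induction s using Finset.induction_on with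
  | empty => simp
  | insert i s hi ih =>
    rw [Finset.sum_insert hi]
    have h : Q (a i • e i + ∑ j ∈ s, a j • e j) = Q (a i • e i) + Q (∑ j ∈ s, a j • e j)
        + polar Q (a i • e i) (∑ j ∈ s, a j • e j) := QuadraticMap.map_add Q _ _
    have h2 : polar Q (a i • e i) (∑ j ∈ s, a j • e j) = 0 := by
      rw [← polarBilin_apply_apply, map_sum]
      apply Finset.sum_eq_zero
      intro j _
      rw [polarBilin_apply_apply, polar_smul_left, polar_smul_right, h1]
      simp
    rw [h, ih, h2, QuadraticMap.map_smul, h0]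
    simp

/-- Value of the form on a combination of hyperbolic pairs and an orthogonal vector. -/
theorem hyp_eval (Q : QuadraticForm F V) {k : ℕ} (e f : Fin k → V) (hH : HypFam Q e f)
    (a b : Fin k → F) (y : V) (hy : ∀ i, polar Q y (e i) = 0 ∧ polar Q y (f i) = 0) :
    Q (∑ i, a i • e i + ∑ i, b i • f i + y) = ∑ i, a i * b i + Q y := by
  classical
  have h1 : Q (∑ i, a i • e i + ∑ i, b i • f i + y) = Q (∑ i, a i • e i + ∑ i, b i • f i) + Q y
      + polar Q (∑ i, a i • e i + ∑ i, b i • f i) y := QuadraticMap.map_add Q _ _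
  have h2 : Q (∑ i, a i • e i + ∑ i, b i • f i) = Q (∑ i, a i • e i) + Q (∑ i, b i • f i)
      + polar Q (∑ i, a i • e i) (∑ i, b i • f i) := QuadraticMap.map_add Q _ _
  have h3 : polar Q (∑ i, a i • e i + ∑ i, b i • f i) y = 0 := by
    rw [polar_comm, ← polarBilin_apply_apply, map_add, map_sum, map_sum]
    simp only [map_smul, polarBilin_apply_apply, (hy _).1, (hy _).2, smul_zero,
      Finset.sum_const_zero, add_zero]
  have h4 : polar Q (∑ i, a i • e i) (∑ i, b i • f i) = ∑ i, a i * b i := by
    rw [← polarBilin_apply_apply, map_sum]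
    apply Finset.sum_congr rfl
    intro j _
    rw [map_smul, map_sum, LinearMap.sum_apply]
    simp only [map_smul, LinearMap.smul_apply, polarBilin_apply_apply, hH.2.1, smul_eq_mul,
      mul_ite, mul_one, mul_zero, Finset.sum_ite_eq', Finset.mem_univ, if_true]
    ring
  rw [h1, h2, h3, h4, sing_sum Q _ e a (fun i => (hH.1 i).1) (fun i j => (hH.2.2 i j).1),
    sing_sum Q _ f b (fun i => (hH.1 i).2) (fun i j => (hH.2.2 i j).2)]
  ring

/-- Value of the form in coordinates of a basis of hyperbolic pairs plus an orthogonal family. -/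
theorem basis_eval (Q : QuadraticForm F V) {k : ℕ} {κ : Type*} [Fintype κ]
    (b : Basis ((Fin k ⊕ Fin k) ⊕ κ) F V)
    (hH : HypFam Q (fun i => b (Sum.inl (Sum.inl i))) (fun i => b (Sum.inl (Sum.inr i))))
    (hperp : ∀ j i, polar Q (b (Sum.inr j)) (b (Sum.inl (Sum.inl i))) = 0 ∧
      polar Q (b (Sum.inr j)) (b (Sum.inl (Sum.inr i))) = 0) (v : V) :
    Q v = ∑ i, b.repr v (Sum.inl (Sum.inl i)) * b.repr v (Sum.inl (Sum.inr i))
      + Q (∑ j, b.repr v (Sum.inr j) • b (Sum.inr j)) := by
  classical
  conv_lhs => rw [← b.sum_repr v]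
  rw [Fintype.sum_sum_type, Fintype.sum_sum_type]
  apply hyp_eval Q _ _ hH
  intro i
  constructor
  · rw [← polarBilin_apply_apply, map_sum, LinearMap.sum_apply]
    apply Finset.sum_eq_zero
    intro j _
    rw [map_smul, LinearMap.smul_apply, polarBilin_apply_apply, (hperp j i).1, smul_zero]
  · rw [← polarBilin_apply_apply, map_sum, LinearMap.sum_apply]
    apply Finset.sum_eq_zero
    intro j _
    rw [map_smul, LinearMap.smul_apply, polarBilin_apply_apply, (hperp j i).2, smul_zero]

end q3

end Cfsg.Agent.Lib.Helper99
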