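import Mathlib

/-! Artin–Schreier classes and the "flip" count for quadratic forms in characteristic two:
twisting a quadratic form `Q` by the square of the functional `polar Q w ·` changes the number of
singular vectors to the complementary value when `Q w` is not of the shape `t² + t`. -/

set_option autoImplicit false

namespace Cfsg.Agent.Lib.Helper99

open Module QuadraticMap

section arfA

variable {F : Type*} [Field F] [Fintype F]

/-- `a` lies in the image of `t ↦ t² + t`. -/
def IsAP (a : F) : Prop := ∃ t : F, t ^ 2 + t = a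

theorem isAP_zero : IsAP (0 : F) := ⟨0, by simp⟩

theorem isAP_index (h2 : (2 : F) = 0) :
    ∃ H : AddSubgroup F, H.index = 2 ∧ ∀ a, a ∈ H ↔ IsAP a := by
  classical
  let ℘ : F →+ F :=
    { toFun := fun t => t ^ 2 + t
      map_zero' := by simp
      map_add' := fun x y => by linear_combination (x * y) * h2 }
  have hker : Nat.card ℘.ker = 2 := by
    rw [Nat.card_eq_two_iff]
    refine ⟨⟨0, by simp⟩, ⟨1, ?_⟩, ?_, ?_⟩
    · rw [AddMonoidHom.mem_ker]
      show (1 : F) ^ 2 + 1 = 0
      linear_combination h2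
    · intro h
      exact zero_ne_one (congrArg Subtype.val h)
    · ext ⟨t, ht⟩
      simp only [Set.mem_insert_iff, Set.mem_singleton_iff, Set.mem_univ, iff_true]
      rw [AddMonoidHom.mem_ker] at ht
      have ht' : t * (t + 1) = 0 := by
        have : t ^ 2 + t = 0 := ht
        linear_combination this
      rcases mul_eq_zero.mp ht' with h | h
      · left; exact Subtype.ext h
      · right
        apply Subtype.ext
        show t = 1
        linear_combination h - h2
  have hidx : ℘.range.index = 2 := by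
    have h1 := AddSubgroup.card_mul_index ℘.ker
    have h3 := AddSubgroup.card_mul_index ℘.range
    rw [AddSubgroup.index_ker, hker] at h1
    have hpos : 0 < Nat.card ℘.range := Nat.card_pos
    have : Nat.card ℘.range * ℘.range.index = Nat.card ℘.range * 2 := by rw [h3, ← h1]; ring
    exact Nat.eq_of_mul_eq_mul_left hpos this
  exact ⟨℘.range, hidx, fun a => ⟨fun ⟨t, ht⟩ => ⟨t, ht⟩, fun ⟨t, ht⟩ => ⟨t, ht⟩⟩⟩

theorem isAP_add_iff (h2 : (2 : F) = 0) (a b : F) : IsAP (a + b) ↔ (IsAP a ↔ IsAP b) := by
  obtain ⟨H, hidx, hH⟩ := isAP_index h2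
  rw [← hH, ← hH, ← hH]
  exact AddSubgroup.add_mem_iff_of_index_two hidx

theorem exists_not_isAP (h2 : (2 : F) = 0) : ∃ c : F, ¬ IsAP c := by
  obtain ⟨H, hidx, hH⟩ := isAP_index h2
  by_contra hcon
  have htop : H = ⊤ := by
    rw [eq_top_iff]
    intro a _
    rw [hH]
    by_contra h
    exact hcon ⟨a, h⟩
  rw [htop, AddSubgroup.index_top] at hidx
  exact absurd hidx (by norm_num)

theorem sq_inj2 (h2 : (2 : F) = 0) {s t : F} (h : s ^ 2 = t ^ 2) : s = t := by
  have h1 : (s - t) ^ 2 = 0 := by linear_combination h - (s * t - t ^ 2) * h2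
  exact sub_eq_zero.mp (pow_eq_zero_iff (two_ne_zero)|>.mp h1)

theorem exists_sqrt2 (h2 : (2 : F) = 0) (a : F) : ∃ s : F, s ^ 2 = a := by
  have : CharP F 2 := CharTwo.of_one_ne_zero_of_two_eq_zero one_ne_zero h2
  obtain ⟨s, hs⟩ := FiniteField.isSquare_of_char_two (ringChar.eq F 2) a
  exact ⟨s, by rw [hs, pow_two]⟩

/-- The fibre of `t ↦ t² + t` over a value in the image has two elements. -/
theorem ap_card (h2 : (2 : F) = 0) (a : F) (ha : IsAP a) :
    Nat.card {t : F // t ^ 2 + t = a} = 2 := by
  obtain ⟨t₀, ht₀⟩ := ha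
  rw [Nat.card_eq_two_iff]
  refine ⟨⟨t₀, ht₀⟩, ⟨t₀ + 1, by linear_combination ht₀ + (t₀ + 1) * h2⟩, ?_, ?_⟩
  · intro h
    have h1 : t₀ = t₀ + 1 := congrArg Subtype.val h
    exact one_ne_zero (by linear_combination -h1 : (1 : F) = 0)
  · ext ⟨t, ht⟩
    simp only [Set.mem_insert_iff, Set.mem_singleton_iff, Set.mem_univ, iff_true]
    have ht' : (t - t₀) * (t - t₀ - 1) = 0 := by
      linear_combination ht - ht₀ - (t * t₀ - t₀ ^ 2 + t - t₀) * h2
    rcases mul_eq_zero.mp ht' with h | h
    · left; exact Subtype.ext (sub_eq_zero.mp h)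
    · right
      apply Subtype.ext
      show t = t₀ + 1
      linear_combination h

theorem ap_card_zero (a : F) (ha : ¬ IsAP a) : Nat.card {t : F // t ^ 2 + t = a} = 0 := by
  have : IsEmpty {t : F // t ^ 2 + t = a} := ⟨fun t => ha ⟨t.1, t.2⟩⟩
  exact Nat.card_of_isEmpty

theorem ap_count (h2 : (2 : F) = 0) (a c : F) (hc : ¬ IsAP c) :
    Nat.card {t : F // t ^ 2 + t = a} + Nat.card {t : F // t ^ 2 + t = a + c} = 2 := by
  by_cases ha : IsAP a
  · have hac : ¬ IsAP (a + c) := fun h => hc (((isAP_add_iff h2 a c).mp h).mp ha)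
    rw [ap_card h2 a ha, ap_card_zero _ hac]
  · have hac : IsAP (a + c) := (isAP_add_iff h2 a c).mpr ⟨fun h => absurd h ha, fun h => absurd h hc⟩
    rw [ap_card h2 _ hac, ap_card_zero _ ha]

/-- A purely inseparable equation has exactly one solution. -/
theorem card_sq_eq (h2 : (2 : F) = 0) (c e : F) (hc : c ≠ 0) :
    Nat.card {s : F // e + s ^ 2 * c = 0} = 1 := by
  rw [Nat.card_eq_one_iff_unique]
  constructor
  · constructor
    rintro ⟨s, hs⟩ ⟨t, ht⟩
    apply Subtype.ext
    show s = t
    apply sq_inj2 h2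
    have : (s ^ 2 - t ^ 2) * c = 0 := by linear_combination hs - ht
    rcases mul_eq_zero.mp this with h | h
    · exact sub_eq_zero.mp h
    · exact absurd h hc
  · obtain ⟨s, hs⟩ := exists_sqrt2 h2 (e / c)
    refine ⟨⟨s, ?_⟩⟩
    rw [hs, div_mul_cancel₀ _ hc]
    linear_combination e * h2

/-- A separable quadratic equation reduced to Artin–Schreier form. -/
theorem card_quad_eq (h2 : (2 : F) = 0) (c b e : F) (hc : c ≠ 0) (hb : b ≠ 0) :
    Nat.card {s : F // e + s ^ 2 * c + s * b = 0} =
      Nat.card {t : F // t ^ 2 + t = c * e / b ^ 2} := by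
  apply Nat.card_congr
  refine Equiv.subtypeEquiv (Equiv.mulLeft₀ (c / b) (div_ne_zero hc hb)) (fun s => ?_)
  have hb2 : b ^ 2 ≠ 0 := pow_ne_zero 2 hb
  show e + s ^ 2 * c + s * b = 0 ↔ (c / b * s) ^ 2 + c / b * s = c * e / b ^ 2
  rw [eq_div_iff hb2]
  have e1 : ((c / b * s) ^ 2 + c / b * s) * b ^ 2 = c * (s ^ 2 * c + s * b) := by
    field_simp
  rw [e1]
  constructor
  · intro h
    linear_combination c * h - c * e * h2
  · intro h
    have h3 : c * (e + s ^ 2 * c + s * b) = 0 := by linear_combination h + c * e * h2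
    rcases mul_eq_zero.mp h3 with h4 | h4
    · exact absurd h4 hc
    · exact h4

variable {V : Type*} [AddCommGroup V] [Module F V]

/-- The twist of `Q` by the square of the functional `polar Q w ·`. -/
noncomputable def qtw (Q : QuadraticForm F V) (w : V) : QuadraticForm F V :=
  Q + QuadraticMap.linMulLin (QuadraticMap.polarBilin Q w) (QuadraticMap.polarBilin Q w)

theorem qtw_apply (Q : QuadraticForm F V) (w v : V) :
    qtw Q w v = Q v + polar Q w v * polar Q w v := by
  simp [qtw]

theorem polar_self2 (h2 : (2 : F) = 0) (Q : QuadraticForm F V) (w : V) : polar Q w w = 0 := by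
  rw [QuadraticMap.polar_self, two_smul]
  linear_combination Q w * h2

theorem qtw_polar (h2 : (2 : F) = 0) (Q : QuadraticForm F V) (w u v : V) :
    polar (qtw Q w) u v = polar Q u v := by
  have e : ∀ x, qtw Q w x = Q x + polar Q w x * polar Q w x := qtw_apply Q w
  unfold QuadraticMap.polar at e ⊢
  rw [e, e, e]
  have h3 : Q (w + (u + v)) - Q w - Q (u + v) =
      (Q (w + u) - Q w - Q u) + (Q (w + v) - Q w - Q v) := by
    have := QuadraticMap.polar_add_right Q w u v
    unfold QuadraticMap.polar at this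
    exact this
  rw [h3]
  linear_combination ((Q (w + u) - Q w - Q u) * (Q (w + v) - Q w - Q v)) * h2

theorem qtw_nondeg (h2 : (2 : F) = 0) (Q : QuadraticForm F V)
    (hQ : (QuadraticMap.polarBilin Q).Nondegenerate) (w : V) :
    (QuadraticMap.polarBilin (qtw Q w)).Nondegenerate := by
  have e : QuadraticMap.polarBilin (qtw Q w) = QuadraticMap.polarBilin Q := by
    apply LinearMap.ext
    intro u
    apply LinearMap.ext
    intro v
    exact qtw_polar h2 Q w u v
  rw [e]
  exact hQ

theorem qtw_add (h2 : (2 : F) = 0) (Q : QuadraticForm F V) (w u v : V) :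
    qtw Q (w + u) v = qtw Q w v + polar Q u v * polar Q u v := by
  rw [qtw_apply, qtw_apply, QuadraticMap.polar_add_left]
  linear_combination (polar Q w v * polar Q u v) * h2

/-- The flip count. -/
theorem arf_flip (h2 : (2 : F) = 0) [Finite V] (Q : QuadraticForm F V) (w : V)
    (hw : ¬ IsAP (Q w)) :
    Fintype.card F * (Nat.card {v : V // Q v = 0} + Nat.card {v : V // qtw Q w v = 0}) =
      2 * Nat.card V := by
  classical
  have : Fintype V := Fintype.ofFinite V
  have hc : Q w ≠ 0 := fun h => hw (by rw [h]; exact isAP_zero)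
  have key : ∀ Q' : V → F, Fintype.card F * Nat.card {v : V // Q' v = 0} =
      ∑ v : V, Nat.card {s : F // Q' (v + s • w) = 0} := by
    intro Q'
    simp only [Nat.card_eq_fintype_card, Fintype.card_subtype, Finset.card_filter]
    rw [Finset.sum_comm]
    have h1 : ∀ s : F, (∑ v : V, if Q' (v + s • w) = 0 then 1 else 0) =
        ∑ v : V, if Q' v = 0 then 1 else 0 := by
      intro s
      exact Fintype.sum_equiv (Equiv.addRight (s • w)) _ _ (fun v => rfl)
    rw [Finset.sum_congr rfl (fun s _ => h1 s), Finset.sum_const, Finset.card_univ, smul_eq_mul]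
  rw [mul_add, key, key, ← Finset.sum_add_distrib]
  have hper : ∀ v : V, Nat.card {s : F // Q (v + s • w) = 0} +
      Nat.card {s : F // qtw Q w (v + s • w) = 0} = 2 := by
    intro v
    have e1 : ∀ s : F, Q (v + s • w) = Q v + s ^ 2 * Q w + s * polar Q w v := by
      intro s
      rw [QuadraticMap.map_add Q, QuadraticMap.map_smul, QuadraticMap.polar_smul_right,
        QuadraticMap.polar_comm Q v w, smul_eq_mul, smul_eq_mul]
      ring
    have e2 : ∀ s : F, qtw Q w (v + s • w) =
        (Q v + polar Q w v ^ 2) + s ^ 2 * Q w + s * polar Q w v := by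
      intro s
      rw [qtw_apply, e1, QuadraticMap.polar_add_right, QuadraticMap.polar_smul_right,
        polar_self2 h2, smul_zero, add_zero]
      ring
    simp only [e1, e2]
    by_cases hb : polar Q w v = 0
    · simp only [hb, mul_zero, add_zero, ne_eq, OfNat.ofNat_ne_zero, not_false_eq_true,
        zero_pow]
      rw [card_sq_eq h2 (Q w) (Q v) hc]
    · rw [card_quad_eq h2 (Q w) (polar Q w v) (Q v) hc hb,
        card_quad_eq h2 (Q w) (polar Q w v) (Q v + polar Q w v ^ 2) hc hb]
      have e3 : Q w * (Q v + polar Q w v ^ 2) / polar Q w v ^ 2 =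
          Q w * Q v / polar Q w v ^ 2 + Q w := by
        field_simp
      rw [e3]
      exact ap_count h2 _ _ hw
  rw [Finset.sum_congr rfl (fun v _ => hper v), Finset.sum_const, Finset.card_univ, smul_eq_mul,
    Nat.card_eq_fintype_card, mul_comm]

end arfA

end Cfsg.Agent.Lib.Helper99
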