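import Mathlib

/-!
# Nondegenerate subspaces for an alternating form

Orthogonal complements inside a subspace, orthogonal sums, hyperbolic planes and a peeling
induction producing invariant nondegenerate subspaces of prescribed dimension.
-/

set_option autoImplicit false

namespace Cfsg.Agent.Lib.Helper99

open Module

universe u v

section NdGeom
variable {F : Type u} [Field F] {V : Type v} [AddCommGroup V] [Module F V]

/-- Nondegeneracy of a bilinear form on a subspace. -/
def NgNd (B : LinearMap.BilinForm F V) (U : Submodule F V) : Prop :=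
  ∀ u ∈ U, (∀ v ∈ U, B u v = 0) → u = 0

/-- The orthogonal complement of `P` inside `U`. -/
def ngPerp (B : LinearMap.BilinForm F V) (U P : Submodule F V) : Submodule F V where
  carrier := {w | w ∈ U ∧ ∀ p ∈ P, B p w = 0}
  add_mem' := fun {x y} hx hy => ⟨U.add_mem hx.1 hy.1, fun p hp => by
    rw [map_add, hx.2 p hp, hy.2 p hp, add_zero]⟩
  zero_mem' := ⟨U.zero_mem, fun p _ => by rw [map_zero]⟩
  smul_mem' := fun c x hx => ⟨U.smul_mem c hx.1, fun p hp => by
    rw [map_smul, hx.2 p hp, smul_zero]⟩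

theorem mem_ngPerp (B : LinearMap.BilinForm F V) (U P : Submodule F V) (w : V) :
    w ∈ ngPerp B U P ↔ w ∈ U ∧ ∀ p ∈ P, B p w = 0 := Iff.rfl

theorem ngPerp_le (B : LinearMap.BilinForm F V) (U P : Submodule F V) : ngPerp B U P ≤ U :=
  fun _ hw => hw.1

theorem ng_neg (B : LinearMap.BilinForm F V) (hA : ∀ x, B x x = 0) (x y : V) :
    B x y = - B y x := by
  have h := hA (x + y)
  simp only [map_add, LinearMap.add_apply, hA, zero_add, add_zero] at h
  exact eq_neg_of_add_eq_zero_right h

theorem ng_bot (B : LinearMap.BilinForm F V) : NgNd B ⊥ := by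
  intro u hu _
  exact (Submodule.mem_bot F).mp hu

/-- Decomposition of `U` along a nondegenerate subspace. -/
theorem ng_decomp [FiniteDimensional F V] (B : LinearMap.BilinForm F V) (hA : ∀ x, B x x = 0)
    (U P : Submodule F V) (hP : NgNd B P) (u : V) (hu : u ∈ U) (hPU : P ≤ U) :
    ∃ p ∈ P, ∃ w ∈ ngPerp B U P, u = p + w := by
  let Φ : ↥P →ₗ[F] Module.Dual F ↥P := (B.domRestrict₁₂ P P).flip
  have hΦ : ∀ p p' : ↥P, Φ p p' = B (p' : V) (p : V) := fun p p' => rfl
  have hinj : Function.Injective Φ := by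
    rw [← LinearMap.ker_eq_bot, LinearMap.ker_eq_bot']
    intro p hp
    apply Subtype.ext
    apply hP p.1 p.2
    intro v hv
    have h1 : Φ p ⟨v, hv⟩ = 0 := by rw [hp]; rfl
    rw [hΦ] at h1
    rw [ng_neg B hA]
    show -(B v (p : V)) = 0
    rw [h1, neg_zero]
  have hsurj : Function.Surjective Φ :=
    (LinearMap.injective_iff_surjective_of_finrank_eq_finrank
      (Subspace.dual_finrank_eq (K := F) (V := ↥P)).symm).mp hinj
  let φ : Module.Dual F ↥P := (B.flip u).domRestrict P
  obtain ⟨p, hp⟩ := hsurj φ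
  refine ⟨p.1, p.2, u - p.1, ⟨U.sub_mem hu (hPU p.2), ?_⟩, by abel⟩
  intro p' hp'
  have h1 : Φ p ⟨p', hp'⟩ = φ ⟨p', hp'⟩ := by rw [hp]
  rw [hΦ] at h1
  have h2 : φ ⟨p', hp'⟩ = B p' u := rfl
  rw [map_sub, h1, h2, sub_self]

theorem ng_perp_inf (B : LinearMap.BilinForm F V) (hA : ∀ x, B x x = 0)
    (U P : Submodule F V) (hP : NgNd B P) : P ⊓ ngPerp B U P = ⊥ := by
  rw [eq_bot_iff]
  intro w hw
  rw [Submodule.mem_inf] at hw
  rw [Submodule.mem_bot]
  apply hP w hw.1
  intro v hv
  rw [ng_neg B hA, hw.2.2 v hv, neg_zero]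

theorem ng_perp_sup [FiniteDimensional F V] (B : LinearMap.BilinForm F V)
    (hA : ∀ x, B x x = 0) (U P : Submodule F V) (hP : NgNd B P) (hPU : P ≤ U) :
    P ⊔ ngPerp B U P = U := by
  apply le_antisymm
  · exact sup_le hPU (ngPerp_le B U P)
  · intro u hu
    obtain ⟨p, hp, w, hw, rfl⟩ := ng_decomp B hA U P hP u hu hPU
    exact Submodule.add_mem_sup hp hw

theorem ng_perp_finrank [FiniteDimensional F V] (B : LinearMap.BilinForm F V)
    (hA : ∀ x, B x x = 0) (U P : Submodule F V) (hP : NgNd B P) (hPU : P ≤ U) :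
    finrank F ↥(ngPerp B U P) + finrank F ↥P = finrank F ↥U := by
  have h := Submodule.finrank_sup_add_finrank_inf_eq P (ngPerp B U P)
  rw [ng_perp_sup B hA U P hP hPU, ng_perp_inf B hA U P hP, finrank_bot] at h
  omega

theorem ng_perp_nd [FiniteDimensional F V] (B : LinearMap.BilinForm F V)
    (hA : ∀ x, B x x = 0) (U P : Submodule F V) (hU : NgNd B U) (hP : NgNd B P)
    (hPU : P ≤ U) : NgNd B (ngPerp B U P) := by
  intro w hw h
  apply hU w hw.1
  intro u hu
  obtain ⟨p, hp, w', hw', rfl⟩ := ng_decomp B hA U P hP u hu hPU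
  rw [map_add, h w' hw', add_zero, ng_neg B hA, hw.2 p hp, neg_zero]

/-- Orthogonal sums of nondegenerate subspaces. -/
theorem ng_sup_nd (B : LinearMap.BilinForm F V) (hA : ∀ x, B x x = 0)
    (P W : Submodule F V) (hP : NgNd B P) (hW : NgNd B W)
    (horth : ∀ p ∈ P, ∀ w ∈ W, B p w = 0) : NgNd B (P ⊔ W) := by
  intro x hx h
  obtain ⟨p, hp, w, hw, rfl⟩ := Submodule.mem_sup.mp hx
  have hp0 : p = 0 := by
    apply hP p hp
    intro p' hp'
    have h1 := h p' (Submodule.mem_sup_left hp')
    rw [map_add, LinearMap.add_apply, ng_neg B hA w p', horth p' hp' w hw, neg_zero,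
      add_zero] at h1
    exact h1
  have hw0 : w = 0 := by
    apply hW w hw
    intro w' hw'
    have h1 := h w' (Submodule.mem_sup_right hw')
    rw [map_add, LinearMap.add_apply, horth p hp w' hw', zero_add] at h1
    exact h1
  rw [hp0, hw0, add_zero]

theorem ng_sup_finrank [FiniteDimensional F V] (B : LinearMap.BilinForm F V)
    (hA : ∀ x, B x x = 0) (P W : Submodule F V) (hP : NgNd B P)
    (horth : ∀ p ∈ P, ∀ w ∈ W, B p w = 0) :
    finrank F ↥(P ⊔ W) = finrank F ↥P + finrank F ↥W := by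
  have h := Submodule.finrank_sup_add_finrank_inf_eq P W
  have h0 : P ⊓ W = ⊥ := by
    rw [eq_bot_iff]
    intro w hw
    rw [Submodule.mem_inf] at hw
    rw [Submodule.mem_bot]
    apply hP w hw.1
    intro v hv
    rw [ng_neg B hA, horth v hv w hw.2, neg_zero]
  rw [h0, finrank_bot] at h
  omega

/-- Hyperbolic planes. -/
theorem ng_plane (B : LinearMap.BilinForm F V) (hA : ∀ x, B x x = 0) (u v : V)
    (huv : B u v ≠ 0) :
    NgNd B (Submodule.span F {u, v}) ∧ finrank F ↥(Submodule.span F {u, v}) = 2 := by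
  have hvu : B v u = - B u v := ng_neg B hA v u
  constructor
  · intro x hx h
    obtain ⟨a, b, rfl⟩ := Submodule.mem_span_pair.mp hx
    have h1 := h u (Submodule.subset_span (by simp))
    have h2 := h v (Submodule.subset_span (by simp))
    simp only [map_add, map_smul, LinearMap.add_apply, LinearMap.smul_apply, hA, smul_eq_mul,
      mul_zero, zero_add, add_zero, hvu] at h1 h2
    have hb : b = 0 := by
      rcases mul_eq_zero.mp h1 with h3 | h3
      · exact h3
      · exact absurd (neg_eq_zero.mp h3) huv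
    have ha : a = 0 := by
      rcases mul_eq_zero.mp h2 with h3 | h3
      · exact h3
      · exact absurd h3 huv
    rw [ha, hb, zero_smul, zero_smul, add_zero]
  · have hli : LinearIndependent F ![u, v] := by
      rw [LinearIndependent.pair_iff]
      intro s t hst
      have h1 := congrArg (fun w => B w u) hst
      have h2 := congrArg (fun w => B w v) hst
      simp only [map_add, map_smul, LinearMap.add_apply, LinearMap.smul_apply, hA, smul_eq_mul,
        mul_zero, zero_add, add_zero, hvu, map_zero, LinearMap.zero_apply] at h1 h2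
      constructor
      · rcases mul_eq_zero.mp h2 with h3 | h3
        · exact h3
        · exact absurd h3 huv
      · rcases mul_eq_zero.mp h1 with h3 | h3
        · exact h3
        · exact absurd (neg_eq_zero.mp h3) huv
    have h3 := finrank_span_eq_card hli
    rw [Matrix.range_cons_cons_empty] at h3
    rw [h3]
    rfl

theorem ng_exists_pair (B : LinearMap.BilinForm F V) (U : Submodule F V) (hU : NgNd B U)
    (hne : U ≠ ⊥) : ∃ u ∈ U, ∃ v ∈ U, u ≠ 0 ∧ B u v ≠ 0 := by
  obtain ⟨u, hu, hu0⟩ := (Submodule.ne_bot_iff U).mp hne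
  by_contra hcon
  apply hu0
  apply hU u hu
  intro v hv
  by_contra h
  exact hcon ⟨u, hu, v, hv, hu0, h⟩

theorem ng_span_pair_le (U : Submodule F V) {u v : V} (hu : u ∈ U) (hv : v ∈ U) :
    Submodule.span F {u, v} ≤ U := by
  rw [Submodule.span_le]
  intro x hx
  rcases hx with rfl | rfl
  · exact hu
  · exact hv

/-- Peeling induction: invariant nondegenerate subspaces of dimension `c₀ * n`. -/
theorem ng_peel [FiniteDimensional F V] (B : LinearMap.BilinForm F V) (hA : ∀ x, B x x = 0)
    (Inv : Submodule F V → Prop) (hbot : Inv ⊥)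
    (hsup : ∀ P W, Inv P → Inv W → Inv (P ⊔ W))
    (hperp : ∀ U P, Inv U → Inv P → P ≤ U → Inv (ngPerp B U P))
    (c₀ : ℕ) (hc₀ : 0 < c₀)
    (hex : ∀ U, Inv U → NgNd B U → U ≠ ⊥ → ∃ P, P ≤ U ∧ Inv P ∧ NgNd B P ∧ finrank F ↥P = c₀)
    (U : Submodule F V) (hU : Inv U) (hUn : NgNd B U) :
    ∀ n : ℕ, c₀ * n ≤ finrank F ↥U →
      ∃ W, W ≤ U ∧ Inv W ∧ NgNd B W ∧ finrank F ↥W = c₀ * n := by
  intro n
  induction n with
  | zero =>
    intro _
    exact ⟨⊥, bot_le, hbot, ng_bot B, by rw [finrank_bot, mul_zero]⟩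
  | succ n ih =>
    intro hn
    obtain ⟨W', hW'U, hW'I, hW'n, hW'd⟩ := ih (by rw [mul_add] at hn; omega)
    have hfin := ng_perp_finrank B hA U W' hW'n hW'U
    have hne : ngPerp B U W' ≠ ⊥ := by
      intro h
      rw [h, finrank_bot] at hfin
      rw [mul_add] at hn
      omega
    obtain ⟨P, hPU, hPI, hPn, hPd⟩ := hex _ (hperp U W' hU hW'I hW'U)
      (ng_perp_nd B hA U W' hUn hW'n hW'U) hne
    have horth : ∀ w ∈ W', ∀ p ∈ P, B w p = 0 := fun w hw p hp => (hPU hp).2 w hw
    refine ⟨W' ⊔ P, sup_le hW'U (hPU.trans (ngPerp_le B U W')), hsup _ _ hW'I hPI,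
      ng_sup_nd B hA W' P hW'n hPn horth, ?_⟩
    rw [ng_sup_finrank B hA W' P hW'n horth, hW'd, hPd, mul_add, mul_one]

/-- Nondegenerate subspaces of every even dimension. -/
theorem ng_exists_nd [FiniteDimensional F V] (B : LinearMap.BilinForm F V)
    (hA : ∀ x, B x x = 0) (U : Submodule F V) (hUn : NgNd B U) (n : ℕ)
    (hn : 2 * n ≤ finrank F ↥U) :
    ∃ W, W ≤ U ∧ NgNd B W ∧ finrank F ↥W = 2 * n := by
  obtain ⟨W, h1, -, h2, h3⟩ := ng_peel B hA (fun _ => True) trivial (fun _ _ _ _ => trivial)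
    (fun _ _ _ _ _ => trivial) 2 (by norm_num) (by
      intro U' _ hU'n hne
      obtain ⟨u, hu, v, hv, -, huv⟩ := ng_exists_pair B U' hU'n hne
      exact ⟨Submodule.span F {u, v}, ng_span_pair_le U' hu hv, trivial,
        (ng_plane B hA u v huv).1, (ng_plane B hA u v huv).2⟩) U trivial hUn n hn
  exact ⟨W, h1, h2, h3⟩

/-- Nondegenerate alternating spaces have even dimension. -/
theorem ng_even [FiniteDimensional F V] (B : LinearMap.BilinForm F V) (hA : ∀ x, B x x = 0) :
    ∀ (n : ℕ) (U : Submodule F V), NgNd B U → finrank F ↥U = n → Even n := by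
  intro n
  induction n using Nat.strong_induction_on with
  | _ n ih =>
    intro U hUn hfin
    by_cases hne : U = ⊥
    · rw [hne, finrank_bot] at hfin
      rw [← hfin]
      exact Even.zero
    · obtain ⟨u, hu, v, hv, -, huv⟩ := ng_exists_pair B U hUn hne
      have hP := ng_plane B hA u v huv
      have hPU := ng_span_pair_le U hu hv
      have h1 := ng_perp_finrank B hA U _ hP.1 hPU
      rw [hP.2, hfin] at h1
      have h2 := ih (n - 2) (by omega) _ (ng_perp_nd B hA U _ hUn hP.1 hPU) (by omega)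
      obtain ⟨t, ht⟩ := h2
      exact ⟨t + 1, by omega⟩

/-- Invariance of the orthogonal complement under an injective isometry. -/
theorem ng_perp_map [FiniteDimensional F V] (B : LinearMap.BilinForm F V) (f : V →ₗ[F] V)
    (hf : ∀ x y, B (f x) (f y) = B x y) (hinj : Function.Injective f)
    (U P : Submodule F V) (hU : U.map f ≤ U) (hP : P.map f ≤ P) :
    (ngPerp B U P).map f ≤ ngPerp B U P := by
  have hPmem : ∀ p ∈ P, f p ∈ P := fun p hp => hP (Submodule.mem_map_of_mem hp)
  let g : ↥P →ₗ[F] ↥P := f.restrict hPmem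
  have hginj : Function.Injective g := by
    intro a b hab
    apply Subtype.ext
    apply hinj
    exact congrArg Subtype.val hab
  have hgsurj : Function.Surjective g := LinearMap.injective_iff_surjective.mp hginj
  rintro _ ⟨w, hw, rfl⟩
  refine ⟨hU (Submodule.mem_map_of_mem hw.1), ?_⟩
  intro p hp
  obtain ⟨p', hp'⟩ := hgsurj ⟨p, hp⟩
  have h1 : f (p' : V) = p := congrArg Subtype.val hp'
  rw [← h1, hf]
  exact hw.2 p'.1 p'.2

end NdGeom

end Cfsg.Agent.Lib.Helper99
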