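import Mathlib
import Cfsg.Prelude.Def_GeometricClasses

set_option autoImplicit false

namespace Cfsg.Agent.Lib.Helper99

open Matrix
open scoped Kronecker

section Transport

variable {G H : Type*} [Group G] [Group H]

/-- non-maximality transported along a group isomorphism -/
theorem notMax_transport (φ : G ≃* H) (M I : Subgroup H) (M' : Subgroup G)
    (hM : M'.map φ.toMonoidHom = M)
    (h : ∃ K' : Subgroup G, M' ⊓ I.comap φ.toMonoidHom < K' ∧ K' < I.comap φ.toMonoidHom) :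
    ∃ K : Subgroup H, M ⊓ I < K ∧ K < I := by
  obtain ⟨K', h1, h2⟩ := h
  have hinj : Function.Injective φ.toMonoidHom := φ.injective
  have hI : (I.comap φ.toMonoidHom).map φ.toMonoidHom = I :=
    Subgroup.map_comap_eq_self_of_surjective φ.surjective I
  have hMI : M ⊓ I = (M' ⊓ I.comap φ.toMonoidHom).map φ.toMonoidHom := by
    rw [Subgroup.map_inf_eq _ _ _ hinj, hM, hI]
  refine ⟨K'.map φ.toMonoidHom, ?_, ?_⟩
  · rw [hMI]
    exact (Subgroup.map_lt_map_iff_of_injective hinj).2 h1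
  · have h3 := (Subgroup.map_lt_map_iff_of_injective hinj).2 h2
    rwa [hI] at h3

theorem map_conj_self (K : Subgroup G) {k : G} (hk : k ∈ K) :
    K.map (MulAut.conj k).toMonoidHom = K := by
  ext x
  constructor
  · rintro ⟨y, hy, rfl⟩
    simp only [MulEquiv.coe_toMonoidHom, MulAut.conj_apply]
    exact mul_mem (mul_mem hk hy) (inv_mem hk)
  · intro hx
    exact ⟨k⁻¹ * x * k, mul_mem (mul_mem (inv_mem hk) hx) hk, by simp [mul_assoc]⟩

end Transport

section GLact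

variable {F : Type*} [Field F] {κ : Type} [Fintype κ] [DecidableEq κ]

theorem gl_inv_mulVec (g : Matrix.GeneralLinearGroup κ F) (x : κ → F) :
    ((g⁻¹ : Matrix.GeneralLinearGroup κ F) : Matrix κ κ F) *ᵥ ((g : Matrix κ κ F) *ᵥ x) = x := by
  rw [Matrix.mulVec_mulVec, ← Units.val_mul, inv_mul_cancel, Units.val_one, Matrix.one_mulVec]

theorem gl_mulVec_inv (g : Matrix.GeneralLinearGroup κ F) (x : κ → F) :
    (g : Matrix κ κ F) *ᵥ (((g⁻¹ : Matrix.GeneralLinearGroup κ F) : Matrix κ κ F) *ᵥ x) = x := by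
  rw [Matrix.mulVec_mulVec, ← Units.val_mul, mul_inv_cancel, Units.val_one, Matrix.one_mulVec]

theorem gl_mulVec_injective (g : Matrix.GeneralLinearGroup κ F) :
    Function.Injective (fun x : κ → F => (g : Matrix κ κ F) *ᵥ x) := by
  intro x y h
  have h1 := congrArg (fun z => ((g⁻¹ : Matrix.GeneralLinearGroup κ F) : Matrix κ κ F) *ᵥ z) h
  simpa only [gl_inv_mulVec] using h1

theorem gl_ext {g h : Matrix.GeneralLinearGroup κ F}
    (H : ∀ x : κ → F, (g : Matrix κ κ F) *ᵥ x = (h : Matrix κ κ F) *ᵥ x) : g = h :=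
  Units.ext (Matrix.ext_iff_mulVec.2 H)

end GLact

section Kron

variable {F : Type*} [Field F] {n₁ n₂ : ℕ}

/-- Kronecker product of invertible matrices as an invertible matrix -/
def kronGL (a : Matrix.GeneralLinearGroup (Fin n₁) F) (b : Matrix.GeneralLinearGroup (Fin n₂) F) :
    Matrix.GeneralLinearGroup (Fin n₁ × Fin n₂) F where
  val := (a : Matrix (Fin n₁) (Fin n₁) F) ⊗ₖ (b : Matrix (Fin n₂) (Fin n₂) F)
  inv := ((a⁻¹ : Matrix.GeneralLinearGroup (Fin n₁) F) : Matrix (Fin n₁) (Fin n₁) F) ⊗ₖ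
    ((b⁻¹ : Matrix.GeneralLinearGroup (Fin n₂) F) : Matrix (Fin n₂) (Fin n₂) F)
  val_inv := by
    rw [← Matrix.mul_kronecker_mul, ← Units.val_mul, ← Units.val_mul, mul_inv_cancel,
      mul_inv_cancel]
    simp
  inv_val := by
    rw [← Matrix.mul_kronecker_mul, ← Units.val_mul, ← Units.val_mul, inv_mul_cancel,
      inv_mul_cancel]
    simp

theorem kronGL_val (a : Matrix.GeneralLinearGroup (Fin n₁) F)
    (b : Matrix.GeneralLinearGroup (Fin n₂) F) :
    ((kronGL a b : Matrix.GeneralLinearGroup (Fin n₁ × Fin n₂) F) :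
      Matrix (Fin n₁ × Fin n₂) (Fin n₁ × Fin n₂) F) =
      (a : Matrix (Fin n₁) (Fin n₁) F) ⊗ₖ (b : Matrix (Fin n₂) (Fin n₂) F) := rfl

theorem kronGL_mem (a : Matrix.GeneralLinearGroup (Fin n₁) F)
    (b : Matrix.GeneralLinearGroup (Fin n₂) F) :
    kronGL a b ∈ Cfsg.Geo.kroneckerSubgroup n₁ n₂ F := ⟨a, b, rfl⟩

theorem mem_kron_iff (k : Matrix.GeneralLinearGroup (Fin n₁ × Fin n₂) F) :
    k ∈ Cfsg.Geo.kroneckerSubgroup n₁ n₂ F ↔
      ∃ (a : Matrix.GeneralLinearGroup (Fin n₁) F) (b : Matrix.GeneralLinearGroup (Fin n₂) F),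
        (k : Matrix (Fin n₁ × Fin n₂) (Fin n₁ × Fin n₂) F) =
          (a : Matrix (Fin n₁) (Fin n₁) F) ⊗ₖ (b : Matrix (Fin n₂) (Fin n₂) F) := Iff.rfl

/-- the pure tensor `v ⊗ u` in coordinates -/
def tens (v : Fin n₁ → F) (u : Fin n₂ → F) : Fin n₁ × Fin n₂ → F := fun p => v p.1 * u p.2

theorem kron_mulVec_tens (A : Matrix (Fin n₁) (Fin n₁) F) (B : Matrix (Fin n₂) (Fin n₂) F)
    (v : Fin n₁ → F) (u : Fin n₂ → F) :
    (A ⊗ₖ B) *ᵥ tens v u = tens (A *ᵥ v) (B *ᵥ u) := by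
  ext p
  simp only [Matrix.mulVec, dotProduct, tens, Matrix.kroneckerMap_apply, Fintype.sum_prod_type,
    Finset.sum_mul, Finset.mul_sum]
  rw [Finset.sum_comm]
  apply Finset.sum_congr rfl
  intro j _
  apply Finset.sum_congr rfl
  intro i _
  ring

theorem single_eq_tens (p : Fin n₁ × Fin n₂) :
    (Pi.single p (1 : F) : Fin n₁ × Fin n₂ → F) = tens (Pi.single p.1 1) (Pi.single p.2 1) := by
  ext q
  by_cases h : q = p
  · subst h
    simp [tens]
  · rw [Pi.single_eq_of_ne h]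
    by_cases h1 : q.1 = p.1
    · have h2 : q.2 ≠ p.2 := fun h2 => h (Prod.ext h1 h2)
      simp [tens, Pi.single_eq_of_ne h2]
    · simp [tens, Pi.single_eq_of_ne h1]

end Kron

section TensorTransport

variable {F : Type*} [Field F] {ι : Type} [Fintype ι] [DecidableEq ι] {n₁ n₂ : ℕ}

/-- the isomorphism `GL (Fin n₁ × Fin n₂) F ≃* GL ι F` attached to `e` and `P` -/
def tnPhi (e : ι ≃ Fin n₁ × Fin n₂) (P : Matrix.GeneralLinearGroup ι F) :
    Matrix.GeneralLinearGroup (Fin n₁ × Fin n₂) F ≃* Matrix.GeneralLinearGroup ι F :=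
  (Cfsg.Geo.glReindex e.symm).trans (MulAut.conj P)

theorem tensorProductSubgroup_eq_map (e : ι ≃ Fin n₁ × Fin n₂) (P : Matrix.GeneralLinearGroup ι F) :
    Cfsg.Geo.tensorProductSubgroup n₁ n₂ e P =
      (Cfsg.Geo.kroneckerSubgroup n₁ n₂ F).map (tnPhi e P).toMonoidHom := by
  unfold Cfsg.Geo.tensorProductSubgroup
  rw [Subgroup.map_map]
  rfl

/-- the transport of coordinate vectors -/
def tnT (e : ι ≃ Fin n₁ × Fin n₂) (P : Matrix.GeneralLinearGroup ι F)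
    (x : Fin n₁ × Fin n₂ → F) : ι → F := (P : Matrix ι ι F) *ᵥ (x ∘ e)

theorem tnT_add (e : ι ≃ Fin n₁ × Fin n₂) (P : Matrix.GeneralLinearGroup ι F)
    (x y : Fin n₁ × Fin n₂ → F) : tnT e P (x + y) = tnT e P x + tnT e P y := by
  unfold tnT
  rw [← Matrix.mulVec_add]
  rfl

theorem tnT_smul (e : ι ≃ Fin n₁ × Fin n₂) (P : Matrix.GeneralLinearGroup ι F) (c : F)
    (x : Fin n₁ × Fin n₂ → F) : tnT e P (c • x) = c • tnT e P x := by
  unfold tnT
  rw [← Matrix.mulVec_smul]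
  rfl

theorem tnT_injective (e : ι ≃ Fin n₁ × Fin n₂) (P : Matrix.GeneralLinearGroup ι F) :
    Function.Injective (tnT e P) := by
  intro x y h
  have h1 : x ∘ e = y ∘ e := gl_mulVec_injective P h
  funext p
  have h2 := congrFun h1 (e.symm p)
  simpa using h2

theorem tnT_surjective (e : ι ≃ Fin n₁ × Fin n₂) (P : Matrix.GeneralLinearGroup ι F) :
    Function.Surjective (tnT e P) := by
  intro y
  refine ⟨(((P⁻¹ : Matrix.GeneralLinearGroup ι F) : Matrix ι ι F) *ᵥ y) ∘ e.symm, ?_⟩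
  unfold tnT
  have : ((((P⁻¹ : Matrix.GeneralLinearGroup ι F) : Matrix ι ι F) *ᵥ y) ∘ e.symm) ∘ e =
      ((P⁻¹ : Matrix.GeneralLinearGroup ι F) : Matrix ι ι F) *ᵥ y := by
    funext i
    simp
  rw [this, gl_mulVec_inv]

theorem tnPhi_mulVec (e : ι ≃ Fin n₁ × Fin n₂) (P : Matrix.GeneralLinearGroup ι F)
    (k : Matrix.GeneralLinearGroup (Fin n₁ × Fin n₂) F) (x : Fin n₁ × Fin n₂ → F) :
    ((tnPhi e P k : Matrix.GeneralLinearGroup ι F) : Matrix ι ι F) *ᵥ tnT e P x =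
      tnT e P ((k : Matrix (Fin n₁ × Fin n₂) (Fin n₁ × Fin n₂) F) *ᵥ x) := by
  have hR : ((Cfsg.Geo.glReindex e.symm k : Matrix.GeneralLinearGroup ι F) : Matrix ι ι F) =
      (k : Matrix (Fin n₁ × Fin n₂) (Fin n₁ × Fin n₂) F).submatrix e e := rfl
  have h1 : ((tnPhi e P k : Matrix.GeneralLinearGroup ι F) : Matrix ι ι F) =
      (P : Matrix ι ι F) * (k : Matrix (Fin n₁ × Fin n₂) (Fin n₁ × Fin n₂) F).submatrix e e *
        ((P⁻¹ : Matrix.GeneralLinearGroup ι F) : Matrix ι ι F) := by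
    rw [← hR]
    rfl
  rw [h1]
  unfold tnT
  rw [Matrix.mulVec_mulVec, Matrix.mul_assoc, Matrix.mul_assoc, ← Units.val_mul, inv_mul_cancel,
    Units.val_one, Matrix.mul_one, ← Matrix.mulVec_mulVec, Matrix.submatrix_mulVec_equiv]
  have h2 : (x ∘ e) ∘ e.symm = x := by
    funext p
    simp
  rw [h2]

/-- the isomorphism twisted by an inner automorphism -/
def tnPhi' (e : ι ≃ Fin n₁ × Fin n₂) (P : Matrix.GeneralLinearGroup ι F)
    (k₀ : Matrix.GeneralLinearGroup (Fin n₁ × Fin n₂) F) :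
    Matrix.GeneralLinearGroup (Fin n₁ × Fin n₂) F ≃* Matrix.GeneralLinearGroup ι F :=
  (MulAut.conj k₀).trans (tnPhi e P)

/-- the twisted transport of coordinate vectors -/
def tnT' (e : ι ≃ Fin n₁ × Fin n₂) (P : Matrix.GeneralLinearGroup ι F)
    (k₀ : Matrix.GeneralLinearGroup (Fin n₁ × Fin n₂) F) (x : Fin n₁ × Fin n₂ → F) : ι → F :=
  tnT e P ((k₀ : Matrix (Fin n₁ × Fin n₂) (Fin n₁ × Fin n₂) F) *ᵥ x)

theorem tnT'_add (e : ι ≃ Fin n₁ × Fin n₂) (P : Matrix.GeneralLinearGroup ι F)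
    (k₀ : Matrix.GeneralLinearGroup (Fin n₁ × Fin n₂) F) (x y : Fin n₁ × Fin n₂ → F) :
    tnT' e P k₀ (x + y) = tnT' e P k₀ x + tnT' e P k₀ y := by
  unfold tnT'
  rw [Matrix.mulVec_add, tnT_add]

theorem tnT'_smul (e : ι ≃ Fin n₁ × Fin n₂) (P : Matrix.GeneralLinearGroup ι F)
    (k₀ : Matrix.GeneralLinearGroup (Fin n₁ × Fin n₂) F) (c : F) (x : Fin n₁ × Fin n₂ → F) :
    tnT' e P k₀ (c • x) = c • tnT' e P k₀ x := by
  unfold tnT'
  rw [Matrix.mulVec_smul, tnT_smul]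

theorem tnT'_injective (e : ι ≃ Fin n₁ × Fin n₂) (P : Matrix.GeneralLinearGroup ι F)
    (k₀ : Matrix.GeneralLinearGroup (Fin n₁ × Fin n₂) F) : Function.Injective (tnT' e P k₀) :=
  (tnT_injective e P).comp (gl_mulVec_injective k₀)

theorem tnT'_surjective (e : ι ≃ Fin n₁ × Fin n₂) (P : Matrix.GeneralLinearGroup ι F)
    (k₀ : Matrix.GeneralLinearGroup (Fin n₁ × Fin n₂) F) : Function.Surjective (tnT' e P k₀) := by
  intro y
  obtain ⟨x, hx⟩ := tnT_surjective e P y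
  refine ⟨((k₀⁻¹ : Matrix.GeneralLinearGroup (Fin n₁ × Fin n₂) F) :
    Matrix (Fin n₁ × Fin n₂) (Fin n₁ × Fin n₂) F) *ᵥ x, ?_⟩
  unfold tnT'
  rw [gl_mulVec_inv, hx]

theorem tnPhi'_mulVec (e : ι ≃ Fin n₁ × Fin n₂) (P : Matrix.GeneralLinearGroup ι F)
    (k₀ k : Matrix.GeneralLinearGroup (Fin n₁ × Fin n₂) F) (x : Fin n₁ × Fin n₂ → F) :
    ((tnPhi' e P k₀ k : Matrix.GeneralLinearGroup ι F) : Matrix ι ι F) *ᵥ tnT' e P k₀ x =
      tnT' e P k₀ ((k : Matrix (Fin n₁ × Fin n₂) (Fin n₁ × Fin n₂) F) *ᵥ x) := by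
  have h1 : tnPhi' e P k₀ k = tnPhi e P (k₀ * k * k₀⁻¹) := rfl
  rw [h1]
  unfold tnT'
  rw [tnPhi_mulVec]
  congr 1
  rw [Units.val_mul, Units.val_mul, ← Matrix.mulVec_mulVec, ← Matrix.mulVec_mulVec, gl_inv_mulVec]

theorem tensorProductSubgroup_eq_map' (e : ι ≃ Fin n₁ × Fin n₂)
    (P : Matrix.GeneralLinearGroup ι F) {k₀ : Matrix.GeneralLinearGroup (Fin n₁ × Fin n₂) F}
    (hk₀ : k₀ ∈ Cfsg.Geo.kroneckerSubgroup n₁ n₂ F) :
    (Cfsg.Geo.kroneckerSubgroup n₁ n₂ F).map (tnPhi' e P k₀).toMonoidHom =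
      Cfsg.Geo.tensorProductSubgroup n₁ n₂ e P := by
  rw [tensorProductSubgroup_eq_map]
  conv_rhs => rw [← map_conj_self _ hk₀]
  rw [Subgroup.map_map]
  rfl

end TensorTransport

section Fog

variable {F : Type*} [Field F] {κ : Type} [Fintype κ]

theorem fog_eq_dot (σ : F → F) (G : Matrix κ κ F) (x y : κ → F) :
    Cfsg.Geo.formOfGram σ G x y = x ⬝ᵥ (G *ᵥ (σ ∘ y)) := by
  unfold Cfsg.Geo.formOfGram
  simp only [dotProduct, Matrix.mulVec, Finset.mul_sum, Function.comp]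
  apply Finset.sum_congr rfl
  intro a _
  apply Finset.sum_congr rfl
  intro b _
  ring

theorem fog_add_left (σ : F → F) (G : Matrix κ κ F) (x x' y : κ → F) :
    Cfsg.Geo.formOfGram σ G (x + x') y =
      Cfsg.Geo.formOfGram σ G x y + Cfsg.Geo.formOfGram σ G x' y := by
  rw [fog_eq_dot, fog_eq_dot, fog_eq_dot, add_dotProduct]

theorem fog_smul_left (σ : F → F) (G : Matrix κ κ F) (c : F) (x y : κ → F) :
    Cfsg.Geo.formOfGram σ G (c • x) y = c * Cfsg.Geo.formOfGram σ G x y := by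
  rw [fog_eq_dot, fog_eq_dot, smul_dotProduct, smul_eq_mul]

theorem fog_smul_mat (σ : F → F) (d : F) (G : Matrix κ κ F) (x y : κ → F) :
    Cfsg.Geo.formOfGram σ (d • G) x y = d * Cfsg.Geo.formOfGram σ G x y := by
  rw [fog_eq_dot, fog_eq_dot, Matrix.smul_mulVec, dotProduct_smul, smul_eq_mul]

theorem fog_single_right [DecidableEq κ] (σ : F →+* F) (G : Matrix κ κ F) (x : κ → F) (q : κ) :
    Cfsg.Geo.formOfGram σ G x (Pi.single q 1) = ∑ a, x a * G a q := by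
  unfold Cfsg.Geo.formOfGram
  apply Finset.sum_congr rfl
  intro a _
  rw [Finset.sum_eq_single q]
  · simp
  · intro b _ hb
    simp [Pi.single_eq_of_ne hb]
  · intro h
    exact absurd (Finset.mem_univ q) h

theorem fog_single_single [DecidableEq κ] (σ : F →+* F) (G : Matrix κ κ F) (p q : κ) :
    Cfsg.Geo.formOfGram σ G (Pi.single p 1) (Pi.single q 1) = G p q := by
  rw [fog_single_right, Finset.sum_eq_single p]
  · simp
  · intro b _ hb
    simp [Pi.single_eq_of_ne hb]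
  · intro h
    exact absurd (Finset.mem_univ p) h

theorem fog_one [DecidableEq κ] (σ : F → F) (x y : κ → F) :
    Cfsg.Geo.formOfGram σ (1 : Matrix κ κ F) x y = ∑ a, x a * σ (y a) := by
  unfold Cfsg.Geo.formOfGram
  apply Finset.sum_congr rfl
  intro a _
  rw [Finset.sum_eq_single a]
  · simp
  · intro b _ hb
    simp [Matrix.one_apply_ne' hb]
  · intro h
    exact absurd (Finset.mem_univ a) h

theorem fog_map (σ : F →+* F) (G M : Matrix κ κ F) (x y : κ → F) :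
    Cfsg.Geo.formOfGram σ G (M *ᵥ x) (M *ᵥ y) =
      Cfsg.Geo.formOfGram σ (Mᵀ * G * M.map σ) x y := by
  rw [fog_eq_dot, fog_eq_dot]
  have h1 : (σ : F → F) ∘ (M *ᵥ y) = M.map σ *ᵥ ((σ : F → F) ∘ y) := by
    funext i
    exact RingHom.map_mulVec σ M y i
  rw [h1, ← Matrix.vecMul_transpose, ← Matrix.dotProduct_mulVec, Matrix.mulVec_mulVec,
    Matrix.mulVec_mulVec, Matrix.mul_assoc]

/-- a bilinear form is the form of its Gram matrix -/
theorem form_eq_fog [DecidableEq κ] {f : (κ → F) → (κ → F) → F}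
    (hb : Cfsg.Geo.IsBilinearForm f) (x y : κ → F) :
    f x y = Cfsg.Geo.formOfGram id (Cfsg.Geo.gramMatrix f) x y := by
  set B : LinearMap.BilinForm F (κ → F) :=
    LinearMap.mk₂ F f hb.add_left hb.smul_left hb.add_right hb.smul_right with hB
  have h1 : f x y = B x y := rfl
  rw [h1, ← Matrix.toBilin'_toMatrix' B, Matrix.toBilin'_apply]
  unfold Cfsg.Geo.formOfGram
  apply Finset.sum_congr rfl
  intro a _
  apply Finset.sum_congr rfl
  intro b _
  rw [LinearMap.BilinForm.toMatrix'_apply]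
  rfl

end Fog

section FogTens

variable {F : Type*} [Field F] {n₁ n₂ : ℕ}

theorem fog_tens (σ : F →+* F) (G₁ : Matrix (Fin n₁) (Fin n₁) F) (G₂ : Matrix (Fin n₂) (Fin n₂) F)
    (v v' : Fin n₁ → F) (u u' : Fin n₂ → F) :
    Cfsg.Geo.formOfGram σ (G₁ ⊗ₖ G₂) (tens v u) (tens v' u') =
      Cfsg.Geo.formOfGram σ G₁ v v' * Cfsg.Geo.formOfGram σ G₂ u u' := by
  unfold Cfsg.Geo.formOfGram
  simp only [Fintype.sum_prod_type, tens, Matrix.kroneckerMap_apply, map_mul]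
  simp only [Finset.sum_mul]
  simp only [Finset.mul_sum]
  apply Finset.sum_congr rfl
  intro a₁ _
  rw [Finset.sum_comm]
  apply Finset.sum_congr rfl
  intro b₁ _
  apply Finset.sum_congr rfl
  intro a₂ _
  apply Finset.sum_congr rfl
  intro b₂ _
  ring

end FogTens

section Fib

variable {F : Type*} [Field F] {κ : Type} [Fintype κ] [DecidableEq κ] {J : Type}

/-- vectors supported on the fibre of `π` over `j` -/
def fibSupp (π : κ → J) (j : J) : Set (κ → F) := {x | ∀ p, π p ≠ j → x p = 0}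

theorem fibSupp_add {π : κ → J} {j : J} {x y : κ → F} (hx : x ∈ fibSupp π j)
    (hy : y ∈ fibSupp π j) : x + y ∈ fibSupp π j := by
  intro p hp
  rw [Pi.add_apply, hx p hp, hy p hp, add_zero]

theorem fibSupp_smul {π : κ → J} {j : J} (c : F) {x : κ → F} (hx : x ∈ fibSupp π j) :
    c • x ∈ fibSupp π j := by
  intro p hp
  rw [Pi.smul_apply, hx p hp, smul_zero]

theorem fibSupp_single (π : κ → J) (p : κ) (c : F) :
    (Pi.single p c : κ → F) ∈ fibSupp π (π p) := by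
  intro q hq
  have : q ≠ p := fun h => hq (h ▸ rfl)
  rw [Pi.single_eq_of_ne this]

variable (F) in
/-- the invertible matrices permuting the fibre-support subspaces -/
def fibStab (π : κ → J) : Subgroup (Matrix.GeneralLinearGroup κ F) where
  carrier := {k | ∃ σ : Equiv.Perm J, ∀ (j : J) (x : κ → F),
    x ∈ fibSupp π j ↔ (k : Matrix κ κ F) *ᵥ x ∈ fibSupp π (σ j)}
  one_mem' := ⟨1, fun j x => by simp⟩
  mul_mem' := by
    rintro a b ⟨σ, hσ⟩ ⟨τ, hτ⟩
    refine ⟨σ * τ, fun j x => ?_⟩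
    rw [Units.val_mul, ← Matrix.mulVec_mulVec, hτ j x, hσ (τ j)]
    rfl
  inv_mem' := by
    rintro a ⟨σ, hσ⟩
    refine ⟨σ⁻¹, fun j x => ?_⟩
    rw [hσ (σ⁻¹ j), gl_mulVec_inv]
    simp

theorem mem_fibStab_iff (π : κ → J) (k : Matrix.GeneralLinearGroup κ F) :
    k ∈ fibStab F π ↔ ∃ σ : Equiv.Perm J, ∀ (j : J) (x : κ → F),
      x ∈ fibSupp π j ↔ (k : Matrix κ κ F) *ᵥ x ∈ fibSupp π (σ j) := Iff.rfl

end Fib

section KronFib

variable {F : Type*} [Field F] {n₁ n₂ : ℕ}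

theorem kron_fib_snd (A : Matrix (Fin n₁) (Fin n₁) F) (B : Matrix (Fin n₂) (Fin n₂) F)
    (τ : Fin n₂ → Fin n₂) (hτ : ∀ i j, i ≠ τ j → B i j = 0) {j : Fin n₂}
    {x : Fin n₁ × Fin n₂ → F} (hx : x ∈ fibSupp (Prod.snd : Fin n₁ × Fin n₂ → Fin n₂) j) :
    (A ⊗ₖ B) *ᵥ x ∈ fibSupp (Prod.snd : Fin n₁ × Fin n₂ → Fin n₂) (τ j) := by
  intro p hp
  simp only [Matrix.mulVec, dotProduct]
  apply Finset.sum_eq_zero
  intro q _
  rw [Matrix.kroneckerMap_apply]
  by_cases hq : q.2 = j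
  · rw [hτ p.2 q.2 (by rw [hq]; exact hp), mul_zero, zero_mul]
  · rw [hx q hq, mul_zero]

theorem kron_fib_fst (A : Matrix (Fin n₁) (Fin n₁) F) (B : Matrix (Fin n₂) (Fin n₂) F)
    (τ : Fin n₁ → Fin n₁) (hτ : ∀ i j, i ≠ τ j → A i j = 0) {j : Fin n₁}
    {x : Fin n₁ × Fin n₂ → F} (hx : x ∈ fibSupp (Prod.fst : Fin n₁ × Fin n₂ → Fin n₁) j) :
    (A ⊗ₖ B) *ᵥ x ∈ fibSupp (Prod.fst : Fin n₁ × Fin n₂ → Fin n₁) (τ j) := by
  intro p hp
  simp only [Matrix.mulVec, dotProduct]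
  apply Finset.sum_eq_zero
  intro q _
  rw [Matrix.kroneckerMap_apply]
  by_cases hq : q.1 = j
  · rw [hτ p.1 q.1 (by rw [hq]; exact hp), zero_mul, zero_mul]
  · rw [hx q hq, mul_zero]

end KronFib

end Cfsg.Agent.Lib.Helper99
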