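import Mathlib
import Cfsg.Prelude.Def_RootSubgroups
import Cfsg.Agent.Lib.Helper99.RootGrp2

set_option autoImplicit false

namespace Cfsg.Agent.Lib.Helper99

section SubOf

variable {G : Type*} [Group G]

theorem mem_conjBy_iff (A : Subgroup G) (g x : G) : x ∈ Cfsg.conjBy A g ↔ g⁻¹ * x * g ∈ A := by
  constructor
  · rintro ⟨y, hy, rfl⟩
    have : g⁻¹ * (MulAut.conj g).toMonoidHom y * g = y := by
      simp [mul_assoc]
    rw [this]
    exact hy
  · intro h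
    refine ⟨g⁻¹ * x * g, h, ?_⟩
    simp [mul_assoc]

theorem conjBy_one' (A : Subgroup G) : Cfsg.conjBy A 1 = A := by
  ext x
  rw [mem_conjBy_iff]
  simp

theorem conjBy_le {A H : Subgroup G} (hA : A ≤ H) {g : G} (hg : g ∈ H) : Cfsg.conjBy A g ≤ H := by
  intro x hx
  rw [mem_conjBy_iff] at hx
  have h1 : x = g * (g⁻¹ * x * g) * g⁻¹ := by group
  rw [h1]
  exact mul_mem (mul_mem hg (hA hx)) (inv_mem hg)

theorem conjBy_subgroupOf (A H : Subgroup G) (g : H) :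
    Cfsg.conjBy (A.subgroupOf H) g = (Cfsg.conjBy A (g : G)).subgroupOf H := by
  ext x
  rw [mem_conjBy_iff, Subgroup.mem_subgroupOf, Subgroup.mem_subgroupOf, mem_conjBy_iff]
  simp

theorem subgroupOf_isMulCommutative {A : Subgroup G} (H : Subgroup G) (h : IsMulCommutative A) :
    IsMulCommutative (A.subgroupOf H) := by
  refine ⟨⟨fun a b => ?_⟩⟩
  apply Subtype.ext
  apply Subtype.ext
  have h1 : (⟨a.1.1, a.2⟩ : A) * ⟨b.1.1, b.2⟩ = ⟨b.1.1, b.2⟩ * ⟨a.1.1, a.2⟩ :=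
    h.is_comm.comm ⟨a.1.1, a.2⟩ ⟨b.1.1, b.2⟩
  have h2 : a.1.1 * b.1.1 = b.1.1 * a.1.1 := congrArg Subtype.val h1
  exact h2

theorem isNilpotent_of_isMulCommutative {K : Type*} [Group K] (h : IsMulCommutative K) :
    Group.IsNilpotent K := by
  let _ : CommGroup K :=
    { (inferInstance : Group K) with mul_comm := h.is_comm.comm }
  exact CommGroup.isNilpotent

theorem subgroupOf_ne_bot {A H : Subgroup G} (hA : A ≤ H) (h : A ≠ ⊥) : A.subgroupOf H ≠ ⊥ := by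
  intro h0
  apply h
  rw [Subgroup.eq_bot_iff_forall]
  intro x hx
  have h1 : (⟨x, hA hx⟩ : H) ∈ A.subgroupOf H := hx
  rw [h0, Subgroup.mem_bot] at h1
  exact congrArg Subtype.val h1

theorem le_biSup_mem {S : Set (Subgroup G)} {A : Subgroup G} (hA : A ∈ S) : A ≤ ⨆ B ∈ S, B :=
  le_iSup₂ (f := fun (B : Subgroup G) (_ : B ∈ S) => B) A hA

theorem iSup_subgroupOf_eq_top (S : Set (Subgroup G)) (H : Subgroup G) (hH : H ≤ ⨆ B ∈ S, B)
    (hle : ∀ A ∈ S, A ≤ H) :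
    (⨆ A' ∈ (fun A : Subgroup G => A.subgroupOf H) '' S, A') = ⊤ := by
  have key : (⨆ B ∈ S, B) ≤
      (⨆ A' ∈ (fun A : Subgroup G => A.subgroupOf H) '' S, A').map H.subtype := by
    apply iSup₂_le
    intro A hA x hx
    refine ⟨⟨x, hle A hA hx⟩, ?_, rfl⟩
    have hle2 : A.subgroupOf H ≤ ⨆ A' ∈ (fun A : Subgroup G => A.subgroupOf H) '' S, A' :=
      le_biSup_mem ⟨A, hA, rfl⟩
    exact hle2 hx
  rw [eq_top_iff]
  intro x _
  obtain ⟨y, hy, hxy⟩ := key (hH x.2)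
  have : y = x := Subtype.ext hxy
  rw [← this]
  exact hy

theorem subgroupOf_commutator_eq_bot {A B : Subgroup G} (H : Subgroup G) (h : ⁅A, B⁆ = ⊥) :
    ⁅A.subgroupOf H, B.subgroupOf H⁆ = ⊥ := by
  rw [Subgroup.commutator_eq_bot_iff_le_centralizer] at h ⊢
  intro a ha
  rw [Subgroup.mem_centralizer_iff]
  intro b hb
  have h1 := h ha
  rw [Subgroup.mem_centralizer_iff] at h1
  exact Subtype.ext (h1 b.1 hb)

theorem subgroupOf_rankOneCond {A B H : Subgroup G} (hB : B ≤ H)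
    (h : Cfsg.RankOneCondition A B) :
    Cfsg.RankOneCondition (A.subgroupOf H) (B.subgroupOf H) := by
  intro a ha ha1
  obtain ⟨b, hb, hb1, hconj⟩ := h a.1 ha (fun h1 => ha1 (Subtype.ext h1))
  refine ⟨⟨b, hB hb⟩, hb, fun h1 => hb1 (congrArg Subtype.val h1), ?_⟩
  rw [conjBy_subgroupOf, conjBy_subgroupOf]
  simp only [InvMemClass.coe_inv]
  rw [hconj]

theorem subgroupOf_rankOne {A B H : Subgroup G} (hA : A ≤ H) (hB : B ≤ H)
    (hcA : IsMulCommutative A) (hcB : IsMulCommutative B) (h : Cfsg.IsRankOnePair A B) :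
    Cfsg.IsRankOnePair (A.subgroupOf H) (B.subgroupOf H) := by
  refine ⟨?_, isNilpotent_of_isMulCommutative (subgroupOf_isMulCommutative H hcA),
    isNilpotent_of_isMulCommutative (subgroupOf_isMulCommutative H hcB),
    subgroupOf_rankOneCond hB h.cond_left, subgroupOf_rankOneCond hA h.cond_right⟩
  intro he
  apply h.ne
  rw [Subgroup.subgroupOf_inj] at he
  rwa [inf_eq_left.2 hA, inf_eq_left.2 hB] at he

theorem rankOneCond_of_subgroupOf {A B H : Subgroup G} (hA : A ≤ H) (hB : B ≤ H)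
    (h : Cfsg.RankOneCondition (A.subgroupOf H) (B.subgroupOf H)) :
    Cfsg.RankOneCondition A B := by
  intro a ha ha1
  obtain ⟨b, hb, hb1, hconj⟩ := h ⟨a, hA ha⟩ ha (fun h1 => ha1 (congrArg Subtype.val h1))
  refine ⟨b.1, hb, fun h1 => hb1 (Subtype.ext h1), ?_⟩
  rw [conjBy_subgroupOf, conjBy_subgroupOf, Subgroup.subgroupOf_inj] at hconj
  have h1 : Cfsg.conjBy A ((b⁻¹ : H) : G) ≤ H := conjBy_le hA (b⁻¹).2
  have h2 : Cfsg.conjBy B (((⟨a, hA ha⟩ : H)⁻¹ : H) : G) ≤ H := conjBy_le hB (⟨a, hA ha⟩⁻¹ : H).2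
  rw [inf_eq_left.2 h1, inf_eq_left.2 h2] at hconj
  exact hconj

theorem rankOne_of_subgroupOf {A B H : Subgroup G} (hA : A ≤ H) (hB : B ≤ H)
    (hcA : IsMulCommutative A) (hcB : IsMulCommutative B)
    (h : Cfsg.IsRankOnePair (A.subgroupOf H) (B.subgroupOf H)) : Cfsg.IsRankOnePair A B := by
  refine ⟨?_, isNilpotent_of_isMulCommutative hcA, isNilpotent_of_isMulCommutative hcB,
    rankOneCond_of_subgroupOf hA hB h.cond_left, rankOneCond_of_subgroupOf hB hA h.cond_right⟩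
  intro he
  apply h.ne
  rw [he]

theorem rankOne_conj {A B : Subgroup G} (hA : A ≠ ⊥) (h : Cfsg.IsRankOnePair A B) :
    ∃ g : G, B = Cfsg.conjBy A g := by
  obtain ⟨a, ha, ha1⟩ : ∃ a ∈ A, a ≠ 1 := by
    by_contra hcon
    push Not at hcon
    exact hA ((Subgroup.eq_bot_iff_forall A).2 hcon)
  obtain ⟨b, hb, hb1, hconj⟩ := h.cond_left a ha ha1
  refine ⟨a * b⁻¹, ?_⟩
  rw [← conjBy_conjBy, hconj, conjBy_conjBy, mul_inv_cancel, conjBy_one']

theorem isConjClass_of_connected {S : Set (Subgroup G)} (hne : S.Nonempty)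
    (hbot : ∀ A ∈ S, A ≠ ⊥) (hconn : Cfsg.IsConnectedFamily (Cfsg.FAdj S) S) :
    Cfsg.IsConjClassOfSubgroups S := by
  refine ⟨hne, fun A hA B hB => ?_⟩
  have hpath := hconn A hA B hB
  clear hB
  induction hpath with
  | refl => exact ⟨1, (conjBy_one' A).symm⟩
  | tail _ hbc ih =>
    obtain ⟨g, hg⟩ := ih
    obtain ⟨g', hg'⟩ := rankOne_conj (hbot _ hbc.1) hbc.2.2
    exact ⟨g' * g, by rw [hg', hg, conjBy_conjBy]⟩

theorem psl2_subgroupOf {k : Type*} [Field k] {A B H : Subgroup G} (hA : A ≤ H) (hB : B ≤ H)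
    (h : Cfsg.IsPSL2PairOver k A B) :
    Cfsg.IsPSL2PairOver k (A.subgroupOf H) (B.subgroupOf H) := by
  obtain ⟨φ, hrange, hker, hup, hlow⟩ := h
  have hmem : ∀ x, φ x ∈ H := by
    intro x
    have h1 : φ x ∈ φ.range := ⟨x, rfl⟩
    rw [hrange] at h1
    exact (sup_le hA hB) h1
  have hmap : ∀ K : Subgroup (Matrix.SpecialLinearGroup (Fin 2) k),
      K.map (φ.codRestrict H hmem) = (K.map φ).subgroupOf H := by
    intro K
    ext x
    rw [Subgroup.mem_subgroupOf]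
    constructor
    · rintro ⟨y, hy, rfl⟩
      exact ⟨y, hy, rfl⟩
    · rintro ⟨y, hy, hyx⟩
      exact ⟨y, hy, Subtype.ext hyx⟩
  refine ⟨φ.codRestrict H hmem, ?_, ?_, ?_, ?_⟩
  · rw [MonoidHom.range_eq_map, ← sl2_top, Subgroup.map_sup, hmap, hmap, hup, hlow]
  · rw [MonoidHom.ker_codRestrict]
    exact hker
  · rw [hmap, hup]
  · rw [hmap, hlow]

theorem comm_of_central {A B : Subgroup G}
    (hcent : ∀ c ∈ ⁅A, B⁆, ∀ x ∈ A ⊔ B, c * x = x * c) {a b : G} (ha : a ∈ A) (hb : b ∈ B) :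
    a * (b * a * b⁻¹) = (b * a * b⁻¹) * a := by
  have hc : a * b * a⁻¹ * b⁻¹ ∈ ⁅A, B⁆ := by
    rw [← commutatorElement_def]
    exact Subgroup.commutator_mem_commutator ha hb
  have hx : a ∈ A ⊔ B := (le_sup_left : A ≤ A ⊔ B) ha
  have h1 := hcent _ hc _ hx
  have e1 : b * a * b⁻¹ = (a * b * a⁻¹ * b⁻¹)⁻¹ * a := by group
  rw [e1]
  generalize a * b * a⁻¹ * b⁻¹ = c at h1
  have h3 : c⁻¹ * a = a * c⁻¹ := (show Commute c a from h1).inv_left.eq
  rw [← mul_assoc, ← h3]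

theorem comm_of_central_subgroupOf {A B H : Subgroup G} (hA : A ≤ H) (hB : B ≤ H)
    (hcent : ∀ c ∈ ⁅A.subgroupOf H, B.subgroupOf H⁆,
      ∀ x ∈ A.subgroupOf H ⊔ B.subgroupOf H, c * x = x * c) {a b : G} (ha : a ∈ A) (hb : b ∈ B) :
    a * (b * a * b⁻¹) = (b * a * b⁻¹) * a := by
  have h1 := comm_of_central hcent (a := ⟨a, hA ha⟩) (b := ⟨b, hB hb⟩) ha hb
  exact congrArg Subtype.val h1

end SubOf

end Cfsg.Agent.Lib.Helper99
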