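import Mathlib
import Cfsg.Prelude.Def_JordanBlocks
import Cfsg.Agent.Lib.Helper99.AltBasis
import Cfsg.Agent.Lib.Helper40.Jordan

set_option autoImplicit false

namespace Cfsg.Agent.Lib.Helper99

open Module Cfsg.Agent.Lib.Helper40

section JTParity

variable {F V : Type*} [Field F] [AddCommGroup V] [Module F V]

/-- Rank-nullity on a subspace. -/
theorem jt_finrank_map [FiniteDimensional F V] {V' : Type*} [AddCommGroup V'] [Module F V']
    (f : V →ₗ[F] V') (p : Submodule F V) :
    finrank F p = finrank F (p.map f) + finrank F ↥(p ⊓ LinearMap.ker f) := by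
  have h := LinearMap.finrank_range_add_finrank_ker (f.domRestrict p)
  rw [LinearMap.range_domRestrict] at h
  have e : Submodule.map p.subtype (LinearMap.ker (f.domRestrict p)) = p ⊓ LinearMap.ker f := by
    ext x
    simp only [Submodule.mem_map, LinearMap.mem_ker, Submodule.mem_inf, Submodule.subtype_apply,
      LinearMap.domRestrict_apply]
    constructor
    · rintro ⟨y, hy, rfl⟩
      exact ⟨y.2, hy⟩
    · rintro ⟨hx, hfx⟩
      exact ⟨⟨x, hx⟩, hfx, rfl⟩
  have h2 : finrank F (LinearMap.ker (f.domRestrict p)) = finrank F ↥(p ⊓ LinearMap.ker f) := by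
    rw [← Submodule.finrank_map_subtype_eq p (LinearMap.ker (f.domRestrict p)), e]
  omega

/-- An alternating form has even rank. -/
theorem jt_even_rank [FiniteDimensional F V] (β : LinearMap.BilinForm F V) (hβ : β.IsAlt) :
    ∃ c : ℕ, finrank F V = finrank F (LinearMap.ker β) + 2 * c := by
  obtain ⟨m, k, b, h1, h2, h3, h4⟩ := alt_basis β hβ
  have h1' : ∀ i j : Fin m, β (b (Sum.inl (Sum.inr i))) (b (Sum.inl (Sum.inl j)))
      = -(if j = i then 1 else 0) := by
    intro i j
    rw [← hβ.neg_eq, h1]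
  have h4' : ∀ (j : Fin k) (v : V), β v (b (Sum.inr j)) = 0 := by
    intro j v
    rw [← hβ.neg_eq, h4, neg_zero]
  have key1 : ∀ (x : V) (i₀ : Fin m), β x (b (Sum.inl (Sum.inr i₀))) =
      b.repr x (Sum.inl (Sum.inl i₀)) := by
    intro x i₀
    conv_lhs => rw [← b.sum_repr x]
    rw [map_sum, LinearMap.sum_apply]
    simp only [map_smul, LinearMap.smul_apply, smul_eq_mul]
    rw [Fintype.sum_sum_type, Fintype.sum_sum_type]
    simp [h1, h3, h4]
  have key2 : ∀ (x : V) (i₀ : Fin m), β x (b (Sum.inl (Sum.inl i₀))) =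
      -b.repr x (Sum.inl (Sum.inr i₀)) := by
    intro x i₀
    conv_lhs => rw [← b.sum_repr x]
    rw [map_sum, LinearMap.sum_apply]
    simp only [map_smul, LinearMap.smul_apply, smul_eq_mul]
    rw [Fintype.sum_sum_type, Fintype.sum_sum_type]
    simp [h2, h1', h4]
  let cmap : V →ₗ[F] (Fin m ⊕ Fin m → F) :=
    (LinearMap.funLeft F F Sum.inl) ∘ₗ b.equivFun.toLinearMap
  have hc : ∀ x i, cmap x i = b.repr x (Sum.inl i) := fun x i => rfl
  have hsurj : LinearMap.range cmap = ⊤ := by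
    rw [LinearMap.range_eq_top]
    intro a
    refine ⟨b.equivFun.symm (Sum.elim a 0), ?_⟩
    funext i
    rw [hc, ← Basis.equivFun_apply, LinearEquiv.apply_symm_apply]
    rfl
  have hker : LinearMap.ker cmap = LinearMap.ker β := by
    ext x
    rw [LinearMap.mem_ker, LinearMap.mem_ker]
    constructor
    · intro hx
      have hx' : ∀ i, b.repr x (Sum.inl i) = 0 := fun i => by
        rw [← hc, hx]
        rfl
      apply b.ext
      intro i
      rcases i with (i | i) | j
      · rw [key2, hx', neg_zero]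
        rfl
      · rw [key1, hx']
        rfl
      · rw [h4']
        rfl
    · intro hx
      funext i
      rw [hc]
      rcases i with i | i
      · rw [← key1, hx]
        rfl
      · have := key2 x i
        rw [hx] at this
        have h0 : -b.repr x (Sum.inl (Sum.inr i)) = 0 := this.symm
        exact neg_eq_zero.mp h0
  have h := LinearMap.finrank_range_add_finrank_ker cmap
  rw [hsurj, finrank_top, hker, Module.finrank_fintype_fun_eq_card, Fintype.card_sum,
    Fintype.card_fin] at h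
  exact ⟨m, by omega⟩

theorem jt_adj (B : LinearMap.BilinForm F V) (g : V →ₗ[F] V)
    (hg : ∀ x y, B (g x) (g y) = B x y) (x y : V) :
    B ((g - 1) x) (g y) = -B x ((g - 1) y) := by
  simp only [LinearMap.sub_apply, Module.End.one_apply, map_sub, hg]
  ring

theorem jt_comm (g : V →ₗ[F] V) (a : ℕ) (y : V) :
    ((g - 1) ^ a) (g y) = g (((g - 1) ^ a) y) := by
  have hc : Commute ((g - 1) ^ a) g :=
    ((Commute.refl g).sub_left (Commute.one_left g)).pow_left a
  exact LinearMap.congr_fun hc.eq y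

theorem jt_adj_pow (B : LinearMap.BilinForm F V) (g : V →ₗ[F] V)
    (hg : ∀ x y, B (g x) (g y) = B x y) (a : ℕ) (x y : V) :
    B (((g - 1) ^ a) x) ((g ^ a) y) = (-1) ^ a * B x (((g - 1) ^ a) y) := by
  induction a generalizing x y with
  | zero => simp
  | succ a ih =>
    have e : ((g - 1) ^ (a + 1)) y = (g - 1) (((g - 1) ^ a) y) := by
      rw [pow_succ', Module.End.mul_apply]
    have e2 : ((g - 1) ^ (a + 1)) x = ((g - 1) ^ a) ((g - 1) x) := by
      rw [pow_succ, Module.End.mul_apply]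
    have e3 : (g ^ (a + 1)) y = (g ^ a) (g y) := by
      rw [pow_succ, Module.End.mul_apply]
    rw [e, e2, e3, ih, jt_comm, jt_adj B g hg, pow_succ]
    ring

theorem jt_pow_sub_one (g : V →ₗ[F] V) (a : ℕ) :
    ∃ p : V →ₗ[F] V, Commute p (g - 1) ∧ g ^ a = 1 + (g - 1) * p := by
  induction a with
  | zero => exact ⟨0, Commute.zero_left _, by simp⟩
  | succ a ih =>
    obtain ⟨p, hp, e⟩ := ih
    refine ⟨1 + p + p * (g - 1), ?_, ?_⟩
    · exact ((Commute.one_left _).add_left hp).add_left (hp.mul_left (Commute.refl _))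
    · rw [pow_succ, e]
      noncomm_ring

theorem jt_vanish (B : LinearMap.BilinForm F V) (g : V →ₗ[F] V)
    (hg : ∀ x y, B (g x) (g y) = B x y) (j : ℕ) (hj : 1 ≤ j) (x : V)
    (hx : ((g - 1) ^ j) x = 0) (y : V) :
    B (((g - 1) ^ (j - 1)) x) ((g - 1) y) = 0 := by
  have h := jt_adj B g hg (((g - 1) ^ (j - 1)) x) y
  have e : (g - 1) (((g - 1) ^ (j - 1)) x) = ((g - 1) ^ j) x := by
    obtain ⟨i, rfl⟩ : ∃ i, j = i + 1 := ⟨j - 1, by omega⟩
    rw [Nat.add_sub_cancel, pow_succ', Module.End.mul_apply]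
  rw [e, hx, map_zero, LinearMap.zero_apply] at h
  exact neg_eq_zero.mp h.symm

theorem jt_twist (B : LinearMap.BilinForm F V) (g : V →ₗ[F] V)
    (hg : ∀ x y, B (g x) (g y) = B x y) (j : ℕ) (hj : 1 ≤ j) (x : V)
    (hx : ((g - 1) ^ j) x = 0) (y : V) :
    B x (((g - 1) ^ (j - 1)) y) = (-1) ^ (j - 1) * B (((g - 1) ^ (j - 1)) x) y := by
  have h := jt_adj_pow B g hg (j - 1) x y
  obtain ⟨p, hp, e⟩ := jt_pow_sub_one g (j - 1)
  have e2 : (g ^ (j - 1)) y = y + (g - 1) (p y) := by
    rw [e, LinearMap.add_apply, Module.End.one_apply, Module.End.mul_apply]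
  rw [e2, map_add, jt_vanish B g hg j hj x hx, add_zero] at h
  rw [h, ← mul_assoc, ← mul_pow]
  simp

theorem jt_orth [FiniteDimensional F V] (B : LinearMap.BilinForm F V) (hB : B.Nondegenerate)
    (g : V →ₗ[F] V) (hg : ∀ x y, B (g x) (g y) = B x y) (j : ℕ) :
    B.orthogonal (LinearMap.ker ((g - 1) ^ j)) = LinearMap.range ((g - 1) ^ j) := by
  symm
  apply Submodule.eq_of_le_of_finrank_eq
  · rintro _ ⟨y, rfl⟩
    rw [LinearMap.BilinForm.mem_orthogonal_iff]
    intro n hn
    have h := jt_adj_pow B g hg j n y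
    rw [LinearMap.mem_ker.mp hn, map_zero, LinearMap.zero_apply] at h
    have h2 : (-1 : F) ^ j ≠ 0 := pow_ne_zero _ (by norm_num)
    exact (mul_eq_zero.mp h.symm).resolve_left h2
  · rw [LinearMap.BilinForm.finrank_orthogonal hB]
    have := LinearMap.finrank_range_add_finrank_ker ((g - 1) ^ j)
    omega

/-- The parity theorem: if the form `B (x, (g-1)^(j-1) x')` on `ker (g-1)^j` is alternating, then
the number of Jordan blocks of size `j` of `g - 1` is even. -/
theorem jt_parity [FiniteDimensional F V] (B : LinearMap.BilinForm F V) (hB : B.Nondegenerate)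
    (g : V →ₗ[F] V) (hg : ∀ x y, B (g x) (g y) = B x y) (j : ℕ) (hj : 1 ≤ j)
    (halt : ∀ x, ((g - 1) ^ j) x = 0 → B x (((g - 1) ^ (j - 1)) x) = 0) :
    ∃ c : ℕ, finrank F (LinearMap.range ((g - 1) ^ (j - 1))) +
      finrank F (LinearMap.range ((g - 1) ^ (j + 1))) =
      2 * finrank F (LinearMap.range ((g - 1) ^ j)) + 2 * c := by
  obtain ⟨T, hT⟩ : ∃ T : V →ₗ[F] V, T = g - 1 := ⟨_, rfl⟩
  rw [← hT] at halt ⊢
  obtain ⟨i, rfl⟩ : ∃ i, j = i + 1 := ⟨j - 1, by omega⟩
  rw [Nat.add_sub_cancel] at halt ⊢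
  have horth : B.orthogonal (LinearMap.ker (T ^ (i + 1))) = LinearMap.range (T ^ (i + 1)) := by
    rw [hT]
    exact jt_orth B hB g hg (i + 1)
  let β : LinearMap.BilinForm F (LinearMap.ker (T ^ (i + 1))) :=
    B.comp (LinearMap.ker (T ^ (i + 1))).subtype ((T ^ i) ∘ₗ (LinearMap.ker (T ^ (i + 1))).subtype)
  have hβ : ∀ x x' : LinearMap.ker (T ^ (i + 1)), β x x' = B x.1 ((T ^ i) x'.1) := fun x x' => rfl
  have hβalt : β.IsAlt := fun x => halt x.1 (LinearMap.mem_ker.mp x.2)
  have hskew : ∀ x x' : LinearMap.ker (T ^ (i + 1)), β x x' = -β x' x :=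
    fun x x' => (hβalt.neg_eq x' x).symm
  have hR : ∀ x : LinearMap.ker (T ^ (i + 1)), x ∈ LinearMap.ker β ↔
      (T ^ i) x.1 ∈ LinearMap.range (T ^ (i + 1)) := by
    intro x
    rw [← horth, LinearMap.BilinForm.mem_orthogonal_iff, LinearMap.mem_ker]
    constructor
    · intro hx n hn
      have h1 : β ⟨n, hn⟩ x = 0 := by rw [hskew, hx, LinearMap.zero_apply, neg_zero]
      exact h1
    · intro hx
      ext x'
      rw [hskew, LinearMap.zero_apply, neg_eq_zero]
      exact hx x'.1 x'.2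
  have hpow1 : ∀ v : V, (T ^ (i + 1)) v = T ((T ^ i) v) := fun v => by
    rw [pow_succ', Module.End.mul_apply]
  have hpow2 : ∀ v : V, (T ^ (i + 1)) v = (T ^ i) (T v) := fun v => by
    rw [pow_succ, Module.End.mul_apply]
  -- the radical, as a subspace of V
  have hR' : ∀ v : V, v ∈ (LinearMap.ker β).map (LinearMap.ker (T ^ (i + 1))).subtype ↔
      (T ^ (i + 1)) v = 0 ∧ (T ^ i) v ∈ LinearMap.range (T ^ (i + 1)) := by
    intro v
    constructor
    · rintro ⟨x, hx, rfl⟩
      exact ⟨LinearMap.mem_ker.mp x.2, (hR x).mp hx⟩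
    · rintro ⟨h1, h2⟩
      exact ⟨⟨v, LinearMap.mem_ker.mpr h1⟩, (hR _).mpr h2, rfl⟩
  have e1 : ((LinearMap.ker β).map (LinearMap.ker (T ^ (i + 1))).subtype).map (T ^ i) =
      LinearMap.range (T ^ (i + 1)) ⊓ LinearMap.ker T := by
    ext w
    constructor
    · rintro ⟨v, hv, rfl⟩
      obtain ⟨h1, h2⟩ := (hR' v).mp hv
      refine ⟨h2, ?_⟩
      show (T ^ i) v ∈ LinearMap.ker T
      rw [LinearMap.mem_ker, ← hpow1, h1]
    · rintro ⟨⟨y, rfl⟩, h2⟩
      have h2' : T ((T ^ (i + 1)) y) = 0 := h2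
      refine ⟨T y, (hR' _).mpr ⟨?_, ?_⟩, (hpow2 y).symm⟩
      · rw [← h2', hpow1 (T y), ← hpow2]
      · rw [← hpow2]
        exact ⟨y, rfl⟩
  have e2 : (LinearMap.ker β).map (LinearMap.ker (T ^ (i + 1))).subtype ⊓ LinearMap.ker (T ^ i) =
      LinearMap.ker (T ^ i) := by
    apply inf_eq_right.mpr
    intro v hv
    have hv' : (T ^ i) v = 0 := LinearMap.mem_ker.mp hv
    refine (hR' v).mpr ⟨?_, ?_⟩
    · rw [hpow1, hv', map_zero]
    · rw [hv']
      exact Submodule.zero_mem _
  have e3 : (LinearMap.range (T ^ (i + 1))).map T = LinearMap.range (T ^ (i + 1 + 1)) := by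
    rw [pow_succ' T (i + 1), Module.End.mul_eq_comp, LinearMap.range_comp]
  have d1 := jt_finrank_map (T ^ i) ((LinearMap.ker β).map (LinearMap.ker (T ^ (i + 1))).subtype)
  rw [e1, e2, Submodule.finrank_map_subtype_eq] at d1
  have d2 := jt_finrank_map T (LinearMap.range (T ^ (i + 1)))
  rw [e3] at d2
  have d3 := LinearMap.finrank_range_add_finrank_ker (T ^ (i + 1))
  have d4 := LinearMap.finrank_range_add_finrank_ker (T ^ i)
  obtain ⟨c, d5⟩ := jt_even_rank β hβalt
  exact ⟨c, by omega⟩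

/-- Parity for alternating forms: odd block sizes occur an even number of times. -/
theorem jt_parity_alt [FiniteDimensional F V] (B : LinearMap.BilinForm F V)
    (hB : B.Nondegenerate) (hA : ∀ x, B x x = 0) (g : V →ₗ[F] V)
    (hg : ∀ x y, B (g x) (g y) = B x y) (j : ℕ) (hodd : Odd j) :
    ∃ c : ℕ, finrank F (LinearMap.range ((g - 1) ^ (j - 1))) +
      finrank F (LinearMap.range ((g - 1) ^ (j + 1))) =
      2 * finrank F (LinearMap.range ((g - 1) ^ j)) + 2 * c := by
  obtain ⟨i, rfl⟩ := hodd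
  refine jt_parity B hB g hg (2 * i + 1) (by omega) ?_
  intro x hx
  rw [Nat.add_sub_cancel]
  have e0 : ((g - 1) ^ (2 * i)) x = ((g - 1) ^ i) (((g - 1) ^ i) x) := by
    rw [two_mul, pow_add, Module.End.mul_apply]
  rw [e0]
  have h1 := jt_adj_pow B g hg i x (((g - 1) ^ i) x)
  obtain ⟨p, hp, e⟩ := jt_pow_sub_one g i
  have hpc : p (((g - 1) ^ i) x) = ((g - 1) ^ i) (p x) :=
    LinearMap.congr_fun (hp.pow_right i).eq x
  have e2 : (g ^ i) (((g - 1) ^ i) x) =
      ((g - 1) ^ i) x + ((g - 1) ^ (i + 1)) (p x) := by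
    rw [e, LinearMap.add_apply, Module.End.one_apply, Module.End.mul_apply, hpc, pow_succ',
      Module.End.mul_apply]
  have h3 := jt_adj_pow B g hg (i + 1) (((g - 1) ^ i) x) (p x)
  have e4 : ((g - 1) ^ (i + 1)) (((g - 1) ^ i) x) = 0 := by
    rw [← Module.End.mul_apply, ← pow_add]
    have : i + 1 + i = 2 * i + 1 := by ring
    rw [this, hx]
  rw [e4, map_zero, LinearMap.zero_apply] at h3
  have h5 : B (((g - 1) ^ i) x) (((g - 1) ^ (i + 1)) (p x)) = 0 := by
    have h2 : (-1 : F) ^ (i + 1) ≠ 0 := pow_ne_zero _ (by norm_num)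
    exact (mul_eq_zero.mp h3.symm).resolve_left h2
  rw [e2, map_add, hA, h5, add_zero] at h1
  have h2 : (-1 : F) ^ i ≠ 0 := pow_ne_zero _ (by norm_num)
  exact (mul_eq_zero.mp h1.symm).resolve_left h2

/-- Parity for symmetric forms in odd characteristic: even block sizes occur an even number of
times. -/
theorem jt_parity_symm [FiniteDimensional F V] (B : LinearMap.BilinForm F V)
    (hB : B.Nondegenerate) (hS : ∀ x y, B x y = B y x) (h2 : (2 : F) ≠ 0) (g : V →ₗ[F] V)
    (hg : ∀ x y, B (g x) (g y) = B x y) (j : ℕ) (hj : 1 ≤ j) (heven : Even j) :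
    ∃ c : ℕ, finrank F (LinearMap.range ((g - 1) ^ (j - 1))) +
      finrank F (LinearMap.range ((g - 1) ^ (j + 1))) =
      2 * finrank F (LinearMap.range ((g - 1) ^ j)) + 2 * c := by
  refine jt_parity B hB g hg j hj ?_
  intro x hx
  have h := jt_twist B g hg j hj x hx x
  have hodd : Odd (j - 1) := by
    obtain ⟨i, hi⟩ := heven
    exact ⟨i - 1, by omega⟩
  rw [hodd.neg_one_pow, hS (((g - 1) ^ (j - 1)) x) x] at h
  have h3 : (2 : F) * B x (((g - 1) ^ (j - 1)) x) = 0 := by linear_combination h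
  exact (mul_eq_zero.mp h3).resolve_left h2

end JTParity

end Cfsg.Agent.Lib.Helper99
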