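import Mathlib

set_option autoImplicit false

namespace Cfsg.Agent.Lib.Helper99

section RegUnip

open Matrix

variable {F : Type*} [Field F] {ι : Type*} [Fintype ι] [DecidableEq ι]

/-- The image of a subspace loses at most the kernel dimension. -/
theorem ru_finrank_map {V : Type*} [AddCommGroup V] [Module F V] [FiniteDimensional F V]
    (f : V →ₗ[F] V) (W : Submodule F V) :
    Module.finrank F W ≤ Module.finrank F (W.map f) + Module.finrank F (LinearMap.ker f) := by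
  have h := LinearMap.finrank_range_add_finrank_ker (f.domRestrict W)
  have hr : LinearMap.range (f.domRestrict W) = W.map f := by
    ext y
    constructor
    · rintro ⟨x, rfl⟩
      exact ⟨x.1, x.2, rfl⟩
    · rintro ⟨x, hx, rfl⟩
      exact ⟨⟨x, hx⟩, rfl⟩
  rw [hr] at h
  have h2 : Module.finrank F (LinearMap.ker (f.domRestrict W)) ≤
      Module.finrank F (LinearMap.ker f) := by
    let g : LinearMap.ker (f.domRestrict W) →ₗ[F] LinearMap.ker f :=
      { toFun := fun x => ⟨x.1.1, by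
          have := x.2
          rw [LinearMap.mem_ker] at this ⊢
          exact this⟩
        map_add' := fun x y => rfl
        map_smul' := fun c x => rfl }
    refine LinearMap.finrank_le_finrank_of_injective (f := g) ?_
    intro x y hxy
    have : x.1.1 = y.1.1 := congrArg (fun z : LinearMap.ker f => z.1) hxy
    exact Subtype.ext (Subtype.ext this)
  omega

theorem ru_rank_pow (f : (ι → F) →ₗ[F] (ι → F))
    (hk : Module.finrank F (LinearMap.ker f) ≤ 1) (j : ℕ) :
    Fintype.card ι ≤ Module.finrank F (LinearMap.range (f ^ j)) + j := by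
  induction j with
  | zero =>
    rw [pow_zero, Module.End.one_eq_id, LinearMap.range_id, finrank_top,
      Module.finrank_fintype_fun_eq_card]
    omega
  | succ j ih =>
    have h1 : LinearMap.range (f ^ (j + 1)) = (LinearMap.range (f ^ j)).map f := by
      rw [pow_succ', Module.End.mul_eq_comp, LinearMap.range_comp]
    have h2 := ru_finrank_map f (LinearMap.range (f ^ j))
    rw [h1]
    omega

/-- A matrix of corank one has a vector not killed by its `(n-1)`-st power. -/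
theorem ru_exists_cyclic (N : Matrix ι ι F) (hcard : 1 ≤ Fintype.card ι)
    (hr : N.rank = Fintype.card ι - 1) :
    ∃ w : ι → F, (N ^ (Fintype.card ι - 1)) *ᵥ w ≠ 0 := by
  by_contra hcon
  push Not at hcon
  have hz : (Matrix.toLin' N) ^ (Fintype.card ι - 1) = 0 := by
    rw [← Matrix.toLin'_pow]
    refine LinearMap.ext (fun w => ?_)
    rw [Matrix.toLin'_apply, hcon w]
    rfl
  have hk : Module.finrank F (LinearMap.ker (Matrix.toLin' N)) ≤ 1 := by
    have h1 := LinearMap.finrank_range_add_finrank_ker (Matrix.toLin' N)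
    have h2 : Module.finrank F (LinearMap.range (Matrix.toLin' N)) = N.rank := by
      rw [Matrix.rank, Matrix.toLin'_apply']
    rw [Module.finrank_fintype_fun_eq_card] at h1
    omega
  have h3 := ru_rank_pow (Matrix.toLin' N) hk (Fintype.card ι - 1)
  rw [hz, LinearMap.range_zero, finrank_bot] at h3
  omega

theorem ru_li (N : Matrix ι ι F) (n : ℕ) (hN : N ^ n = 0) (w : ι → F)
    (hw : (N ^ (n - 1)) *ᵥ w ≠ 0) :
    LinearIndependent F (fun j : Fin n => (N ^ (j : ℕ)) *ᵥ w) := by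
  rw [Fintype.linearIndependent_iff]
  intro g hg
  have key : ∀ j : ℕ, ∀ hj : j < n, g ⟨j, hj⟩ = 0 := by
    intro j
    induction j using Nat.strong_induction_on with
    | _ j ih =>
      intro hj
      have h1 := congrArg (fun x => (N ^ (n - 1 - j)) *ᵥ x) hg
      simp only [Matrix.mulVec_sum, Matrix.mulVec_smul, Matrix.mulVec_mulVec, ← pow_add,
        Matrix.mulVec_zero] at h1
      rw [Finset.sum_eq_single ⟨j, hj⟩] at h1
      · have e : n - 1 - j + j = n - 1 := by omega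
        simp only [e] at h1
        rcases smul_eq_zero.mp h1 with h | h
        · exact h
        · exact absurd h hw
      · intro i _ hij
        have hne : (i : ℕ) ≠ j := fun h => hij (Fin.ext h)
        rcases lt_or_gt_of_ne hne with h | h
        · rw [ih i.1 h i.2, zero_smul]
        · have : N ^ (n - 1 - j + i.1) = 0 := by
            have e : n - 1 - j + i.1 = n + (i.1 - j - 1) := by omega
            rw [e, pow_add, hN, zero_mul]
          rw [this, Matrix.zero_mulVec, smul_zero]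
      · intro h
        exact absurd (Finset.mem_univ _) h
  intro i
  exact key i.1 i.2

theorem ru_span (N : Matrix ι ι F) (hN : N ^ Fintype.card ι = 0) (w : ι → F)
    (hw : (N ^ (Fintype.card ι - 1)) *ᵥ w ≠ 0) (x : ι → F) :
    ∃ c : ℕ → F, x = (∑ j ∈ Finset.range (Fintype.card ι), c j • N ^ j) *ᵥ w := by
  have hli := ru_li N _ hN w hw
  let B := basisOfLinearIndependentOfCardEqFinrank' _ hli (by simp)
  refine ⟨fun j => if h : j < Fintype.card ι then B.repr x ⟨j, h⟩ else 0, ?_⟩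
  have h1 := B.sum_repr x
  rw [Matrix.sum_mulVec, Finset.sum_range]
  conv_lhs => rw [← h1]
  refine Finset.sum_congr rfl (fun j _ => ?_)
  simp only [dif_pos j.2, Matrix.smul_mulVec]
  simp [B]

theorem ru_cent_inj (N : Matrix ι ι F) (hN : N ^ Fintype.card ι = 0) (w : ι → F)
    (hw : (N ^ (Fintype.card ι - 1)) *ᵥ w ≠ 0) (g : Matrix ι ι F) (hg : g * N = N * g)
    (h0 : g *ᵥ w = 0) : g = 0 := by
  have hpow : ∀ j : ℕ, g * N ^ j = N ^ j * g := fun j => Commute.pow_right hg j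
  have hx : ∀ x : ι → F, g *ᵥ x = 0 := by
    intro x
    obtain ⟨c, rfl⟩ := ru_span N hN w hw x
    rw [Matrix.mulVec_mulVec, Finset.mul_sum]
    have : ∀ j : ℕ, g * (c j • N ^ j) = (c j • N ^ j) * g := fun j => by
      rw [Matrix.mul_smul, hpow, Matrix.smul_mul]
    simp only [this]
    rw [← Finset.sum_mul, ← Matrix.mulVec_mulVec, h0, Matrix.mulVec_zero]
  ext i j
  have := congrFun (hx (Pi.single j 1)) i
  simpa using this

theorem ru_cent_poly (N : Matrix ι ι F) (hN : N ^ Fintype.card ι = 0) (w : ι → F)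
    (hw : (N ^ (Fintype.card ι - 1)) *ᵥ w ≠ 0) (g : Matrix ι ι F) (hg : g * N = N * g) :
    ∃ c : ℕ → F, g = ∑ j ∈ Finset.range (Fintype.card ι), c j • N ^ j := by
  obtain ⟨c, hc⟩ := ru_span N hN w hw (g *ᵥ w)
  refine ⟨c, ?_⟩
  have hcomm : (∑ j ∈ Finset.range (Fintype.card ι), c j • N ^ j) * N =
      N * ∑ j ∈ Finset.range (Fintype.card ι), c j • N ^ j := by
    rw [Finset.sum_mul, Finset.mul_sum]
    refine Finset.sum_congr rfl (fun j _ => ?_)
    rw [Matrix.smul_mul, Matrix.mul_smul, ← pow_succ, ← pow_succ']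
  have := ru_cent_inj N hN w hw (g - ∑ j ∈ Finset.range (Fintype.card ι), c j • N ^ j)
    (by rw [sub_mul, mul_sub, hg, hcomm]) (by rw [Matrix.sub_mulVec, hc, sub_self])
  exact sub_eq_zero.mp this

theorem ru_cent_decomp (N : Matrix ι ι F) (hcard : 1 ≤ Fintype.card ι)
    (hN : N ^ Fintype.card ι = 0) (w : ι → F)
    (hw : (N ^ (Fintype.card ι - 1)) *ᵥ w ≠ 0) (g : Matrix ι ι F) (hg : g * N = N * g) :
    ∃ c : F, ∃ h : Matrix ι ι F, h * N = N * h ∧ g = c • (1 : Matrix ι ι F) + N * h := by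
  obtain ⟨c, hc⟩ := ru_cent_poly N hN w hw g hg
  obtain ⟨k, hk⟩ : ∃ k, Fintype.card ι = k + 1 := ⟨Fintype.card ι - 1, by omega⟩
  rw [hk, Finset.sum_range_succ'] at hc
  refine ⟨c 0, ∑ j ∈ Finset.range k, c (j + 1) • N ^ j, ?_, ?_⟩
  · rw [Finset.sum_mul, Finset.mul_sum]
    refine Finset.sum_congr rfl (fun j _ => ?_)
    rw [Matrix.smul_mul, Matrix.mul_smul, ← pow_succ, ← pow_succ']
  · rw [hc, pow_zero, add_comm, Finset.mul_sum]
    congr 1
    refine Finset.sum_congr rfl (fun j _ => ?_)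
    rw [Matrix.mul_smul, ← pow_succ']

/-- The matrices commuting with `N`. -/
def ruCent (N : Matrix ι ι F) : Submodule F (Matrix ι ι F) where
  carrier := {g | g * N = N * g}
  add_mem' := by
    intro a b ha hb
    simp only [Set.mem_ofPred_eq] at *
    rw [add_mul, mul_add, ha, hb]
  zero_mem' := by simp
  smul_mem' := by
    intro c a ha
    simp only [Set.mem_ofPred_eq] at *
    rw [Matrix.smul_mul, Matrix.mul_smul, ha]

theorem mem_ruCent (N g : Matrix ι ι F) : g ∈ ruCent N ↔ g * N = N * g := Iff.rfl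

theorem ru_finrank_cent (N : Matrix ι ι F) (hN : N ^ Fintype.card ι = 0) (w : ι → F)
    (hw : (N ^ (Fintype.card ι - 1)) *ᵥ w ≠ 0) :
    Module.finrank F (ruCent N) = Fintype.card ι := by
  let Ψ : ruCent N →ₗ[F] (ι → F) :=
    { toFun := fun g => g.1 *ᵥ w
      map_add' := fun a b => Matrix.add_mulVec _ _ _
      map_smul' := fun c a => Matrix.smul_mulVec _ _ _ }
  have hinj : Function.Injective Ψ := by
    rw [injective_iff_map_eq_zero]
    intro g hg
    exact Subtype.ext (ru_cent_inj N hN w hw g.1 g.2 hg)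
  have hsurj : Function.Surjective Ψ := by
    intro x
    obtain ⟨c, rfl⟩ := ru_span N hN w hw x
    refine ⟨⟨∑ j ∈ Finset.range (Fintype.card ι), c j • N ^ j, ?_⟩, rfl⟩
    rw [mem_ruCent, Finset.sum_mul, Finset.mul_sum]
    refine Finset.sum_congr rfl (fun j _ => ?_)
    rw [Matrix.smul_mul, Matrix.mul_smul, ← pow_succ, ← pow_succ']
  rw [LinearEquiv.finrank_eq (LinearEquiv.ofBijective Ψ ⟨hinj, hsurj⟩),
    Module.finrank_fintype_fun_eq_card]


theorem ru_inv_comm (a N : Matrix ι ι F) (ha : IsUnit a.det) (h : a * N = N * a) :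
    a⁻¹ * N = N * a⁻¹ := by
  calc a⁻¹ * N = a⁻¹ * N * (a * a⁻¹) := by rw [Matrix.mul_nonsing_inv a ha, mul_one]
    _ = a⁻¹ * (N * a) * a⁻¹ := by simp only [Matrix.mul_assoc]
    _ = a⁻¹ * (a * N) * a⁻¹ := by rw [h]
    _ = (a⁻¹ * a) * N * a⁻¹ := by simp only [Matrix.mul_assoc]
    _ = N * a⁻¹ := by rw [Matrix.nonsing_inv_mul a ha, one_mul]

theorem ru_smul_one_isUnit (c : F) (hc : c ≠ 0) : IsUnit (c • (1 : Matrix ι ι F)) :=
  ⟨⟨c • 1, c⁻¹ • 1, by rw [Matrix.smul_mul, Matrix.mul_smul, mul_one, smul_smul,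
    mul_inv_cancel₀ hc, one_smul], by rw [Matrix.smul_mul, Matrix.mul_smul, mul_one, smul_smul,
    inv_mul_cancel₀ hc, one_smul]⟩, rfl⟩

/-- `(x a⁻¹) ((c•1) a⁻¹)⁻¹ = c⁻¹ • x`. -/
theorem ru_quot (a x : Matrix ι ι F) (ha : IsUnit a.det) (c : F) (hc : c ≠ 0) :
    (x * a⁻¹) * ((c • (1 : Matrix ι ι F)) * a⁻¹)⁻¹ = c⁻¹ • x := by
  have h1 : ((c • (1 : Matrix ι ι F)) * a⁻¹)⁻¹ = c⁻¹ • a := by
    refine Matrix.inv_eq_right_inv ?_
    rw [Matrix.smul_mul, one_mul, Matrix.smul_mul, Matrix.mul_smul, Matrix.nonsing_inv_mul a ha,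
      smul_smul, mul_inv_cancel₀ hc, one_smul]
  rw [h1, Matrix.mul_smul, Matrix.mul_assoc, Matrix.nonsing_inv_mul a ha, mul_one]

theorem ru_add_one (a p : Matrix ι ι F) (ha : IsUnit a.det) :
    p * a⁻¹ + 1 = (p + a) * a⁻¹ := by
  rw [add_mul, Matrix.mul_nonsing_inv a ha]

theorem ru_sub_one (a p : Matrix ι ι F) (ha : IsUnit a.det) :
    p * a⁻¹ - 1 = (p - a) * a⁻¹ := by
  rw [sub_mul, Matrix.mul_nonsing_inv a ha]

/-- Cayley transform. -/
noncomputable def ruCay (k : Matrix ι ι F) : Matrix ι ι F := (1 + k) * (1 - k)⁻¹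

/-- Inverse Cayley transform. -/
noncomputable def ruCayInv (g : Matrix ι ι F) : Matrix ι ι F := (g - 1) * (g + 1)⁻¹

theorem ru_two_smul_one (x : Matrix ι ι F) : x + x = ((2 : F) • (1 : Matrix ι ι F)) * x := by
  rw [Matrix.smul_mul, one_mul, two_smul]

theorem ruCay_add_one (k : Matrix ι ι F) (hk : IsUnit (1 - k).det) :
    ruCay k + 1 = ((2 : F) • (1 : Matrix ι ι F)) * (1 - k)⁻¹ := by
  unfold ruCay
  rw [ru_add_one _ _ hk]
  congr 1
  rw [two_smul]
  abel

theorem ruCay_sub_one (k : Matrix ι ι F) (hk : IsUnit (1 - k).det) :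
    ruCay k - 1 = ((2 : F) • k) * (1 - k)⁻¹ := by
  unfold ruCay
  rw [ru_sub_one _ _ hk]
  congr 1
  rw [two_smul]
  abel

theorem ruCayInv_cay (h2 : (2 : F) ≠ 0) (k : Matrix ι ι F) (hk : IsUnit (1 - k).det) :
    ruCayInv (ruCay k) = k := by
  unfold ruCayInv
  rw [ruCay_add_one k hk, ruCay_sub_one k hk, ru_quot _ _ hk 2 h2, smul_smul,
    inv_mul_cancel₀ h2, one_smul]

theorem ruCay_cayInv (h2 : (2 : F) ≠ 0) (g : Matrix ι ι F) (hg : IsUnit (g + 1).det) :
    ruCay (ruCayInv g) = g := by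
  unfold ruCay ruCayInv
  have e1 : 1 + (g - 1) * (g + 1)⁻¹ = ((2 : F) • g) * (g + 1)⁻¹ := by
    rw [add_comm, ru_add_one _ _ hg]
    congr 1
    rw [two_smul]
    abel
  have e2 : 1 - (g - 1) * (g + 1)⁻¹ = ((2 : F) • (1 : Matrix ι ι F)) * (g + 1)⁻¹ := by
    have : 1 - (g - 1) * (g + 1)⁻¹ = -((g - 1) * (g + 1)⁻¹ - 1) := by abel
    rw [this, ru_sub_one _ _ hg, ← neg_mul]
    congr 1
    rw [two_smul]
    abel
  rw [e1, e2, ru_quot _ _ hg 2 h2, smul_smul, inv_mul_cancel₀ h2, one_smul]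

end RegUnip

section RegUnipSymp

open Matrix

variable {F : Type*} [Field F] {l : Type*} [Fintype l] [DecidableEq l]

/-- The adjoint for the standard symplectic form. -/
def sadj (g : Matrix (l ⊕ l) (l ⊕ l) F) : Matrix (l ⊕ l) (l ⊕ l) F :=
  -(Matrix.J l F * gᵀ * Matrix.J l F)

theorem sadj_mul (g h : Matrix (l ⊕ l) (l ⊕ l) F) : sadj (g * h) = sadj h * sadj g := by
  unfold sadj
  rw [Matrix.transpose_mul, neg_mul_neg]
  have hJ := Matrix.J_squared l F
  calc -(Matrix.J l F * (hᵀ * gᵀ) * Matrix.J l F)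
      = Matrix.J l F * hᵀ * (Matrix.J l F * Matrix.J l F) * gᵀ * Matrix.J l F := by
        rw [hJ]
        simp [Matrix.mul_assoc]
    _ = _ := by simp only [Matrix.mul_assoc]

theorem sadj_sadj (g : Matrix (l ⊕ l) (l ⊕ l) F) : sadj (sadj g) = g := by
  unfold sadj
  have hJ := Matrix.J_squared l F
  rw [Matrix.transpose_neg, Matrix.transpose_mul, Matrix.transpose_mul, Matrix.transpose_transpose,
    Matrix.J_transpose]
  calc -(Matrix.J l F * -(-Matrix.J l F * (g * -Matrix.J l F)) * Matrix.J l F)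
      = (Matrix.J l F * Matrix.J l F) * g * (Matrix.J l F * Matrix.J l F) := by
        simp [Matrix.mul_assoc]
    _ = g := by rw [hJ]; simp

theorem sadj_one : sadj (1 : Matrix (l ⊕ l) (l ⊕ l) F) = 1 := by
  unfold sadj
  rw [Matrix.transpose_one, mul_one, Matrix.J_squared, neg_neg]

theorem sadj_add (g h : Matrix (l ⊕ l) (l ⊕ l) F) : sadj (g + h) = sadj g + sadj h := by
  unfold sadj
  rw [Matrix.transpose_add, mul_add, add_mul, neg_add]

theorem sadj_neg (g : Matrix (l ⊕ l) (l ⊕ l) F) : sadj (-g) = -sadj g := by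
  unfold sadj
  rw [Matrix.transpose_neg, mul_neg, neg_mul]

theorem sadj_sub (g h : Matrix (l ⊕ l) (l ⊕ l) F) : sadj (g - h) = sadj g - sadj h := by
  rw [sub_eq_add_neg, sadj_add, sadj_neg, ← sub_eq_add_neg]

theorem sadj_smul (c : F) (g : Matrix (l ⊕ l) (l ⊕ l) F) : sadj (c • g) = c • sadj g := by
  unfold sadj
  rw [Matrix.transpose_smul, Matrix.mul_smul, Matrix.smul_mul, smul_neg]

theorem sadj_inv (a : Matrix (l ⊕ l) (l ⊕ l) F) (ha : IsUnit a.det) :
    sadj a⁻¹ = (sadj a)⁻¹ :=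
  (Matrix.inv_eq_left_inv (by rw [← sadj_mul, Matrix.mul_nonsing_inv a ha, sadj_one])).symm

theorem mem_symp_iff_sadj (g : Matrix (l ⊕ l) (l ⊕ l) F) :
    g ∈ Matrix.symplecticGroup l F ↔ sadj g * g = 1 := by
  rw [SymplecticGroup.mem_iff']
  have hJ := Matrix.J_squared l F
  unfold sadj
  constructor
  · intro h
    rw [neg_mul, Matrix.mul_assoc, Matrix.mul_assoc, ← Matrix.mul_assoc gᵀ, h, hJ, neg_neg]
  · intro h
    have h1 := congrArg (fun x => Matrix.J l F * x) h
    simp only [mul_one] at h1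
    rw [neg_mul, mul_neg, ← Matrix.mul_assoc, ← Matrix.mul_assoc, ← Matrix.mul_assoc, hJ] at h1
    simpa [Matrix.mul_assoc] using h1


theorem sadj_pow (g : Matrix (l ⊕ l) (l ⊕ l) F) (j : ℕ) : sadj (g ^ j) = (sadj g) ^ j := by
  induction j with
  | zero => rw [pow_zero, pow_zero, sadj_one]
  | succ j ih => rw [pow_succ, sadj_mul, ih, pow_succ']

/-- The context of a regular unipotent symplectic matrix `U = 1 + N` with cyclic vector `w`. -/
structure RUCtx (N U Ui : Matrix (l ⊕ l) (l ⊕ l) F) (w : l ⊕ l → F) : Prop where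
  hcard : 1 ≤ Fintype.card (l ⊕ l)
  hN : N ^ Fintype.card (l ⊕ l) = 0
  hw : (N ^ (Fintype.card (l ⊕ l) - 1)) *ᵥ w ≠ 0
  hU : U = 1 + N
  h1 : Ui * U = 1
  h2 : U * Ui = 1
  hs : sadj U = Ui
  htwo : (2 : F) ≠ 0

namespace RUCtx

variable {N U Ui : Matrix (l ⊕ l) (l ⊕ l) F} {w : l ⊕ l → F}

theorem comm_Ui (C : RUCtx N U Ui w) : Ui * N = N * Ui := by
  have e : Ui * U = U * Ui := by rw [C.h1, C.h2]
  rw [C.hU, mul_add, add_mul, mul_one, one_mul] at e
  exact add_left_cancel e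

theorem hN' (C : RUCtx N U Ui w) : N = U - 1 := by
  rw [C.hU]
  abel

theorem sadjN (C : RUCtx N U Ui w) : sadj N = -(Ui * N) := by
  rw [C.hN', sadj_sub, sadj_one, C.hs, mul_sub, C.h1, mul_one]
  abel

theorem sadj_cent (C : RUCtx N U Ui w) {h : Matrix (l ⊕ l) (l ⊕ l) F} (hh : h * N = N * h) :
    sadj h * N = N * sadj h := by
  have hU' : h * U = U * h := by rw [C.hU, mul_add, add_mul, mul_one, one_mul, hh]
  have e := congrArg sadj hU'
  rw [sadj_mul, sadj_mul, C.hs] at e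
  have e2 : sadj h * U = U * sadj h := by
    calc sadj h * U = (U * Ui) * sadj h * U := by rw [C.h2, one_mul]
      _ = U * (Ui * sadj h) * U := by simp only [Matrix.mul_assoc]
      _ = U * (sadj h * Ui) * U := by rw [e]
      _ = U * sadj h * (Ui * U) := by simp only [Matrix.mul_assoc]
      _ = U * sadj h := by rw [C.h1, mul_one]
  rw [C.hN', mul_sub, sub_mul, e2, mul_one, one_mul]

theorem nil (C : RUCtx N U Ui w) {h : Matrix (l ⊕ l) (l ⊕ l) F} (hh : h * N = N * h) :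
    (N * h) ^ Fintype.card (l ⊕ l) = 0 := by
  have hc : Commute N h := hh.symm
  rw [hc.mul_pow, C.hN, zero_mul]

theorem isNil (C : RUCtx N U Ui w) {h : Matrix (l ⊕ l) (l ⊕ l) F} (hh : h * N = N * h) :
    IsNilpotent (N * h) := ⟨_, C.nil hh⟩

theorem nonempty (C : RUCtx N U Ui w) : Nonempty (l ⊕ l) :=
  Fintype.card_pos_iff.mp (by have := C.hcard; omega)

theorem scalar_zero (C : RUCtx N U Ui w) {c : F} {h : Matrix (l ⊕ l) (l ⊕ l) F}
    (hh : h * N = N * h) (e : c • (1 : Matrix (l ⊕ l) (l ⊕ l) F) = N * h) : c = 0 := by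
  by_contra hc
  have h1 := C.nil hh
  rw [← e, smul_pow, one_pow] at h1
  have := C.nonempty
  have h3 := (smul_eq_zero.mp h1).resolve_left (pow_ne_zero _ hc)
  exact one_ne_zero h3

theorem sadj_Nh (C : RUCtx N U Ui w) {h : Matrix (l ⊕ l) (l ⊕ l) F} (hh : h * N = N * h) :
    ∃ h' : Matrix (l ⊕ l) (l ⊕ l) F, h' * N = N * h' ∧ sadj (N * h) = N * h' := by
  have e : sadj h * Ui * N = N * (sadj h * Ui) := by
    rw [Matrix.mul_assoc, C.comm_Ui, ← Matrix.mul_assoc, C.sadj_cent hh, Matrix.mul_assoc]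
  refine ⟨-(sadj h * Ui), ?_, ?_⟩
  · rw [neg_mul, mul_neg, e]
  · rw [sadj_mul, C.sadjN, mul_neg, mul_neg, ← Matrix.mul_assoc, e]

theorem T_sign (C : RUCtx N U Ui w) {g : Matrix (l ⊕ l) (l ⊕ l) F} (hg : g * N = N * g)
    (hs : sadj g * g = 1) :
    ∃ h : Matrix (l ⊕ l) (l ⊕ l) F, h * N = N * h ∧ (g = 1 + N * h ∨ g = -1 + N * h) := by
  obtain ⟨c, h, hh, rfl⟩ := ru_cent_decomp N C.hcard C.hN w C.hw g hg
  obtain ⟨h', hh', e'⟩ := C.sadj_Nh hh
  rw [sadj_add, sadj_smul, sadj_one, e'] at hs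
  have key : (1 - c * c) • (1 : Matrix (l ⊕ l) (l ⊕ l) F) =
      N * (c • h + c • h' + h' * (N * h)) := by
    have e1 : (c • (1 : Matrix (l ⊕ l) (l ⊕ l) F) + N * h') * (c • 1 + N * h) =
        (c * c) • 1 + (N * (c • h) + N * (c • h') + N * (h' * (N * h))) := by
      simp only [add_mul, mul_add, Matrix.smul_mul, Matrix.mul_smul, one_mul, mul_one, smul_smul,
        Matrix.mul_assoc]
      abel
    rw [e1] at hs
    have hs2 : (1 : Matrix (l ⊕ l) (l ⊕ l) F) - (c * c) • (1 : Matrix (l ⊕ l) (l ⊕ l) F) =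
        N * (c • h) + N * (c • h') + N * (h' * (N * h)) :=
      sub_eq_iff_eq_add.mpr ((add_comm _ _).trans hs).symm
    rw [sub_smul, one_smul, mul_add, mul_add]
    exact hs2
  have e3 : h' * (N * h) * N = N * (h' * (N * h)) := by
    calc h' * (N * h) * N = h' * (N * (h * N)) := by simp only [Matrix.mul_assoc]
      _ = h' * (N * (N * h)) := by rw [hh]
      _ = (h' * N) * (N * h) := by simp only [Matrix.mul_assoc]
      _ = (N * h') * (N * h) := by rw [hh']
      _ = N * (h' * (N * h)) := by simp only [Matrix.mul_assoc]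
  have hX : (c • h + c • h' + h' * (N * h)) * N = N * (c • h + c • h' + h' * (N * h)) := by
    rw [add_mul, add_mul, mul_add, mul_add, Matrix.smul_mul, Matrix.smul_mul,
      Matrix.mul_smul, Matrix.mul_smul, hh, hh', e3]
  have hc := C.scalar_zero hX key
  have hc2 : c * c = 1 := by linear_combination -hc
  rcases mul_self_eq_one_iff.mp hc2 with h1 | h1
  · exact ⟨h, hh, Or.inl (by rw [h1, one_smul])⟩
  · exact ⟨h, hh, Or.inr (by rw [h1, neg_smul, one_smul])⟩

theorem K_nil (C : RUCtx N U Ui w) {k : Matrix (l ⊕ l) (l ⊕ l) F} (hk : k * N = N * k)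
    (hs : sadj k = -k) : ∃ h : Matrix (l ⊕ l) (l ⊕ l) F, h * N = N * h ∧ k = N * h := by
  obtain ⟨c, h, hh, rfl⟩ := ru_cent_decomp N C.hcard C.hN w C.hw k hk
  obtain ⟨h', hh', e'⟩ := C.sadj_Nh hh
  rw [sadj_add, sadj_smul, sadj_one, e'] at hs
  have key : (c + c) • (1 : Matrix (l ⊕ l) (l ⊕ l) F) = N * (-h - h') := by
    rw [add_smul, mul_sub, mul_neg]
    calc c • (1 : Matrix (l ⊕ l) (l ⊕ l) F) + c • 1
        = (c • 1 + N * h') + (c • 1 - N * h') := by abel
      _ = -(c • 1 + N * h) + (c • 1 - N * h') := by rw [hs]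
      _ = -(N * h) - N * h' := by abel
  have hX : (-h - h') * N = N * (-h - h') := by
    rw [sub_mul, mul_sub, neg_mul, mul_neg, hh, hh']
  have hc := C.scalar_zero hX key
  have hc0 : c = 0 := by
    have h2 : (2 : F) * c = 0 := by linear_combination hc
    exact (mul_eq_zero.mp h2).resolve_left C.htwo
  exact ⟨h, hh, by rw [hc0, zero_smul, zero_add]⟩

theorem dich (C : RUCtx N U Ui w) {g : Matrix (l ⊕ l) (l ⊕ l) F} (hg : g * N = N * g)
    (hs : sadj g * g = 1) :
    (IsUnit (g + 1) ∧ ¬ IsUnit (-g + 1)) ∨ (IsUnit (-g + 1) ∧ ¬ IsUnit (g + 1)) := by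
  have := C.nonempty
  obtain ⟨h, hh, rfl | rfl⟩ := C.T_sign hg hs
  · left
    refine ⟨?_, ?_⟩
    · have e : 1 + N * h + 1 = (2 : F) • (1 : Matrix (l ⊕ l) (l ⊕ l) F) + N * h := by
        rw [two_smul]
        abel
      rw [e]
      exact (C.isNil hh).isUnit_add_left_of_commute (ru_smul_one_isUnit 2 C.htwo)
        ((Commute.one_right _).smul_right 2)
    · have e : -(1 + N * h) + 1 = -(N * h) := by abel
      rw [e]
      exact (C.isNil hh).neg.not_isUnit
  · right
    refine ⟨?_, ?_⟩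
    · have e : -(-1 + N * h) + 1 = (2 : F) • (1 : Matrix (l ⊕ l) (l ⊕ l) F) + -(N * h) := by
        rw [two_smul]
        abel
      rw [e]
      exact (C.isNil hh).neg.isUnit_add_left_of_commute (ru_smul_one_isUnit 2 C.htwo)
        ((Commute.one_right _).smul_right 2)
    · have e : -1 + N * h + 1 = N * h := by abel
      rw [e]
      exact (C.isNil hh).not_isUnit

theorem cay_mem (C : RUCtx N U Ui w) {k : Matrix (l ⊕ l) (l ⊕ l) F} (hk : k * N = N * k)
    (hs : sadj k = -k) :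
    ruCay k * N = N * ruCay k ∧ sadj (ruCay k) * ruCay k = 1 ∧ IsUnit (ruCay k + 1) ∧
      IsUnit (1 - k).det := by
  obtain ⟨h, hh, rfl⟩ := C.K_nil hk hs
  have hnil := C.isNil hh
  have ha : IsUnit (1 - N * h).det := (Matrix.isUnit_iff_isUnit_det _).mp hnil.isUnit_one_sub
  have hb : IsUnit (1 + N * h).det := (Matrix.isUnit_iff_isUnit_det _).mp hnil.isUnit_one_add
  have haN : (1 - N * h) * N = N * (1 - N * h) := by
    rw [sub_mul, mul_sub, one_mul, mul_one, hk]
  have hbN : (1 + N * h) * N = N * (1 + N * h) := by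
    rw [add_mul, mul_add, one_mul, mul_one, hk]
  refine ⟨?_, ?_, ?_, ha⟩
  · unfold ruCay
    rw [Matrix.mul_assoc, ru_inv_comm _ _ ha haN, ← Matrix.mul_assoc, hbN, Matrix.mul_assoc]
  · unfold ruCay
    rw [sadj_mul, sadj_inv _ ha, sadj_sub, sadj_add, sadj_one, hs, sub_neg_eq_add]
    have e : (1 + -(N * h)) * (1 + N * h) = (1 + N * h) * (1 - N * h) := by noncomm_ring
    calc (1 + N * h)⁻¹ * (1 + -(N * h)) * ((1 + N * h) * (1 - N * h)⁻¹)
        = (1 + N * h)⁻¹ * ((1 + -(N * h)) * (1 + N * h)) * (1 - N * h)⁻¹ := by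
          simp only [Matrix.mul_assoc]
      _ = (1 + N * h)⁻¹ * ((1 + N * h) * (1 - N * h)) * (1 - N * h)⁻¹ := by rw [e]
      _ = ((1 + N * h)⁻¹ * (1 + N * h)) * ((1 - N * h) * (1 - N * h)⁻¹) := by
          simp only [Matrix.mul_assoc]
      _ = 1 := by rw [Matrix.nonsing_inv_mul _ hb, Matrix.mul_nonsing_inv _ ha, mul_one]
  · rw [ruCay_add_one _ ha]
    exact (ru_smul_one_isUnit 2 C.htwo).mul
      ⟨⟨(1 - N * h)⁻¹, 1 - N * h, Matrix.nonsing_inv_mul _ ha, Matrix.mul_nonsing_inv _ ha⟩, rfl⟩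

theorem cayInv_mem (C : RUCtx N U Ui w) {g : Matrix (l ⊕ l) (l ⊕ l) F} (hg : g * N = N * g)
    (hs : sadj g * g = 1) (hu : IsUnit (g + 1)) :
    ruCayInv g * N = N * ruCayInv g ∧ sadj (ruCayInv g) = -ruCayInv g := by
  have hd : IsUnit (g + 1).det := (Matrix.isUnit_iff_isUnit_det _).mp hu
  have hs' : g * sadj g = 1 := mul_eq_one_comm.mp hs
  have hdN : (g + 1) * N = N * (g + 1) := by rw [add_mul, mul_add, one_mul, mul_one, hg]
  have heN : (g - 1) * N = N * (g - 1) := by rw [sub_mul, mul_sub, one_mul, mul_one, hg]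
  refine ⟨?_, ?_⟩
  · unfold ruCayInv
    rw [Matrix.mul_assoc, ru_inv_comm _ _ hd hdN, ← Matrix.mul_assoc, heN, Matrix.mul_assoc]
  · unfold ruCayInv
    rw [sadj_mul, sadj_inv _ hd, sadj_add, sadj_sub, sadj_one]
    have e1 : (sadj g + 1)⁻¹ = (g + 1)⁻¹ * g := by
      refine Matrix.inv_eq_left_inv ?_
      rw [Matrix.mul_assoc, mul_add, hs', mul_one, add_comm 1 g, Matrix.nonsing_inv_mul _ hd]
    have e2 : (g + 1) * (g - 1) = (g - 1) * (g + 1) := by noncomm_ring
    have e3 : (g + 1)⁻¹ * (g - 1) = (g - 1) * (g + 1)⁻¹ := ru_inv_comm _ _ hd e2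
    rw [e1, Matrix.mul_assoc, mul_sub, hs', mul_one, ← e3, ← mul_neg]
    congr 1
    abel

end RUCtx

/-- The skew-adjoint matrices commuting with `N`. -/
def ruSkew (N : Matrix (l ⊕ l) (l ⊕ l) F) : Submodule F (Matrix (l ⊕ l) (l ⊕ l) F) where
  carrier := {k | k * N = N * k ∧ sadj k = -k}
  add_mem' := by
    rintro a b ⟨ha, ha'⟩ ⟨hb, hb'⟩
    exact ⟨by rw [add_mul, mul_add, ha, hb], by rw [sadj_add, ha', hb', neg_add]⟩
  zero_mem' := ⟨by simp, by simp [sadj]⟩
  smul_mem' := by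
    rintro c a ⟨ha, ha'⟩
    exact ⟨by rw [Matrix.smul_mul, Matrix.mul_smul, ha], by rw [sadj_smul, ha', smul_neg]⟩

/-- The self-adjoint matrices commuting with `N`. -/
def ruSym (N : Matrix (l ⊕ l) (l ⊕ l) F) : Submodule F (Matrix (l ⊕ l) (l ⊕ l) F) where
  carrier := {k | k * N = N * k ∧ sadj k = k}
  add_mem' := by
    rintro a b ⟨ha, ha'⟩ ⟨hb, hb'⟩
    exact ⟨by rw [add_mul, mul_add, ha, hb], by rw [sadj_add, ha', hb']⟩
  zero_mem' := ⟨by simp, by simp [sadj]⟩
  smul_mem' := by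
    rintro c a ⟨ha, ha'⟩
    exact ⟨by rw [Matrix.smul_mul, Matrix.mul_smul, ha], by rw [sadj_smul, ha']⟩

theorem mem_ruSkew (N k : Matrix (l ⊕ l) (l ⊕ l) F) :
    k ∈ ruSkew N ↔ k * N = N * k ∧ sadj k = -k := Iff.rfl

theorem mem_ruSym (N k : Matrix (l ⊕ l) (l ⊕ l) F) :
    k ∈ ruSym N ↔ k * N = N * k ∧ sadj k = k := Iff.rfl

theorem RUCtx.card_T [Fintype F] {N U Ui : Matrix (l ⊕ l) (l ⊕ l) F} {w : l ⊕ l → F}
    (C : RUCtx N U Ui w) :
    Nat.card {g : Matrix (l ⊕ l) (l ⊕ l) F // g * N = N * g ∧ sadj g * g = 1} =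
      2 * Nat.card (ruSkew N) := by
  let f₁ : ruSkew N → {g : Matrix (l ⊕ l) (l ⊕ l) F // g * N = N * g ∧ sadj g * g = 1} :=
    fun k => ⟨ruCay k.1, (C.cay_mem k.2.1 k.2.2).1, (C.cay_mem k.2.1 k.2.2).2.1⟩
  let f₂ : ruSkew N → {g : Matrix (l ⊕ l) (l ⊕ l) F // g * N = N * g ∧ sadj g * g = 1} :=
    fun k => ⟨-ruCay k.1, by rw [neg_mul, mul_neg, (C.cay_mem k.2.1 k.2.2).1], by
      rw [sadj_neg, neg_mul_neg]
      exact (C.cay_mem k.2.1 k.2.2).2.1⟩
  have hf : Function.Bijective (Sum.elim f₁ f₂) := by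
    constructor
    · rintro (k | k) (k' | k') hkk
      · have hk := C.cay_mem k.2.1 k.2.2
        have hk' := C.cay_mem k'.2.1 k'.2.2
        have e : ruCay k.1 = ruCay k'.1 := congrArg Subtype.val hkk
        have : k.1 = k'.1 := by
          rw [← ruCayInv_cay C.htwo k.1 hk.2.2.2, e, ruCayInv_cay C.htwo k'.1 hk'.2.2.2]
        rw [Subtype.ext this]
      · exfalso
        have hk := C.cay_mem k.2.1 k.2.2
        have hk' := C.cay_mem k'.2.1 k'.2.2
        have e : ruCay k.1 = -ruCay k'.1 := congrArg Subtype.val hkk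
        rcases C.dich hk'.1 hk'.2.1 with ⟨_, h2⟩ | ⟨_, h2⟩
        · apply h2
          rw [← e]
          exact hk.2.2.1
        · exact h2 hk'.2.2.1
      · exfalso
        have hk := C.cay_mem k.2.1 k.2.2
        have hk' := C.cay_mem k'.2.1 k'.2.2
        have e : -ruCay k.1 = ruCay k'.1 := congrArg Subtype.val hkk
        rcases C.dich hk.1 hk.2.1 with ⟨_, h2⟩ | ⟨_, h2⟩
        · apply h2
          rw [e]
          exact hk'.2.2.1
        · exact h2 hk.2.2.1
      · have hk := C.cay_mem k.2.1 k.2.2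
        have hk' := C.cay_mem k'.2.1 k'.2.2
        have e : -ruCay k.1 = -ruCay k'.1 := congrArg Subtype.val hkk
        have e' : ruCay k.1 = ruCay k'.1 := neg_injective e
        have : k.1 = k'.1 := by
          rw [← ruCayInv_cay C.htwo k.1 hk.2.2.2, e', ruCayInv_cay C.htwo k'.1 hk'.2.2.2]
        rw [Subtype.ext this]
    · rintro ⟨g, hg, hs⟩
      rcases C.dich hg hs with ⟨hu, _⟩ | ⟨hu, _⟩
      · have hm := C.cayInv_mem hg hs hu
        refine ⟨Sum.inl ⟨ruCayInv g, hm.1, hm.2⟩, ?_⟩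
        apply Subtype.ext
        exact ruCay_cayInv C.htwo g ((Matrix.isUnit_iff_isUnit_det _).mp hu)
      · have hg' : (-g) * N = N * (-g) := by rw [neg_mul, mul_neg, hg]
        have hs' : sadj (-g) * (-g) = 1 := by
          rw [sadj_neg, neg_mul_neg]
          exact hs
        have hm := C.cayInv_mem hg' hs' hu
        refine ⟨Sum.inr ⟨ruCayInv (-g), hm.1, hm.2⟩, ?_⟩
        apply Subtype.ext
        show -ruCay (ruCayInv (-g)) = g
        rw [ruCay_cayInv C.htwo (-g) ((Matrix.isUnit_iff_isUnit_det _).mp hu), neg_neg]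
  rw [← Nat.card_congr (Equiv.ofBijective _ hf), Nat.card_sum, two_mul]


namespace RUCtx

variable {N U Ui : Matrix (l ⊕ l) (l ⊕ l) F} {w : l ⊕ l → F}

theorem U_pow_top (C : RUCtx N U Ui w) :
    U * N ^ (Fintype.card (l ⊕ l) - 1) = N ^ (Fintype.card (l ⊕ l) - 1) := by
  rw [C.hU, add_mul, one_mul, ← pow_succ']
  have : Fintype.card (l ⊕ l) - 1 + 1 = Fintype.card (l ⊕ l) := by
    have := C.hcard
    omega
  rw [this, C.hN, add_zero]

theorem Ui_pow_top (C : RUCtx N U Ui w) :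
    Ui * N ^ (Fintype.card (l ⊕ l) - 1) = N ^ (Fintype.card (l ⊕ l) - 1) := by
  calc Ui * N ^ (Fintype.card (l ⊕ l) - 1)
      = Ui * (U * N ^ (Fintype.card (l ⊕ l) - 1)) := by rw [C.U_pow_top]
    _ = (Ui * U) * N ^ (Fintype.card (l ⊕ l) - 1) := by rw [Matrix.mul_assoc]
    _ = N ^ (Fintype.card (l ⊕ l) - 1) := by rw [C.h1, one_mul]

theorem top_skew (C : RUCtx N U Ui w) {m : ℕ} (hm : Fintype.card (l ⊕ l) = 2 * m) :
    N ^ (Fintype.card (l ⊕ l) - 1) ∈ ruSkew N := by
  refine ⟨?_, ?_⟩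
  · rw [← pow_succ, ← pow_succ']
  · rw [sadj_pow, C.sadjN]
    have hodd : Odd (Fintype.card (l ⊕ l) - 1) := ⟨m - 1, by
      have := C.hcard
      omega⟩
    rw [hodd.neg_pow]
    congr 1
    have hc : Commute Ui N := C.comm_Ui
    rw [hc.mul_pow]
    have : ∀ j : ℕ, Ui ^ j * N ^ (Fintype.card (l ⊕ l) - 1) =
        N ^ (Fintype.card (l ⊕ l) - 1) := by
      intro j
      induction j with
      | zero => rw [pow_zero, one_mul]
      | succ j ih => rw [pow_succ, Matrix.mul_assoc, C.Ui_pow_top, ih]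
    exact this _

theorem ker_N (C : RUCtx N U Ui w) {g : Matrix (l ⊕ l) (l ⊕ l) F} (hg : g * N = N * g)
    (h0 : N * g = 0) : ∃ c : F, g = c • N ^ (Fintype.card (l ⊕ l) - 1) := by
  obtain ⟨c, hc⟩ := ru_cent_poly N C.hN w C.hw g hg
  obtain ⟨k, hk⟩ : ∃ k, Fintype.card (l ⊕ l) = k + 1 := ⟨Fintype.card (l ⊕ l) - 1, by
    have := C.hcard
    omega⟩
  have hN := C.hN
  have hw := C.hw
  rw [hk] at hN hw hc ⊢
  rw [Nat.add_sub_cancel] at hw ⊢
  have hli := ru_li N (k + 1) hN w (by rw [Nat.add_sub_cancel]; exact hw)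
  have hrel : ∑ i : Fin (k + 1),
      (Fin.cases (motive := fun _ => F) (0 : F) (fun j : Fin k => c j) i) •
      ((N ^ (i : ℕ)) *ᵥ w) = 0 := by
    rw [Fin.sum_univ_succ]
    simp only [Fin.cases_zero, zero_smul, zero_add, Fin.cases_succ, Fin.val_succ]
    have h1 : (N * g) *ᵥ w = 0 := by rw [h0, Matrix.zero_mulVec]
    rw [hc, Finset.mul_sum, Matrix.sum_mulVec, Finset.sum_range_succ] at h1
    have h2 : (N * c k • N ^ k) *ᵥ w = 0 := by
      rw [Matrix.mul_smul, ← pow_succ', hN, smul_zero, Matrix.zero_mulVec]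
    rw [h2, add_zero, Finset.sum_range] at h1
    rw [← h1]
    refine Finset.sum_congr rfl (fun j _ => ?_)
    rw [Matrix.mul_smul, ← pow_succ', Matrix.smul_mulVec]
  have hz := Fintype.linearIndependent_iff.mp hli _ hrel
  have hcj : ∀ j, j < k → c j = 0 := by
    intro j hj
    have := hz (Fin.succ ⟨j, hj⟩)
    simpa using this
  refine ⟨c k, ?_⟩
  rw [hc, Finset.sum_range_succ, Finset.sum_eq_zero, zero_add]
  intro j hj
  rw [hcj j (Finset.mem_range.mp hj), zero_smul]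

theorem comm_t (C : RUCtx N U Ui w) {h : Matrix (l ⊕ l) (l ⊕ l) F} (hh : h * N = N * h) :
    h * (U - Ui) = (U - Ui) * h := by
  have hU' : h * U = U * h := by rw [C.hU, mul_add, add_mul, mul_one, one_mul, hh]
  have hUi : h * Ui = Ui * h := by
    calc h * Ui = (Ui * U) * h * Ui := by rw [C.h1, one_mul]
      _ = Ui * (U * h) * Ui := by simp only [Matrix.mul_assoc]
      _ = Ui * (h * U) * Ui := by rw [hU']
      _ = Ui * h * (U * Ui) := by simp only [Matrix.mul_assoc]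
      _ = Ui * h := by rw [C.h2, mul_one]
  rw [mul_sub, sub_mul, hU', hUi]

theorem t_cancel (C : RUCtx N U Ui w) {g : Matrix (l ⊕ l) (l ⊕ l) F}
    (h0 : (U - Ui) * g = 0) : N * g = 0 := by
  have := C.nonempty
  have h1 : U * g = Ui * g := by
    rw [sub_mul] at h0
    exact sub_eq_zero.mp h0
  have h2 : U * (U * g) = g := by
    rw [h1, ← Matrix.mul_assoc, C.h2, one_mul]
  have h3 : (U + 1) * (N * g) = 0 := by
    rw [C.hN', ← Matrix.mul_assoc]
    have e : (U + 1) * (U - 1) = U * U - 1 := by noncomm_ring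
    rw [e, sub_mul, one_mul, Matrix.mul_assoc, h2, sub_self]
  have hu : IsUnit (U + 1) := by
    have e : U + 1 = (2 : F) • (1 : Matrix (l ⊕ l) (l ⊕ l) F) + N := by
      rw [C.hU, two_smul]
      abel
    rw [e]
    have hnil : IsNilpotent N := ⟨_, C.hN⟩
    exact hnil.isUnit_add_left_of_commute (ru_smul_one_isUnit 2 C.htwo)
      ((Commute.one_right _).smul_right 2)
  exact (hu.mul_right_eq_zero).mp h3

theorem t_mem (C : RUCtx N U Ui w) : (U - Ui) * N = N * (U - Ui) ∧ sadj (U - Ui) = -(U - Ui) := by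
  have hsUi : sadj Ui = U := by rw [← C.hs, sadj_sadj]
  refine ⟨?_, ?_⟩
  · rw [sub_mul, mul_sub, C.comm_Ui]
    congr 1
    rw [C.hU, add_mul, mul_add, one_mul, mul_one]
  · rw [sadj_sub, C.hs, hsUi]
    abel

theorem finrank_skew (C : RUCtx N U Ui w) {m : ℕ} (hm : Fintype.card (l ⊕ l) = 2 * m) :
    Module.finrank F (ruSkew N) = m := by
  have htop := C.top_skew hm
  have ht := C.t_mem
  -- the two maps
  let φ : ruSym N →ₗ[F] ruSkew N :=
    { toFun := fun s => ⟨(U - Ui) * s.1, by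
        refine ⟨?_, ?_⟩
        · rw [Matrix.mul_assoc, s.2.1, ← Matrix.mul_assoc, ht.1, Matrix.mul_assoc]
        · rw [sadj_mul, s.2.2, ht.2, mul_neg, C.comm_t s.2.1]⟩
      map_add' := fun a b => Subtype.ext (mul_add _ _ _)
      map_smul' := fun c a => Subtype.ext (Matrix.mul_smul _ _ _) }
  let ψ : ruSkew N →ₗ[F] ruSym N :=
    { toFun := fun s => ⟨(U - Ui) * s.1, by
        refine ⟨?_, ?_⟩
        · rw [Matrix.mul_assoc, s.2.1, ← Matrix.mul_assoc, ht.1, Matrix.mul_assoc]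
        · rw [sadj_mul, s.2.2, ht.2, neg_mul_neg, C.comm_t s.2.1]⟩
      map_add' := fun a b => Subtype.ext (mul_add _ _ _)
      map_smul' := fun c a => Subtype.ext (Matrix.mul_smul _ _ _) }
  have hφ : Function.Injective φ := by
    rw [injective_iff_map_eq_zero]
    intro s hs
    have h0 : (U - Ui) * s.1 = 0 := congrArg Subtype.val hs
    obtain ⟨c, hc⟩ := C.ker_N s.2.1 (C.t_cancel h0)
    have h1 : sadj s.1 = -s.1 := by
      rw [hc, sadj_smul, htop.2, smul_neg]
    have h2 : s.1 + s.1 = 0 := by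
      have := s.2.2
      rw [h1] at this
      nth_rewrite 1 [← this]
      rw [neg_add_cancel]
    have h3 : (2 : F) • s.1 = 0 := by rw [two_smul, h2]
    exact Subtype.ext ((smul_eq_zero.mp h3).resolve_left C.htwo)
  have hker : Module.finrank F (LinearMap.ker ψ) ≤ 1 := by
    have hmem : (⟨N ^ (Fintype.card (l ⊕ l) - 1), htop⟩ : ruSkew N) ∈ LinearMap.ker ψ := by
      rw [LinearMap.mem_ker]
      apply Subtype.ext
      show (U - Ui) * N ^ (Fintype.card (l ⊕ l) - 1) = 0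
      rw [sub_mul, C.U_pow_top, C.Ui_pow_top, sub_self]
    refine finrank_le_one (⟨_, hmem⟩ : LinearMap.ker ψ) (fun x => ?_)
    have h0 : (U - Ui) * x.1.1 = 0 := congrArg Subtype.val (LinearMap.mem_ker.mp x.2)
    obtain ⟨c, hc⟩ := C.ker_N x.1.2.1 (C.t_cancel h0)
    exact ⟨c, Subtype.ext (Subtype.ext hc.symm)⟩
  have h1 : Module.finrank F (ruSym N) ≤ Module.finrank F (ruSkew N) :=
    LinearMap.finrank_le_finrank_of_injective hφ
  have h2 := LinearMap.finrank_range_add_finrank_ker ψ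
  have h3 : Module.finrank F (LinearMap.range ψ) ≤ Module.finrank F (ruSym N) :=
    Submodule.finrank_le _
  have hinf : ruSym N ⊓ ruSkew N = ⊥ := by
    rw [eq_bot_iff]
    rintro x ⟨hx1, hx2⟩
    have h4 : x + x = 0 := by
      have e1 := hx1.2
      have e2 := hx2.2
      rw [e1] at e2
      nth_rewrite 1 [e2]
      rw [neg_add_cancel]
    have h5 : (2 : F) • x = 0 := by rw [two_smul, h4]
    exact (smul_eq_zero.mp h5).resolve_left C.htwo
  have hsup : ruSym N ⊔ ruSkew N = ruCent N := by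
    refine le_antisymm (sup_le (fun x hx => hx.1) (fun x hx => hx.1)) ?_
    intro g hg
    have hg' : g * N = N * g := hg
    have hsg := C.sadj_cent hg'
    have e : g = (2 : F)⁻¹ • (g + sadj g) + (2 : F)⁻¹ • (g - sadj g) := by
      rw [← smul_add]
      have : g + sadj g + (g - sadj g) = (2 : F) • g := by
        rw [two_smul]
        abel
      rw [this, smul_smul, inv_mul_cancel₀ C.htwo, one_smul]
    rw [e]
    refine Submodule.add_mem _ (Submodule.mem_sup_left (Submodule.smul_mem _ _ ⟨?_, ?_⟩))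
      (Submodule.mem_sup_right (Submodule.smul_mem _ _ ⟨?_, ?_⟩))
    · rw [add_mul, mul_add, hg', hsg]
    · rw [sadj_add, sadj_sadj, add_comm]
    · rw [sub_mul, mul_sub, hg', hsg]
    · rw [sadj_sub, sadj_sadj]
      abel
  have h6 := Submodule.finrank_sup_add_finrank_inf_eq (ruSym N) (ruSkew N)
  rw [hinf, hsup, finrank_bot, ru_finrank_cent N C.hN w C.hw, hm] at h6
  omega

end RUCtx

end RegUnipSymp

end Cfsg.Agent.Lib.Helper99
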