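import Mathlib
import Cfsg.Agent.Lib.Helper99.RegUnip

set_option autoImplicit false

namespace Cfsg.Agent.Lib.Helper99

section RegUnipA

open Matrix

variable {F : Type*} [Field F] {ι : Type*} [Fintype ι] [DecidableEq ι]

/-- The centraliser of a regular nilpotent matrix is commutative. -/
theorem ru_comm (N : Matrix ι ι F) (hN : N ^ Fintype.card ι = 0) (w : ι → F)
    (hw : (N ^ (Fintype.card ι - 1)) *ᵥ w ≠ 0) (g g' : Matrix ι ι F) (hg : g * N = N * g)
    (hg' : g' * N = N * g') : g * g' = g' * g := by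
  obtain ⟨c, rfl⟩ := ru_cent_poly N hN w hw g hg
  rw [Finset.sum_mul, Finset.mul_sum]
  refine Finset.sum_congr rfl (fun j _ => ?_)
  rw [Matrix.smul_mul, Matrix.mul_smul]
  congr 1
  exact (Commute.pow_right hg' j).symm

/-- Two regular nilpotent matrices are conjugate. -/
theorem ru_conj (N N' : Matrix ι ι F) (hN : N ^ Fintype.card ι = 0)
    (hN' : N' ^ Fintype.card ι = 0) (w w' : ι → F)
    (hw : (N ^ (Fintype.card ι - 1)) *ᵥ w ≠ 0)
    (hw' : (N' ^ (Fintype.card ι - 1)) *ᵥ w' ≠ 0) :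
    ∃ H : Matrix ι ι F, IsUnit H.det ∧ H * N = N' * H := by
  have hli := ru_li N _ hN w hw
  have hli' := ru_li N' _ hN' w' hw'
  let B := basisOfLinearIndependentOfCardEqFinrank' _ hli (by simp)
  let B' := basisOfLinearIndependentOfCardEqFinrank' _ hli' (by simp)
  have hB : ∀ j, B j = (N ^ (j : ℕ)) *ᵥ w := fun j => by simp [B]
  have hB' : ∀ j, B' j = (N' ^ (j : ℕ)) *ᵥ w' := fun j => by simp [B']
  let e : (ι → F) ≃ₗ[F] (ι → F) := B.equiv B' (Equiv.refl _)
  have he : ∀ j, e (B j) = B' j := fun j => by simp [e]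
  have key : e.toLinearMap ∘ₗ Matrix.toLin' N = Matrix.toLin' N' ∘ₗ e.toLinearMap := by
    apply B.ext
    intro j
    simp only [LinearMap.comp_apply, LinearEquiv.coe_coe, Matrix.toLin'_apply]
    rw [he, hB, hB', Matrix.mulVec_mulVec, Matrix.mulVec_mulVec, ← pow_succ', ← pow_succ']
    by_cases hj : (j : ℕ) + 1 < Fintype.card ι
    · have h1 : (N ^ ((j : ℕ) + 1)) *ᵥ w = B ⟨(j : ℕ) + 1, hj⟩ := (hB ⟨(j : ℕ) + 1, hj⟩).symm
      have h2 : (N' ^ ((j : ℕ) + 1)) *ᵥ w' = B' ⟨(j : ℕ) + 1, hj⟩ :=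
        (hB' ⟨(j : ℕ) + 1, hj⟩).symm
      rw [h1, h2, he]
    · have hj' : (j : ℕ) + 1 = Fintype.card ι := by
        have := j.2
        omega
      rw [hj', hN, hN', Matrix.zero_mulVec, Matrix.zero_mulVec, map_zero]
  refine ⟨LinearMap.toMatrix' e.toLinearMap, ?_, ?_⟩
  · rw [LinearMap.det_toMatrix']
    exact LinearEquiv.isUnit_det' e
  · have h1 := congrArg LinearMap.toMatrix' key
    rw [LinearMap.toMatrix'_comp, LinearMap.toMatrix'_comp, LinearMap.toMatrix'_toLin',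
      LinearMap.toMatrix'_toLin'] at h1
    exact h1

/-- Conjugation commutes with powers. -/
theorem ru_conj_pow (H Hi x : Matrix ι ι F) (h : Hi * H = 1) (h' : H * Hi = 1) (n : ℕ) :
    (H * x * Hi) ^ n = H * x ^ n * Hi := by
  induction n with
  | zero => rw [pow_zero, pow_zero, mul_one, h']
  | succ n ih =>
    rw [pow_succ, ih, pow_succ]
    calc H * x ^ n * Hi * (H * x * Hi) = H * x ^ n * (Hi * H) * x * Hi := by
          simp only [Matrix.mul_assoc]
      _ = H * (x ^ n * x) * Hi := by rw [h, mul_one, Matrix.mul_assoc H]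

end RegUnipA

section RegUnipB

open Matrix

variable {F : Type*} [Field F] {l : Type*} [Fintype l] [DecidableEq l]

theorem sadj_isUnit_det (a : Matrix (l ⊕ l) (l ⊕ l) F) (ha : IsUnit a.det) :
    IsUnit (sadj a).det := by
  refine Matrix.isUnit_det_of_right_inverse (B := sadj a⁻¹) ?_
  rw [← sadj_mul, Matrix.nonsing_inv_mul a ha, sadj_one]

theorem sadj_inv_mul_inv {H : Matrix (l ⊕ l) (l ⊕ l) F} {c : F} (hc : c ≠ 0) (hH : IsUnit H.det)
    (hs : sadj H * H = c • (1 : Matrix (l ⊕ l) (l ⊕ l) F)) :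
    sadj H⁻¹ * H⁻¹ = c⁻¹ • (1 : Matrix (l ⊕ l) (l ⊕ l) F) := by
  have h1 : H * H⁻¹ = 1 := Matrix.mul_nonsing_inv H hH
  have h2 : sadj H⁻¹ * sadj H = 1 := by rw [← sadj_mul, h1, sadj_one]
  have h3 : sadj H⁻¹ * (sadj H * H) * H⁻¹ = 1 := by
    calc sadj H⁻¹ * (sadj H * H) * H⁻¹ = (sadj H⁻¹ * sadj H) * (H * H⁻¹) := by
          simp only [Matrix.mul_assoc]
      _ = 1 := by rw [h1, h2, mul_one]
  rw [hs, Matrix.mul_smul, mul_one, Matrix.smul_mul] at h3
  calc sadj H⁻¹ * H⁻¹ = c⁻¹ • (c • (sadj H⁻¹ * H⁻¹)) := by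
        rw [smul_smul, inv_mul_cancel₀ hc, one_smul]
    _ = c⁻¹ • 1 := by rw [h3]

/-- Conjugating a symplectic matrix by a similitude. -/
theorem conj_regUnip {H u : Matrix (l ⊕ l) (l ⊕ l) F} {c : F} {n : ℕ} (hc : c ≠ 0)
    (hH : IsUnit H.det) (hs : sadj H * H = c • (1 : Matrix (l ⊕ l) (l ⊕ l) F))
    (hu : sadj u * u = 1) (hnil : (u - 1) ^ n = 0) :
    sadj (H * u * H⁻¹) * (H * u * H⁻¹) = 1 ∧ (H * u * H⁻¹ - 1) ^ n = 0 ∧
      (H * u * H⁻¹ - 1).rank = (u - 1).rank := by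
  have h1 : H * H⁻¹ = 1 := Matrix.mul_nonsing_inv H hH
  have h2 : H⁻¹ * H = 1 := Matrix.nonsing_inv_mul H hH
  have hi := sadj_inv_mul_inv hc hH hs
  have e : H * u * H⁻¹ - 1 = H * (u - 1) * H⁻¹ := by
    rw [mul_sub, sub_mul, mul_one, h1]
  refine ⟨?_, ?_, ?_⟩
  · rw [sadj_mul, sadj_mul]
    calc sadj H⁻¹ * (sadj u * sadj H) * (H * u * H⁻¹)
        = sadj H⁻¹ * (sadj u * (sadj H * H) * u) * H⁻¹ := by simp only [Matrix.mul_assoc]
      _ = c • (sadj H⁻¹ * (sadj u * u) * H⁻¹) := by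
          rw [hs]
          simp only [Matrix.mul_smul, Matrix.smul_mul, mul_one]
      _ = 1 := by rw [hu, mul_one, hi, smul_smul, mul_inv_cancel₀ hc, one_smul]
  · rw [e, ru_conj_pow _ _ _ h2 h1, hnil, mul_zero, zero_mul]
  · rw [e, Matrix.rank_mul_eq_left_of_isUnit_det _ _ (Matrix.isUnit_nonsing_inv_det _ hH),
      Matrix.rank_mul_eq_right_of_isUnit_det _ _ hH]

namespace RUCtx

variable {N U Ui : Matrix (l ⊕ l) (l ⊕ l) F} {w : l ⊕ l → F}

theorem comm_U (C : RUCtx N U Ui w) {h : Matrix (l ⊕ l) (l ⊕ l) F} (hh : h * N = N * h) :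
    h * U = U * h := by
  rw [C.hU, mul_add, add_mul, mul_one, one_mul, hh]

theorem comm_of_U (C : RUCtx N U Ui w) {h : Matrix (l ⊕ l) (l ⊕ l) F} (hh : h * U = U * h) :
    h * N = N * h := by
  rw [C.hN', mul_sub, sub_mul, mul_one, one_mul, hh]

theorem one_add_comm (C : RUCtx N U Ui w) {h : Matrix (l ⊕ l) (l ⊕ l) F} (hh : h * N = N * h) :
    (1 + N * h) * N = N * (1 + N * h) := by
  rw [add_mul, mul_add, one_mul, mul_one, Matrix.mul_assoc, hh]

theorem sq_inj (C : RUCtx N U Ui w) {h h' : Matrix (l ⊕ l) (l ⊕ l) F} (hh : h * N = N * h)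
    (hh' : h' * N = N * h')
    (e : (1 + N * h) * (1 + N * h) = (1 + N * h') * (1 + N * h')) : N * h = N * h' := by
  have hx := C.one_add_comm hh
  have hy := C.one_add_comm hh'
  have hxy := ru_comm N C.hN w C.hw _ _ hx hy
  have h0 : ((1 + N * h) - (1 + N * h')) * ((1 + N * h) + (1 + N * h')) = 0 := by
    have e0 : ∀ x y : Matrix (l ⊕ l) (l ⊕ l) F, (x - y) * (x + y) = x * x - y * y + (x * y - y * x) := by
      intro x y
      noncomm_ring
    rw [e0, e, hxy]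
    abel
  have hu : IsUnit ((1 + N * h) + (1 + N * h')) := by
    have e2 : (1 + N * h) + (1 + N * h') =
        (2 : F) • (1 : Matrix (l ⊕ l) (l ⊕ l) F) + N * (h + h') := by
      rw [two_smul, mul_add]
      abel
    rw [e2]
    have hsum : (h + h') * N = N * (h + h') := by rw [add_mul, mul_add, hh, hh']
    exact (C.isNil hsum).isUnit_add_left_of_commute (ru_smul_one_isUnit 2 C.htwo)
      ((Commute.one_right _).smul_right 2)
  have h1 := (hu.mul_left_eq_zero).mp h0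
  have h2 : (1 + N * h) - (1 + N * h') = N * h - N * h' := by abel
  rw [h2] at h1
  exact sub_eq_zero.mp h1

theorem exists_sqrt [Finite F] (C : RUCtx N U Ui w) {h : Matrix (l ⊕ l) (l ⊕ l) F}
    (hh : h * N = N * h) :
    ∃ h₂ : Matrix (l ⊕ l) (l ⊕ l) F, h₂ * N = N * h₂ ∧
      (1 + N * h₂) * (1 + N * h₂) = 1 + N * h := by
  have hsq : ∀ x : {x : Matrix (l ⊕ l) (l ⊕ l) F // ∃ h, h * N = N * h ∧ x = 1 + N * h},
      ∃ h, h * N = N * h ∧ x.1 * x.1 = 1 + N * h := by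
    rintro ⟨x, h, hh, rfl⟩
    refine ⟨h + h + h * (N * h), ?_, ?_⟩
    · rw [add_mul, add_mul, mul_add, mul_add, hh]
      congr 1
      calc h * (N * h) * N = h * N * (h * N) := by simp only [Matrix.mul_assoc]
        _ = N * h * (N * h) := by rw [hh]
        _ = N * (h * (N * h)) := by simp only [Matrix.mul_assoc]
    · show (1 + N * h) * (1 + N * h) = _
      noncomm_ring
  let f : {x : Matrix (l ⊕ l) (l ⊕ l) F // ∃ h, h * N = N * h ∧ x = 1 + N * h} →
      {x : Matrix (l ⊕ l) (l ⊕ l) F // ∃ h, h * N = N * h ∧ x = 1 + N * h} :=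
    fun x => ⟨x.1 * x.1, hsq x⟩
  have hf : Function.Injective f := by
    rintro ⟨x, h, hh, rfl⟩ ⟨y, h', hh', rfl⟩ hxy
    have e : (1 + N * h) * (1 + N * h) = (1 + N * h') * (1 + N * h') :=
      congrArg Subtype.val hxy
    apply Subtype.ext
    show 1 + N * h = 1 + N * h'
    rw [C.sq_inj hh hh' e]
  obtain ⟨⟨x, h₂, hh₂, rfl⟩, hx⟩ := Finite.surjective_of_injective hf ⟨1 + N * h, h, hh, rfl⟩
  exact ⟨h₂, hh₂, congrArg Subtype.val hx⟩

/-- A self-adjoint element of the centraliser with square constant term is a norm. -/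
theorem norm_of_sq [Finite F] (C : RUCtx N U Ui w) {s h : Matrix (l ⊕ l) (l ⊕ l) F} {β : F}
    (hβ : β ≠ 0) (hh : h * N = N * h)
    (hs : s = (β * β) • (1 : Matrix (l ⊕ l) (l ⊕ l) F) + N * h) (hsym : sadj s = s) :
    ∃ b : Matrix (l ⊕ l) (l ⊕ l) F, b * N = N * b ∧ IsUnit b ∧ b * sadj b = s := by
  have hβ2 : β * β ≠ 0 := mul_ne_zero hβ hβ
  have hh' : ((β * β)⁻¹ • h) * N = N * ((β * β)⁻¹ • h) := by
    rw [Matrix.smul_mul, Matrix.mul_smul, hh]
  have hs1 : (β * β)⁻¹ • s = 1 + N * ((β * β)⁻¹ • h) := by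
    rw [hs, smul_add, smul_smul, inv_mul_cancel₀ hβ2, one_smul, Matrix.mul_smul]
  obtain ⟨h₂, hh₂, e₂⟩ := C.exists_sqrt hh'
  obtain ⟨h₃, hh₃, e₃⟩ := C.sadj_Nh hh₂
  have hsx : sadj (1 + N * h₂) = 1 + N * h₃ := by rw [sadj_add, sadj_one, e₃]
  have e4 : (1 + N * h₃) * (1 + N * h₃) = (1 + N * h₂) * (1 + N * h₂) := by
    rw [← hsx, ← sadj_mul, e₂, ← hs1, sadj_smul, hsym]
  have e5 : N * h₃ = N * h₂ := C.sq_inj hh₃ hh₂ e4
  have hsx' : sadj (1 + N * h₂) = 1 + N * h₂ := by rw [hsx, e5]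
  refine ⟨β • (1 + N * h₂), ?_, ?_, ?_⟩
  · rw [Matrix.smul_mul, Matrix.mul_smul, C.one_add_comm hh₂]
  · have e6 : β • (1 + N * h₂) = (β • (1 : Matrix (l ⊕ l) (l ⊕ l) F)) * (1 + N * h₂) := by
      rw [Matrix.smul_mul, one_mul]
    rw [e6]
    exact (ru_smul_one_isUnit β hβ).mul (C.isNil hh₂).isUnit_one_add
  · rw [sadj_smul, hsx', Matrix.smul_mul, Matrix.mul_smul, smul_smul, e₂, ← hs1, smul_smul,
      mul_inv_cancel₀ hβ2, one_smul]

/-- The constant term of a norm is a square. -/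
theorem sq_of_norm (C : RUCtx N U Ui w) {b h : Matrix (l ⊕ l) (l ⊕ l) F} {c : F}
    (hb : b * N = N * b) (hh : h * N = N * h)
    (e : b * sadj b = c • (1 : Matrix (l ⊕ l) (l ⊕ l) F) + N * h) : ∃ β : F, c = β * β := by
  obtain ⟨β, h₁, hh₁, rfl⟩ := ru_cent_decomp N C.hcard C.hN w C.hw b hb
  obtain ⟨h₁', hh₁', e'⟩ := C.sadj_Nh hh₁
  rw [sadj_add, sadj_smul, sadj_one, e'] at e
  refine ⟨β, ?_⟩
  have e1 : (β • (1 : Matrix (l ⊕ l) (l ⊕ l) F) + N * h₁) * (β • 1 + N * h₁') =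
      (β * β) • 1 + N * (β • h₁' + β • h₁ + h₁ * (N * h₁')) := by
    simp only [add_mul, mul_add, Matrix.smul_mul, Matrix.mul_smul, one_mul, mul_one, smul_smul,
      Matrix.mul_assoc]
    abel
  rw [e1] at e
  have e2 : c • (1 : Matrix (l ⊕ l) (l ⊕ l) F) =
      (β * β) • 1 + N * (β • h₁' + β • h₁ + h₁ * (N * h₁')) - N * h := eq_sub_of_add_eq e.symm
  have key : (c - β * β) • (1 : Matrix (l ⊕ l) (l ⊕ l) F) =
      N * (β • h₁' + β • h₁ + h₁ * (N * h₁') - h) := by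
    rw [sub_smul, mul_sub, e2]
    abel
  have hX : (β • h₁' + β • h₁ + h₁ * (N * h₁') - h) * N =
      N * (β • h₁' + β • h₁ + h₁ * (N * h₁') - h) := by
    have e3 : h₁ * (N * h₁') * N = N * (h₁ * (N * h₁')) := by
      calc h₁ * (N * h₁') * N = h₁ * (N * (h₁' * N)) := by simp only [Matrix.mul_assoc]
        _ = h₁ * (N * (N * h₁')) := by rw [hh₁']
        _ = (h₁ * N) * (N * h₁') := by simp only [Matrix.mul_assoc]
        _ = (N * h₁) * (N * h₁') := by rw [hh₁]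
        _ = N * (h₁ * (N * h₁')) := by simp only [Matrix.mul_assoc]
    rw [sub_mul, add_mul, add_mul, mul_sub, mul_add, mul_add, Matrix.smul_mul, Matrix.smul_mul,
      Matrix.mul_smul, Matrix.mul_smul, hh₁, hh₁', e3, hh]
  have hc := C.scalar_zero hX key
  linear_combination hc

/-- Two conjugates of `U` whose invariants differ by a square are symplectically conjugate. -/
theorem conj_of_sq [Finite F] (C : RUCtx N U Ui w) {H H' h : Matrix (l ⊕ l) (l ⊕ l) F}
    {c' β : F} (hc' : c' ≠ 0) (hβ : β ≠ 0) (hH : IsUnit H.det) (hH' : IsUnit H'.det)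
    (hs' : sadj H' * H' = c' • (1 : Matrix (l ⊕ l) (l ⊕ l) F)) (hh : h * N = N * h)
    (hs : sadj H * H = (c' * (β * β)) • (1 : Matrix (l ⊕ l) (l ⊕ l) F) + N * h) :
    ∃ g : Matrix (l ⊕ l) (l ⊕ l) F, sadj g * g = 1 ∧
      g * (H' * U * H'⁻¹) = (H * U * H⁻¹) * g := by
  have hsym : sadj (c'⁻¹ • (sadj H * H)) = c'⁻¹ • (sadj H * H) := by
    rw [sadj_smul, sadj_mul, sadj_sadj]
  have hh' : (c'⁻¹ • h) * N = N * (c'⁻¹ • h) := by rw [Matrix.smul_mul, Matrix.mul_smul, hh]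
  have hs1 : c'⁻¹ • (sadj H * H) =
      (β * β) • (1 : Matrix (l ⊕ l) (l ⊕ l) F) + N * (c'⁻¹ • h) := by
    rw [hs, smul_add, smul_smul, ← mul_assoc, inv_mul_cancel₀ hc', one_mul, Matrix.mul_smul]
  obtain ⟨b, hb, hbu, hbn⟩ := C.norm_of_sq hβ hh' hs1 hsym
  have hbd : IsUnit b.det := (Matrix.isUnit_iff_isUnit_det _).mp hbu
  have hsb := C.sadj_cent hb
  have hbc : b * sadj b = sadj b * b := ru_comm N C.hN w C.hw _ _ hb hsb
  have hb1 : b * b⁻¹ = 1 := Matrix.mul_nonsing_inv b hbd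
  have hb2 : b⁻¹ * b = 1 := Matrix.nonsing_inv_mul b hbd
  have hsb1 : sadj b⁻¹ * sadj b = 1 := by rw [← sadj_mul, hb1, sadj_one]
  have hH1 : H * H⁻¹ = 1 := Matrix.mul_nonsing_inv H hH
  have hH2 : H⁻¹ * H = 1 := Matrix.nonsing_inv_mul H hH
  have hH'1 : H' * H'⁻¹ = 1 := Matrix.mul_nonsing_inv H' hH'
  have hH'2 : H'⁻¹ * H' = 1 := Matrix.nonsing_inv_mul H' hH'
  have hi := sadj_inv_mul_inv hc' hH' hs'
  have hsH : sadj H * H = c' • (b * sadj b) := by
    rw [hbn, smul_smul, mul_inv_cancel₀ hc', one_smul]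
  have hbiU : b⁻¹ * U = U * b⁻¹ := C.comm_U (ru_inv_comm _ _ hbd hb)
  refine ⟨H * b⁻¹ * H'⁻¹, ?_, ?_⟩
  · rw [sadj_mul, sadj_mul]
    calc sadj H'⁻¹ * (sadj b⁻¹ * sadj H) * (H * b⁻¹ * H'⁻¹)
        = sadj H'⁻¹ * (sadj b⁻¹ * (sadj H * H) * b⁻¹) * H'⁻¹ := by simp only [Matrix.mul_assoc]
      _ = sadj H'⁻¹ * (c' • ((sadj b⁻¹ * sadj b) * (b * b⁻¹))) * H'⁻¹ := by
          rw [hsH, hbc]
          simp only [Matrix.mul_smul, Matrix.smul_mul, Matrix.mul_assoc]
      _ = c' • (sadj H'⁻¹ * H'⁻¹) := by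
          rw [hsb1, hb1, mul_one, Matrix.mul_smul, mul_one, Matrix.smul_mul]
      _ = 1 := by rw [hi, smul_smul, mul_inv_cancel₀ hc', one_smul]
  · calc H * b⁻¹ * H'⁻¹ * (H' * U * H'⁻¹) = H * b⁻¹ * (H'⁻¹ * H') * U * H'⁻¹ := by
          simp only [Matrix.mul_assoc]
      _ = H * (b⁻¹ * U) * H'⁻¹ := by rw [hH'2, mul_one, Matrix.mul_assoc H]
      _ = H * U * (H⁻¹ * H) * b⁻¹ * H'⁻¹ := by
          rw [hbiU, hH2, mul_one]
          simp only [Matrix.mul_assoc]
      _ = H * U * H⁻¹ * (H * b⁻¹ * H'⁻¹) := by simp only [Matrix.mul_assoc]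

/-- If a conjugate of `U` by a similitude is symplectically conjugate to `U`, the multiplier is
a square. -/
theorem sq_of_conj (C : RUCtx N U Ui w) {H' g : Matrix (l ⊕ l) (l ⊕ l) F} {c' : F}
    (hc' : c' ≠ 0) (hH' : IsUnit H'.det)
    (hs' : sadj H' * H' = c' • (1 : Matrix (l ⊕ l) (l ⊕ l) F)) (hg : sadj g * g = 1)
    (hconj : g * U = (H' * U * H'⁻¹) * g) : ∃ β : F, c' = β * β := by
  have hH'2 : H'⁻¹ * H' = 1 := Matrix.nonsing_inv_mul H' hH'
  have hi := sadj_inv_mul_inv hc' hH' hs'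
  have hbU : (H'⁻¹ * g) * U = U * (H'⁻¹ * g) := by
    calc H'⁻¹ * g * U = H'⁻¹ * (g * U) := by rw [Matrix.mul_assoc]
      _ = H'⁻¹ * (H' * U * H'⁻¹ * g) := by rw [hconj]
      _ = (H'⁻¹ * H') * U * (H'⁻¹ * g) := by simp only [Matrix.mul_assoc]
      _ = U * (H'⁻¹ * g) := by rw [hH'2, one_mul]
  have hb := C.comm_of_U hbU
  have hsb := C.sadj_cent hb
  have hbc : (H'⁻¹ * g) * sadj (H'⁻¹ * g) = sadj (H'⁻¹ * g) * (H'⁻¹ * g) :=
    ru_comm N C.hN w C.hw _ _ hb hsb
  have e : (H'⁻¹ * g) * sadj (H'⁻¹ * g) =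
      c'⁻¹ • (1 : Matrix (l ⊕ l) (l ⊕ l) F) + N * 0 := by
    rw [hbc, sadj_mul, mul_zero, add_zero]
    calc sadj g * sadj H'⁻¹ * (H'⁻¹ * g) = sadj g * (sadj H'⁻¹ * H'⁻¹) * g := by
          simp only [Matrix.mul_assoc]
      _ = c'⁻¹ • (sadj g * g) := by
          rw [hi, Matrix.mul_smul, mul_one, Matrix.smul_mul]
      _ = c'⁻¹ • 1 := by rw [hg]
  obtain ⟨β, hβ⟩ := C.sq_of_norm hb (by simp) e
  refine ⟨β⁻¹, ?_⟩
  rw [← mul_inv, ← hβ, inv_inv]

end RUCtx

end RegUnipB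

section RegUnipExist

open Matrix

variable {F : Type*} [Field F]

/-- The nilpotent shift matrix. -/
def ruShift (m : ℕ) (F : Type*) [Field F] : Matrix (Fin m) (Fin m) F :=
  Matrix.of fun i j => if (i : ℕ) + 1 = (j : ℕ) then 1 else 0

/-- The corner matrix. -/
def ruCorner (m : ℕ) (F : Type*) [Field F] : Matrix (Fin m) (Fin m) F :=
  Matrix.of fun i j => if (i : ℕ) + 1 = m ∧ (j : ℕ) + 1 = m then 1 else 0

theorem ruShift_pow_apply (m a : ℕ) (i j : Fin m) (h : ¬ (i : ℕ) + a ≤ j) :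
    ((ruShift m F) ^ a) i j = 0 := by
  induction a generalizing j with
  | zero =>
    rw [pow_zero, Matrix.one_apply, if_neg]
    rintro rfl
    exact h (by simp)
  | succ a ih =>
    rw [pow_succ, Matrix.mul_apply]
    refine Finset.sum_eq_zero (fun t _ => ?_)
    by_cases ht : (i : ℕ) + a ≤ t
    · have : ruShift m F t j = 0 := by
        unfold ruShift
        rw [Matrix.of_apply, if_neg]
        omega
      rw [this, mul_zero]
    · rw [ih t ht, zero_mul]

theorem ruShift_pow (m : ℕ) : (ruShift m F) ^ m = 0 := by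
  ext i j
  rw [Matrix.zero_apply]
  apply ruShift_pow_apply
  have := j.2
  omega

theorem blockUpper_pow {n : Type*} [Fintype n] [DecidableEq n] (A B D : Matrix n n F) (j : ℕ) :
    ∃ X : Matrix n n F,
      (Matrix.fromBlocks A B 0 D) ^ j = Matrix.fromBlocks (A ^ j) X 0 (D ^ j) := by
  induction j with
  | zero => exact ⟨0, by rw [pow_zero, pow_zero, pow_zero, Matrix.fromBlocks_one]⟩
  | succ j ih =>
    obtain ⟨X, hX⟩ := ih
    refine ⟨A ^ j * B + X * D, ?_⟩
    rw [pow_succ, hX, Matrix.fromBlocks_multiply, pow_succ, pow_succ]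
    simp

/-- A regular nilpotent element of the symplectic Lie algebra. -/
def ruK (m : ℕ) (F : Type*) [Field F] : Matrix (Fin m ⊕ Fin m) (Fin m ⊕ Fin m) F :=
  Matrix.fromBlocks (ruShift m F) (ruCorner m F) 0 (-(ruShift m F)ᵀ)

theorem ruK_pow (m : ℕ) : (ruK m F) ^ (2 * m) = 0 := by
  obtain ⟨X, hX⟩ := blockUpper_pow (ruShift m F) (ruCorner m F) (-(ruShift m F)ᵀ) m
  have h1 : (-(ruShift m F)ᵀ) ^ m = 0 := by
    rw [neg_pow, ← Matrix.transpose_pow, ruShift_pow, Matrix.transpose_zero, mul_zero]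
  rw [ruShift_pow, h1] at hX
  have : (ruK m F) ^ (2 * m) = (ruK m F) ^ m * (ruK m F) ^ m := by rw [← pow_add, two_mul]
  rw [this]
  unfold ruK
  rw [hX, Matrix.fromBlocks_multiply]
  simp

theorem ruK_sadj (m : ℕ) : sadj (ruK m F) = -ruK m F := by
  have hB : (ruCorner m F)ᵀ = ruCorner m F := by
    ext i j
    simp [ruCorner, and_comm]
  unfold sadj ruK Matrix.J
  rw [Matrix.fromBlocks_transpose, Matrix.fromBlocks_multiply, Matrix.fromBlocks_multiply, hB]
  simp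

theorem ruK_ker (m : ℕ) (hm : 1 ≤ m) (v : Fin m ⊕ Fin m → F) (hv : ruK m F *ᵥ v = 0) :
    v = v (Sum.inl ⟨0, hm⟩) • Pi.single (Sum.inl ⟨0, hm⟩) (1 : F) := by
  unfold ruK at hv
  rw [Matrix.fromBlocks_mulVec] at hv
  have h1 : ∀ i : Fin m, ∑ j, ruShift m F i j * v (Sum.inl j) +
      ∑ j, ruCorner m F i j * v (Sum.inr j) = 0 := fun i => by
    have := congrFun hv (Sum.inl i)
    simpa [Matrix.mulVec, dotProduct] using this
  have h2 : ∀ i : Fin m, ∑ j, ruShift m F j i * v (Sum.inr j) = 0 := fun i => by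
    have := congrFun hv (Sum.inr i)
    simpa [Matrix.mulVec, dotProduct] using this
  have hy1 : ∀ j : Fin m, (j : ℕ) + 1 < m → v (Sum.inr j) = 0 := by
    intro j hj
    have := h2 ⟨(j : ℕ) + 1, hj⟩
    rw [Finset.sum_eq_single j] at this
    · simpa [ruShift] using this
    · intro t _ ht
      have : ruShift m F t ⟨(j : ℕ) + 1, hj⟩ = 0 := by
        unfold ruShift
        rw [Matrix.of_apply, if_neg]
        intro h
        apply ht
        apply Fin.ext
        simpa using h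
      rw [this, zero_mul]
    · intro h
      exact absurd (Finset.mem_univ j) h
  have hy2 : v (Sum.inr ⟨m - 1, by omega⟩) = 0 := by
    have := h1 ⟨m - 1, by omega⟩
    rw [Finset.sum_eq_zero, zero_add, Finset.sum_eq_single ⟨m - 1, by omega⟩] at this
    · have e : (m - 1 + 1 = m) := by omega
      simpa [ruCorner, e] using this
    · intro t _ ht
      have : ruCorner m F ⟨m - 1, by omega⟩ t = 0 := by
        unfold ruCorner
        rw [Matrix.of_apply, if_neg]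
        rintro ⟨_, h⟩
        apply ht
        apply Fin.ext
        simp only
        omega
      rw [this, zero_mul]
    · intro h
      exact absurd (Finset.mem_univ _) h
    · intro t _
      have : ruShift m F ⟨m - 1, by omega⟩ t = 0 := by
        unfold ruShift
        rw [Matrix.of_apply, if_neg]
        have := t.2
        simp only
        omega
      rw [this, zero_mul]
  have hy : ∀ j : Fin m, v (Sum.inr j) = 0 := by
    intro j
    by_cases hj : (j : ℕ) + 1 < m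
    · exact hy1 j hj
    · have : j = ⟨m - 1, by omega⟩ := by
        apply Fin.ext
        have := j.2
        simp only
        omega
      rw [this]
      exact hy2
  have hx : ∀ j : Fin m, 0 < (j : ℕ) → v (Sum.inl j) = 0 := by
    intro j hj
    have hlt : (j : ℕ) - 1 < m := by
      have := j.2
      omega
    have := h1 ⟨(j : ℕ) - 1, hlt⟩
    rw [Finset.sum_eq_single j] at this
    · have e : (j : ℕ) - 1 + 1 = j := by omega
      simpa [ruShift, e, hy] using this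
    · intro t _ ht
      have : ruShift m F ⟨(j : ℕ) - 1, hlt⟩ t = 0 := by
        unfold ruShift
        rw [Matrix.of_apply, if_neg]
        intro h
        apply ht
        apply Fin.ext
        simp only at h
        omega
      rw [this, zero_mul]
    · intro h
      exact absurd (Finset.mem_univ j) h
  funext x
  rcases x with j | j
  · by_cases hj : 0 < (j : ℕ)
    · rw [hx j hj]
      have hne : (Sum.inl j : Fin m ⊕ Fin m) ≠ Sum.inl ⟨0, hm⟩ := by
        intro h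
        have := Sum.inl.inj h
        rw [this] at hj
        exact absurd hj (by simp)
      simp [Pi.single_apply, hne]
    · have : j = ⟨0, hm⟩ := by
        apply Fin.ext
        simp only
        omega
      rw [this]
      simp
  · rw [hy j]
    simp

theorem ruK_rank (m : ℕ) (hm : 1 ≤ m) : (ruK m F).rank = 2 * m - 1 := by
  have hmem : (Pi.single (Sum.inl ⟨0, hm⟩) (1 : F) : Fin m ⊕ Fin m → F) ∈
      LinearMap.ker (ruK m F).mulVecLin := by
    rw [LinearMap.mem_ker, Matrix.mulVecLin_apply, Matrix.mulVec_single_one]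
    funext x
    rcases x with j | j
    · simp [ruK, ruShift]
    · simp [ruK]
  have hker : Module.finrank F (LinearMap.ker (ruK m F).mulVecLin) = 1 := by
    apply le_antisymm
    · refine finrank_le_one (⟨_, hmem⟩ : LinearMap.ker (ruK m F).mulVecLin) (fun x => ?_)
      refine ⟨x.1 (Sum.inl ⟨0, hm⟩), Subtype.ext ?_⟩
      exact (ruK_ker m hm x.1 (LinearMap.mem_ker.mp x.2)).symm
    · have hpos : 0 < Module.finrank F (LinearMap.ker (ruK m F).mulVecLin) := by
        rw [Module.finrank_pos_iff_exists_ne_zero]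
        refine ⟨⟨_, hmem⟩, ?_⟩
        intro h0
        have h1 := congrFun (congrArg Subtype.val h0) (Sum.inl ⟨0, hm⟩)
        simp at h1
      omega
  have h := LinearMap.finrank_range_add_finrank_ker (ruK m F).mulVecLin
  rw [hker, Module.finrank_fintype_fun_eq_card, Fintype.card_sum, Fintype.card_fin] at h
  unfold Matrix.rank
  omega

theorem cay_symp {l : Type*} [Fintype l] [DecidableEq l] (k : Matrix (l ⊕ l) (l ⊕ l) F)
    (hs : sadj k = -k) (ha : IsUnit (1 - k).det) (hb : IsUnit (1 + k).det) :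
    sadj (ruCay k) * ruCay k = 1 := by
  unfold ruCay
  rw [sadj_mul, sadj_inv _ ha, sadj_sub, sadj_add, sadj_one, hs, sub_neg_eq_add]
  have e : (1 + -k) * (1 + k) = (1 + k) * (1 - k) := by noncomm_ring
  calc (1 + k)⁻¹ * (1 + -k) * ((1 + k) * (1 - k)⁻¹)
      = (1 + k)⁻¹ * ((1 + -k) * (1 + k)) * (1 - k)⁻¹ := by simp only [Matrix.mul_assoc]
    _ = (1 + k)⁻¹ * ((1 + k) * (1 - k)) * (1 - k)⁻¹ := by rw [e]
    _ = ((1 + k)⁻¹ * (1 + k)) * ((1 - k) * (1 - k)⁻¹) := by simp only [Matrix.mul_assoc]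
    _ = 1 := by rw [Matrix.nonsing_inv_mul _ hb, Matrix.mul_nonsing_inv _ ha, mul_one]

/-- The symplectic group contains a regular unipotent element (odd characteristic). -/
theorem exists_regUnip_symp (h2 : (2 : F) ≠ 0) (m : ℕ) (hm : 1 ≤ m) :
    ∃ u : Matrix (Fin m ⊕ Fin m) (Fin m ⊕ Fin m) F, sadj u * u = 1 ∧ (u - 1) ^ (2 * m) = 0 ∧
      (u - 1).rank = 2 * m - 1 := by
  have hnil : IsNilpotent (ruK m F) := ⟨_, ruK_pow m⟩
  have ha : IsUnit (1 - ruK m F).det := (Matrix.isUnit_iff_isUnit_det _).mp hnil.isUnit_one_sub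
  have hb : IsUnit (1 + ruK m F).det := (Matrix.isUnit_iff_isUnit_det _).mp hnil.isUnit_one_add
  have hai : IsUnit ((1 - ruK m F)⁻¹).det := Matrix.isUnit_nonsing_inv_det _ ha
  refine ⟨ruCay (ruK m F), cay_symp _ (ruK_sadj m) ha hb, ?_, ?_⟩
  · rw [ruCay_sub_one _ ha]
    have hc : Commute ((2 : F) • ruK m F) ((1 - ruK m F)⁻¹) := by
      have h1 : (1 - ruK m F) * ruK m F = ruK m F * (1 - ruK m F) := by noncomm_ring
      have h2' := ru_inv_comm _ _ ha h1
      show (2 : F) • ruK m F * (1 - ruK m F)⁻¹ = (1 - ruK m F)⁻¹ * ((2 : F) • ruK m F)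
      rw [Matrix.smul_mul, Matrix.mul_smul, h2']
    rw [hc.mul_pow, smul_pow, ruK_pow, smul_zero, zero_mul]
  · rw [ruCay_sub_one _ ha, Matrix.rank_mul_eq_left_of_isUnit_det _ _ hai]
    have e : (2 : F) • ruK m F =
        ((2 : F) • (1 : Matrix (Fin m ⊕ Fin m) (Fin m ⊕ Fin m) F)) * ruK m F := by
      rw [Matrix.smul_mul, one_mul]
    rw [e, Matrix.rank_mul_eq_right_of_isUnit_det _ _
      ((Matrix.isUnit_iff_isUnit_det _).mp (ru_smul_one_isUnit 2 h2))]
    exact ruK_rank m hm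

/-- A similitude with multiplier `c`. -/
def ruSim (m : ℕ) (c : F) : Matrix (Fin m ⊕ Fin m) (Fin m ⊕ Fin m) F :=
  Matrix.fromBlocks (c • 1) 0 0 1

theorem ruSim_sadj (m : ℕ) (c : F) :
    sadj (ruSim m c) * ruSim m c = c • (1 : Matrix (Fin m ⊕ Fin m) (Fin m ⊕ Fin m) F) := by
  unfold sadj ruSim Matrix.J
  rw [Matrix.fromBlocks_transpose, Matrix.fromBlocks_multiply, Matrix.fromBlocks_multiply,
    neg_mul, Matrix.fromBlocks_multiply, Matrix.fromBlocks_neg, ← Matrix.fromBlocks_one,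
    Matrix.fromBlocks_smul]
  simp

theorem ruSim_det (m : ℕ) (c : F) (hc : c ≠ 0) : IsUnit (ruSim m c).det := by
  refine Matrix.isUnit_det_of_right_inverse (B := ruSim m c⁻¹) ?_
  unfold ruSim
  rw [Matrix.fromBlocks_multiply, ← Matrix.fromBlocks_one]
  simp [hc]

end RegUnipExist

end Cfsg.Agent.Lib.Helper99
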