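import Mathlib
import Cfsg.Prelude.Def_JordanBlocks
import Cfsg.Agent.Lib.Helper99.RegUnip2
import Cfsg.Agent.Lib.Helper13.Symp
import Cfsg.Agent.Lib.Helper40.Jordan

set_option autoImplicit false

namespace Cfsg.Agent.Lib.Helper99

open Module Cfsg.Agent.Lib.Helper40

universe u v

section JTRank

variable {F : Type u} [Field F]

theorem jt_rank_pow_eq {ι : Type*} [Fintype ι] [DecidableEq ι] (M : Matrix ι ι F) (j : ℕ) :
    (M ^ j).rank = finrank F (LinearMap.range ((Matrix.toLin' M) ^ j)) := by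
  rw [← Matrix.toLin'_pow, Matrix.rank, Matrix.toLin'_apply']

theorem jt_block_apply (d : ℕ) (i b : Fin d) :
    (Cfsg.jordanBlock d F - 1) i b = if (i : ℕ) = (b : ℕ) + 1 then 1 else 0 := by
  simp only [Matrix.sub_apply, Cfsg.jordanBlock, Matrix.of_apply, Matrix.one_apply]
  by_cases h : i = b
  · subst h
    simp
  · have h' : (i : ℕ) ≠ (b : ℕ) := fun h' => h (Fin.ext h')
    simp [h, h']

theorem jt_sum_left (s : ℕ) (a : Fin s) (f : Fin s → F) :
    ∑ c : Fin s, (if (c : ℕ) = (a : ℕ) + 1 then (1 : F) else 0) * f c =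
      if h : (a : ℕ) + 1 < s then f ⟨(a : ℕ) + 1, h⟩ else 0 := by
  by_cases h : (a : ℕ) + 1 < s
  · rw [dif_pos h, Finset.sum_eq_single ⟨(a : ℕ) + 1, h⟩]
    · simp
    · intro c _ hc
      rw [if_neg, zero_mul]
      intro h'
      exact hc (Fin.ext h')
    · intro h'
      exact absurd (Finset.mem_univ _) h'
  · rw [dif_neg h]
    refine Finset.sum_eq_zero (fun c _ => ?_)
    rw [if_neg, zero_mul]
    have := c.2
    omega

theorem jt_sum_right (s : ℕ) (b : Fin s) (f : Fin s → F) :
    ∑ c : Fin s, f c * (if (c : ℕ) = (b : ℕ) + 1 then (1 : F) else 0) =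
      if h : (b : ℕ) + 1 < s then f ⟨(b : ℕ) + 1, h⟩ else 0 := by
  rw [← jt_sum_left s b f]
  refine Finset.sum_congr rfl (fun c _ => ?_)
  rw [mul_comm]

theorem jt_sum_pred (s : ℕ) (a : Fin s) (f : Fin s → F) :
    ∑ c : Fin s, (if (a : ℕ) = (c : ℕ) + 1 then (1 : F) else 0) * f c =
      if h : 0 < (a : ℕ) then f ⟨(a : ℕ) - 1, by omega⟩ else 0 := by
  by_cases h : 0 < (a : ℕ)
  · rw [dif_pos h, Finset.sum_eq_single ⟨(a : ℕ) - 1, by omega⟩]
    · rw [if_pos, one_mul]
      simp only
      omega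
    · intro c _ hc
      rw [if_neg, zero_mul]
      intro h'
      apply hc
      apply Fin.ext
      simp only
      omega
    · intro h'
      exact absurd (Finset.mem_univ _) h'
  · rw [dif_neg h]
    refine Finset.sum_eq_zero (fun c _ => ?_)
    rw [if_neg, zero_mul]
    omega

theorem jt_shift (d : ℕ) : Matrix.toLin' (Cfsg.jordanBlock d F - 1) = Jordan.shift d := by
  apply LinearMap.ext
  intro x
  funext i
  rw [Matrix.toLin'_apply, Jordan.shift_apply]
  simp only [Matrix.mulVec, dotProduct, jt_block_apply]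
  exact jt_sum_pred d i x

theorem jt_rank_block (d j : ℕ) : ((Cfsg.jordanBlock d F - 1) ^ j).rank = d - j := by
  rw [jt_rank_pow_eq, jt_shift, Jordan.finrank_range_shift_pow]

theorem jt_block_nil (d : ℕ) : (Cfsg.jordanBlock d F - 1) ^ d = 0 := by
  rw [Jordan.mat_pow_eq_zero_iff_rank, jt_rank_block, Nat.sub_self]

theorem jt_finrank_range_pi {o : Type*} [Fintype o] {W : o → Type*} [∀ k, AddCommGroup (W k)]
    [∀ k, Module F (W k)] [∀ k, FiniteDimensional F (W k)] (f : ∀ k, W k →ₗ[F] W k) :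
    finrank F (LinearMap.range (LinearMap.pi fun k => f k ∘ₗ LinearMap.proj k)) =
      ∑ k, finrank F (LinearMap.range (f k)) := by
  rw [← Module.finrank_pi_fintype F]
  apply LinearEquiv.finrank_eq
  let φ : LinearMap.range (LinearMap.pi fun k => f k ∘ₗ LinearMap.proj k) →ₗ[F]
      (∀ k, LinearMap.range (f k)) :=
    LinearMap.pi fun k => (LinearMap.proj k ∘ₗ
      (LinearMap.range (LinearMap.pi fun k => f k ∘ₗ LinearMap.proj k)).subtype).codRestrict
      (LinearMap.range (f k)) (by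
        rintro ⟨y, x, rfl⟩
        exact ⟨x k, rfl⟩)
  refine LinearEquiv.ofBijective φ ⟨?_, ?_⟩
  · intro a b hab
    apply Subtype.ext
    funext k
    have := congrArg (fun z => (z k).1) hab
    exact this
  · intro y
    choose x hx using fun k => (y k).2
    refine ⟨⟨fun k => (y k).1, x, ?_⟩, ?_⟩
    · funext k
      exact hx k
    · funext k
      exact Subtype.ext rfl

theorem jt_rank_blockDiagonal' {o : Type*} [Fintype o] [DecidableEq o] {n : o → Type*}
    [∀ k, Fintype (n k)] [∀ k, DecidableEq (n k)] (M : ∀ k, Matrix (n k) (n k) F) :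
    (Matrix.blockDiagonal' M).rank = ∑ k, (M k).rank := by
  have h := jt_finrank_range_pi (fun k => (M k).mulVecLin)
  unfold Matrix.rank
  rw [← h]
  have hint : ∀ v, (LinearEquiv.piCurry F (fun (k : o) (_ : n k) => F))
      ((Matrix.blockDiagonal' M).mulVecLin v) =
      (LinearMap.pi fun k => (M k).mulVecLin ∘ₗ LinearMap.proj k)
        ((LinearEquiv.piCurry F (fun (k : o) (_ : n k) => F)) v) := by
    intro v
    funext k a
    show (Matrix.blockDiagonal' M).mulVec v ⟨k, a⟩ = (M k).mulVec (fun b => v ⟨k, b⟩) a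
    simp only [Matrix.mulVec, dotProduct]
    rw [Fintype.sum_sigma, Finset.sum_eq_single k]
    · refine Finset.sum_congr rfl (fun b _ => ?_)
      rw [Matrix.blockDiagonal'_apply_eq]
    · intro k' _ hk'
      refine Finset.sum_eq_zero (fun b _ => ?_)
      rw [Matrix.blockDiagonal'_apply_ne _ _ _ (Ne.symm hk'), zero_mul]
    · intro h'
      exact absurd (Finset.mem_univ _) h'
  have e : LinearMap.range (LinearMap.pi fun k => (M k).mulVecLin ∘ₗ LinearMap.proj k) =
      (LinearMap.range (Matrix.blockDiagonal' M).mulVecLin).map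
        ((LinearEquiv.piCurry F (fun (k : o) (_ : n k) => F)) : _ →ₗ[F] _) := by
    ext y
    constructor
    · rintro ⟨x, rfl⟩
      refine ⟨_, ⟨(LinearEquiv.piCurry F (fun (k : o) (_ : n k) => F)).symm x, rfl⟩, ?_⟩
      rw [LinearEquiv.coe_coe, hint, LinearEquiv.apply_symm_apply]
    · rintro ⟨_, ⟨v, rfl⟩, rfl⟩
      exact ⟨_, (hint v).symm⟩
  rw [e, LinearEquiv.finrank_map_eq]

theorem jt_rank_jordanType {t : ℕ} (d : Fin t → ℕ) (j : ℕ) :
    ((Cfsg.jordanTypeMatrix d F - 1) ^ j).rank = Jordan.rk (Finset.univ.val.map d) j := by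
  have e : Cfsg.jordanTypeMatrix d F - 1 =
      Matrix.blockDiagonal' (fun k => Cfsg.jordanBlock (d k) F - 1) := by
    unfold Cfsg.jordanTypeMatrix
    rw [← Matrix.blockDiagonal'_one, ← Matrix.blockDiagonal'_sub]
    rfl
  rw [e, ← Matrix.blockDiagonal'_pow, jt_rank_blockDiagonal']
  unfold Jordan.rk
  rw [Multiset.map_map]
  show _ = Finset.sum Finset.univ _
  refine Finset.sum_congr rfl (fun k _ => ?_)
  rw [Pi.pow_apply, jt_rank_block]
  rfl

/-- The number of parts equal to `i + 1`, from three consecutive ranks. -/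
theorem jt_count (μ : Multiset ℕ) (i : ℕ) :
    Jordan.rk μ i + Jordan.rk μ (i + 2) = 2 * Jordan.rk μ (i + 1) + μ.count (i + 1) := by
  have h1 := Jordan.rk_succ_add μ i
  have h2 := Jordan.rk_succ_add μ (i + 1)
  rw [show i + 1 + 1 = i + 2 from rfl] at h2
  have h3 := Jordan.countP_lt_succ μ i
  omega

theorem jt_count_map {t : ℕ} (d : Fin t → ℕ) (j : ℕ) :
    (Finset.univ.val.map d).count j = (Finset.univ.filter (fun k : Fin t => d k = j)).card := by
  rw [Multiset.count_map, Finset.card_def, Finset.filter_val]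
  congr 1
  refine Multiset.filter_congr (fun x _ => ?_)
  exact eq_comm

end JTRank

section JTModel

variable {F : Type u} [Field F]

/-- There is a space with a nondegenerate alternating (if `alt`) or symmetric (otherwise) form
and an isometry `g` such that `g - 1` has rank sequence that of the Jordan type `μ`. -/
def FType (F : Type u) [Field F] (alt : Prop) (μ : Multiset ℕ) : Prop :=
  ∃ (n : ℕ) (B : LinearMap.BilinForm F (Fin n → F)) (g : (Fin n → F) →ₗ[F] (Fin n → F)),
    (alt → ∀ x, B x x = 0) ∧ (¬ alt → ∀ x y, B x y = B y x) ∧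
    (∀ x, (∀ y, B x y = 0) → x = 0) ∧ (∀ x y, B (g x) (g y) = B x y) ∧
    ∀ j, finrank F (LinearMap.range ((g - 1) ^ j)) = Jordan.rk μ j

theorem FType.of_model {alt : Prop} {μ : Multiset ℕ} {V : Type v} [AddCommGroup V]
    [Module F V] [FiniteDimensional F V] (B : LinearMap.BilinForm F V) (g : V →ₗ[F] V)
    (h1 : alt → ∀ x, B x x = 0) (h2 : ¬ alt → ∀ x y, B x y = B y x)
    (h3 : ∀ x, (∀ y, B x y = 0) → x = 0) (h4 : ∀ x y, B (g x) (g y) = B x y)
    (h5 : ∀ j, finrank F (LinearMap.range ((g - 1) ^ j)) = Jordan.rk μ j) : FType F alt μ := by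
  let e : V ≃ₗ[F] (Fin (finrank F V) → F) := (Module.finBasis F V).equivFun
  refine ⟨finrank F V, B.comp e.symm.toLinearMap e.symm.toLinearMap,
    e.toLinearMap ∘ₗ g ∘ₗ e.symm.toLinearMap, ?_, ?_, ?_, ?_, ?_⟩
  · intro ha x
    exact h1 ha _
  · intro ha x y
    exact h2 ha _ _
  · intro x hx
    have h0 : e.symm x = 0 := h3 _ (fun y => by
      have := hx (e y)
      simpa using this)
    simpa using h0
  · intro x y
    simp [h4]
  · intro j
    rw [← h5 j]
    have hc : Jordan.Conj (g - 1) (e.toLinearMap ∘ₗ g ∘ₗ e.symm.toLinearMap - 1) :=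
      ⟨e, fun x => by simp⟩
    exact (hc.finrank_range_pow j).symm

theorem FType.add {alt : Prop} {μ ν : Multiset ℕ} (hμ : FType F alt μ) (hν : FType F alt ν) :
    FType F alt (μ + ν) := by
  obtain ⟨n₁, B₁, g₁, a1, a2, a3, a4, a5⟩ := hμ
  obtain ⟨n₂, B₂, g₂, b1, b2, b3, b4, b5⟩ := hν
  refine FType.of_model (V := (Fin n₁ → F) × (Fin n₂ → F))
    (B₁.comp (LinearMap.fst F _ _) (LinearMap.fst F _ _) +
      B₂.comp (LinearMap.snd F _ _) (LinearMap.snd F _ _))
    (g₁.prodMap g₂) ?_ ?_ ?_ ?_ ?_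
  · intro ha x
    simp [a1 ha, b1 ha]
  · intro ha x y
    simp only [LinearMap.add_apply, LinearMap.BilinForm.comp_apply, LinearMap.fst_apply,
      LinearMap.snd_apply]
    rw [a2 ha, b2 ha]
  · rintro ⟨x₁, x₂⟩ hx
    have e1 : x₁ = 0 := a3 _ (fun y => by simpa using hx (y, 0))
    have e2 : x₂ = 0 := b3 _ (fun y => by simpa using hx (0, y))
    rw [e1, e2]
    rfl
  · intro x y
    simp [a4, b4]
  · intro j
    have e : g₁.prodMap g₂ - 1 = (g₁ - 1).prodMap (g₂ - 1) := by
      apply LinearMap.ext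
      rintro ⟨x, y⟩
      simp
    rw [e, Jordan.finrank_range_prodMap_pow, a5, b5]
    simp [Jordan.rk, Multiset.map_add]

theorem FType.zero (alt : Prop) : FType F alt 0 := by
  refine ⟨0, 0, 1, fun _ x => rfl, fun _ x y => rfl, fun x _ => Subsingleton.elim _ _,
    fun x y => rfl, fun j => ?_⟩
  have h1 : finrank F (LinearMap.range (((1 : (Fin 0 → F) →ₗ[F] (Fin 0 → F)) - 1) ^ j)) ≤
      finrank F (Fin 0 → F) := Submodule.finrank_le _
  have h2 : finrank F (Fin 0 → F) = 0 := by simp
  have h3 : Jordan.rk 0 j = 0 := by simp [Jordan.rk]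
  omega

/-- Assembling a type from single blocks (for sizes not in `P`) and pairs of equal blocks. -/
theorem FType.of_blocks {alt : Prop} (P : ℕ → Prop)
    (hsingle : ∀ a, 1 ≤ a → ¬ P a → FType F alt {a}) (hpair : ∀ a, FType F alt {a, a}) :
    ∀ (c : ℕ) (μ : Multiset ℕ), Multiset.card μ = c → (∀ a ∈ μ, 1 ≤ a) →
      (∀ j, P j → Even (μ.count j)) → FType F alt μ := by
  intro c
  induction c using Nat.strong_induction_on with
  | _ c ih =>
    intro μ hc hpos hpar
    by_cases h0 : μ = 0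
    · rw [h0]
      exact FType.zero alt
    obtain ⟨a, ha⟩ := Multiset.exists_mem_of_ne_zero h0
    obtain ⟨μ', rfl⟩ := Multiset.exists_cons_of_mem ha
    rw [Multiset.card_cons] at hc
    by_cases hP : P a
    · have hev := hpar a hP
      rw [Multiset.count_cons_self] at hev
      have hpos' : 0 < μ'.count a := by
        rcases hev with ⟨r, hr⟩
        omega
      obtain ⟨μ'', rfl⟩ := Multiset.exists_cons_of_mem (Multiset.count_pos.mp hpos')
      rw [Multiset.card_cons] at hc
      have e : a ::ₘ a ::ₘ μ'' = ({a, a} : Multiset ℕ) + μ'' := by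
        rw [Multiset.insert_eq_cons, Multiset.cons_add, Multiset.singleton_add]
      rw [e]
      refine FType.add (hpair a) (ih (Multiset.card μ'') (by omega) μ'' rfl ?_ ?_)
      · intro b hb
        exact hpos b (Multiset.mem_cons_of_mem (Multiset.mem_cons_of_mem hb))
      · intro j hj
        have h1 := hpar j hj
        by_cases hja : j = a
        · subst hja
          rw [Multiset.count_cons_self, Multiset.count_cons_self] at h1
          rcases h1 with ⟨r, hr⟩
          exact ⟨r - 1, by omega⟩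
        · rw [Multiset.count_cons_of_ne hja, Multiset.count_cons_of_ne hja] at h1
          exact h1
    · have e : a ::ₘ μ' = ({a} : Multiset ℕ) + μ' := by
        rw [Multiset.singleton_add]
      rw [e]
      refine FType.add (hsingle a (hpos a ha) hP) (ih (Multiset.card μ') (by omega) μ' rfl ?_ ?_)
      · intro b hb
        exact hpos b (Multiset.mem_cons_of_mem hb)
      · intro j hj
        have h1 := hpar j hj
        have hja : j ≠ a := by
          rintro rfl
          exact hP hj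
        rw [Multiset.count_cons_of_ne hja] at h1
        exact h1

end JTModel

section JTBlocks

open Matrix

variable {F : Type u} [Field F]

theorem jt_dot_adj {n : ℕ} (A Ai : Matrix (Fin n) (Fin n) F) (h : Ai * A = 1)
    (a b : Fin n → F) : (A *ᵥ a) ⬝ᵥ (Aiᵀ *ᵥ b) = a ⬝ᵥ b := by
  rw [Matrix.mulVec_transpose, dotProduct_comm, ← Matrix.dotProduct_mulVec, Matrix.mulVec_mulVec,
    h, Matrix.one_mulVec, dotProduct_comm]

theorem jt_dot_transpose {ι : Type*} [Fintype ι] (A : Matrix ι ι F) (x z : ι → F) :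
    (A *ᵥ x) ⬝ᵥ z = x ⬝ᵥ (Aᵀ *ᵥ z) := by
  rw [dotProduct_comm, Matrix.dotProduct_mulVec, dotProduct_comm, Matrix.mulVec_transpose]

/-- The hyperbolic form on a pair of spaces. -/
def jtPairForm (s : ℕ) (δ : F) : LinearMap.BilinForm F ((Fin s → F) × (Fin s → F)) :=
  LinearMap.mk₂ F (fun v w => v.1 ⬝ᵥ w.2 + δ * (v.2 ⬝ᵥ w.1))
    (by intro a b c; simp [add_dotProduct]; ring)
    (by intro c a b; simp [smul_dotProduct]; ring)
    (by intro a b c; simp [dotProduct_add]; ring)
    (by intro c a b; simp [dotProduct_smul]; ring)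

theorem jtPairForm_apply (s : ℕ) (δ : F) (v w : (Fin s → F) × (Fin s → F)) :
    jtPairForm s δ v w = v.1 ⬝ᵥ w.2 + δ * (v.2 ⬝ᵥ w.1) := rfl

/-- Two blocks of equal size carry a form of either type. -/
theorem FType.pair (alt : Prop) (s : ℕ) : FType F alt {s, s} := by
  classical
  obtain ⟨δ, hδ0, hδ1, hδ2⟩ : ∃ δ : F, δ ≠ 0 ∧ (alt → δ = -1) ∧ (¬ alt → δ = 1) := by
    by_cases ha : alt
    · exact ⟨-1, by norm_num, fun _ => rfl, fun h => absurd ha h⟩
    · exact ⟨1, one_ne_zero, fun h => absurd h ha, fun _ => rfl⟩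
  obtain ⟨L, hL⟩ : ∃ L : Matrix (Fin s) (Fin s) F, L = Cfsg.jordanBlock s F - 1 := ⟨_, rfl⟩
  have hr : ∀ j, (L ^ j).rank = s - j := fun j => by
    rw [hL]
    exact jt_rank_block s j
  have hLnil : IsNilpotent L := ⟨s, by rw [hL]; exact jt_block_nil s⟩
  have hXu : IsUnit (1 + L).det := (Matrix.isUnit_iff_isUnit_det _).mp hLnil.isUnit_one_add
  have h1 : (1 + L)⁻¹ * (1 + L) = 1 := Matrix.nonsing_inv_mul _ hXu
  refine FType.of_model (jtPairForm s δ)
    ((Matrix.toLin' (1 + L)).prodMap (Matrix.toLin' ((1 + L)⁻¹)ᵀ)) ?_ ?_ ?_ ?_ ?_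
  · intro ha v
    rw [jtPairForm_apply, hδ1 ha, dotProduct_comm v.2 v.1]
    ring
  · intro ha v w
    rw [jtPairForm_apply, jtPairForm_apply, hδ2 ha, dotProduct_comm v.1 w.2,
      dotProduct_comm v.2 w.1]
    ring
  · rintro ⟨x, y⟩ hv
    have hx : x = 0 := by
      funext i
      have := hv (0, Pi.single i 1)
      rw [jtPairForm_apply] at this
      simpa using this
    have hy : y = 0 := by
      funext i
      have := hv (Pi.single i 1, 0)
      rw [jtPairForm_apply] at this
      simpa [hδ0] using this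
    rw [hx, hy]
    rfl
  · intro v w
    rw [jtPairForm_apply, jtPairForm_apply]
    simp only [LinearMap.prodMap_apply, Matrix.toLin'_apply]
    rw [jt_dot_adj _ _ h1, dotProduct_comm ((1 + L)⁻¹ᵀ *ᵥ v.2), jt_dot_adj _ _ h1,
      dotProduct_comm w.1]
  · intro j
    have e : (Matrix.toLin' (1 + L)).prodMap (Matrix.toLin' ((1 + L)⁻¹)ᵀ) - 1 =
        (Matrix.toLin' L).prodMap (Matrix.toLin' (((1 + L)⁻¹)ᵀ - 1)) := by
      apply LinearMap.ext
      rintro ⟨x, y⟩
      simp
    have e2 : ((1 + L)⁻¹)ᵀ - 1 = ((-(1 + L)⁻¹) * L)ᵀ := by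
      have e3 : (1 + L)⁻¹ - 1 = -(1 + L)⁻¹ * L := by
        have h3 : (1 + L)⁻¹ + (1 + L)⁻¹ * L = 1 := by
          have h3' : (1 + L)⁻¹ * (1 + L) = (1 + L)⁻¹ + (1 + L)⁻¹ * L := by rw [mul_add, mul_one]
          exact h3'.symm.trans h1
        rw [neg_mul, sub_eq_iff_eq_add, ← sub_eq_neg_add, eq_sub_iff_add_eq]
        exact h3
      rw [← e3, Matrix.transpose_sub, Matrix.transpose_one]
    have hcomm : Commute (-(1 + L)⁻¹) L := by
      have h4 : (1 + L) * L = L * (1 + L) := by rw [add_mul, mul_add, one_mul, mul_one]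
      have h5 := ru_inv_comm _ _ hXu h4
      show -(1 + L)⁻¹ * L = L * -(1 + L)⁻¹
      rw [neg_mul, mul_neg, h5]
    have hunit : IsUnit ((-(1 + L)⁻¹) ^ j).det := by
      have h6 : IsUnit ((1 + L)⁻¹) :=
        (Matrix.isUnit_iff_isUnit_det _).mpr (Matrix.isUnit_nonsing_inv_det _ hXu)
      exact (Matrix.isUnit_iff_isUnit_det _).mp (h6.neg.pow j)
    rw [e, Jordan.finrank_range_prodMap_pow, ← jt_rank_pow_eq, ← jt_rank_pow_eq, hr, e2,
      ← Matrix.transpose_pow, Matrix.rank_transpose, hcomm.mul_pow,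
      Matrix.rank_mul_eq_right_of_isUnit_det _ _ hunit, hr]
    simp [Jordan.rk]

theorem jt_blockUpper_symp {m : ℕ} (X Bm Y : Matrix (Fin m) (Fin m) F)
    (h1 : Bm * Xᵀ = X * Bmᵀ) (h2 : X * Yᵀ = 1) :
    Matrix.fromBlocks X Bm 0 Y ∈ Matrix.symplecticGroup (Fin m) F := by
  rw [SymplecticGroup.mem_iff, Matrix.J, Matrix.fromBlocks_multiply, Matrix.fromBlocks_transpose,
    Matrix.fromBlocks_multiply]
  simp only [mul_zero, zero_mul, add_zero, zero_add, mul_one, mul_neg, neg_mul,
    Matrix.transpose_zero, neg_zero]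
  rw [Matrix.fromBlocks_inj]
  refine ⟨by rw [h1, add_neg_cancel], by rw [h2], ?_, rfl⟩
  have := congrArg Matrix.transpose h2
  rw [Matrix.transpose_mul, Matrix.transpose_transpose, Matrix.transpose_one] at this
  rw [this]

/-- The rank sequence of a regular nilpotent matrix. -/
theorem ru_rank_seq {ι : Type*} [Fintype ι] [DecidableEq ι] (N : Matrix ι ι F)
    (hN : N ^ Fintype.card ι = 0) (hr : N.rank = Fintype.card ι - 1)
    (hcard : 1 ≤ Fintype.card ι) (j : ℕ) : (N ^ j).rank = Fintype.card ι - j := by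
  have hk : finrank F (LinearMap.ker (Matrix.toLin' N)) ≤ 1 := by
    have h1 := LinearMap.finrank_range_add_finrank_ker (Matrix.toLin' N)
    have h2 : finrank F (LinearMap.range (Matrix.toLin' N)) = N.rank := by
      rw [Matrix.rank, Matrix.toLin'_apply']
    rw [h2, Module.finrank_fintype_fun_eq_card] at h1
    omega
  have hlow : ∀ i, Fintype.card ι ≤ (N ^ i).rank + i := fun i => by
    rw [jt_rank_pow_eq]
    exact ru_rank_pow _ hk i
  by_cases hj : Fintype.card ι ≤ j
  · have h0 : N ^ j = 0 := by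
      obtain ⟨k, rfl⟩ := Nat.exists_eq_add_of_le hj
      rw [pow_add, hN, zero_mul]
    rw [h0, Matrix.rank_zero]
    omega
  · push Not at hj
    apply le_antisymm
    · have h3 := hlow (Fintype.card ι - j)
      have hle : LinearMap.range ((Matrix.toLin' N) ^ j) ≤
          LinearMap.ker ((Matrix.toLin' N) ^ (Fintype.card ι - j)) := by
        rintro _ ⟨x, rfl⟩
        rw [LinearMap.mem_ker, ← Module.End.mul_apply, ← pow_add]
        have e : Fintype.card ι - j + j = Fintype.card ι := by omega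
        rw [e, ← Matrix.toLin'_pow, hN, map_zero, LinearMap.zero_apply]
      have h4 := Submodule.finrank_mono hle
      have h5 := LinearMap.finrank_range_add_finrank_ker
        ((Matrix.toLin' N) ^ (Fintype.card ι - j))
      rw [Module.finrank_fintype_fun_eq_card] at h5
      rw [jt_rank_pow_eq] at h3 ⊢
      omega
    · have := hlow j
      omega

/-- A single block of even size carries an alternating form (any characteristic). -/
theorem FType.even_block (r : ℕ) (hr : 1 ≤ r) : FType F True {2 * r} := by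
  classical
  have hSnil : IsNilpotent (ruShift r F) := ⟨r, ruShift_pow r⟩
  have hXu : IsUnit (1 - ruShift r F).det :=
    (Matrix.isUnit_iff_isUnit_det _).mp hSnil.isUnit_one_sub
  obtain ⟨X, hX⟩ : ∃ X : Matrix (Fin r) (Fin r) F, X = (1 - ruShift r F)⁻¹ := ⟨_, rfl⟩
  have hX1 : X * (1 - ruShift r F) = 1 := by
    rw [hX]
    exact Matrix.nonsing_inv_mul _ hXu
  have hXdet : IsUnit X.det := by
    rw [hX]
    exact Matrix.isUnit_nonsing_inv_det _ hXu
  have hXS : X * ruShift r F = X - 1 := by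
    have h3 : X * (1 - ruShift r F) = X - X * ruShift r F := by rw [mul_sub, mul_one]
    rw [hX1] at h3
    rw [h3]
    abel
  have hcommXS : Commute X (ruShift r F) := by
    have h4 : (1 - ruShift r F) * ruShift r F = ruShift r F * (1 - ruShift r F) := by
      rw [sub_mul, mul_sub, one_mul, mul_one]
    have h5 := ru_inv_comm _ _ hXu h4
    rw [hX]
    exact h5
  have hC : (ruCorner r F)ᵀ = ruCorner r F := by
    ext i j
    simp [ruCorner, and_comm]
  obtain ⟨u, hu⟩ : ∃ u : Matrix (Fin r ⊕ Fin r) (Fin r ⊕ Fin r) F,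
      u = Matrix.fromBlocks X (X * ruCorner r F) 0 (1 - (ruShift r F)ᵀ) := ⟨_, rfl⟩
  have hmem : u ∈ Matrix.symplecticGroup (Fin r) F := by
    rw [hu]
    apply jt_blockUpper_symp
    · rw [Matrix.transpose_mul, hC, Matrix.mul_assoc]
    · rw [Matrix.transpose_sub, Matrix.transpose_one, Matrix.transpose_transpose, hX1]
  have hsub : u - 1 = Matrix.fromBlocks (X * ruShift r F) (X * ruCorner r F) 0
      (-(ruShift r F)ᵀ) := by
    rw [hu, hXS, ← Matrix.fromBlocks_one, sub_eq_add_neg, Matrix.fromBlocks_neg,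
      Matrix.fromBlocks_add]
    congr 1
    · abel
    · simp
    · simp
    · abel
  have hfac : u - 1 = Matrix.fromBlocks X 0 0 1 * ruK r F := by
    rw [hsub, ruK, Matrix.fromBlocks_multiply]
    simp
  have hdet : IsUnit (Matrix.fromBlocks X (0 : Matrix (Fin r) (Fin r) F) 0 1).det := by
    rw [Matrix.det_fromBlocks_zero₂₁, Matrix.det_one, mul_one]
    exact hXdet
  have hcard : Fintype.card (Fin r ⊕ Fin r) = 2 * r := by
    rw [Fintype.card_sum, Fintype.card_fin]
    omega
  have hrank : (u - 1).rank = Fintype.card (Fin r ⊕ Fin r) - 1 := by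
    rw [hfac, Matrix.rank_mul_eq_right_of_isUnit_det _ _ hdet, ruK_rank r hr, hcard]
  have hnil : (u - 1) ^ Fintype.card (Fin r ⊕ Fin r) = 0 := by
    obtain ⟨Y, hY⟩ := blockUpper_pow (X * ruShift r F) (X * ruCorner r F) (-(ruShift r F)ᵀ) r
    have h1 : (-(ruShift r F)ᵀ) ^ r = 0 := by
      rw [neg_pow, ← Matrix.transpose_pow, ruShift_pow, Matrix.transpose_zero, mul_zero]
    have h2 : (X * ruShift r F) ^ r = 0 := by
      rw [hcommXS.mul_pow, ruShift_pow, mul_zero]
    rw [h1, h2] at hY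
    rw [hcard, two_mul, pow_add, hsub, hY, Matrix.fromBlocks_multiply]
    simp
  refine FType.of_model (Matrix.toBilin' (Matrix.J (Fin r) F)) (Matrix.toLin' u) ?_ ?_ ?_ ?_ ?_
  · intro _ x
    rw [Matrix.toBilin'_apply']
    exact Cfsg.Agent.Lib.Helper13.sympForm_self r x
  · intro h
    exact absurd trivial h
  · intro x hx
    funext i
    have := hx (Matrix.J (Fin r) F *ᵥ Pi.single i 1)
    rw [Matrix.toBilin'_apply', Matrix.mulVec_mulVec, Matrix.J_squared, Matrix.neg_mulVec,
      Matrix.one_mulVec, dotProduct_neg, dotProduct_single, mul_one, neg_eq_zero] at this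
    exact this
  · intro x y
    rw [Matrix.toBilin'_apply', Matrix.toBilin'_apply', Matrix.toLin'_apply, Matrix.toLin'_apply]
    exact Cfsg.Agent.Lib.Helper13.sympForm_mulVec_of_mem r hmem x y
  · intro j
    have e : Matrix.toLin' u - 1 = Matrix.toLin' (u - 1) := by
      rw [map_sub, Matrix.toLin'_one]
      rfl
    rw [e, ← jt_rank_pow_eq, ru_rank_seq (u - 1) hnil hrank (by rw [hcard]; omega) j, hcard]
    simp [Jordan.rk]

/-- The antidiagonal sign matrix. -/
def jtAnti (s : ℕ) (F : Type u) [Field F] : Matrix (Fin s) (Fin s) F :=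
  Matrix.of fun a b => if (a : ℕ) + (b : ℕ) + 1 = s then (-1) ^ (a : ℕ) else 0

theorem jtAnti_apply (s : ℕ) (a b : Fin s) :
    jtAnti s F a b = if (a : ℕ) + (b : ℕ) + 1 = s then (-1) ^ (a : ℕ) else 0 := rfl

theorem jtAnti_skew (s : ℕ) :
    (Cfsg.jordanBlock s F - 1)ᵀ * jtAnti s F + jtAnti s F * (Cfsg.jordanBlock s F - 1) = 0 := by
  ext a b
  simp only [Matrix.add_apply, Matrix.mul_apply, Matrix.transpose_apply, Matrix.zero_apply,
    jt_block_apply]
  rw [jt_sum_left s a (fun c => jtAnti s F c b), jt_sum_right s b (fun c => jtAnti s F a c)]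
  have ha := a.2
  have hb := b.2
  by_cases h : (a : ℕ) + (b : ℕ) + 2 = s
  · rw [dif_pos (by omega), dif_pos (by omega), jtAnti_apply, jtAnti_apply,
      if_pos (by simp only; omega), if_pos (by simp only; omega)]
    simp only [pow_succ]
    ring
  · have e1 : (if h' : (a : ℕ) + 1 < s then jtAnti s F ⟨(a : ℕ) + 1, h'⟩ b else 0) = 0 := by
      by_cases h' : (a : ℕ) + 1 < s
      · rw [dif_pos h', jtAnti_apply, if_neg]
        simp only
        omega
      · rw [dif_neg h']
    have e2 : (if h' : (b : ℕ) + 1 < s then jtAnti s F a ⟨(b : ℕ) + 1, h'⟩ else 0) = 0 := by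
      by_cases h' : (b : ℕ) + 1 < s
      · rw [dif_pos h', jtAnti_apply, if_neg]
        simp only
        omega
      · rw [dif_neg h']
    rw [e1, e2, add_zero]

theorem jtAnti_sq (s : ℕ) (hs : Odd s) : jtAnti s F * jtAnti s F = 1 := by
  ext a b
  have ha := a.2
  rw [Matrix.mul_apply, Finset.sum_eq_single ⟨s - 1 - (a : ℕ), by omega⟩]
  · rw [jtAnti_apply, jtAnti_apply, Matrix.one_apply, if_pos (by simp only; omega)]
    by_cases hab : a = b
    · subst hab
      rw [if_pos (by simp only; omega), if_pos rfl, ← pow_add]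
      have hev : Even ((a : ℕ) + (s - 1 - (a : ℕ))) := by
        obtain ⟨t, ht⟩ := hs
        exact ⟨t, by omega⟩
      exact hev.neg_one_pow
    · rw [if_neg, if_neg hab, mul_zero]
      intro h
      apply hab
      apply Fin.ext
      simp only at h
      omega
  · intro c _ hc
    rw [jtAnti_apply, if_neg, zero_mul]
    intro h
    apply hc
    apply Fin.ext
    simp only
    omega
  · intro h
    exact absurd (Finset.mem_univ _) h

theorem jtAnti_symm (s : ℕ) (hs : Odd s) : (jtAnti s F)ᵀ = jtAnti s F := by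
  ext a b
  rw [Matrix.transpose_apply, jtAnti_apply, jtAnti_apply]
  by_cases h : (a : ℕ) + (b : ℕ) + 1 = s
  · rw [if_pos (by omega), if_pos h, neg_one_pow_eq_pow_mod_two (b : ℕ),
      neg_one_pow_eq_pow_mod_two (a : ℕ)]
    have e : (b : ℕ) % 2 = (a : ℕ) % 2 := by
      obtain ⟨t, ht⟩ := hs
      omega
    rw [e]
  · rw [if_neg (by omega), if_neg h]

theorem jt_cay_gram {n : ℕ} (G k : Matrix (Fin n) (Fin n) F) (h : kᵀ * G + G * k = 0)
    (ha : IsUnit (1 - k).det) : (ruCay k)ᵀ * G * ruCay k = G := by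
  have e1 : (1 + k)ᵀ * G * (1 + k) = (1 - k)ᵀ * G * (1 - k) := by
    have h' : kᵀ * G = -(G * k) := eq_neg_of_add_eq_zero_left h
    have hA : (1 + k)ᵀ * G * (1 + k) = G + G * k + kᵀ * G + kᵀ * G * k := by
      rw [Matrix.transpose_add, Matrix.transpose_one]
      noncomm_ring
    have hB : (1 - k)ᵀ * G * (1 - k) = G - G * k - kᵀ * G + kᵀ * G * k := by
      rw [Matrix.transpose_sub, Matrix.transpose_one]
      noncomm_ring
    rw [hA, hB, h']
    noncomm_ring
  unfold ruCay
  rw [Matrix.transpose_mul]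
  calc ((1 - k)⁻¹)ᵀ * (1 + k)ᵀ * G * ((1 + k) * (1 - k)⁻¹)
      = ((1 - k)⁻¹)ᵀ * ((1 + k)ᵀ * G * (1 + k)) * (1 - k)⁻¹ := by simp only [Matrix.mul_assoc]
    _ = ((1 - k)⁻¹)ᵀ * ((1 - k)ᵀ * G * (1 - k)) * (1 - k)⁻¹ := by rw [e1]
    _ = (((1 - k)⁻¹)ᵀ * (1 - k)ᵀ) * G * ((1 - k) * (1 - k)⁻¹) := by
        simp only [Matrix.mul_assoc]
    _ = G := by
        rw [← Matrix.transpose_mul, Matrix.mul_nonsing_inv _ ha, Matrix.transpose_one, one_mul,
          mul_one]

/-- A single block of odd size carries a symmetric form (odd characteristic). -/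
theorem FType.odd_block (h2 : (2 : F) ≠ 0) (s : ℕ) (hs : Odd s) : FType F False {s} := by
  classical
  obtain ⟨L, hL⟩ : ∃ L : Matrix (Fin s) (Fin s) F, L = Cfsg.jordanBlock s F - 1 := ⟨_, rfl⟩
  have hr : ∀ j, (L ^ j).rank = s - j := fun j => by
    rw [hL]
    exact jt_rank_block s j
  have hLnil : IsNilpotent L := ⟨s, by rw [hL]; exact jt_block_nil s⟩
  have ha : IsUnit (1 - L).det := (Matrix.isUnit_iff_isUnit_det _).mp hLnil.isUnit_one_sub
  have hsk : Lᵀ * jtAnti s F + jtAnti s F * L = 0 := by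
    rw [hL]
    exact jtAnti_skew s
  have hgram := jt_cay_gram (jtAnti s F) L hsk ha
  refine FType.of_model (Matrix.toBilin' (jtAnti s F)) (Matrix.toLin' (ruCay L)) ?_ ?_ ?_ ?_ ?_
  · intro h
    exact absurd h not_false
  · intro _ x y
    rw [Matrix.toBilin'_apply', Matrix.toBilin'_apply', dotProduct_comm x, jt_dot_transpose,
      jtAnti_symm s hs]
  · intro x hx
    funext i
    have := hx (jtAnti s F *ᵥ Pi.single i 1)
    rw [Matrix.toBilin'_apply', Matrix.mulVec_mulVec, jtAnti_sq s hs, Matrix.one_mulVec] at this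
    simpa using this
  · intro x y
    rw [Matrix.toBilin'_apply', Matrix.toBilin'_apply', Matrix.toLin'_apply, Matrix.toLin'_apply,
      jt_dot_transpose, Matrix.mulVec_mulVec, Matrix.mulVec_mulVec, hgram]
  · intro j
    have e : Matrix.toLin' (ruCay L) - 1 = Matrix.toLin' (ruCay L - 1) := by
      rw [map_sub, Matrix.toLin'_one]
      rfl
    have hc : Commute ((2 : F) • L) ((1 - L)⁻¹) := by
      have h1 : (1 - L) * L = L * (1 - L) := by rw [sub_mul, mul_sub, one_mul, mul_one]
      have h2' := ru_inv_comm _ _ ha h1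
      show (2 : F) • L * (1 - L)⁻¹ = (1 - L)⁻¹ * ((2 : F) • L)
      rw [Matrix.smul_mul, Matrix.mul_smul, h2']
    have hunit : IsUnit ((1 - L)⁻¹ ^ j).det := by
      rw [Matrix.det_pow]
      exact (Matrix.isUnit_nonsing_inv_det _ ha).pow j
    have e3 : (2 : F) ^ j • L ^ j = ((2 : F) ^ j • (1 : Matrix (Fin s) (Fin s) F)) * L ^ j := by
      rw [Matrix.smul_mul, one_mul]
    rw [e, ← jt_rank_pow_eq, ruCay_sub_one _ ha, hc.mul_pow,
      Matrix.rank_mul_eq_left_of_isUnit_det _ _ hunit, smul_pow, e3,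
      Matrix.rank_mul_eq_right_of_isUnit_det _ _
        ((Matrix.isUnit_iff_isUnit_det _).mp (ru_smul_one_isUnit _ (pow_ne_zero j h2))), hr]
    simp [Jordan.rk]

end JTBlocks

end Cfsg.Agent.Lib.Helper99
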