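import Mathlib
import Cfsg.Prelude.Def_JordanBlocks
import Cfsg.Prelude.Def_Classical
import Cfsg.Prelude.Def_ClassicalGeometry
import Cfsg.Agent.Lib.Helper99.JType1
import Cfsg.Agent.Lib.Helper99.JType2

/-!
# Unipotent Jordan types in classical groups: the glue

`jt_even_count` is the necessity of the parity condition, `jt_isConj_of_rank` turns an equality
of rank sequences into a conjugacy with `Cfsg.jordanTypeMatrix`, `jt_exists_symp` and
`jt_exists_orth_odd` realise the admissible types.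
-/

set_option autoImplicit false

namespace Cfsg.Agent.Lib.Helper99

open Module Matrix Cfsg.Agent.Lib.Helper40

universe u v

section JTGlue

variable {F : Type u} [Field F]

theorem jt_reindex_pow {ι κ : Type*} [Fintype ι] [DecidableEq ι] [Fintype κ] [DecidableEq κ]
    (e : κ ≃ ι) (M : Matrix κ κ F) (j : ℕ) :
    (Matrix.reindex e e M) ^ j = Matrix.reindex e e (M ^ j) := by
  induction j with
  | zero =>
    rw [pow_zero, pow_zero, Matrix.reindex_apply, Matrix.submatrix_one_equiv]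
  | succ j ih =>
    rw [pow_succ, pow_succ, ih, Matrix.reindex_apply, Matrix.reindex_apply, Matrix.reindex_apply,
      Matrix.submatrix_mul_equiv]

theorem jt_rank_reindex {ι : Type*} [Fintype ι] [DecidableEq ι] {t : ℕ} (d : Fin t → ℕ)
    (e : ((k : Fin t) × Fin (d k)) ≃ ι) (j : ℕ) :
    ((Matrix.reindex e e (Cfsg.jordanTypeMatrix d F) - 1) ^ j).rank =
      Jordan.rk (Finset.univ.val.map d) j := by
  have e1 : Matrix.reindex e e (Cfsg.jordanTypeMatrix d F) - 1 =
      Matrix.reindex e e (Cfsg.jordanTypeMatrix d F - 1) := by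
    ext a b
    simp [Matrix.reindex_apply, Matrix.submatrix_apply, Matrix.sub_apply, Matrix.one_apply]
  rw [e1, jt_reindex_pow, Matrix.rank_reindex, jt_rank_jordanType]

/-- A conjugate of `jordanTypeMatrix d` has the rank sequence of `d`. -/
theorem jt_conj_rank {ι : Type*} [Fintype ι] [DecidableEq ι] {t : ℕ} (d : Fin t → ℕ)
    (e : ((k : Fin t) × Fin (d k)) ≃ ι) (A : Matrix ι ι F)
    (h : IsConj (Matrix.reindex e e (Cfsg.jordanTypeMatrix d F)) A) (j : ℕ) :
    ((A - 1) ^ j).rank = Jordan.rk (Finset.univ.val.map d) j := by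
  obtain ⟨c, hc⟩ := h
  have hc' : (c : Matrix ι ι F) * Matrix.reindex e e (Cfsg.jordanTypeMatrix d F) = A * c := hc
  have h1 : SemiconjBy (c : Matrix ι ι F)
      (Matrix.reindex e e (Cfsg.jordanTypeMatrix d F) - 1) (A - 1) := by
    show (c : Matrix ι ι F) * (_ - 1) = (A - 1) * c
    rw [mul_sub, sub_mul, hc', mul_one, one_mul]
  have h2 : (c : Matrix ι ι F) * (Matrix.reindex e e (Cfsg.jordanTypeMatrix d F) - 1) ^ j =
      (A - 1) ^ j * c := h1.pow_right j
  have hcu : IsUnit (c : Matrix ι ι F).det := (Matrix.isUnit_iff_isUnit_det _).mp c.isUnit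
  rw [← Matrix.rank_mul_eq_left_of_isUnit_det (c : Matrix ι ι F) ((A - 1) ^ j) hcu, ← h2,
    Matrix.rank_mul_eq_right_of_isUnit_det _ _ hcu, jt_rank_reindex]

/-- Necessity of the parity condition: if a conjugate of `jordanTypeMatrix d` is an isometry of a
nondegenerate form which is alternating (and `j` is odd) or symmetric in odd characteristic (and
`j` is even and positive), then the number of blocks of size `j` is even. -/
theorem jt_even_count {ι : Type*} [Fintype ι] [DecidableEq ι] {t : ℕ} (d : Fin t → ℕ)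
    (e : ((k : Fin t) × Fin (d k)) ≃ ι) (A : Matrix ι ι F)
    (h : IsConj (Matrix.reindex e e (Cfsg.jordanTypeMatrix d F)) A)
    (B : LinearMap.BilinForm F (ι → F)) (hnd : ∀ x, (∀ y, B x y = 0) → x = 0)
    (hg : ∀ x y, B (A *ᵥ x) (A *ᵥ y) = B x y) (j : ℕ)
    (hpar : ((∀ x, B x x = 0) ∧ Odd j) ∨
      ((∀ x y, B x y = B y x) ∧ (2 : F) ≠ 0 ∧ Even j ∧ 1 ≤ j)) :
    Even (Finset.univ.filter (fun k : Fin t => d k = j)).card := by
  have hsw : ∀ x y, B x y = 0 → B y x = 0 := by
    rcases hpar with ⟨ha, _⟩ | ⟨hs, _⟩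
    · intro x y hxy
      have h1 := ha (x + y)
      simp only [map_add, LinearMap.add_apply] at h1
      rw [ha x, ha y, hxy] at h1
      simpa using h1
    · intro x y hxy
      rw [hs y x, hxy]
  have hB : B.Nondegenerate := ⟨hnd, fun y hy => hnd y (fun x => hsw _ _ (hy x))⟩
  have hg' : ∀ x y, B (Matrix.toLin' A x) (Matrix.toLin' A y) = B x y := fun x y => by
    rw [Matrix.toLin'_apply, Matrix.toLin'_apply]
    exact hg x y
  have e1 : Matrix.toLin' A - 1 = Matrix.toLin' (A - 1) := by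
    rw [map_sub, Matrix.toLin'_one]
    rfl
  have hj1 : 1 ≤ j := by
    rcases hpar with ⟨_, ho⟩ | ⟨_, _, _, h1⟩
    · obtain ⟨i, rfl⟩ := ho
      omega
    · exact h1
  obtain ⟨c, hc⟩ : ∃ c : ℕ, finrank F (LinearMap.range ((Matrix.toLin' A - 1) ^ (j - 1))) +
      finrank F (LinearMap.range ((Matrix.toLin' A - 1) ^ (j + 1))) =
      2 * finrank F (LinearMap.range ((Matrix.toLin' A - 1) ^ j)) + 2 * c := by
    rcases hpar with ⟨ha, ho⟩ | ⟨hs, h2, hev, h1⟩
    · exact jt_parity_alt B hB ha _ hg' j ho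
    · exact jt_parity_symm B hB hs h2 _ hg' j h1 hev
  rw [e1, ← jt_rank_pow_eq, ← jt_rank_pow_eq, ← jt_rank_pow_eq, jt_conj_rank d e A h,
    jt_conj_rank d e A h, jt_conj_rank d e A h] at hc
  obtain ⟨i, rfl⟩ : ∃ i, j = i + 1 := ⟨j - 1, by omega⟩
  have h3 := jt_count (Finset.univ.val.map d) i
  rw [jt_count_map] at h3
  rw [Nat.add_sub_cancel, show i + 1 + 1 = i + 2 from rfl] at hc
  exact ⟨c, by omega⟩

/-- A matrix with the rank sequence of `d` is conjugate to `jordanTypeMatrix d`. -/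
theorem jt_isConj_of_rank {ι : Type*} [Fintype ι] [DecidableEq ι] {t : ℕ} (d : Fin t → ℕ)
    (e : ((k : Fin t) × Fin (d k)) ≃ ι) (A : Matrix ι ι F)
    (hr : ∀ j, ((A - 1) ^ j).rank = Jordan.rk (Finset.univ.val.map d) j) :
    IsConj (Matrix.reindex e e (Cfsg.jordanTypeMatrix d F)) A := by
  obtain ⟨R, hR⟩ : ∃ R : Matrix ι ι F, R = Matrix.reindex e e (Cfsg.jordanTypeMatrix d F) :=
    ⟨_, rfl⟩
  rw [← hR]
  have hrR : ∀ j, ((R - 1) ^ j).rank = Jordan.rk (Finset.univ.val.map d) j := fun j => by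
    rw [hR]
    exact jt_rank_reindex d e j
  have hnil : IsNilpotent (Matrix.toLin' (R - 1)) := by
    refine ⟨(Finset.univ.val.map d).sum, ?_⟩
    rw [Jordan.pow_eq_zero_iff_finrank, ← jt_rank_pow_eq, hrR, Jordan.rk_eq_zero_iff]
    intro a ha
    exact Multiset.le_sum_of_mem ha
  obtain ⟨φ, hφ⟩ := Jordan.conj_of_rank_eq (finrank F (ι → F)) (ι → F) (ι → F)
    (Matrix.toLin' (R - 1)) (Matrix.toLin' (A - 1)) rfl hnil (fun j => by
      rw [← jt_rank_pow_eq, ← jt_rank_pow_eq, hrR, hr])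
  obtain ⟨P, hP⟩ : ∃ P : Matrix ι ι F,
      P = LinearMap.toMatrix' (φ : (ι → F) →ₗ[F] (ι → F)) := ⟨_, rfl⟩
  obtain ⟨Q, hQ⟩ : ∃ Q : Matrix ι ι F,
      Q = LinearMap.toMatrix' (φ.symm : (ι → F) →ₗ[F] (ι → F)) := ⟨_, rfl⟩
  have hPQ : P * Q = 1 := by
    rw [hP, hQ, ← LinearMap.toMatrix'_comp]
    simp
  have hQP : Q * P = 1 := by
    rw [hP, hQ, ← LinearMap.toMatrix'_comp]
    simp
  have hPR : P * (R - 1) = (A - 1) * P := by
    apply Matrix.toLin'.injective
    apply LinearMap.ext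
    intro x
    rw [hP]
    simp only [Matrix.toLin'_mul, Matrix.toLin'_toMatrix', LinearMap.comp_apply]
    exact hφ x
  refine ⟨⟨P, Q, hPQ, hQP⟩, ?_⟩
  show P * R = A * P
  rw [mul_sub, sub_mul, mul_one, one_mul] at hPR
  exact sub_left_inj.mp hPR

/-- Matrix of an endomorphism transported along a coordinate isomorphism. -/
noncomputable def jtMat {ι : Type*} [Fintype ι] [DecidableEq ι] {V : Type v} [AddCommGroup V]
    [Module F V] (φ : V ≃ₗ[F] (ι → F)) (g : V →ₗ[F] V) : Matrix ι ι F :=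
  LinearMap.toMatrix' (φ.toLinearMap ∘ₗ g ∘ₗ φ.symm.toLinearMap)

theorem jtMat_mulVec {ι : Type*} [Fintype ι] [DecidableEq ι] {V : Type v} [AddCommGroup V]
    [Module F V] (φ : V ≃ₗ[F] (ι → F)) (g : V →ₗ[F] V) (u : ι → F) :
    jtMat φ g *ᵥ u = φ (g (φ.symm u)) := by
  rw [← Matrix.toLin'_apply, jtMat, Matrix.toLin'_toMatrix']
  rfl

theorem jtMat_rank {ι : Type*} [Fintype ι] [DecidableEq ι] {V : Type v} [AddCommGroup V]
    [Module F V] (φ : V ≃ₗ[F] (ι → F)) (g : V →ₗ[F] V) (j : ℕ) :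
    ((jtMat φ g - 1) ^ j).rank = finrank F (LinearMap.range ((g - 1) ^ j)) := by
  rw [jt_rank_pow_eq]
  symm
  apply Jordan.Conj.finrank_range_pow
  refine ⟨φ, fun x => ?_⟩
  simp [jtMat_mulVec, Matrix.toLin'_apply, map_sub]

/-- A matrix preserving a quadratic form with nondegenerate polar form is an element of the
isometry group. -/
theorem jt_isom_unit {n : ℕ} (Q : QuadraticForm F (Fin n → F))
    (hQ : (QuadraticMap.polarBilin Q).Nondegenerate) (M : Matrix (Fin n) (Fin n) F)
    (hM : ∀ u, Q (M *ᵥ u) = Q u) :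
    ∃ A : ↥(Cfsg.isometryGroup F ⇑Q),
      ((A : Matrix.GeneralLinearGroup (Fin n) F) : Matrix (Fin n) (Fin n) F) = M := by
  have hpol : ∀ x y, QuadraticMap.polar Q (M *ᵥ x) (M *ᵥ y) = QuadraticMap.polar Q x y := by
    intro x y
    unfold QuadraticMap.polar
    rw [← Matrix.mulVec_add, hM, hM, hM]
  have hinj : Function.Injective M.mulVec := by
    intro x y hxy
    have h1 : M *ᵥ (x - y) = 0 := by
      rw [Matrix.mulVec_sub]
      exact sub_eq_zero.mpr hxy
    have h2 : x - y = 0 := by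
      apply hQ.1
      intro z
      rw [QuadraticMap.polarBilin_apply_apply, ← hpol, h1]
      simp [QuadraticMap.polar]
    exact sub_eq_zero.mp h2
  have hU : IsUnit M := Matrix.mulVec_injective_iff_isUnit.mp hinj
  refine ⟨⟨hU.unit, ?_⟩, rfl⟩
  intro u v
  exact hM u

/-- The final step for the orthogonal statements. -/
theorem jt_orth_final {n t : ℕ} (d : Fin t → ℕ) (hsum : ∑ k, d k = n)
    (Q : QuadraticForm F (Fin n → F)) (hQ : (QuadraticMap.polarBilin Q).Nondegenerate)
    (M : Matrix (Fin n) (Fin n) F) (hM : ∀ u, Q (M *ᵥ u) = Q u)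
    (hr : ∀ j, ((M - 1) ^ j).rank = Jordan.rk (Finset.univ.val.map d) j) :
    ∃ e : ((k : Fin t) × Fin (d k)) ≃ Fin n, ∃ A : ↥(Cfsg.isometryGroup F ⇑Q),
      IsConj (Matrix.reindex e e (Cfsg.jordanTypeMatrix d F))
        ((A : Matrix.GeneralLinearGroup (Fin n) F) : Matrix (Fin n) (Fin n) F) := by
  obtain ⟨A, hA⟩ := jt_isom_unit Q hQ M hM
  have hcard : Fintype.card ((k : Fin t) × Fin (d k)) = Fintype.card (Fin n) := by
    rw [Fintype.card_sigma, Fintype.card_fin]
    simp [hsum]
  refine ⟨Fintype.equivOfCardEq hcard, A, ?_⟩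
  rw [hA]
  exact jt_isConj_of_rank d _ M hr

/-- A symplectic basis turns an isometry of an alternating form into a symplectic matrix. -/
theorem jt_symp_of_basis {m : ℕ} {V : Type v} [AddCommGroup V] [Module F V]
    (B : LinearMap.BilinForm F V) (hA : ∀ x, B x x = 0) (g : V →ₗ[F] V)
    (hg : ∀ x y, B (g x) (g y) = B x y) (b : Basis (Fin m ⊕ Fin m) F V)
    (hb1 : ∀ i j : Fin m, B (b (Sum.inl i)) (b (Sum.inr j)) = if i = j then 1 else 0)
    (hb2 : ∀ i j : Fin m, B (b (Sum.inl i)) (b (Sum.inl j)) = 0)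
    (hb3 : ∀ i j : Fin m, B (b (Sum.inr i)) (b (Sum.inr j)) = 0) :
    jtMat b.equivFun g ∈ Matrix.symplecticGroup (Fin m) F := by
  classical
  have hneg : ∀ x y, B x y = - B y x := by
    intro x y
    have h1 := hA (x + y)
    simp only [map_add, LinearMap.add_apply] at h1
    rw [hA x, hA y] at h1
    linear_combination h1
  have key : (Matrix.toBilin' (Matrix.J (Fin m) F)).comp b.equivFun.toLinearMap
      b.equivFun.toLinearMap = -B := by
    apply LinearMap.BilinForm.ext_basis b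
    intro i j
    have hsingle : ∀ i, b.equivFun (b i) = Pi.single i 1 := by
      intro i
      funext k
      rw [Basis.equivFun_self, Pi.single_apply]
      simp [eq_comm]
    rw [LinearMap.BilinForm.comp_apply, LinearEquiv.coe_coe, hsingle, hsingle,
      Matrix.toBilin'_single, LinearMap.neg_apply, LinearMap.neg_apply]
    rcases i with i | i <;> rcases j with j | j
    · rw [hb2]
      simp [Matrix.J]
    · rw [hb1]
      simp [Matrix.J, Matrix.one_apply]
    · rw [hneg, hb1]
      simp [Matrix.J, Matrix.one_apply, eq_comm]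
    · rw [hb3]
      simp [Matrix.J]
  have hform : ∀ x y : V,
      Cfsg.sympForm m F (b.equivFun x) (b.equivFun y) = - B x y := by
    intro x y
    have h1 := congrArg (fun T : LinearMap.BilinForm F V => T x y) key
    simp only [LinearMap.BilinForm.comp_apply, LinearEquiv.coe_coe, Matrix.toBilin'_apply',
      LinearMap.neg_apply] at h1
    exact h1
  apply Cfsg.Agent.Lib.Helper13.mem_symplecticGroup_of_sympForm m
  intro u v
  rw [jtMat_mulVec, jtMat_mulVec, hform, hg, ← hform, LinearEquiv.apply_symm_apply,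
    LinearEquiv.apply_symm_apply]

/-- Realisation of the admissible Jordan types in the symplectic group. -/
theorem jt_exists_symp {m t : ℕ} (d : Fin t → ℕ) (hd : ∀ k, 1 ≤ d k)
    (hsum : ∑ k, d k = 2 * m)
    (hpar : ∀ j : ℕ, Odd j → Even (Finset.univ.filter (fun k : Fin t => d k = j)).card) :
    ∃ A : Matrix (Fin m ⊕ Fin m) (Fin m ⊕ Fin m) F, A ∈ Matrix.symplecticGroup (Fin m) F ∧
      ∀ j, ((A - 1) ^ j).rank = Jordan.rk (Finset.univ.val.map d) j := by
  classical
  obtain ⟨μ, hμ⟩ : ∃ μ : Multiset ℕ, μ = Finset.univ.val.map d := ⟨_, rfl⟩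
  have hpos : ∀ a ∈ μ, 1 ≤ a := by
    intro a ha
    rw [hμ, Multiset.mem_map] at ha
    obtain ⟨k, _, rfl⟩ := ha
    exact hd k
  have hcount : ∀ j, Odd j → Even (μ.count j) := by
    intro j hj
    rw [hμ, jt_count_map]
    exact hpar j hj
  have hmodel : FType F True μ := by
    refine FType.of_blocks (F := F) Odd ?_ ?_ _ μ rfl hpos hcount
    · intro a ha hodd
      rw [Nat.not_odd_iff_even] at hodd
      obtain ⟨r, hr⟩ := hodd
      have : a = 2 * r := by omega
      rw [this]
      exact FType.even_block r (by omega)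
    · intro a
      exact FType.pair True a
  obtain ⟨n, B, g, h1, -, h3, h4, h5⟩ := hmodel
  have hA := h1 trivial
  have hn : n = 2 * m := by
    have h0 := h5 0
    rw [Jordan.finrank_range_pow_zero, Jordan.rk_zero, Module.finrank_fin_fun, hμ] at h0
    rw [h0, ← hsum]
    rfl
  obtain ⟨m', k', b, hb1, hb2, hb3, hb4⟩ := alt_basis B hA
  have hk' : k' = 0 := by
    by_contra hne
    have hpos : 0 < k' := Nat.pos_of_ne_zero hne
    have := h3 (b (Sum.inr ⟨0, hpos⟩)) (fun y => hb4 _ y)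
    exact b.ne_zero _ this
  subst hk'
  have hm' : m' = m := by
    have hc := Module.finrank_eq_card_basis b
    rw [Module.finrank_fin_fun] at hc
    simp only [Fintype.card_sum, Fintype.card_fin] at hc
    omega
  subst hm'
  obtain ⟨b', hb'⟩ : ∃ b' : Basis (Fin m' ⊕ Fin m') F (Fin n → F), ∀ i, b' i = b (Sum.inl i) :=
    ⟨b.reindex (Equiv.sumEmpty _ _), fun i => by
      rw [Basis.reindex_apply]
      rfl⟩
  refine ⟨jtMat b'.equivFun g, jt_symp_of_basis B hA g h4 b' ?_ ?_ ?_, fun j => ?_⟩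
  · intro i j
    rw [hb', hb']
    exact hb1 i j
  · intro i j
    rw [hb', hb']
    exact hb2 i j
  · intro i j
    rw [hb', hb']
    exact hb3 i j
  · rw [jtMat_rank, h5, hμ]

/-- Realisation of the admissible Jordan types in an orthogonal group, odd characteristic. -/
theorem jt_exists_orth_odd (h2 : (2 : F) ≠ 0) {n t : ℕ} (d : Fin t → ℕ) (hd : ∀ k, 1 ≤ d k)
    (hsum : ∑ k, d k = n)
    (hpar : ∀ j : ℕ, Even j → 0 < j →
      Even (Finset.univ.filter (fun k : Fin t => d k = j)).card) :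
    ∃ Q : QuadraticForm F (Fin n → F), (QuadraticMap.polarBilin Q).Nondegenerate ∧
      ∃ M : Matrix (Fin n) (Fin n) F, (∀ u, Q (M *ᵥ u) = Q u) ∧
        ∀ j, ((M - 1) ^ j).rank = Jordan.rk (Finset.univ.val.map d) j := by
  classical
  obtain ⟨μ, hμ⟩ : ∃ μ : Multiset ℕ, μ = Finset.univ.val.map d := ⟨_, rfl⟩
  have hpos : ∀ a ∈ μ, 1 ≤ a := by
    intro a ha
    rw [hμ, Multiset.mem_map] at ha
    obtain ⟨k, _, rfl⟩ := ha
    exact hd k
  have hcount : ∀ j, (Even j ∧ 0 < j) → Even (μ.count j) := by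
    intro j hj
    rw [hμ, jt_count_map]
    exact hpar j hj.1 hj.2
  have hmodel : FType F False μ := by
    refine FType.of_blocks (F := F) (fun j => Even j ∧ 0 < j) ?_ ?_ _ μ rfl hpos hcount
    · intro a ha hne
      have hodd : Odd a := by
        rw [← Nat.not_even_iff_odd]
        intro hev
        exact hne ⟨hev, by omega⟩
      exact FType.odd_block h2 a hodd
    · intro a
      exact FType.pair False a
  obtain ⟨n', B, g, -, h1, h3, h4, h5⟩ := hmodel
  have hS := h1 not_false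
  have hn : n' = n := by
    have h0 := h5 0
    rw [Jordan.finrank_range_pow_zero, Jordan.rk_zero, Module.finrank_fin_fun, hμ] at h0
    rw [h0, ← hsum]
    rfl
  subst hn
  refine ⟨B.toQuadraticMap, ?_, LinearMap.toMatrix' g, ?_, ?_⟩
  · have hpol : ∀ x y, QuadraticMap.polarBilin B.toQuadraticMap x y = 2 * B x y := by
      intro x y
      rw [QuadraticMap.polarBilin_apply_apply, LinearMap.BilinMap.polar_toQuadraticMap, hS y x]
      ring
    refine ⟨fun x hx => h3 x (fun y => ?_), fun y hy => h3 y (fun x => ?_)⟩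
    · have := hx y
      rw [hpol] at this
      exact (mul_eq_zero.mp this).resolve_left h2
    · have := hy x
      rw [hpol, hS] at this
      exact (mul_eq_zero.mp this).resolve_left h2
  · intro u
    rw [← Matrix.toLin'_apply, Matrix.toLin'_toMatrix', LinearMap.BilinMap.toQuadraticMap_apply,
      LinearMap.BilinMap.toQuadraticMap_apply, h4]
  · intro j
    have e1 : Matrix.toLin' (LinearMap.toMatrix' g - 1) = g - 1 := by
      rw [map_sub, Matrix.toLin'_toMatrix', Matrix.toLin'_one]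
      rfl
    rw [jt_rank_pow_eq, e1, h5, hμ]

end JTGlue

end Cfsg.Agent.Lib.Helper99
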