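import Mathlib
import Cfsg.Prelude.Def_ClassicalGeometry
import Cfsg.Agent.Lib.Helper13.Symp
import Cfsg.Agent.Lib.Helper99.Symp
import Cfsg.Agent.Lib.Helper99.AltBasis

set_option autoImplicit false

namespace Cfsg.Agent.Lib.Helper99

open Module Matrix Cfsg.Agent.Lib.Helper13

section coord
variable {F : Type*} [Field F] (k k₂ : ℕ)

/-- The orthogonal sum of two standard alternating forms. -/
def splitForm (x y : (Fin k ⊕ Fin k) ⊕ (Fin k₂ ⊕ Fin k₂) → F) : F :=
  Cfsg.sympForm k F (x ∘ Sum.inl) (y ∘ Sum.inl) + Cfsg.sympForm k₂ F (x ∘ Sum.inr) (y ∘ Sum.inr)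

theorem symp_left_inv {A : Matrix (Fin k ⊕ Fin k) (Fin k ⊕ Fin k) F}
    (hA : A ∈ Matrix.symplecticGroup (Fin k) F) : A⁻¹ * A = 1 :=
  Matrix.nonsing_inv_mul A (SymplecticGroup.symplectic_det hA)

theorem symp_right_inv {A : Matrix (Fin k ⊕ Fin k) (Fin k ⊕ Fin k) F}
    (hA : A ∈ Matrix.symplecticGroup (Fin k) F) : A * A⁻¹ = 1 :=
  Matrix.mul_nonsing_inv A (SymplecticGroup.symplectic_det hA)

theorem mulVec_elim {α β : Type*} [Fintype α] [Fintype β] (A : Matrix α α F) (B : Matrix α β F)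
    (C : Matrix β α F) (D : Matrix β β F) (x : α → F) (y : β → F) :
    (Matrix.fromBlocks A B C D) *ᵥ (Sum.elim x y) = Sum.elim (A *ᵥ x + B *ᵥ y) (C *ᵥ x + D *ᵥ y) :=
  Matrix.fromBlocks_mulVec A B C D (Sum.elim x y)

theorem mat_eq_zero_of_mulVec {α β : Type*} [Fintype α] [DecidableEq α] (C : Matrix β α F)
    (h : ∀ x : α → F, C *ᵥ x = 0) : C = 0 := by
  ext i j
  have h1 := congrFun (h (Pi.single j 1)) i
  rw [Matrix.mulVec_single_one] at h1
  exact h1

/-- A matrix preserving the split form and the first summand is block diagonal with symplectic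
blocks. -/
theorem split_blocks
    (N : Matrix ((Fin k ⊕ Fin k) ⊕ (Fin k₂ ⊕ Fin k₂)) ((Fin k ⊕ Fin k) ⊕ (Fin k₂ ⊕ Fin k₂)) F)
    (h1 : ∀ x y, splitForm k k₂ (N *ᵥ x) (N *ᵥ y) = splitForm k k₂ x y)
    (h2 : ∀ x, x ∘ Sum.inr = 0 → (N *ᵥ x) ∘ Sum.inr = 0) :
    N.toBlocks₁₁ ∈ Matrix.symplecticGroup (Fin k) F ∧
      N.toBlocks₂₂ ∈ Matrix.symplecticGroup (Fin k₂) F ∧ N.toBlocks₁₂ = 0 ∧ N.toBlocks₂₁ = 0 := by
  classical
  obtain ⟨A, hA⟩ : ∃ A, A = N.toBlocks₁₁ := ⟨_, rfl⟩
  obtain ⟨B, hB⟩ : ∃ B, B = N.toBlocks₁₂ := ⟨_, rfl⟩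
  obtain ⟨C, hC⟩ : ∃ C, C = N.toBlocks₂₁ := ⟨_, rfl⟩
  obtain ⟨D, hD⟩ : ∃ D, D = N.toBlocks₂₂ := ⟨_, rfl⟩
  have hN : N = Matrix.fromBlocks A B C D := by
    rw [hA, hB, hC, hD, Matrix.fromBlocks_toBlocks]
  rw [← hA, ← hB, ← hC, ← hD]
  have hC0 : C = 0 := by
    apply mat_eq_zero_of_mulVec
    intro x
    have h3 := h2 (Sum.elim x 0) (by simp)
    rw [hN, mulVec_elim, Sum.elim_comp_inr, Matrix.mulVec_zero, add_zero] at h3
    exact h3
  subst hC0
  have hAsp : A ∈ Matrix.symplecticGroup (Fin k) F := by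
    apply mem_symplecticGroup_of_sympForm
    intro u v
    have h3 := h1 (Sum.elim u 0) (Sum.elim v 0)
    unfold splitForm at h3
    rw [hN, mulVec_elim, mulVec_elim] at h3
    simp only [Sum.elim_comp_inl, Sum.elim_comp_inr, Matrix.mulVec_zero, add_zero,
      Matrix.zero_mulVec, sympForm_zero_left] at h3
    exact h3
  have hB0 : B = 0 := by
    apply mat_eq_zero_of_mulVec
    intro x
    apply sympB_nondeg k
    intro z
    have h3 := h1 (Sum.elim 0 x) (Sum.elim (A⁻¹ *ᵥ z) 0)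
    unfold splitForm at h3
    rw [hN, mulVec_elim, mulVec_elim] at h3
    simp only [Sum.elim_comp_inl, Sum.elim_comp_inr, Matrix.mulVec_zero, add_zero, zero_add,
      Matrix.zero_mulVec, sympForm_zero_left, sympForm_zero_right, Matrix.mulVec_mulVec,
      Matrix.zero_mul, symp_right_inv k hAsp, Matrix.one_mulVec] at h3
    rw [sympB_apply]
    exact h3
  subst hB0
  refine ⟨hAsp, ?_, rfl, rfl⟩
  apply mem_symplecticGroup_of_sympForm
  intro u v
  have h3 := h1 (Sum.elim 0 u) (Sum.elim 0 v)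
  unfold splitForm at h3
  rw [hN, mulVec_elim, mulVec_elim] at h3
  simp only [Sum.elim_comp_inl, Sum.elim_comp_inr, Matrix.mulVec_zero, add_zero, zero_add,
    Matrix.zero_mulVec, sympForm_zero_left] at h3
  exact h3

/-- A block diagonal matrix with symplectic blocks preserves the split form and the first
summand. -/
theorem split_of_blocks {A : Matrix (Fin k ⊕ Fin k) (Fin k ⊕ Fin k) F}
    (hA : A ∈ Matrix.symplecticGroup (Fin k) F) {D : Matrix (Fin k₂ ⊕ Fin k₂) (Fin k₂ ⊕ Fin k₂) F}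
    (hD : D ∈ Matrix.symplecticGroup (Fin k₂) F) :
    (∀ x y, splitForm k k₂ (Matrix.fromBlocks A 0 0 D *ᵥ x) (Matrix.fromBlocks A 0 0 D *ᵥ y)
      = splitForm k k₂ x y) ∧
    (∀ x : (Fin k ⊕ Fin k) ⊕ (Fin k₂ ⊕ Fin k₂) → F,
      x ∘ Sum.inr = 0 ↔ (Matrix.fromBlocks A 0 0 D *ᵥ x) ∘ Sum.inr = 0) := by
  classical
  have hl : ∀ x : (Fin k ⊕ Fin k) ⊕ (Fin k₂ ⊕ Fin k₂) → F,
      (Matrix.fromBlocks A 0 0 D *ᵥ x) ∘ Sum.inl = A *ᵥ (x ∘ Sum.inl) := by
    intro x
    rw [Matrix.fromBlocks_mulVec, Sum.elim_comp_inl, Matrix.zero_mulVec, add_zero]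
  have hr : ∀ x : (Fin k ⊕ Fin k) ⊕ (Fin k₂ ⊕ Fin k₂) → F,
      (Matrix.fromBlocks A 0 0 D *ᵥ x) ∘ Sum.inr = D *ᵥ (x ∘ Sum.inr) := by
    intro x
    rw [Matrix.fromBlocks_mulVec, Sum.elim_comp_inr, Matrix.zero_mulVec, zero_add]
  constructor
  · intro x y
    unfold splitForm
    rw [hl, hl, hr, hr, sympForm_mulVec_of_mem k hA, sympForm_mulVec_of_mem k₂ hD]
  · intro x
    rw [hr]
    constructor
    · intro h
      rw [h, Matrix.mulVec_zero]
    · intro h
      have h3 : D⁻¹ *ᵥ (D *ᵥ (x ∘ Sum.inr)) = 0 := by rw [h, Matrix.mulVec_zero]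
      rw [Matrix.mulVec_mulVec, symp_left_inv k₂ hD, Matrix.one_mulVec] at h3
      exact h3

end coord

section li
variable {F V : Type*} [Field F] [AddCommGroup V] [Module F V]

/-- Hyperbolic pairs of an alternating form are linearly independent. -/
theorem alt_li (B : LinearMap.BilinForm F V) (hB : B.IsAlt) {k : ℕ} (e f : Fin k → V)
    (hef : ∀ i j, B (e i) (f j) = if i = j then 1 else 0) (hee : ∀ i j, B (e i) (e j) = 0)
    (hff : ∀ i j, B (f i) (f j) = 0) :
    LinearIndependent F (Sum.elim e f : Fin k ⊕ Fin k → V) := by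
  classical
  rw [Fintype.linearIndependent_iff]
  intro g hg
  simp only [Fintype.sum_sum_type, Sum.elim_inl, Sum.elim_inr] at hg
  have hA : ∀ j0, g (Sum.inl j0) = 0 := by
    intro j0
    have h1 := congrArg (fun m => B m (f j0)) hg
    simp only [map_add, map_sum, map_smul, LinearMap.add_apply, LinearMap.sum_apply,
      LinearMap.smul_apply, smul_eq_mul, LinearMap.zero_apply,
      hef, hff, mul_zero, Finset.sum_const_zero, add_zero, mul_ite, mul_one,
      Finset.sum_ite_eq', Finset.mem_univ, if_true, map_zero] at h1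
    exact h1
  have hB' : ∀ j0, g (Sum.inr j0) = 0 := by
    intro j0
    have h1 := congrArg (fun m => B (e j0) m) hg
    simp only [map_add, map_sum, map_smul, smul_eq_mul,
      hef, hee, mul_zero, Finset.sum_const_zero, add_zero, zero_add, mul_ite,
      mul_one, Finset.sum_ite_eq, Finset.mem_univ, if_true, map_zero] at h1
    exact h1
  rintro (i | i)
  · exact hA i
  · exact hB' i

end li

section adapted
variable {F : Type*} [Field F]

/-- A basis adapted to a nondegenerate subspace of the standard symplectic space. -/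
theorem exists_adapted_basis (m k : ℕ) (W : Submodule F (Fin m ⊕ Fin m → F))
    (hWk : finrank F W = 2 * k)
    (hW : ∀ u ∈ W, (∀ v ∈ W, Cfsg.sympForm m F u v = 0) → u = 0) :
    ∃ c : Basis ((Fin k ⊕ Fin k) ⊕ (Fin (m - k) ⊕ Fin (m - k))) F (Fin m ⊕ Fin m → F),
      (∀ x y, Cfsg.sympForm m F x y = - splitForm k (m - k) (c.repr x) (c.repr y)) ∧
      (∀ v, v ∈ W ↔ (c.repr v : (Fin k ⊕ Fin k) ⊕ (Fin (m - k) ⊕ Fin (m - k)) → F) ∘ Sum.inr = 0)
      := by
  classical
  obtain ⟨B, hBdef⟩ : ∃ B : LinearMap.BilinForm F (Fin m ⊕ Fin m → F), B = sympB m := ⟨_, rfl⟩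
  have hBapp : ∀ u v, B u v = Cfsg.sympForm m F u v := fun u v => by rw [hBdef, sympB_apply]
  have hBalt : B.IsAlt := by rw [hBdef]; exact sympB_isAlt m
  have hBnd : ∀ u, (∀ v, B u v = 0) → u = 0 := by
    intro u h
    rw [hBdef] at h
    exact sympB_nondeg m u h
  have hNW : NondegOn B W := fun u hu h => hW u hu (fun v hv => by rw [← hBapp]; exact h v hv)
  obtain ⟨k₁, e, f, hefW, hef, hee, hff, hspan⟩ := alt_aux B hBalt (finrank F W) W le_rfl hNW
  have hfe : ∀ i j, B (f i) (e j) = if i = j then -1 else 0 := by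
    intro i j
    rw [← hBalt.neg_eq, hef]
    by_cases hij : i = j
    · subst hij; simp
    · rw [if_neg hij, if_neg (fun h => hij h.symm), neg_zero]
  obtain ⟨W', hW'def⟩ : ∃ W' : Submodule F (Fin m ⊕ Fin m → F),
      ∀ v, v ∈ W' ↔ ∀ w ∈ W, B w v = 0 :=
    ⟨B.orthogonal W, fun v => LinearMap.BilinForm.mem_orthogonal_iff⟩
  have hdec : ∀ v, ∃ w ∈ W, ∃ v' ∈ W', v = w + v' := by
    intro v
    refine ⟨∑ i, B v (f i) • e i - ∑ i, B v (e i) • f i, ?_,
      v - (∑ i, B v (f i) • e i - ∑ i, B v (e i) • f i), ?_, by abel⟩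
    · exact W.sub_mem (W.sum_mem fun i _ => W.smul_mem _ (hefW i).1)
        (W.sum_mem fun i _ => W.smul_mem _ (hefW i).2)
    · rw [hW'def]
      intro w hw
      obtain ⟨a, b, rfl⟩ := hspan w hw
      have h1 : ∀ j, B (e j) (v - (∑ i, B v (f i) • e i - ∑ i, B v (e i) • f i)) = 0 := by
        intro j
        simp only [map_sub, map_sum, map_smul, smul_eq_mul, hee, hef, mul_zero,
          Finset.sum_const_zero, mul_ite, mul_one, Finset.sum_ite_eq, Finset.mem_univ, if_true,
          zero_sub, sub_neg_eq_add]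
        rw [← hBalt.neg_eq v (e j)]
        ring
      have h2 : ∀ j, B (f j) (v - (∑ i, B v (f i) • e i - ∑ i, B v (e i) • f i)) = 0 := by
        intro j
        simp only [map_sub, map_sum, map_smul, smul_eq_mul, hff, hfe, mul_zero,
          Finset.sum_const_zero, mul_ite, mul_one, mul_neg, Finset.sum_ite_eq, Finset.mem_univ,
          if_true, sub_zero]
        rw [← hBalt.neg_eq v (f j)]
        ring
      simp only [map_add, map_sum, map_smul, LinearMap.add_apply, LinearMap.sum_apply,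
        LinearMap.smul_apply, h1, h2, smul_zero, Finset.sum_const_zero, add_zero]
  have hNW' : NondegOn B W' := by
    intro u hu h
    apply hBnd
    intro v
    obtain ⟨w, hw, v', hv', rfl⟩ := hdec v
    rw [map_add, h v' hv', add_zero, ← hBalt.neg_eq, (hW'def u).mp hu w hw, neg_zero]
  obtain ⟨k₂, e', f', hefW', hef', hee', hff', hspan'⟩ :=
    alt_aux B hBalt (finrank F W') W' le_rfl hNW'
  have hfe' : ∀ i j, B (f' i) (e' j) = if i = j then -1 else 0 := by
    intro i j
    rw [← hBalt.neg_eq, hef']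
    by_cases hij : i = j
    · subst hij; simp
    · rw [if_neg hij, if_neg (fun h => hij h.symm), neg_zero]
  have hz := alt_li B hBalt e' f' hef' hee' hff'
  have hWW' : ∀ w ∈ W, ∀ v' ∈ W', B w v' = 0 := fun w hw v' hv' => (hW'def v').mp hv' w hw
  have hW'W : ∀ w ∈ W, ∀ v' ∈ W', B v' w = 0 := fun w hw v' hv' => by
    rw [← hBalt.neg_eq, hWW' w hw v' hv', neg_zero]
  have hzW' : ∀ t, Sum.elim e' f' t ∈ W' := by
    rintro (i | i)
    · exact (hefW' i).1
    · exact (hefW' i).2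
  obtain ⟨c, hc1, hc2, hc3⟩ := mkBasisB B e f hef hee hff (Sum.elim e' f') hz
    (fun j i => hW'W _ (hefW i).2 _ (hzW' j)) (fun i j => hWW' _ (hefW i).1 _ (hzW' j))
    (by
      intro v
      obtain ⟨w, hw, v', hv', rfl⟩ := hdec v
      obtain ⟨a, b, rfl⟩ := hspan w hw
      obtain ⟨a', b', rfl⟩ := hspan' v' hv'
      refine ⟨∑ i, a' i • e' i + ∑ i, b' i • f' i, ?_, a, b, by abel⟩
      refine Submodule.add_mem _ ?_ ?_
      · exact Submodule.sum_mem _ fun i _ => Submodule.smul_mem _ _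
          (Submodule.subset_span ⟨Sum.inl i, rfl⟩)
      · exact Submodule.sum_mem _ fun i _ => Submodule.smul_mem _ _
          (Submodule.subset_span ⟨Sum.inr i, rfl⟩))
  have hk₁ : k₁ = k := by
    have hli := alt_li B hBalt e f hef hee hff
    have hsp : Submodule.span F (Set.range (Sum.elim e f)) = W := by
      apply le_antisymm
      · rw [Submodule.span_le]
        rintro _ ⟨(i | i), rfl⟩
        · exact (hefW i).1
        · exact (hefW i).2
      · intro w hw
        obtain ⟨a, b, rfl⟩ := hspan w hw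
        refine Submodule.add_mem _ ?_ ?_
        · exact Submodule.sum_mem _ fun i _ => Submodule.smul_mem _ _
            (Submodule.subset_span ⟨Sum.inl i, rfl⟩)
        · exact Submodule.sum_mem _ fun i _ => Submodule.smul_mem _ _
            (Submodule.subset_span ⟨Sum.inr i, rfl⟩)
    have h3 := finrank_span_eq_card hli
    rw [hsp, hWk] at h3
    simp only [Fintype.card_sum, Fintype.card_fin] at h3
    omega
  have hk₂ : k₂ = m - k := by
    have h3 := Module.finrank_eq_card_basis c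
    simp only [Module.finrank_fintype_fun_eq_card, Fintype.card_sum, Fintype.card_fin] at h3
    omega
  subst hk₁ hk₂
  have hX1 : ∀ i j, B (e i) (e' j) = 0 := fun i j => hWW' _ (hefW i).1 _ (hefW' j).1
  have hX2 : ∀ i j, B (e i) (f' j) = 0 := fun i j => hWW' _ (hefW i).1 _ (hefW' j).2
  have hX3 : ∀ i j, B (f i) (e' j) = 0 := fun i j => hWW' _ (hefW i).2 _ (hefW' j).1
  have hX4 : ∀ i j, B (f i) (f' j) = 0 := fun i j => hWW' _ (hefW i).2 _ (hefW' j).2
  have hX5 : ∀ i j, B (e' i) (e j) = 0 := fun i j => hW'W _ (hefW j).1 _ (hefW' i).1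
  have hX6 : ∀ i j, B (e' i) (f j) = 0 := fun i j => hW'W _ (hefW j).2 _ (hefW' i).1
  have hX7 : ∀ i j, B (f' i) (e j) = 0 := fun i j => hW'W _ (hefW j).1 _ (hefW' i).2
  have hX8 : ∀ i j, B (f' i) (f j) = 0 := fun i j => hW'W _ (hefW j).2 _ (hefW' i).2
  refine ⟨c, ?_, ?_⟩
  · intro x y
    rw [← hBapp]
    conv_lhs => rw [← c.sum_repr x, ← c.sum_repr y]
    unfold splitForm
    rw [sympForm_eq, sympForm_eq]
    simp only [map_sum, map_smul, map_add, LinearMap.sum_apply, LinearMap.smul_apply,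
      LinearMap.add_apply, Fintype.sum_sum_type, smul_eq_mul, hc1, hc2, hc3, Sum.elim_inl,
      Sum.elim_inr, hef, hee, hff, hfe, hef', hee', hff', hfe', hX1, hX2, hX3, hX4, hX5, hX6,
      hX7, hX8, mul_zero, Finset.sum_const_zero, add_zero, zero_add, mul_ite, mul_one, mul_neg,
      Finset.sum_ite_eq, Finset.sum_ite_eq', Finset.mem_univ, if_true, Finset.sum_neg_distrib,
      Function.comp_apply, Finset.sum_sub_distrib]
    simp only [mul_comm ((c.repr y) _) ((c.repr x) _)]
    ring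
  · intro v
    constructor
    · intro hv
      obtain ⟨a, b, rfl⟩ := hspan v hv
      funext t
      simp only [← hc1, ← hc2, map_add, map_sum, map_smul, Basis.repr_self, Function.comp_apply,
        Finsupp.coe_add, Finsupp.coe_finsetSum, Finsupp.coe_smul, Pi.add_apply,
        Finset.sum_apply, Pi.smul_apply, Finsupp.single_apply, Pi.zero_apply]
      simp
    · intro hv
      rw [← c.sum_repr v, Fintype.sum_sum_type]
      have h0 : ∀ t, c.repr v (Sum.inr t) = 0 := fun t => congrFun hv t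
      simp only [h0, zero_smul, Finset.sum_const_zero, add_zero]
      refine W.sum_mem fun s _ => W.smul_mem _ ?_
      rcases s with i | i
      · rw [hc1]; exact (hefW i).1
      · rw [hc2]; exact (hefW i).2

end adapted

end Cfsg.Agent.Lib.Helper99
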