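import Mathlib
import Cfsg.Agent.Lib.Helper99.ArfA
import Cfsg.Agent.Lib.Helper99.Quad3
import Cfsg.Agent.Lib.Helper45.OrthZeros
import Cfsg.Agent.Lib.Helper8.OmegaConj
import Cfsg.Agent.Lib.Helper14.MaxTS3

/-! Classification of non-degenerate quadratic forms of dimension `2d` in characteristic two by
their number of singular vectors, and the effect of a twist. -/

set_option autoImplicit false

namespace Cfsg.Agent.Lib.Helper99

open Matrix Module Cfsg.Agent.Lib.Helper14

section arfB

variable {F : Type*} [Field F] [Fintype F]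

theorem zvals_lt (q d : ℕ) (hq : 2 ≤ q) (hd : 1 ≤ d) :
    q ^ (2 * d - 1) < q ^ (2 * d - 1) + q ^ d - q ^ (d - 1) ∧
      q ^ (2 * d - 1) + q ^ (d - 1) - q ^ d < q ^ (2 * d - 1) ∧ q ^ d ≤ q ^ (2 * d - 1) ∧
      q ^ (d - 1) < q ^ d := by
  have h1 : q ^ d = q * q ^ (d - 1) := by
    rw [← pow_succ']
    congr 1
    omega
  have h3 : 1 ≤ q ^ (d - 1) := Nat.one_le_pow _ _ (by omega)
  have h4 : q ^ d ≤ q ^ (2 * d - 1) := Nat.pow_le_pow_right (by omega) (by omega)
  have h5 : q ^ (d - 1) < q ^ d := by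
    rw [h1]
    nlinarith
  refine ⟨?_, ?_, h4, h5⟩ <;> omega

variable {V : Type*} [AddCommGroup V] [Module F V] [FiniteDimensional F V]

/-- A non-degenerate quadratic form of dimension `2d` in characteristic two is of plus type or
of minus type; the two cases are told apart by the number of singular vectors. -/
theorem qz_cases (h2 : (2 : F) = 0) {q : ℕ} (hq : Fintype.card F = q)
    (Q : QuadraticForm F V) (hQ : (QuadraticMap.polarBilin Q).Nondegenerate)
    (d : ℕ) (hd : 1 ≤ d) (hdim : finrank F V = 2 * d) :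
    (Nat.card {v : V // Q v = 0} = q ^ (2 * d - 1) + q ^ d - q ^ (d - 1) ∧
      ∃ U : Submodule F V, finrank F U = d ∧ ∀ u ∈ U, Q u = 0) ∨
    (Nat.card {v : V // Q v = 0} = q ^ (2 * d - 1) + q ^ (d - 1) - q ^ d ∧
      ∀ U : Submodule F V, (∀ u ∈ U, Q u = 0) → finrank F U ≤ d - 1) := by
  classical
  obtain ⟨k, e, f, hH, hcase⟩ := witt Q hQ
  rcases hcase with ⟨bp, hbe, hbf⟩ | ⟨x0, bo, -⟩ |
    ⟨x0, y0, bm, hQx, hxy, hirr, hxperp, hyperp, -, -, -, -⟩
  · left
    have hk : k = d := by
      have h1 := Module.finrank_eq_card_basis bp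
      rw [hdim, Fintype.card_sum, Fintype.card_fin] at h1
      omega
    subst hk
    have hQv : ∀ v : V, Q v = Cfsg.quadFormPlus k F (bp.equivFun v) := by
      intro v
      have h1 := hyp_eval Q e f hH (fun i => bp.repr v (Sum.inl i))
        (fun i => bp.repr v (Sum.inr i)) 0 (fun i => by simp)
      have h3 : (∑ i, bp.repr v (Sum.inl i) • e i + ∑ i, bp.repr v (Sum.inr i) • f i + 0) = v := by
        rw [add_zero]
        conv_rhs => rw [← bp.sum_repr v]
        rw [Fintype.sum_sum_type]
        simp only [hbe, hbf]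
      rw [h3] at h1
      rw [h1, map_zero, add_zero]
      rfl
    constructor
    · rw [← Cfsg.Agent.Lib.Helper45.card_zeros_plus hq k hd]
      apply Nat.card_congr
      exact (bp.equivFun.toEquiv.subtypeEquiv (fun v => by rw [hQv]; rfl))
    · refine ⟨(stdE k F).map bp.equivFun.symm.toLinearMap, ?_, ?_⟩
      · rw [LinearEquiv.finrank_map_eq]
        exact (stdE_isMTS k F).1
      · rintro _ ⟨x, hx, rfl⟩
        rw [hQv]
        have h1 := (stdE_isMTS k F).2 x hx
        rw [plusQF_coe] at h1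
        show Cfsg.quadFormPlus k F (bp.equivFun (bp.equivFun.symm x)) = 0
        rw [LinearEquiv.apply_symm_apply]
        exact h1
  · exfalso
    have h1 := Module.finrank_eq_card_basis bo
    rw [hdim] at h1
    simp only [Fintype.card_sum, Fintype.card_fin, Fintype.card_unit] at h1
    omega
  · right
    have hk : k = d - 1 := by
      have h1 := Module.finrank_eq_card_basis bm
      rw [hdim] at h1
      simp only [Fintype.card_sum, Fintype.card_fin] at h1
      omega
    subst hk
    let ψ : (((Fin (d - 1) ⊕ Fin (d - 1)) ⊕ Fin 2) → F) →ₗ[F] V :=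
      ∑ i, (LinearMap.proj (Sum.inl (Sum.inl i))).smulRight (e i) +
        ∑ i, (LinearMap.proj (Sum.inl (Sum.inr i))).smulRight (f i) +
        ((LinearMap.proj (Sum.inr 0)).smulRight x0 + (LinearMap.proj (Sum.inr 1)).smulRight y0)
    have hψ : ∀ v, ψ v = ∑ i, v (Sum.inl (Sum.inl i)) • e i + ∑ i, v (Sum.inl (Sum.inr i)) • f i +
        (v (Sum.inr 0) • x0 + v (Sum.inr 1) • y0) := by
      intro v
      simp [ψ, LinearMap.sum_apply]
    have hQψ : ∀ v, Q (ψ v) = Cfsg.quadFormMinus (d - 1) F 1 (Q y0) v := by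
      intro v
      have hperp' : ∀ i, QuadraticMap.polar Q (v (Sum.inr 0) • x0 + v (Sum.inr 1) • y0) (e i) = 0 ∧
          QuadraticMap.polar Q (v (Sum.inr 0) • x0 + v (Sum.inr 1) • y0) (f i) = 0 := by
        intro i
        constructor <;>
          simp [QuadraticMap.polar_add_left, QuadraticMap.polar_smul_left, (hxperp i).1,
            (hxperp i).2, (hyperp i).1, (hyperp i).2]
      rw [hψ, hyp_eval Q e f hH _ _ _ hperp']
      rw [QuadraticMap.map_add Q, QuadraticMap.map_smul, QuadraticMap.map_smul,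
        QuadraticMap.polar_smul_left, QuadraticMap.polar_smul_right, hQx, hxy]
      unfold Cfsg.quadFormMinus
      simp only [smul_eq_mul]
      ring
    have hab : ∀ x y : F, x ^ 2 + 1 * x * y + Q y0 * y ^ 2 = 0 → x = 0 ∧ y = 0 := by
      intro x y h
      by_cases hy : y = 0
      · subst hy
        refine ⟨?_, rfl⟩
        have : x ^ 2 = 0 := by linear_combination h
        exact pow_eq_zero_iff (two_ne_zero) |>.mp this
      · exfalso
        apply hirr (x / y)
        field_simp
        linear_combination h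
    have hQm := Cfsg.Agent.Lib.Helper44.minusQF_nondegenerate_char2 (d - 1) F h2 1 (Q y0) hab
    have hinj : Function.Injective ψ := by
      rw [← LinearMap.ker_eq_bot, LinearMap.ker_eq_bot']
      intro v hv
      apply hQm.1 v
      intro w
      rw [QuadraticMap.polarBilin_apply_apply, minusQF_coe]
      simp [QuadraticMap.polar, ← hQψ, hv]
    have hdim' : finrank F (((Fin (d - 1) ⊕ Fin (d - 1)) ⊕ Fin 2) → F) = finrank F V := by
      rw [hdim, Module.finrank_fintype_fun_eq_card]
      simp only [Fintype.card_sum, Fintype.card_fin]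
      omega
    obtain ⟨ψe, hψe⟩ : ∃ ψe : (((Fin (d - 1) ⊕ Fin (d - 1)) ⊕ Fin 2) → F) ≃ₗ[F] V,
        ∀ v, ψe v = ψ v :=
      ⟨LinearMap.linearEquivOfInjective ψ hinj hdim',
        fun v => LinearMap.linearEquivOfInjective_apply hinj hdim' v⟩
    have hQe : ∀ v, Q (ψe v) = Cfsg.quadFormMinus (d - 1) F 1 (Q y0) v := fun v => by
      rw [hψe, hQψ]
    constructor
    · rw [← Cfsg.Agent.Lib.Helper45.card_zeros_minus hq d hd 1 (Q y0) hab]
      apply Nat.card_congr
      exact (ψe.symm.toEquiv.subtypeEquiv (fun v => by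
        rw [← hQe]
        simp))
    · intro U hU
      have h1 := Cfsg.Agent.Lib.Helper8.OmegaConj.minus_ts_finrank_le (d - 1) F 1 (Q y0) hab hQm
        (U.map ψe.symm.toLinearMap) (by
          rintro _ ⟨u, hu, rfl⟩
          rw [← hQe]
          simpa using hU u hu)
      rwa [LinearEquiv.finrank_map_eq] at h1

/-- The sum of the numbers of singular vectors of `Q` and of a twist by a vector whose value is
not of the shape `t² + t`. -/
theorem zsum (h2 : (2 : F) = 0) {q : ℕ} (hq : Fintype.card F = q)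
    (Q : QuadraticForm F V) (d : ℕ) (hd : 1 ≤ d) (hdim : finrank F V = 2 * d) (w : V)
    (hw : ¬ IsAP (Q w)) :
    Nat.card {v : V // Q v = 0} + Nat.card {v : V // qtw Q w v = 0} = 2 * q ^ (2 * d - 1) := by
  have hVfin : Finite V := Module.finite_of_finite F
  have h1 := arf_flip h2 Q w hw
  rw [Module.natCard_eq_pow_finrank (K := F) (V := V), hdim, Nat.card_eq_fintype_card (α := F), hq] at h1
  have hq0 : 0 < q := by rw [← hq]; exact Fintype.card_pos
  have e : q ^ (2 * d) = q * q ^ (2 * d - 1) := by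
    rw [← pow_succ']
    congr 1
    omega
  rw [e] at h1
  apply Nat.eq_of_mul_eq_mul_left hq0
  rw [h1]
  ring

/-- Twisting by a vector whose value is not of the shape `t² + t` changes the type. -/
theorem qz_opposite (h2 : (2 : F) = 0) {q : ℕ} (hq : Fintype.card F = q)
    (Q : QuadraticForm F V) (hQ : (QuadraticMap.polarBilin Q).Nondegenerate)
    (d : ℕ) (hd : 1 ≤ d) (hdim : finrank F V = 2 * d) (w : V) (hw : ¬ IsAP (Q w)) :
    Nat.card {v : V // Q v = 0} ≠ Nat.card {v : V // qtw Q w v = 0} ∧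
    ((∃ U : Submodule F V, finrank F U = d ∧ ∀ u ∈ U, Q u = 0) →
      ∀ U : Submodule F V, (∀ u ∈ U, qtw Q w u = 0) → finrank F U ≤ d - 1) ∧
    ((∃ U : Submodule F V, finrank F U = d ∧ ∀ u ∈ U, qtw Q w u = 0) →
      ∀ U : Submodule F V, (∀ u ∈ U, Q u = 0) → finrank F U ≤ d - 1) := by
  have hs := zsum h2 hq Q d hd hdim w hw
  have hq2 : 2 ≤ q := by rw [← hq]; exact Fintype.one_lt_card
  obtain ⟨hz1, hz2, hz3, hz4⟩ := zvals_lt q d hq2 hd
  rcases qz_cases h2 hq Q hQ d hd hdim with ⟨hz, -⟩ | ⟨hz, hU⟩ <;>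
    rcases qz_cases h2 hq (qtw Q w) (qtw_nondeg h2 Q hQ w) d hd hdim with ⟨hz', -⟩ | ⟨hz', hU'⟩
  · exfalso; omega
  · refine ⟨by omega, fun _ => hU', ?_⟩
    rintro ⟨U, hUd, hUt⟩
    have := hU' U hUt
    omega
  · refine ⟨by omega, ?_, fun _ => hU⟩
    rintro ⟨U, hUd, hUt⟩
    have := hU U hUt
    omega
  · exfalso; omega

end arfB

end Cfsg.Agent.Lib.Helper99
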