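import Mathlib
import Cfsg.Agent.Lib.Helper99.ArfB

/-! Quadratic forms with a given polar form in characteristic two: the forms are the twists
`qtw Q w`, the twists by vectors with `Q w = t² + t` are the images of `Q` under isometries of the
polar form, and every involution preserving the polar form preserves such a twist (under the
plus-type or odd-`d` hypothesis). -/

set_option autoImplicit false

namespace Cfsg.Agent.Lib.Helper99

open Matrix Module Cfsg.Agent.Lib.Helper14

section arfC

variable {F : Type*} [Field F] [Fintype F]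

/-- An additive, square-homogeneous function is the square of a functional `polar Q w ·`. -/
theorem arf_repr (h2 : (2 : F) = 0) {V : Type*} [AddCommGroup V] [Module F V]
    [FiniteDimensional F V] (Q : QuadraticForm F V)
    (hQ : (QuadraticMap.polarBilin Q).Nondegenerate) (D : V → F)
    (hadd : ∀ u v, D (u + v) = D u + D v) (hsm : ∀ (c : F) (v : V), D (c • v) = c ^ 2 * D v) :
    ∃ w : V, ∀ v, D v = QuadraticMap.polar Q w v * QuadraticMap.polar Q w v := by
  have hsq : ∀ a : F, ∃ s : F, s ^ 2 = a := exists_sqrt2 h2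
  choose sq hsq using hsq
  let L : V →ₗ[F] F :=
    { toFun := fun v => sq (D v)
      map_add' := fun u v => by
        show sq (D (u + v)) = sq (D u) + sq (D v)
        apply sq_inj2 h2
        have e : (sq (D u) + sq (D v)) ^ 2 = D u + D v := by
          linear_combination hsq (D u) + hsq (D v) + (sq (D u) * sq (D v)) * h2
        rw [hsq, e, hadd]
      map_smul' := fun c v => by
        show sq (D (c • v)) = c * sq (D v)
        apply sq_inj2 h2
        rw [hsq, hsm, mul_pow, hsq] }
  refine ⟨(LinearMap.BilinForm.toDual (QuadraticMap.polarBilin Q) hQ).symm L, fun v => ?_⟩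
  have h1 : QuadraticMap.polar Q
      ((LinearMap.BilinForm.toDual (QuadraticMap.polarBilin Q) hQ).symm L) v = L v :=
    LinearMap.BilinForm.apply_toDual_symm_apply (B := QuadraticMap.polarBilin Q) (hB := hQ) L v
  rw [h1]
  show D v = sq (D v) * sq (D v)
  rw [← pow_two, hsq]

/-- The twist by a vector with `Q w = t² + t` is the image of `Q` under an involution. -/
theorem arf_transv (h2 : (2 : F) = 0) {ι : Type*} [Fintype ι] [DecidableEq ι]
    (Q : QuadraticForm F (ι → F)) (w : ι → F) (hw : IsAP (Q w)) :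
    ∃ M : Matrix ι ι F, M * M = 1 ∧ ∀ v, Q (M *ᵥ v) = qtw Q w v := by
  obtain ⟨t, ht⟩ := hw
  obtain ⟨l, hl⟩ : ∃ l : F, l ^ 2 * Q w + l = 1 := by
    by_cases h0 : t = 0
    · refine ⟨1, ?_⟩
      rw [← ht, h0]
      ring
    · refine ⟨1 / t, ?_⟩
      rw [← ht]
      field_simp
      linear_combination h2
  let f : (ι → F) →ₗ[F] (ι → F) :=
    LinearMap.id + l • (QuadraticMap.polarBilin Q w).smulRight w
  have hf : ∀ v, f v = v + (l * QuadraticMap.polar Q w v) • w := by
    intro v
    simp [f, mul_smul]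
  refine ⟨LinearMap.toMatrix' f, ?_, ?_⟩
  · rw [← LinearMap.toMatrix'_mul, ← LinearMap.toMatrix'_one]
    congr 1
    apply LinearMap.ext
    intro v
    rw [Module.End.mul_apply, hf, hf, Module.End.one_apply, QuadraticMap.polar_add_right,
      QuadraticMap.polar_smul_right, polar_self2 h2, smul_zero, add_zero, add_assoc, ← add_smul]
    have : l * QuadraticMap.polar Q w v + l * QuadraticMap.polar Q w v = 0 := by
      linear_combination (l * QuadraticMap.polar Q w v) * h2
    rw [this, zero_smul, add_zero]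
  · intro v
    rw [LinearMap.toMatrix'_mulVec, hf, qtw_apply, QuadraticMap.map_add Q, QuadraticMap.map_smul,
      QuadraticMap.polar_smul_right, QuadraticMap.polar_comm Q v w, smul_eq_mul, smul_eq_mul]
    linear_combination (QuadraticMap.polar Q w v) ^ 2 * hl

/-- Every involution preserving the polar form of `Q` preserves a twist of `Q` by a vector with
`Q w = t² + t`, if `Q` is of plus type or `d` is odd. -/
theorem arf_invol (h2 : (2 : F) = 0) {q : ℕ} (hq : Fintype.card F = q) {ι : Type} [Fintype ι]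
    [DecidableEq ι] (Q : QuadraticForm F (ι → F))
    (hQ : (QuadraticMap.polarBilin Q).Nondegenerate) (d : ℕ) (hd : 1 ≤ d)
    (hdim : Fintype.card ι = 2 * d)
    (hpo : (∃ U : Submodule F (ι → F), finrank F U = d ∧ ∀ u ∈ U, Q u = 0) ∨ Odd d)
    (T : Matrix ι ι F) (hT2 : T * T = 1)
    (hTB : ∀ u v, QuadraticMap.polar Q (T *ᵥ u) (T *ᵥ v) = QuadraticMap.polar Q u v) :
    ∃ w, IsAP (Q w) ∧ ∀ v, qtw Q w (T *ᵥ v) = qtw Q w v := by
  classical
  have hfin : finrank F (ι → F) = 2 * d := by rw [Module.finrank_fintype_fun_eq_card, hdim]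
  have hTT : ∀ v, T *ᵥ (T *ᵥ v) = v := fun v => by
    rw [Matrix.mulVec_mulVec, hT2, Matrix.one_mulVec]
  have hadj : ∀ u v, QuadraticMap.polar Q (T *ᵥ u) v = QuadraticMap.polar Q u (T *ᵥ v) := by
    intro u v
    have := hTB u (T *ᵥ v)
    rw [hTT] at this
    exact this
  obtain ⟨c₀, hc₀⟩ := arf_repr h2 Q hQ (fun v => Q (T *ᵥ v) + Q v) (by
      intro u v
      show Q (T *ᵥ (u + v)) + Q (u + v) = Q (T *ᵥ u) + Q u + (Q (T *ᵥ v) + Q v)
      rw [Matrix.mulVec_add, QuadraticMap.map_add Q, QuadraticMap.map_add Q u v, hTB]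
      linear_combination (QuadraticMap.polar Q u v) * h2)
    (by
      intro c v
      show Q (T *ᵥ (c • v)) + Q (c • v) = c ^ 2 * (Q (T *ᵥ v) + Q v)
      rw [Matrix.mulVec_smul, QuadraticMap.map_smul, QuadraticMap.map_smul, smul_eq_mul,
        smul_eq_mul]
      ring)
  have hc₀' : ∀ v, Q (T *ᵥ v) + Q v =
      QuadraticMap.polar Q c₀ v * QuadraticMap.polar Q c₀ v := hc₀
  obtain ⟨w₁, hw₁⟩ : ∃ w₁, T *ᵥ w₁ - w₁ = c₀ := by
    let N : (ι → F) →ₗ[F] (ι → F) := (T - 1).mulVecLin
    have hN : ∀ v, N v = T *ᵥ v - v := fun v => by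
      show (T - 1) *ᵥ v = _
      rw [Matrix.sub_mulVec, Matrix.one_mulVec]
    have hle : LinearMap.range N ≤
        LinearMap.BilinForm.orthogonal (QuadraticMap.polarBilin Q) (LinearMap.ker N) := by
      rintro _ ⟨x, rfl⟩
      rw [LinearMap.BilinForm.mem_orthogonal_iff]
      intro u hu
      rw [LinearMap.mem_ker, hN, sub_eq_zero] at hu
      show QuadraticMap.polar Q u (N x) = 0
      rw [hN, QuadraticMap.polar_sub_right, ← hadj, hu, sub_self]
    have hfr : finrank F (LinearMap.range N) = finrank F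
        (LinearMap.BilinForm.orthogonal (QuadraticMap.polarBilin Q) (LinearMap.ker N)) := by
      rw [LinearMap.BilinForm.finrank_orthogonal hQ]
      have := LinearMap.finrank_range_add_finrank_ker N
      omega
    have heq := Submodule.eq_of_le_of_finrank_eq hle hfr
    have hmem : c₀ ∈ LinearMap.range N := by
      rw [heq, LinearMap.BilinForm.mem_orthogonal_iff]
      intro u hu
      rw [LinearMap.mem_ker, hN, sub_eq_zero] at hu
      show QuadraticMap.polar Q u c₀ = 0
      have h1 := hc₀' u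
      rw [hu] at h1
      have h3 : QuadraticMap.polar Q c₀ u * QuadraticMap.polar Q c₀ u = 0 := by
        rw [← h1]
        linear_combination Q u * h2
      rw [QuadraticMap.polar_comm]
      exact mul_self_eq_zero.mp h3
    obtain ⟨w₁, hw₁⟩ := hmem
    exact ⟨w₁, by rw [← hN]; exact hw₁⟩
  have hinv1 : ∀ v, qtw Q w₁ (T *ᵥ v) = qtw Q w₁ v := by
    intro v
    rw [qtw_apply, qtw_apply]
    have h1 := hc₀' v
    have h3 : QuadraticMap.polar Q c₀ v =
        QuadraticMap.polar Q w₁ (T *ᵥ v) - QuadraticMap.polar Q w₁ v := by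
      rw [← hw₁, QuadraticMap.polar_sub_left, hadj]
    rw [h3] at h1
    linear_combination h1 + (QuadraticMap.polar Q w₁ (T *ᵥ v) * QuadraticMap.polar Q w₁ (T *ᵥ v)
      - Q v - QuadraticMap.polar Q w₁ (T *ᵥ v) * QuadraticMap.polar Q w₁ v) * h2
  by_cases hAP : IsAP (Q w₁)
  · exact ⟨w₁, hAP, hinv1⟩
  by_cases hex : ∃ u, T *ᵥ u = u ∧ qtw Q w₁ u ≠ 0
  · obtain ⟨u, hTu, hu⟩ := hex
    obtain ⟨l, hl⟩ := exists_sqrt2 h2 (Q w₁ / qtw Q w₁ u)
    have hu' : T *ᵥ (l • u) = l • u := by rw [Matrix.mulVec_smul, hTu]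
    have hval : qtw Q w₁ (l • u) = Q w₁ := by
      rw [QuadraticMap.map_smul, ← pow_two, hl, smul_eq_mul, div_mul_cancel₀ _ hu]
    refine ⟨w₁ + l • u, ?_, ?_⟩
    · refine ⟨QuadraticMap.polar Q w₁ (l • u), ?_⟩
      rw [QuadraticMap.map_add Q]
      rw [qtw_apply] at hval
      linear_combination hval - Q (l • u) * h2
    · intro v
      rw [qtw_add h2, qtw_add h2, hinv1]
      have : QuadraticMap.polar Q (l • u) (T *ᵥ v) = QuadraticMap.polar Q (l • u) v := by
        rw [← hadj, hu']
      rw [this]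
  · exfalso
    have hts : ∀ u ∈ LinearMap.ker (T - 1).mulVecLin, qtw Q w₁ u = 0 := by
      intro u hu
      by_contra h
      apply hex
      refine ⟨u, ?_, h⟩
      rw [LinearMap.mem_ker, Matrix.mulVecLin_apply, Matrix.sub_mulVec, Matrix.one_mulVec,
        sub_eq_zero] at hu
      exact hu
    have hQ'' := qtw_nondeg h2 Q hQ w₁
    have hle := finrank_le_of_ts hQ'' hfin hts
    obtain ⟨hr1, hr2⟩ := Cfsg.Agent.Lib.Helper8.OmegaConj.rank_le_finrank_ker h2 T hT2
    rw [hdim] at hr2
    have hker : finrank F (LinearMap.ker (T - 1).mulVecLin) = d := by omega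
    have hrank : (T - 1).rank = d := by omega
    obtain ⟨-, hop1, hop2⟩ := qz_opposite h2 hq Q hQ d hd hfin w₁ hAP
    have hno := hop2 ⟨_, hker, hts⟩
    rcases hpo with ⟨U, hUd, hUt⟩ | hodd
    · have := hno U hUt
      omega
    · let g : ↥(Cfsg.isometryGroup F ⇑(qtw Q w₁)) := ⟨⟨T, T, hT2, hT2⟩, fun u _ => hinv1 u⟩
      have hU : IsMTS (qtw Q w₁) d (LinearMap.ker (T - 1).mulVecLin) := ⟨hker, hts⟩
      have hcard : Fintype.card F ≠ 2 ∨ Fintype.card ι ≠ 4 := by
        right
        rw [hdim]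
        intro h
        obtain ⟨k, hk⟩ := hodd
        omega
      have h1 := Cfsg.Agent.Lib.Helper8.OmegaConj.mtsChar_eq_dickson h2 (qtw Q w₁) hQ'' hcard
        hfin hU g
      have h3 : mtsChar hQ'' hfin hU g = 1 := by
        rw [mtsChar_eq_one_iff]
        have e : (LinearMap.ker (T - 1).mulVecLin) ⊓ (LinearMap.ker (T - 1).mulVecLin).map
            (Matrix.mulVecLin ((g : Matrix.GeneralLinearGroup ι F) : Matrix ι ι F)) =
            LinearMap.ker (T - 1).mulVecLin := by
          apply inf_eq_left.mpr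
          intro u hu
          refine ⟨u, hu, ?_⟩
          have hu' := hu
          rw [LinearMap.mem_ker, Matrix.mulVecLin_apply, Matrix.sub_mulVec, Matrix.one_mulVec,
            sub_eq_zero] at hu'
          exact hu'
        rw [e, hker, Nat.sub_self]
        exact ⟨0, rfl⟩
      rw [h3] at h1
      have h4 := (Cfsg.Agent.Lib.Helper44.dickson_eq_one_iff _ g).mp h1.symm
      have h5 : (((g : Matrix.GeneralLinearGroup ι F) : Matrix ι ι F) - 1).rank = d := hrank
      rw [h5] at h4
      exact (Nat.not_even_iff_odd.mpr hodd) h4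

end arfC

end Cfsg.Agent.Lib.Helper99
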