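import Mathlib
import Cfsg.Agent.Lib.Helper99.ArfC
import Cfsg.Prelude.Def_GeometricClasses

/-! The index of the orthogonal group of `Q` in the isometry group of its polar form
(characteristic two): it is the number of vectors `w` with `Q w` of the shape `t² + t`. -/

set_option autoImplicit false

namespace Cfsg.Agent.Lib.Helper99

open Matrix Module Cfsg.Agent.Lib.Helper14

section arfD

variable {F : Type*} [Field F] [Fintype F]

/-- Counting the vectors whose value is of the shape `t² + t`. -/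
theorem arf_count (h2 : (2 : F) = 0) {q : ℕ} (hq : Fintype.card F = q) {V : Type*}
    [AddCommGroup V] [Module F V] [Finite V] (Q : QuadraticForm F V) :
    ((q : ℤ) - 1) * (2 * (Nat.card {w : V // IsAP (Q w)} : ℤ)) =
      q * (Nat.card {v : V // Q v = 0} : ℤ) + (q - 2) * (Nat.card V : ℤ) := by
  classical
  have : Fintype V := Fintype.ofFinite V
  have hq2 : 2 ≤ q := by rw [← hq]; exact Fintype.one_lt_card
  have hn : ∀ a : F, a ≠ 0 → Nat.card {w : V // Q w = a} = Nat.card {w : V // Q w = 1} := by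
    intro a ha
    obtain ⟨s, hs⟩ := exists_sqrt2 h2 a
    have hs0 : s ≠ 0 := by
      rintro rfl
      apply ha
      rw [← hs]
      ring
    apply Nat.card_congr
    symm
    refine Equiv.subtypeEquiv ⟨fun w => s • w, fun w => s⁻¹ • w, fun w => by
      show s⁻¹ • s • w = w
      rw [smul_smul, inv_mul_cancel₀ hs0, one_smul], fun w => by
      show s • s⁻¹ • w = w
      rw [smul_smul, mul_inv_cancel₀ hs0, one_smul]⟩ (fun w => ?_)
    show Q w = 1 ↔ Q (s • w) = a
    rw [QuadraticMap.map_smul, ← pow_two, hs, smul_eq_mul]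
    constructor
    · intro h
      rw [h, mul_one]
    · intro h
      exact mul_left_cancel₀ ha (by rw [h, mul_one])
  have hsum : ∑ a : F, Nat.card {w : V // Q w = a} = Nat.card V := by
    simp only [Nat.card_eq_fintype_card, Fintype.card_subtype]
    rw [← Finset.card_univ (α := V)]
    exact (Finset.card_eq_sum_card_fiberwise (f := fun w => Q w) (s := Finset.univ)
      (t := Finset.univ) (by intro x _; simp)).symm
  have hV : Nat.card {v : V // Q v = 0} + (q - 1) * Nat.card {w : V // Q w = 1} = Nat.card V := by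
    rw [← hsum, ← Finset.add_sum_erase Finset.univ _ (Finset.mem_univ (0 : F)),
      Finset.sum_congr rfl (fun x hx => hn x (Finset.ne_of_mem_erase hx)), Finset.sum_const,
      Finset.card_erase_of_mem (Finset.mem_univ _), Finset.card_univ, hq, smul_eq_mul]
  have hdc : ∑ w : V, Nat.card {t : F // t ^ 2 + t = Q w} =
      ∑ t : F, Nat.card {w : V // Q w = t ^ 2 + t} := by
    simp only [Nat.card_eq_fintype_card, Fintype.card_subtype, Finset.card_filter]
    rw [Finset.sum_comm]
    apply Finset.sum_congr rfl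
    intro t _
    apply Finset.sum_congr rfl
    intro w _
    exact if_congr eq_comm rfl rfl
  have hP : ∑ w : V, Nat.card {t : F // t ^ 2 + t = Q w} =
      2 * Nat.card {w : V // IsAP (Q w)} := by
    have h1 : ∀ w : V, Nat.card {t : F // t ^ 2 + t = Q w} = if IsAP (Q w) then 2 else 0 := by
      intro w
      split_ifs with h
      · exact ap_card h2 _ h
      · exact ap_card_zero _ h
    rw [Finset.sum_congr rfl (fun w _ => h1 w), Nat.card_eq_fintype_card, Fintype.card_subtype,
      Finset.card_filter, Finset.mul_sum]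
    apply Finset.sum_congr rfl
    intro w _
    split_ifs <;> rfl
  have hT : ∑ t : F, Nat.card {w : V // Q w = t ^ 2 + t} =
      2 * Nat.card {v : V // Q v = 0} + (q - 2) * Nat.card {w : V // Q w = 1} := by
    have h1 : ∀ t : F, Nat.card {w : V // Q w = t ^ 2 + t} =
        if t ^ 2 + t = 0 then Nat.card {v : V // Q v = 0} else Nat.card {w : V // Q w = 1} := by
      intro t
      split_ifs with h
      · rw [h]
      · exact hn _ h
    have hc1 : (Finset.univ.filter (fun t : F => t ^ 2 + t = 0)).card = 2 := by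
      have := ap_card h2 (0 : F) isAP_zero
      rwa [Nat.card_eq_fintype_card, Fintype.card_subtype] at this
    have hc2 : (Finset.univ.filter (fun t : F => ¬ t ^ 2 + t = 0)).card = q - 2 := by
      have := Finset.card_filter_add_card_filter_not (s := (Finset.univ : Finset F))
        (p := fun t : F => t ^ 2 + t = 0)
      rw [hc1, Finset.card_univ, hq] at this
      omega
    rw [Finset.sum_congr rfl (fun t _ => h1 t), Finset.sum_ite, Finset.sum_const,
      Finset.sum_const, smul_eq_mul, smul_eq_mul, hc1, hc2]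
  have e1 : (2 * (Nat.card {w : V // IsAP (Q w)} : ℤ)) =
      2 * (Nat.card {v : V // Q v = 0} : ℤ) + ((q : ℤ) - 2) * (Nat.card {w : V // Q w = 1} : ℤ) := by
    have h := hP.symm.trans (hdc.trans hT)
    have h' := congrArg (Nat.cast : ℕ → ℤ) h
    push_cast [Nat.cast_sub hq2] at h'
    exact h'
  have e2 : (Nat.card {v : V // Q v = 0} : ℤ) + ((q : ℤ) - 1) * (Nat.card {w : V // Q w = 1} : ℤ) =
      (Nat.card V : ℤ) := by
    have h' := congrArg (Nat.cast : ℕ → ℤ) hV
    push_cast [Nat.cast_sub (by omega : 1 ≤ q)] at h'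
    exact h'
  linear_combination ((q : ℤ) - 1) * e1 + ((q : ℤ) - 2) * e2

variable {V : Type*} [AddCommGroup V] [Module F V] [FiniteDimensional F V]

/-- An odd prime dividing the number of vectors with value of the shape `t² + t` divides
`q ^ d + 1` (plus type) or `q ^ d - 1` (minus type). -/
theorem arf_dvd (h2 : (2 : F) = 0) {p : ℕ} [Fact p.Prime] [CharP F p] (hp : p = 2) {q : ℕ}
    (hq : Fintype.card F = q) (Q : QuadraticForm F V)
    (hQ : (QuadraticMap.polarBilin Q).Nondegenerate) (d : ℕ) (hd : 1 ≤ d)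
    (hdim : finrank F V = 2 * d) (r : ℕ) (hr : r.Prime) (hr2 : r ≠ 2)
    (hdvd : r ∣ Nat.card {w : V // IsAP (Q w)}) :
    (Nat.card {v : V // Q v = 0} = q ^ (2 * d - 1) + q ^ d - q ^ (d - 1) ∧ r ∣ q ^ d + 1) ∨
    (Nat.card {v : V // Q v = 0} = q ^ (2 * d - 1) + q ^ (d - 1) - q ^ d ∧ r ∣ q ^ d - 1) := by
  have hVfin : Finite V := Module.finite_of_finite F
  have hq2 : 2 ≤ q := by rw [← hq]; exact Fintype.one_lt_card
  obtain ⟨hz1, hz2, hz3, hz4⟩ := zvals_lt q d hq2 hd
  have hcnt := arf_count h2 hq Q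
  rw [Module.natCard_eq_pow_finrank (K := F) (V := V), hdim, Nat.card_eq_fintype_card (α := F),
    hq] at hcnt
  obtain ⟨C, hC⟩ : ∃ C : ℕ, C = q ^ (d - 1) := ⟨_, rfl⟩
  have e1 : q ^ d = q * C := by
    rw [hC, ← pow_succ']
    congr 1
    omega
  have e2 : q ^ (2 * d - 1) = q * C * C := by
    rw [hC, mul_assoc, ← pow_add, ← pow_succ']
    congr 1
    omega
  have e3 : q ^ (2 * d) = q * C * (q * C) := by
    rw [← e1, ← pow_add]
    congr 1
    omega
  have hrq : ¬ r ∣ q := by
    intro h
    obtain ⟨n, hpn, hcardF⟩ := FiniteField.card F p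
    rw [← hq, hcardF, hp] at h
    exact hr2 ((Nat.prime_dvd_prime_iff_eq hr Nat.prime_two).mp (hr.dvd_of_dvd_pow h))
  have hq1 : (q : ℤ) - 1 ≠ 0 := by
    have : (2 : ℤ) ≤ q := by exact_mod_cast hq2
    intro h
    omega
  have hC1 : 1 ≤ C := by rw [hC]; exact Nat.one_le_pow _ _ (by omega)
  have hqC : C < q * C := by nlinarith
  rcases qz_cases h2 hq Q hQ d hd hdim with ⟨hz, -⟩ | ⟨hz, -⟩
  · left
    refine ⟨hz, ?_⟩
    have hP : 2 * Nat.card {w : V // IsAP (Q w)} = q ^ d * (q ^ d + 1) := by
      have hzz : (Nat.card {v : V // Q v = 0} : ℤ) = q * C * C + q * C - C := by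
        rw [hz, e1, e2, hC]
        have : q ^ (d - 1) ≤ q * q ^ (d - 1) * q ^ (d - 1) + q * q ^ (d - 1) := by
          rw [← hC]
          nlinarith
        push_cast [Nat.cast_sub this]
        ring
      rw [hzz] at hcnt
      have h5 : ((q : ℤ) - 1) * (2 * (Nat.card {w : V // IsAP (Q w)} : ℤ)) =
          ((q : ℤ) - 1) * ((q * C) * (q * C + 1)) := by
        rw [hcnt, e3]
        push_cast
        ring
      have h6 := mul_left_cancel₀ hq1 h5
      rw [e1]
      exact_mod_cast h6
    have h7 : r ∣ q ^ d * (q ^ d + 1) := by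
      rw [← hP]
      exact Dvd.dvd.mul_left hdvd _
    rcases (Nat.Prime.dvd_mul hr).mp h7 with h | h
    · exact absurd (hr.dvd_of_dvd_pow h) hrq
    · exact h
  · right
    refine ⟨hz, ?_⟩
    have hP : 2 * Nat.card {w : V // IsAP (Q w)} = q ^ d * (q ^ d - 1) := by
      have hzz : (Nat.card {v : V // Q v = 0} : ℤ) = q * C * C + C - q * C := by
        rw [hz, e1, e2, hC]
        have : q * q ^ (d - 1) ≤ q * q ^ (d - 1) * q ^ (d - 1) + q ^ (d - 1) := by
          rw [← hC]
          nlinarith
        push_cast [Nat.cast_sub this]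
        ring
      rw [hzz] at hcnt
      have h5 : ((q : ℤ) - 1) * (2 * (Nat.card {w : V // IsAP (Q w)} : ℤ)) =
          ((q : ℤ) - 1) * ((q * C) * (q * C - 1)) := by
        rw [hcnt, e3]
        push_cast
        ring
      have h6 := mul_left_cancel₀ hq1 h5
      rw [e1]
      have h1C : 1 ≤ q * C := by omega
      zify [h1C]
      exact h6
    have h7 : r ∣ q ^ d * (q ^ d - 1) := by
      rw [← hP]
      exact Dvd.dvd.mul_left hdvd _
    rcases (Nat.Prime.dvd_mul hr).mp h7 with h | h
    · exact absurd (hr.dvd_of_dvd_pow h) hrq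
    · exact h

variable {ι : Type} [Fintype ι] [DecidableEq ι]

theorem exists_polar_ne (Q : QuadraticForm F (ι → F))
    (hQ : (QuadraticMap.polarBilin Q).Nondegenerate) (hne : Nonempty ι) :
    ∃ u v, QuadraticMap.polar Q u v ≠ 0 := by
  obtain ⟨i⟩ := hne
  have hu : (Pi.single i 1 : ι → F) ≠ 0 := by
    intro h
    have := congrFun h i
    simp at this
  refine ⟨Pi.single i 1, ?_⟩
  by_contra hcon
  apply hu
  apply hQ.1
  intro v
  by_contra h
  exact hcon ⟨v, h⟩

/-- A similarity of `Q` preserving the polar form is an isometry. -/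
theorem sim_one (Q : QuadraticForm F (ι → F))
    (hQ : (QuadraticMap.polarBilin Q).Nondegenerate) (hne : Nonempty ι) (A : Matrix ι ι F)
    (hA : ∀ u v, QuadraticMap.polar Q (A *ᵥ u) (A *ᵥ v) = QuadraticMap.polar Q u v) (c : F)
    (hc : ∀ v, Q (A *ᵥ v) = c * Q v) : c = 1 := by
  obtain ⟨u, v, hv⟩ := exists_polar_ne Q hQ hne
  have h1 := hA u v
  have h3 : QuadraticMap.polar Q (A *ᵥ u) (A *ᵥ v) = c * QuadraticMap.polar Q u v := by
    unfold QuadraticMap.polar
    rw [← Matrix.mulVec_add, hc, hc, hc]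
    ring
  rw [h3] at h1
  have : (c - 1) * QuadraticMap.polar Q u v = 0 := by linear_combination h1
  rcases mul_eq_zero.mp this with h | h
  · linear_combination h
  · exact absurd h hv

/-- A scalar matrix preserving the polar form is the identity (characteristic two). -/
theorem sp_scalar_one (h2 : (2 : F) = 0) (Q : QuadraticForm F (ι → F))
    (hQ : (QuadraticMap.polarBilin Q).Nondegenerate) (hne : Nonempty ι) (z : F)
    (hz : ∀ u v, QuadraticMap.polar Q ((z • (1 : Matrix ι ι F)) *ᵥ u)
      ((z • (1 : Matrix ι ι F)) *ᵥ v) = QuadraticMap.polar Q u v) : z = 1 := by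
  obtain ⟨u, v, hv⟩ := exists_polar_ne Q hQ hne
  have h1 := hz u v
  rw [Matrix.smul_mulVec, Matrix.smul_mulVec, Matrix.one_mulVec, Matrix.one_mulVec,
    QuadraticMap.polar_smul_left, QuadraticMap.polar_smul_right, smul_eq_mul, smul_eq_mul] at h1
  have : (z - 1) * (z - 1) * QuadraticMap.polar Q u v = 0 := by
    linear_combination h1 - (z - 1) * QuadraticMap.polar Q u v * h2
  rcases mul_eq_zero.mp this with h | h
  · have := mul_self_eq_zero.mp h
    linear_combination this
  · exact absurd h hv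

/-- The index of the similarity group of `Q` in the isometry group of the polar form. -/
theorem arf_index (h2 : (2 : F) = 0) {q : ℕ} (hq : Fintype.card F = q)
    (Q : QuadraticForm F (ι → F)) (hQ : (QuadraticMap.polarBilin Q).Nondegenerate) (d : ℕ)
    (hd : 1 ≤ d) (hdim : Fintype.card ι = 2 * d) (G : Subgroup (GL ι F))
    (hG : ∀ g : GL ι F, g ∈ G ↔ ∀ u v, QuadraticMap.polar Q ((g : Matrix ι ι F) *ᵥ u)
      ((g : Matrix ι ι F) *ᵥ v) = QuadraticMap.polar Q u v) :
    (Cfsg.Geo.quadSimilarityGroup (⇑Q)).relIndex G = Nat.card {w : ι → F // IsAP (Q w)} := by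
  classical
  have hne : Nonempty ι := by
    apply Fintype.card_pos_iff.mp
    omega
  have hfin : finrank F (ι → F) = 2 * d := by rw [Module.finrank_fintype_fun_eq_card, hdim]
  letI act : MulAction G ((ι → F) → F) :=
    { smul := fun g Q' v => Q' ((((g⁻¹ : G) : GL ι F) : Matrix ι ι F) *ᵥ v)
      one_smul := fun Q' => by
        funext v
        show Q' (((((1 : G)⁻¹ : G) : GL ι F) : Matrix ι ι F) *ᵥ v) = Q' v
        rw [inv_one, Subgroup.coe_one, Units.val_one, Matrix.one_mulVec]
      mul_smul := fun g h Q' => by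
        funext v
        show Q' (((((g * h)⁻¹ : G) : GL ι F) : Matrix ι ι F) *ᵥ v) =
          Q' ((((h⁻¹ : G) : GL ι F) : Matrix ι ι F) *ᵥ
            ((((g⁻¹ : G) : GL ι F) : Matrix ι ι F) *ᵥ v))
        rw [_root_.mul_inv_rev, Subgroup.coe_mul, Units.val_mul, Matrix.mulVec_mulVec] }
  have hsmul : ∀ (g : G) (Q' : (ι → F) → F) (v : ι → F),
      (g • Q') v = Q' ((((g⁻¹ : G) : GL ι F) : Matrix ι ι F) *ᵥ v) := fun _ _ _ => rfl
  have hgg : ∀ (g : G) (v : ι → F), (((g⁻¹ : G) : GL ι F) : Matrix ι ι F) *ᵥ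
      (((g : GL ι F) : Matrix ι ι F) *ᵥ v) = v := by
    intro g v
    rw [Matrix.mulVec_mulVec, ← Units.val_mul, ← Subgroup.coe_mul, inv_mul_cancel,
      Subgroup.coe_one, Units.val_one, Matrix.one_mulVec]
  have hgg' : ∀ (g : G) (v : ι → F), ((g : GL ι F) : Matrix ι ι F) *ᵥ
      ((((g⁻¹ : G) : GL ι F) : Matrix ι ι F) *ᵥ v) = v := by
    intro g v
    rw [Matrix.mulVec_mulVec, ← Units.val_mul, ← Subgroup.coe_mul, mul_inv_cancel,
      Subgroup.coe_one, Units.val_one, Matrix.one_mulVec]
  have hstab : (Cfsg.Geo.quadSimilarityGroup (⇑Q)).subgroupOf G = MulAction.stabilizer G (⇑Q) := by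
    ext g
    rw [Subgroup.mem_subgroupOf, MulAction.mem_stabilizer_iff]
    constructor
    · rintro ⟨c, hc⟩
      have hc1 : (c : F) = 1 := sim_one Q hQ hne _ ((hG g).mp g.2) c hc
      funext v
      rw [hsmul]
      have h1 := hc ((((g⁻¹ : G) : GL ι F) : Matrix ι ι F) *ᵥ v)
      rw [hc1, one_mul, hgg'] at h1
      exact h1.symm
    · intro h
      refine ⟨1, fun v => ?_⟩
      have h1 := congrFun h (((g : GL ι F) : Matrix ι ι F) *ᵥ v)
      rw [hsmul, hgg] at h1
      rw [Units.val_one, one_mul]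
      exact h1.symm
  have horb : MulAction.orbit G (⇑Q) =
      (fun w => (⇑(qtw Q w) : (ι → F) → F)) '' {w | IsAP (Q w)} := by
    ext Q'
    constructor
    · rintro ⟨g, rfl⟩
      have hginv := (hG _).mp (g⁻¹).2
      obtain ⟨w, hw⟩ := arf_repr h2 Q hQ (fun v => (g • (⇑Q)) v + Q v) (by
          intro u v
          show (g • (⇑Q)) (u + v) + Q (u + v) = (g • (⇑Q)) u + Q u + ((g • (⇑Q)) v + Q v)
          rw [hsmul, hsmul, hsmul, Matrix.mulVec_add, QuadraticMap.map_add Q,
            QuadraticMap.map_add Q u v, hginv]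
          linear_combination (QuadraticMap.polar Q u v) * h2)
        (by
          intro c v
          show (g • (⇑Q)) (c • v) + Q (c • v) = c ^ 2 * ((g • (⇑Q)) v + Q v)
          rw [hsmul, hsmul, Matrix.mulVec_smul, QuadraticMap.map_smul, QuadraticMap.map_smul,
            smul_eq_mul, smul_eq_mul]
          ring)
      have hQ' : ∀ v, (g • (⇑Q)) v = qtw Q w v := by
        intro v
        have h1 : (g • (⇑Q)) v + Q v =
            QuadraticMap.polar Q w v * QuadraticMap.polar Q w v := hw v
        rw [qtw_apply, ← h1]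
        linear_combination (-(Q v)) * h2
      refine ⟨w, ?_, (funext hQ').symm⟩
      by_contra hAP
      obtain ⟨hne', -, -⟩ := qz_opposite h2 hq Q hQ d hd hfin w hAP
      apply hne'
      apply Nat.card_congr
      refine Equiv.subtypeEquiv ⟨fun v => ((g : GL ι F) : Matrix ι ι F) *ᵥ v,
        fun v => (((g⁻¹ : G) : GL ι F) : Matrix ι ι F) *ᵥ v, fun v => hgg g v,
        fun v => hgg' g v⟩ (fun v => ?_)
      show Q v = 0 ↔ qtw Q w (((g : GL ι F) : Matrix ι ι F) *ᵥ v) = 0
      rw [← hQ', hsmul, hgg]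
    · rintro ⟨w, hw, rfl⟩
      obtain ⟨M, hMM, hM⟩ := arf_transv h2 Q w hw
      have hMG : (⟨M, M, hMM, hMM⟩ : GL ι F) ∈ G := by
        rw [hG]
        intro u v
        show QuadraticMap.polar Q (M *ᵥ u) (M *ᵥ v) = QuadraticMap.polar Q u v
        rw [← qtw_polar h2 Q w u v]
        unfold QuadraticMap.polar
        rw [← Matrix.mulVec_add, hM, hM, hM]
      refine ⟨⟨⟨M, M, hMM, hMM⟩, hMG⟩, ?_⟩
      funext v
      show Q (M *ᵥ v) = qtw Q w v
      exact hM v
  have hinj : Function.Injective (fun w => (⇑(qtw Q w) : (ι → F) → F)) := by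
    intro w w' h
    have h1 : ∀ v, QuadraticMap.polar Q w v = QuadraticMap.polar Q w' v := by
      intro v
      have h3 : qtw Q w v = qtw Q w' v := congrFun h v
      rw [qtw_apply, qtw_apply] at h3
      apply sq_inj2 h2
      linear_combination h3
    have h4 : w - w' = 0 := by
      apply hQ.1
      intro v
      rw [QuadraticMap.polarBilin_apply_apply, QuadraticMap.polar_sub_left, h1, sub_self]
    exact sub_eq_zero.mp h4
  rw [Subgroup.relIndex, hstab, MulAction.index_stabilizer, horb,
    Set.ncard_image_of_injective _ hinj]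
  exact (Nat.card_coe_set_eq _).symm

end arfD

end Cfsg.Agent.Lib.Helper99
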