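import Mathlib
import Cfsg.Agent.Lib.Helper99.NsLine
import Cfsg.Agent.Lib.Helper44.Char2Forms

/-! Nonsingular 1-spaces of the minus-type orthogonal space in characteristic two: counting,
and equivalence of anisotropic binary forms. -/

set_option autoImplicit false

namespace Cfsg.Agent.Lib.Helper99

open Matrix Module Cfsg.Agent.Lib.Helper14

section nsmA

variable {F : Type*} [Field F] [Fintype F]

/-- The number of nonsingular vectors of the plus-type form. -/
theorem nsp_card_ns (d : ℕ) (hd : 1 ≤ d) :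
    Nat.card {v : Fin d ⊕ Fin d → F // Cfsg.quadFormPlus d F v ≠ 0} =
      Fintype.card F ^ (d - 1) * (Fintype.card F - 1) * (Fintype.card F ^ d - 1) := by
  classical
  have hzeros := Cfsg.Agent.Lib.Helper45.card_zeros_plus (F := F) rfl d hd
  have hsplit : Nat.card {v : Fin d ⊕ Fin d → F // Cfsg.quadFormPlus d F v ≠ 0} +
      Nat.card {v : Fin d ⊕ Fin d → F // Cfsg.quadFormPlus d F v = 0} =
        Fintype.card F ^ (2 * d) := by
    rw [Nat.card_eq_fintype_card, Nat.card_eq_fintype_card]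
    have h1 := Fintype.card_subtype_compl (fun v : Fin d ⊕ Fin d → F => Cfsg.quadFormPlus d F v = 0)
    have h2 := Fintype.card_subtype_le (fun v : Fin d ⊕ Fin d → F => Cfsg.quadFormPlus d F v = 0)
    have h3 : Fintype.card (Fin d ⊕ Fin d → F) = Fintype.card F ^ (2 * d) := by
      rw [Fintype.card_fun, Fintype.card_sum, Fintype.card_fin, two_mul]
    have h4 : Fintype.card {v : Fin d ⊕ Fin d → F // Cfsg.quadFormPlus d F v ≠ 0} =
        Fintype.card {v : Fin d ⊕ Fin d → F // ¬ Cfsg.quadFormPlus d F v = 0} := rfl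
    omega
  obtain ⟨e, rfl⟩ : ∃ e, d = e + 1 := ⟨d - 1, by omega⟩
  have hq1 : 1 < Fintype.card F := Fintype.one_lt_card
  obtain ⟨s, hs⟩ : ∃ s, Fintype.card F = s + 1 := ⟨Fintype.card F - 1, by omega⟩
  rw [hzeros] at hsplit
  have e1 : 2 * (e + 1) - 1 = e + e + 1 := by omega
  have e2 : e + 1 - 1 = e := by omega
  rw [e1, e2, hs] at hsplit
  have e3 : s + 1 - 1 = s := by omega
  rw [e2, hs, e3]
  have ha : 1 ≤ (s + 1) ^ e := Nat.one_le_pow _ _ (by omega)
  obtain ⟨a, hadef⟩ : ∃ a, a = (s + 1) ^ e := ⟨_, rfl⟩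
  obtain ⟨t, ht⟩ : ∃ t, a * (s + 1) = t + 1 := ⟨a * (s + 1) - 1, by
    have : 1 ≤ a * (s + 1) := by rw [hadef]; exact Nat.mul_pos ha (by omega)
    omega⟩
  have e4 : (s + 1) ^ (e + e + 1) = a * a * (s + 1) := by rw [hadef]; ring
  have e5 : (s + 1) ^ (e + 1) = a * (s + 1) := by rw [hadef]; ring
  have e6 : (s + 1) ^ (2 * (e + 1)) = a * a * (s + 1) * (s + 1) := by rw [hadef]; ring
  rw [e4, e5, e6, ← hadef] at hsplit
  rw [e5, ← hadef, ht]
  have e7 : a * a * (s + 1) + a * (s + 1) - a = a * a * (s + 1) + a * s := by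
    have : a * (s + 1) = a * s + a := by ring
    omega
  rw [e7] at hsplit
  have e8 : a * s * t + (a * a * (s + 1) + a * s) = a * a * (s + 1) * (s + 1) := by
    have h8 : a * s * t + a * s = a * s * (t + 1) := by ring
    have h9 : a * s * (t + 1) = a * s * (a * (s + 1)) := by rw [ht]
    nlinarith [h8, h9]
  have e9 : t + 1 - 1 = t := by omega
  rw [e9]
  omega

/-- A prime dividing the number of nonsingular lines of the minus-type space (`q` even) is `2`
or divides `q ^ d + 1`. -/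
theorem nsm_dvd {p : ℕ} [Fact p.Prime] [CharP F p] (hp : p = 2) (d : ℕ) (hd : 1 ≤ d) (a b : F)
    (hab : ∀ x y : F, x ^ 2 + a * x * y + b * y ^ 2 = 0 → x = 0 ∧ y = 0) (r : ℕ)
    (hr : r.Prime)
    (hrΩ : r ∣ Nat.card {W : Submodule F ((Fin (d - 1) ⊕ Fin (d - 1)) ⊕ Fin 2 → F) //
      Module.finrank F ↥W = 1 ∧ ∃ v ∈ W, Cfsg.quadFormMinus (d - 1) F a b v ≠ 0}) :
    r = 2 ∨ r ∣ Fintype.card F ^ d + 1 := by
  classical
  obtain ⟨n, hpn, hcard⟩ := FiniteField.card F p
  obtain ⟨e, rfl⟩ : ∃ e, d = e + 1 := ⟨d - 1, by omega⟩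
  have hzeros := Cfsg.Agent.Lib.Helper45.card_zeros_minus (F := F) rfl (e + 1) hd a b hab
  have e2 : e + 1 - 1 = e := by omega
  rw [e2] at hzeros hrΩ
  have hlines := nsl_card_lines (Cfsg.quadFormMinus e F a b) (minusQF e F a b)
    (minusQF_coe e F a b)
  have hsplit : Nat.card {v : (Fin e ⊕ Fin e) ⊕ Fin 2 → F //
        Cfsg.quadFormMinus e F a b v ≠ 0} +
      Nat.card {v : (Fin e ⊕ Fin e) ⊕ Fin 2 → F //
        Cfsg.quadFormMinus e F a b v = 0} = Fintype.card F ^ (2 * (e + 1)) := by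
    rw [Nat.card_eq_fintype_card, Nat.card_eq_fintype_card]
    have h1 := Fintype.card_subtype_compl
      (fun v : (Fin e ⊕ Fin e) ⊕ Fin 2 → F => Cfsg.quadFormMinus e F a b v = 0)
    have h2 := Fintype.card_subtype_le
      (fun v : (Fin e ⊕ Fin e) ⊕ Fin 2 → F => Cfsg.quadFormMinus e F a b v = 0)
    have h3 : Fintype.card ((Fin e ⊕ Fin e) ⊕ Fin 2 → F) =
        Fintype.card F ^ (2 * (e + 1)) := by
      rw [Fintype.card_fun, Fintype.card_sum, Fintype.card_sum, Fintype.card_fin,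
        Fintype.card_fin]
      congr 1
      omega
    have h4 : Fintype.card {v : (Fin e ⊕ Fin e) ⊕ Fin 2 → F //
          Cfsg.quadFormMinus e F a b v ≠ 0} =
        Fintype.card {v : (Fin e ⊕ Fin e) ⊕ Fin 2 → F //
          ¬ Cfsg.quadFormMinus e F a b v = 0} := rfl
    omega
  have hq1 : 1 < Fintype.card F := Fintype.one_lt_card
  obtain ⟨s, hs⟩ : ∃ s, Fintype.card F = s + 1 := ⟨Fintype.card F - 1, by omega⟩
  have hs0 : 0 < s := by omega
  rw [hlines, hzeros] at hsplit
  have e1 : 2 * (e + 1) - 1 = e + e + 1 := by omega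
  rw [e1, hs] at hsplit
  have e3 : s + 1 - 1 = s := by omega
  rw [e3] at hsplit
  have ha : 1 ≤ (s + 1) ^ e := Nat.one_le_pow _ _ (by omega)
  obtain ⟨c, hcdef⟩ : ∃ c, c = (s + 1) ^ e := ⟨_, rfl⟩
  have e4 : (s + 1) ^ (e + e + 1) = c * c * (s + 1) := by rw [hcdef]; ring
  have e5 : (s + 1) ^ (e + 1) = c * (s + 1) := by rw [hcdef]; ring
  have e6 : (s + 1) ^ (2 * (e + 1)) = c * c * (s + 1) * (s + 1) := by rw [hcdef]; ring
  rw [e4, e5, e6, ← hcdef] at hsplit
  have hle : c * s ≤ c * c * (s + 1) := by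
    rw [← hcdef] at ha
    nlinarith [Nat.mul_le_mul_right (s + 1) (Nat.mul_le_mul_right c ha)]
  have e7 : c * c * (s + 1) + c - c * (s + 1) = c * c * (s + 1) - c * s := by
    have : c * (s + 1) = c * s + c := by ring
    omega
  rw [e7] at hsplit
  have key : Nat.card {W : Submodule F ((Fin e ⊕ Fin e) ⊕ Fin 2 → F) //
      Module.finrank F ↥W = 1 ∧ ∃ v ∈ W, Cfsg.quadFormMinus e F a b v ≠ 0} * s =
        c * (c * (s + 1) + 1) * s := by
    have e8 : c * (c * (s + 1) + 1) * s + c * c * (s + 1) =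
        c * c * (s + 1) * (s + 1) + c * s := by ring
    omega
  have key2 := Nat.eq_of_mul_eq_mul_right hs0 key
  rw [key2] at hrΩ
  rcases (Nat.Prime.dvd_mul hr).mp hrΩ with h | h
  · left
    rw [hcdef] at h
    have h1 := hr.dvd_of_dvd_pow h
    rw [← hs, hcard, hp] at h1
    exact (Nat.prime_dvd_prime_iff_eq hr Nat.prime_two).mp (hr.dvd_of_dvd_pow h1)
  · right
    rw [hs, e5]
    exact h

/-- Anisotropic binary forms in characteristic two: the form `α² + αβ + ζβ²` represents the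
shape `z₁² + a z₁z₂ + b z₂²` after the substitution `y ↦ s x + a y`. -/
theorem nsm_binary (h2 : (2 : F) = 0) (a b : F)
    (hab : ∀ x y : F, x ^ 2 + a * x * y + b * y ^ 2 = 0 → x = 0 ∧ y = 0) (ζ : F)
    (hζ : ∀ t : F, t ^ 2 + t + ζ ≠ 0) : ∃ s : F, s ^ 2 + s * a + a ^ 2 * ζ = b := by
  classical
  have ha : a ≠ 0 := Cfsg.Agent.Lib.Helper44.minus_coeff_ne_zero_char2 F h2 a b hab
  let ℘ : F →+ F :=
    { toFun := fun t => t ^ 2 + t
      map_zero' := by simp
      map_add' := fun x y => by linear_combination (x * y) * h2 }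
  have hker : Nat.card ℘.ker = 2 := by
    rw [Nat.card_eq_two_iff]
    refine ⟨⟨0, by simp⟩, ⟨1, ?_⟩, ?_, ?_⟩
    · rw [AddMonoidHom.mem_ker]
      show (1 : F) ^ 2 + 1 = 0
      linear_combination h2
    · intro h
      exact zero_ne_one (congrArg Subtype.val h)
    · ext ⟨t, ht⟩
      simp only [Set.mem_insert_iff, Set.mem_singleton_iff, Set.mem_univ, iff_true]
      rw [AddMonoidHom.mem_ker] at ht
      have ht' : t * (t + 1) = 0 := by
        have : t ^ 2 + t = 0 := ht
        linear_combination this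
      rcases mul_eq_zero.mp ht' with h | h
      · left; exact Subtype.ext h
      · right
        apply Subtype.ext
        show t = 1
        linear_combination h - h2
  have hidx : ℘.range.index = 2 := by
    have h1 := AddSubgroup.card_mul_index ℘.ker
    have h3 := AddSubgroup.card_mul_index ℘.range
    rw [AddSubgroup.index_ker, hker] at h1
    have hpos : 0 < Nat.card ℘.range := Nat.card_pos
    have : Nat.card ℘.range * ℘.range.index = Nat.card ℘.range * 2 := by rw [h3, ← h1]; ring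
    exact Nat.eq_of_mul_eq_mul_left hpos this
  have hζ' : ζ ∉ ℘.range := by
    rintro ⟨t, ht⟩
    apply hζ t
    have : t ^ 2 + t = ζ := ht
    linear_combination this + ζ * h2
  have hb' : b / a ^ 2 ∉ ℘.range := by
    rintro ⟨t, ht⟩
    have ht' : t ^ 2 + t = b / a ^ 2 := ht
    have h := hab (a * t) 1 (by
      have : a ^ 2 * (t ^ 2 + t) = b := by rw [ht']; field_simp
      linear_combination this + b * h2)
    exact one_ne_zero h.2
  have hsum : ζ + b / a ^ 2 ∈ ℘.range :=
    (AddSubgroup.add_mem_iff_of_index_two hidx).mpr ⟨fun h => absurd h hζ', fun h => absurd h hb'⟩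
  obtain ⟨t, ht⟩ := hsum
  have ht' : t ^ 2 + t = ζ + b / a ^ 2 := ht
  refine ⟨a * t, ?_⟩
  have : a ^ 2 * (t ^ 2 + t) = a ^ 2 * ζ + b := by rw [ht']; field_simp
  linear_combination this + a ^ 2 * ζ * h2

end nsmA

end Cfsg.Agent.Lib.Helper99
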