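import Mathlib
import Cfsg.Agent.Lib.Helper99.NsMinusA
import Cfsg.Agent.Lib.Helper99.Quad3

/-! Transport of a fixed-point-free isometry of odd prime order `r ∣ q ^ d + 1` of an abstract
`2d`-dimensional quadratic space (characteristic two) to the standard minus-type form. -/

set_option autoImplicit false

namespace Cfsg.Agent.Lib.Helper99

open Matrix Module Cfsg.Agent.Lib.Helper14

section nsmB

variable {F : Type*} [Field F] [Fintype F]

/-- Orbit counting: a linear automorphism of prime order `r` without non-zero fixed vectors that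
preserves `Q` permutes the nonsingular vectors in orbits of length `r`. -/
theorem nsm_orbit {V : Type*} [AddCommGroup V] [Module F V] [Finite V] (Q : V → F)
    (hQ0 : Q 0 = 0) (r : ℕ) (hr : r.Prime) (g : (Module.End F V)ˣ) (hgr : g ^ r = 1)
    (hgQ : ∀ v, Q ((g : Module.End F V) v) = Q v)
    (hgfix : ∀ v, (g : Module.End F V) v = v → v = 0) :
    r ∣ Nat.card {v : V // Q v ≠ 0} := by
  classical
  have : Fintype V := Fintype.ofFinite V
  have hrf : Fact r.Prime := ⟨hr⟩
  let f : Function.End {v : V // Q v ≠ 0} :=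
    fun v => ⟨(g : Module.End F V) v.1, by rw [hgQ]; exact v.2⟩
  have hpow : ∀ (n : ℕ) (v : {v : V // Q v ≠ 0}),
      ((f ^ n) v).1 = ((g ^ n : (Module.End F V)ˣ) : Module.End F V) v.1 := by
    intro n
    induction n with
    | zero => intro v; rfl
    | succ n ih =>
      intro v
      have h1 : (f ^ (n + 1)) v = f ((f ^ n) v) := by rw [pow_succ']; rfl
      rw [h1, pow_succ', Units.val_mul, Module.End.mul_apply, ← ih]
  have hfr : f ^ r ^ 1 = 1 := by
    rw [pow_one]
    funext v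
    apply Subtype.ext
    rw [hpow, hgr]
    rfl
  have hmod := Equiv.Perm.card_fixedPoints_modEq (p := r) (n := 1) hfr
  have hfp : Fintype.card (Function.fixedPoints f) = 0 := by
    rw [Fintype.card_eq_zero_iff]
    constructor
    rintro ⟨v, hv⟩
    have h1 : (g : Module.End F V) v.1 = v.1 := congrArg Subtype.val hv
    exact v.2 (by rw [hgfix v.1 h1, hQ0])
  rw [hfp] at hmod
  rw [Nat.card_eq_fintype_card]
  exact (Nat.modEq_zero_iff_dvd.mp hmod)

/-- Transport to the standard minus-type form. -/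
theorem nsm_transport (h2 : (2 : F) = 0) {p : ℕ} [Fact p.Prime] [CharP F p] (hp : p = 2)
    {V : Type*} [AddCommGroup V] [Module F V] [FiniteDimensional F V]
    (Q : QuadraticForm F V) (hQ : (QuadraticMap.polarBilin Q).Nondegenerate)
    (d : ℕ) (hd : 3 ≤ d) (hdim : finrank F V = 2 * d) (a b : F)
    (hab : ∀ x y : F, x ^ 2 + a * x * y + b * y ^ 2 = 0 → x = 0 ∧ y = 0)
    (r : ℕ) (hr : r.Prime) (hr2 : r ≠ 2) (hrd : r ∣ Fintype.card F ^ d + 1)
    (g : (Module.End F V)ˣ) (hgr : g ^ r = 1) (hgQ : ∀ v, Q ((g : Module.End F V) v) = Q v)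
    (hgfix : ∀ v, (g : Module.End F V) v = v → v = 0) :
    ∃ x : GL ((Fin (d - 1) ⊕ Fin (d - 1)) ⊕ Fin 2) F,
      x ∈ Cfsg.Geo.omegaGL (Cfsg.quadFormMinus (d - 1) F a b) ∧
      ((x ^ r : GL ((Fin (d - 1) ⊕ Fin (d - 1)) ⊕ Fin 2) F) :
        Matrix ((Fin (d - 1) ⊕ Fin (d - 1)) ⊕ Fin 2) ((Fin (d - 1) ⊕ Fin (d - 1)) ⊕ Fin 2) F) = 1 ∧
      (∀ u, Cfsg.quadFormMinus (d - 1) F a b
        ((x : Matrix ((Fin (d - 1) ⊕ Fin (d - 1)) ⊕ Fin 2) ((Fin (d - 1) ⊕ Fin (d - 1)) ⊕ Fin 2) F)
          *ᵥ u) = Cfsg.quadFormMinus (d - 1) F a b u) ∧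
      (∀ v, (x : Matrix ((Fin (d - 1) ⊕ Fin (d - 1)) ⊕ Fin 2)
        ((Fin (d - 1) ⊕ Fin (d - 1)) ⊕ Fin 2) F) *ᵥ v = v →
        Cfsg.quadFormMinus (d - 1) F a b v = 0) := by
  classical
  have hVfin : Finite V := Module.finite_of_finite F
  obtain ⟨k, e, f, hH, hcase⟩ := witt Q hQ
  rcases hcase with ⟨bp, hbe, hbf⟩ | ⟨x0, bo, -⟩ |
    ⟨x0, y0, bm, hQx, hxy, hirr, hxperp, hyperp, -, -, -, -⟩
  · -- plus type: impossible by orbit counting
    exfalso
    have hk : k = d := by
      have h1 := Module.finrank_eq_card_basis bp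
      rw [hdim, Fintype.card_sum, Fintype.card_fin] at h1
      omega
    subst hk
    have hQv : ∀ v : V, Q v = Cfsg.quadFormPlus k F (bp.equivFun v) := by
      intro v
      have h1 := hyp_eval Q e f hH (fun i => bp.repr v (Sum.inl i))
        (fun i => bp.repr v (Sum.inr i)) 0 (fun i => by simp)
      have h3 : (∑ i, bp.repr v (Sum.inl i) • e i + ∑ i, bp.repr v (Sum.inr i) • f i + 0) = v := by
        rw [add_zero]
        conv_rhs => rw [← bp.sum_repr v]
        rw [Fintype.sum_sum_type]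
        simp only [hbe, hbf]
      rw [h3] at h1
      rw [h1, map_zero, add_zero]
      rfl
    have hcard : Nat.card {v : V // Q v ≠ 0} =
        Nat.card {w : Fin k ⊕ Fin k → F // Cfsg.quadFormPlus k F w ≠ 0} := by
      apply Nat.card_congr
      exact (bp.equivFun.toEquiv.subtypeEquiv (fun v => by rw [hQv]; rfl))
    have hdvd := nsm_orbit (fun v => Q v) (map_zero Q) r hr g hgr hgQ hgfix
    rw [hcard, nsp_card_ns k (by omega)] at hdvd
    obtain ⟨n, hpn, hcardF⟩ := FiniteField.card F p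
    have hq1 : 1 ≤ Fintype.card F ^ k := Nat.one_le_pow _ _ Fintype.card_pos
    have hC : r ∣ Fintype.card F ^ k - 1 → False := by
      intro h
      have h3 := Nat.dvd_sub hrd h
      have h4 : Fintype.card F ^ k + 1 - (Fintype.card F ^ k - 1) = 2 := by omega
      rw [h4] at h3
      exact hr2 ((Nat.prime_dvd_prime_iff_eq hr Nat.prime_two).mp h3)
    rcases (Nat.Prime.dvd_mul hr).mp hdvd with h | h
    · rcases (Nat.Prime.dvd_mul hr).mp h with h | h
      · have h1 := hr.dvd_of_dvd_pow h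
        rw [hcardF, hp] at h1
        exact hr2 ((Nat.prime_dvd_prime_iff_eq hr Nat.prime_two).mp (hr.dvd_of_dvd_pow h1))
      · exact hC (h.trans (Nat.sub_one_dvd_pow_sub_one _ _))
    · exact hC h
  · -- odd dimension: impossible
    exfalso
    have h1 := Module.finrank_eq_card_basis bo
    rw [hdim] at h1
    simp only [Fintype.card_sum, Fintype.card_fin, Fintype.card_unit] at h1
    omega
  · -- minus type
    have hk : k = d - 1 := by
      have h1 := Module.finrank_eq_card_basis bm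
      rw [hdim] at h1
      simp only [Fintype.card_sum, Fintype.card_fin] at h1
      omega
    subst hk
    obtain ⟨s, hs⟩ := nsm_binary h2 a b hab (Q y0) hirr
    obtain ⟨y1, hy1⟩ : ∃ y1 : V, y1 = s • x0 + a • y0 := ⟨_, rfl⟩
    let ψ : (((Fin (d - 1) ⊕ Fin (d - 1)) ⊕ Fin 2) → F) →ₗ[F] V :=
      ∑ i, (LinearMap.proj (Sum.inl (Sum.inl i))).smulRight (e i) +
        ∑ i, (LinearMap.proj (Sum.inl (Sum.inr i))).smulRight (f i) +
        ((LinearMap.proj (Sum.inr 0)).smulRight x0 + (LinearMap.proj (Sum.inr 1)).smulRight y1)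
    have hψ : ∀ v, ψ v = ∑ i, v (Sum.inl (Sum.inl i)) • e i + ∑ i, v (Sum.inl (Sum.inr i)) • f i +
        (v (Sum.inr 0) • x0 + v (Sum.inr 1) • y1) := by
      intro v
      simp [ψ, LinearMap.sum_apply]
    have hQψ : ∀ v, Q (ψ v) = Cfsg.quadFormMinus (d - 1) F a b v := by
      intro v
      have hperp' : ∀ i, QuadraticMap.polar Q (v (Sum.inr 0) • x0 + v (Sum.inr 1) • y1) (e i) = 0 ∧
          QuadraticMap.polar Q (v (Sum.inr 0) • x0 + v (Sum.inr 1) • y1) (f i) = 0 := by
        intro i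
        constructor <;>
          simp [hy1, QuadraticMap.polar_add_left, QuadraticMap.polar_smul_left, (hxperp i).1,
            (hxperp i).2, (hyperp i).1, (hyperp i).2]
      rw [hψ, hyp_eval Q e f hH _ _ _ hperp']
      have e1 : v (Sum.inr 0) • x0 + v (Sum.inr 1) • y1 =
          (v (Sum.inr 0) + v (Sum.inr 1) * s) • x0 + (v (Sum.inr 1) * a) • y0 := by
        rw [hy1]; module
      rw [e1, QuadraticMap.map_add Q, QuadraticMap.map_smul, QuadraticMap.map_smul,
        QuadraticMap.polar_smul_left, QuadraticMap.polar_smul_right, hQx, hxy]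
      unfold Cfsg.quadFormMinus
      simp only [smul_eq_mul]
      linear_combination (v (Sum.inr 1)) ^ 2 * hs + (v (Sum.inr 0) * v (Sum.inr 1) * s) * h2
    have hQm := Cfsg.Agent.Lib.Helper44.minusQF_nondegenerate_char2 (d - 1) F h2 a b hab
    have hinj : Function.Injective ψ := by
      rw [← LinearMap.ker_eq_bot, LinearMap.ker_eq_bot']
      intro v hv
      apply hQm.1 v
      intro w
      rw [QuadraticMap.polarBilin_apply_apply, minusQF_coe]
      simp [QuadraticMap.polar, ← hQψ, hv]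
    have hdim' : finrank F (((Fin (d - 1) ⊕ Fin (d - 1)) ⊕ Fin 2) → F) = finrank F V := by
      rw [hdim, Module.finrank_fintype_fun_eq_card]
      simp only [Fintype.card_sum, Fintype.card_fin]
      omega
    obtain ⟨ψe, hψe⟩ : ∃ ψe : (((Fin (d - 1) ⊕ Fin (d - 1)) ⊕ Fin 2) → F) ≃ₗ[F] V,
        ∀ v, ψe v = ψ v :=
      ⟨LinearMap.linearEquivOfInjective ψ hinj hdim',
        fun v => LinearMap.linearEquivOfInjective_apply hinj hdim' v⟩
    have hQe : ∀ v, Q (ψe v) = Cfsg.quadFormMinus (d - 1) F a b v := fun v => by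
      rw [hψe, hQψ]
    have hginv : ∀ w, (g : Module.End F V) (((g⁻¹ : (Module.End F V)ˣ) : Module.End F V) w) = w :=
      fun w => by rw [← Module.End.mul_apply, Units.mul_inv, Module.End.one_apply]
    have hginv' : ∀ w, ((g⁻¹ : (Module.End F V)ˣ) : Module.End F V) ((g : Module.End F V) w) = w :=
      fun w => by rw [← Module.End.mul_apply, Units.inv_mul, Module.End.one_apply]
    obtain ⟨M, hM⟩ : ∃ M : Matrix ((Fin (d - 1) ⊕ Fin (d - 1)) ⊕ Fin 2)
        ((Fin (d - 1) ⊕ Fin (d - 1)) ⊕ Fin 2) F, M = LinearMap.toMatrix'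
          (ψe.symm.toLinearMap ∘ₗ (g : Module.End F V) ∘ₗ ψe.toLinearMap) := ⟨_, rfl⟩
    obtain ⟨M', hM'⟩ : ∃ M' : Matrix ((Fin (d - 1) ⊕ Fin (d - 1)) ⊕ Fin 2)
        ((Fin (d - 1) ⊕ Fin (d - 1)) ⊕ Fin 2) F, M' = LinearMap.toMatrix'
          (ψe.symm.toLinearMap ∘ₗ ((g⁻¹ : (Module.End F V)ˣ) : Module.End F V) ∘ₗ
            ψe.toLinearMap) := ⟨_, rfl⟩
    have hMv : ∀ v, M *ᵥ v = ψe.symm ((g : Module.End F V) (ψe v)) := by
      intro v
      rw [hM, LinearMap.toMatrix'_mulVec]
      rfl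
    have hM'v : ∀ v, M' *ᵥ v = ψe.symm (((g⁻¹ : (Module.End F V)ˣ) : Module.End F V) (ψe v)) := by
      intro v
      rw [hM', LinearMap.toMatrix'_mulVec]
      rfl
    have hext : ∀ N : Matrix ((Fin (d - 1) ⊕ Fin (d - 1)) ⊕ Fin 2)
        ((Fin (d - 1) ⊕ Fin (d - 1)) ⊕ Fin 2) F, (∀ v, N *ᵥ v = v) → N = 1 := by
      intro N hN
      apply Matrix.toLin'.injective
      apply LinearMap.ext
      intro v
      rw [Matrix.toLin'_apply, Matrix.toLin'_apply, hN, Matrix.one_mulVec]
    have hMM' : M * M' = 1 := by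
      apply hext
      intro v
      rw [← Matrix.mulVec_mulVec, hM'v, hMv, LinearEquiv.apply_symm_apply, hginv,
        LinearEquiv.symm_apply_apply]
    have hM'M : M' * M = 1 := by
      apply hext
      intro v
      rw [← Matrix.mulVec_mulVec, hMv, hM'v, LinearEquiv.apply_symm_apply, hginv',
        LinearEquiv.symm_apply_apply]
    have hMpow : ∀ (n : ℕ) (v : ((Fin (d - 1) ⊕ Fin (d - 1)) ⊕ Fin 2) → F),
        (M ^ n) *ᵥ v = ψe.symm (((g ^ n : (Module.End F V)ˣ) : Module.End F V) (ψe v)) := by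
      intro n
      induction n with
      | zero =>
        intro v
        rw [pow_zero, pow_zero, Matrix.one_mulVec, Units.val_one, Module.End.one_apply,
          LinearEquiv.symm_apply_apply]
      | succ n ih =>
        intro v
        rw [pow_succ', ← Matrix.mulVec_mulVec, ih, hMv, LinearEquiv.apply_symm_apply, pow_succ',
          Units.val_mul, Module.End.mul_apply]
    have hMr : M ^ r = 1 := by
      apply hext
      intro v
      rw [hMpow, hgr, Units.val_one, Module.End.one_apply, LinearEquiv.symm_apply_apply]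
    have hiso : ∀ u, Cfsg.quadFormMinus (d - 1) F a b (M *ᵥ u) =
        Cfsg.quadFormMinus (d - 1) F a b u := by
      intro u
      rw [hMv, ← hQe, LinearEquiv.apply_symm_apply, hgQ, hQe]
    have hfix0 : ∀ v, M *ᵥ v = v → v = 0 := by
      intro v hv
      rw [hMv] at hv
      have h1 : (g : Module.End F V) (ψe v) = ψe v := by
        have := congrArg ψe hv
        rwa [LinearEquiv.apply_symm_apply] at this
      have h3 := hgfix _ h1
      exact ψe.map_eq_zero_iff.mp h3
    have hfix : ∀ v, M *ᵥ v = v → Cfsg.quadFormMinus (d - 1) F a b v = 0 := by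
      intro v hv
      rw [hfix0 v hv]
      simp [Cfsg.quadFormMinus]
    have hunit : IsUnit (M - 1) := by
      rw [Matrix.isUnit_iff_isUnit_det, isUnit_iff_ne_zero]
      intro hdet
      obtain ⟨v, hv0, hv⟩ := Matrix.exists_mulVec_eq_zero_iff.mpr hdet
      apply hv0
      apply hfix0
      rw [Matrix.sub_mulVec, Matrix.one_mulVec, sub_eq_zero] at hv
      exact hv
    have hcardι : Fintype.card F ≠ 2 ∨
        Fintype.card ((Fin (d - 1) ⊕ Fin (d - 1)) ⊕ Fin 2) ≠ 4 := by
      right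
      simp only [Fintype.card_sum, Fintype.card_fin]
      omega
    have hev : Even (M - 1).rank := by
      rw [Matrix.rank_of_isUnit _ hunit]
      simp only [Fintype.card_sum, Fintype.card_fin]
      exact ⟨d, by omega⟩
    have hxΩ : (⟨M, M', hMM', hM'M⟩ : GL ((Fin (d - 1) ⊕ Fin (d - 1)) ⊕ Fin 2) F) ∈
        Cfsg.Geo.omegaGL (Cfsg.quadFormMinus (d - 1) F a b) :=
      nsl_mem_omega h2 (Cfsg.quadFormMinus (d - 1) F a b) (minusQF (d - 1) F a b)
        (minusQF_coe (d - 1) F a b) hQm hcardι ⟨M, M', hMM', hM'M⟩ hiso hev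
    refine ⟨⟨M, M', hMM', hM'M⟩, hxΩ, ?_, hiso, hfix⟩
    rw [Units.val_pow_eq_pow_val]
    exact hMr

end nsmB

end Cfsg.Agent.Lib.Helper99
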