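import Mathlib
import Cfsg.Agent.Lib.Helper99.ArfD
import Cfsg.Agent.Lib.Helper99.AltBasis
import Cfsg.Agent.Lib.Helper99.NsMinusB
import Cfsg.Agent.Lib.Helper99.NsPlus
import Cfsg.Agent.Lib.Helper99.NsLine
import Cfsg.Agent.Lib.Helper13.Symp
import Cfsg.Agent.Lib.Helper44.PlusDiag

/-! Elements of prime order of the symplectic group (characteristic two) used as witnesses:
a fixed-point-free element of order `r ∣ q ^ d + 1` (field model), the element `diag(A, A⁻ᵀ)`
of order `r ∣ q ^ d - 1`, and the involution `[[1, A], [0, 1]]` for even `d`. -/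

set_option autoImplicit false

namespace Cfsg.Agent.Lib.Helper99

open Matrix Module Cfsg.Agent.Lib.Helper14

section arfE

variable {F : Type*} [Field F] [Fintype F]

theorem plus_polar_symp (h2 : (2 : F) = 0) (d : ℕ) (u v : Fin d ⊕ Fin d → F) :
    QuadraticMap.polar (Cfsg.quadFormPlus d F) u v = Cfsg.sympForm d F u v := by
  rw [Cfsg.Agent.Lib.Helper44.plus_polar_formula, Cfsg.Agent.Lib.Helper13.sympForm_eq]
  apply Finset.sum_congr rfl
  intro i _
  linear_combination (u (Sum.inl i) * v (Sum.inr i)) * h2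

theorem alt_basis_nondeg (h2 : (2 : F) = 0) {V : Type*} [AddCommGroup V] [Module F V]
    [FiniteDimensional F V] (Q : QuadraticForm F V)
    (hQ : (QuadraticMap.polarBilin Q).Nondegenerate) :
    ∃ (m : ℕ) (b : Basis (Fin m ⊕ Fin m) F V),
      (∀ i j : Fin m, QuadraticMap.polar Q (b (Sum.inl i)) (b (Sum.inr j)) =
        if i = j then 1 else 0) ∧
      (∀ i j : Fin m, QuadraticMap.polar Q (b (Sum.inl i)) (b (Sum.inl j)) = 0) ∧
      (∀ i j : Fin m, QuadraticMap.polar Q (b (Sum.inr i)) (b (Sum.inr j)) = 0) := by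
  obtain ⟨m, k, b, h1, h3, h4, h5⟩ :=
    alt_basis (QuadraticMap.polarBilin Q) (fun v => polar_self2 h2 Q v)
  have hk : k = 0 := by
    by_contra hk
    have hj : 0 < k := Nat.pos_of_ne_zero hk
    have h6 : b (Sum.inr ⟨0, hj⟩) = 0 := hQ.1 _ (h5 ⟨0, hj⟩)
    exact b.ne_zero _ h6
  subst hk
  refine ⟨m, b.reindex (Equiv.sumEmpty (Fin m ⊕ Fin m) (Fin 0)), ?_, ?_, ?_⟩
  · intro i j
    rw [Basis.reindex_apply, Basis.reindex_apply]
    exact h1 i j
  · intro i j
    rw [Basis.reindex_apply, Basis.reindex_apply]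
    exact h3 i j
  · intro i j
    rw [Basis.reindex_apply, Basis.reindex_apply]
    exact h4 i j

/-- Two non-degenerate quadratic spaces of the same dimension have isometric polar forms. -/
theorem arf_symp_iso (h2 : (2 : F) = 0) {V₁ V₂ : Type*} [AddCommGroup V₁] [Module F V₁]
    [FiniteDimensional F V₁] [AddCommGroup V₂] [Module F V₂] [FiniteDimensional F V₂]
    (Q₁ : QuadraticForm F V₁) (hQ₁ : (QuadraticMap.polarBilin Q₁).Nondegenerate)
    (Q₂ : QuadraticForm F V₂) (hQ₂ : (QuadraticMap.polarBilin Q₂).Nondegenerate)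
    (hdim : finrank F V₁ = finrank F V₂) :
    ∃ φ : V₁ ≃ₗ[F] V₂, ∀ u v,
      QuadraticMap.polar Q₂ (φ u) (φ v) = QuadraticMap.polar Q₁ u v := by
  obtain ⟨m₁, b₁, ha1, ha2, ha3⟩ := alt_basis_nondeg h2 Q₁ hQ₁
  obtain ⟨m₂, b₂, hb1, hb2, hb3⟩ := alt_basis_nondeg h2 Q₂ hQ₂
  have hm : m₁ = m₂ := by
    have e1 := Module.finrank_eq_card_basis b₁
    have e2 := Module.finrank_eq_card_basis b₂
    rw [Fintype.card_sum, Fintype.card_fin] at e1 e2
    omega
  subst hm
  let φ : V₁ ≃ₗ[F] V₂ := b₁.equiv b₂ (Equiv.refl _)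
  have hφ : ∀ i, φ (b₁ i) = b₂ i := fun i => by simp [φ]
  refine ⟨φ, ?_⟩
  have key : (QuadraticMap.polarBilin Q₂).compl₁₂ (φ : V₁ →ₗ[F] V₂) (φ : V₁ →ₗ[F] V₂) =
      QuadraticMap.polarBilin Q₁ := by
    apply LinearMap.BilinForm.ext_basis b₁
    intro i j
    rw [LinearMap.compl₁₂_apply]
    show QuadraticMap.polar Q₂ (φ (b₁ i)) (φ (b₁ j)) = QuadraticMap.polar Q₁ (b₁ i) (b₁ j)
    rw [hφ, hφ]
    rcases i with i | i <;> rcases j with j | j
    · rw [ha2, hb2]
    · rw [ha1, hb1]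
    · rw [QuadraticMap.polar_comm Q₂, QuadraticMap.polar_comm Q₁, ha1, hb1]
    · rw [ha3, hb3]
  intro u v
  have := congrArg (fun B : LinearMap.BilinForm F V₁ => B u v) key
  exact this

/-- Orbit counting for matrices. -/
theorem arf_orbit_mat {ι : Type*} [Fintype ι] [DecidableEq ι] (Q' : (ι → F) → F)
    (hQ0 : Q' 0 = 0) (r : ℕ) (hr : r.Prime) (M : Matrix ι ι F) (hMr : M ^ r = 1)
    (hMQ : ∀ v, Q' (M *ᵥ v) = Q' v) (hfix : ∀ v, M *ᵥ v = v → v = 0) :
    r ∣ Nat.card {v : ι → F // Q' v ≠ 0} := by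
  have hr1 : r = (r - 1) + 1 := by have := hr.pos; omega
  have h1 : M * M ^ (r - 1) = 1 := by rw [← pow_succ', ← hr1, hMr]
  have h1' : M ^ (r - 1) * M = 1 := by rw [← pow_succ, ← hr1, hMr]
  let u : (Matrix ι ι F)ˣ := ⟨M, M ^ (r - 1), h1, h1'⟩
  let f : Matrix ι ι F →* Module.End F (ι → F) :=
    (Matrix.toLinAlgEquiv' : Matrix ι ι F ≃ₐ[F] Module.End F (ι → F))
  let g : (Module.End F (ι → F))ˣ := Units.map f u
  have hg : ∀ v, (g : Module.End F (ι → F)) v = M *ᵥ v := fun v => by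
    show Matrix.toLinAlgEquiv' M v = M *ᵥ v
    rw [Matrix.toLinAlgEquiv'_apply]
  have hgr : g ^ r = 1 := by
    show (Units.map f u) ^ r = 1
    rw [← map_pow]
    have : u ^ r = 1 := Units.ext (by rw [Units.val_pow_eq_pow_val]; exact hMr)
    rw [this, map_one]
  exact nsm_orbit Q' hQ0 r hr g hgr (fun v => by rw [hg]; exact hMQ v)
    (fun v hv => hfix v (by rw [← hg]; exact hv))

/-- A fixed-point-free isometry of the polar form of order `r ∣ q ^ d + 1` (field model). -/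
theorem arf_field_elt (h2 : (2 : F) = 0) {p : ℕ} [Fact p.Prime] [CharP F p]
    {ι : Type*} [Fintype ι] [DecidableEq ι] (Q : QuadraticForm F (ι → F))
    (hQ : (QuadraticMap.polarBilin Q).Nondegenerate) (d : ℕ) (hd : 1 ≤ d)
    (hdim : Fintype.card ι = 2 * d) (r : ℕ) (hr : r.Prime)
    (hrd : r ∣ Fintype.card F ^ d + 1) :
    ∃ M : Matrix ι ι F, M ^ r = 1 ∧
      (∀ u v, QuadraticMap.polar Q (M *ᵥ u) (M *ᵥ v) = QuadraticMap.polar Q u v) ∧
      ∀ v, M *ᵥ v = v → v = 0 := by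
  classical
  have hdz : NeZero (2 * d) := ⟨by omega⟩
  let K := FiniteField.Extension F p (2 * d)
  have hfin : Module.finrank F K = 2 * d := FiniteField.finrank_extension F p (2 * d)
  have : Fintype K := Fintype.ofFinite K
  have hcardK : Fintype.card K = Fintype.card F ^ (2 * d) := by
    rw [← Nat.card_eq_fintype_card, FiniteField.natCard_extension, Nat.card_eq_fintype_card]
  let σh : K →ₐ[F] K := (FiniteField.frobeniusAlgHom F K) ^ d
  have hσh : ∀ v : K, σh v = v ^ (Fintype.card F ^ d) := by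
    intro v
    show ((FiniteField.frobeniusAlgHom F K) ^ d) v = _
    rw [AlgHom.coe_pow, FiniteField.coe_frobeniusAlgHom, pow_iterate]
  have hinv : ∀ v : K, σh (σh v) = v := by
    intro v
    rw [hσh, hσh, ← pow_mul, ← pow_add, ← two_mul, ← hcardK, FiniteField.pow_card]
  let σ : K ≃ₐ[F] K := AlgEquiv.ofBijective σh (Function.Involutive.bijective hinv)
  have hσ : ∀ v, σ v = v ^ (Fintype.card F ^ d) := fun v => hσh v
  have hσσ : ∀ v, σ (σ v) = v := fun v => hinv v
  have hcardU : Nat.card Kˣ = Fintype.card F ^ (2 * d) - 1 := by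
    rw [Nat.card_eq_fintype_card, Fintype.card_units, hcardK]
  have hdvdU : r ∣ Nat.card Kˣ := by
    rw [hcardU]
    have h1 : 1 ≤ Fintype.card F ^ d := Nat.one_le_pow _ _ Fintype.card_pos
    obtain ⟨t, ht⟩ : ∃ t, Fintype.card F ^ d = t + 1 := ⟨_, (Nat.sub_add_cancel h1).symm⟩
    have h3 : Fintype.card F ^ (2 * d) - 1 = t * (Fintype.card F ^ d + 1) := by
      rw [two_mul, pow_add, ht]
      have : (t + 1) * (t + 1) = t * (t + 1 + 1) + 1 := by ring
      rw [this, Nat.add_sub_cancel]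
    rw [h3]
    exact Dvd.dvd.mul_left hrd _
  have hrf : Fact r.Prime := ⟨hr⟩
  obtain ⟨ζ, hζ⟩ := exists_prime_orderOf_dvd_card' r hdvdU
  have hζ1 : (ζ : K) ≠ 1 := by
    intro h
    have h1 : ζ = 1 := Units.ext h
    rw [h1, orderOf_one] at hζ
    exact hr.one_lt.ne hζ
  have hζr : ζ ^ r = 1 := by rw [← hζ, pow_orderOf_eq_one]
  have hζq : (ζ : K) ^ (Fintype.card F ^ d + 1) = 1 := by
    obtain ⟨m, hm⟩ := hrd
    rw [hm, pow_mul, ← Units.val_pow_eq_pow_val, hζr, Units.val_one, one_pow]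
  have hζσ : (ζ : K) * σ ζ = 1 := by rw [hσ, ← pow_succ', hζq]
  have h2K : (2 : K) = 0 := by
    rw [← map_ofNat (algebraMap F K) 2, h2, map_zero]
  have hγ : (ζ : K) + σ ζ ≠ 0 := by
    intro h
    have h3 : ((ζ : K) + 1) * ((ζ : K) + 1) = 0 := by
      have h4 : ((ζ : K) + σ ζ) * ζ = 0 := by rw [h, zero_mul]
      linear_combination h4 - hζσ + (ζ : K) * h2K
    have h4 := mul_self_eq_zero.mp h3
    apply hζ1
    linear_combination h4 - h2K
  let B₀ : K →ₗ[F] K →ₗ[F] F := LinearMap.mk₂ F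
    (fun u v => Algebra.trace F K ((ζ : K) * u * σ v))
    (fun u₁ u₂ v => by simp only [mul_add, add_mul, map_add])
    (fun c u v => by rw [mul_smul_comm, smul_mul_assoc, map_smul])
    (fun u v₁ v₂ => by simp only [map_add, mul_add])
    (fun c u v => by rw [map_smul, mul_smul_comm, map_smul])
  let QK : QuadraticForm F K := LinearMap.BilinMap.toQuadraticMap B₀
  have hQapp : ∀ v : K, QK v = Algebra.trace F K ((ζ : K) * v * σ v) := fun v => rfl
  have hpolar : ∀ u v : K, QuadraticMap.polar QK u v =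
      Algebra.trace F K (((ζ : K) + σ ζ) * u * σ v) := by
    intro u v
    have h1 : QuadraticMap.polar QK u v = B₀ u v + B₀ v u :=
      LinearMap.BilinMap.polar_toQuadraticMap (B := B₀) u v
    have h3 : B₀ u v = Algebra.trace F K ((ζ : K) * u * σ v) := rfl
    have h4 : B₀ v u = Algebra.trace F K (σ ζ * σ v * u) := by
      have h5 : B₀ v u = Algebra.trace F K ((ζ : K) * v * σ u) := rfl
      rw [h5, ← Algebra.trace_eq_of_algEquiv σ, map_mul σ, map_mul σ, hσσ]
    rw [h1, h3, h4, ← map_add]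
    congr 1
    ring
  have htr := traceForm_nondegenerate F K
  have hQnd : (QuadraticMap.polarBilin QK).Nondegenerate := by
    constructor
    · intro u hu
      have h1 : ((ζ : K) + σ ζ) * u = 0 := htr.1 _ (fun w => by
        have h3 := hu (σ w)
        rw [QuadraticMap.polarBilin_apply_apply, hpolar, hσσ] at h3
        rw [Algebra.traceForm_apply]
        exact h3)
      exact (mul_eq_zero.mp h1).resolve_left hγ
    · intro v hv
      have h1 : ((ζ : K) + σ ζ) * σ v = 0 := htr.2 _ (fun w => by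
        have h3 := hv w
        rw [QuadraticMap.polarBilin_apply_apply, hpolar] at h3
        rw [Algebra.traceForm_apply, ← h3]
        congr 1
        ring)
      have h3 := (mul_eq_zero.mp h1).resolve_left hγ
      exact (map_eq_zero_iff σ σ.injective).mp h3
  let g : (Module.End F K)ˣ := Units.map (Algebra.lmul F K : K →* Module.End F K) ζ
  have hg : ∀ v : K, (g : Module.End F K) v = (ζ : K) * v := fun v => rfl
  have hgr : g ^ r = 1 := by
    show (Units.map (Algebra.lmul F K : K →* Module.End F K) ζ) ^ r = 1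
    rw [← map_pow, hζr, map_one]
  have hgQ : ∀ v, QK ((g : Module.End F K) v) = QK v := by
    intro v
    rw [hg, hQapp, hQapp, map_mul σ]
    congr 1
    linear_combination ((ζ : K) * v * σ v) * hζσ
  have hgfix : ∀ v, (g : Module.End F K) v = v → v = 0 := by
    intro v hv
    rw [hg] at hv
    have h1 : ((ζ : K) - 1) * v = 0 := by linear_combination hv
    exact (mul_eq_zero.mp h1).resolve_left (sub_ne_zero.mpr hζ1)
  have hdimK : finrank F (ι → F) = finrank F K := by
    rw [Module.finrank_fintype_fun_eq_card, hdim, hfin]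
  obtain ⟨φ, hφ⟩ := arf_symp_iso h2 Q hQ QK hQnd hdimK
  obtain ⟨M, hM⟩ : ∃ M : Matrix ι ι F, M = LinearMap.toMatrix'
      (φ.symm.toLinearMap ∘ₗ (g : Module.End F K) ∘ₗ φ.toLinearMap) := ⟨_, rfl⟩
  have hMv : ∀ v, M *ᵥ v = φ.symm ((g : Module.End F K) (φ v)) := by
    intro v
    rw [hM, LinearMap.toMatrix'_mulVec]
    rfl
  have hext : ∀ N : Matrix ι ι F, (∀ v, N *ᵥ v = v) → N = 1 := by
    intro N hN
    apply Matrix.toLin'.injective
    apply LinearMap.ext
    intro v
    rw [Matrix.toLin'_apply, Matrix.toLin'_apply, hN, Matrix.one_mulVec]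
  have hMpow : ∀ (n : ℕ) (v : ι → F),
      (M ^ n) *ᵥ v = φ.symm (((g ^ n : (Module.End F K)ˣ) : Module.End F K) (φ v)) := by
    intro n
    induction n with
    | zero =>
      intro v
      rw [pow_zero, pow_zero, Matrix.one_mulVec, Units.val_one, Module.End.one_apply,
        LinearEquiv.symm_apply_apply]
    | succ n ih =>
      intro v
      rw [pow_succ', ← Matrix.mulVec_mulVec, ih, hMv, LinearEquiv.apply_symm_apply, pow_succ',
        Units.val_mul, Module.End.mul_apply]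
  have hMr : M ^ r = 1 := by
    apply hext
    intro v
    rw [hMpow, hgr, Units.val_one, Module.End.one_apply, LinearEquiv.symm_apply_apply]
  refine ⟨M, hMr, ?_, ?_⟩
  · intro u v
    rw [hMv, hMv, ← hφ, LinearEquiv.apply_symm_apply, LinearEquiv.apply_symm_apply, ← hφ u v]
    unfold QuadraticMap.polar
    rw [← map_add, hgQ, hgQ, hgQ]
  · intro v hv
    rw [hMv] at hv
    have h1 : (g : Module.End F K) (φ v) = φ v := by
      have := congrArg φ hv
      rwa [LinearEquiv.apply_symm_apply] at this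
    have h3 := hgfix _ h1
    exact φ.map_eq_zero_iff.mp h3

/-- For `d` even, the involution `[[1, A], [0, 1]]`. -/
theorem arf_witness_two (h2 : (2 : F) = 0) (d : ℕ) (hev : Even d) :
    ∃ M : Matrix (Fin d ⊕ Fin d) (Fin d ⊕ Fin d) F, M * M = 1 ∧
      (∀ u v, Cfsg.sympForm d F (M *ᵥ u) (M *ᵥ v) = Cfsg.sympForm d F u v) ∧
      (M - 1).rank = d ∧ ∀ u, Cfsg.sympForm d F u ((M - 1) *ᵥ u) = 0 := by
  classical
  have hσ : ∃ σ : Fin d → Fin d, (∀ i, σ (σ i) = i) ∧ ∀ i, σ i ≠ i := by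
    obtain ⟨k, hk⟩ := hev
    refine ⟨fun i => if h : i.val % 2 = 0 then ⟨i.val + 1, by have := i.2; omega⟩
      else ⟨i.val - 1, by have := i.2; omega⟩, ?_, ?_⟩
    · intro i
      apply Fin.ext
      by_cases h : i.val % 2 = 0
      · have h' : ¬ (i.val + 1) % 2 = 0 := by omega
        simp only [h, dite_true, h', dite_false]
        omega
      · have h' : (i.val - 1) % 2 = 0 := by omega
        simp only [h, dite_false, h', dite_true]
        omega
    · intro i h
      have h1 := congrArg Fin.val h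
      by_cases h' : i.val % 2 = 0
      · simp only [h', dite_true] at h1
        omega
      · simp only [h', dite_false] at h1
        omega
  obtain ⟨σ, hσ2, hσ1⟩ := hσ
  obtain ⟨A, hAdef⟩ : ∃ A : Matrix (Fin d) (Fin d) F,
      A = Matrix.of fun i j => if j = σ i then 1 else 0 := ⟨_, rfl⟩
  have hAv : ∀ b : Fin d → F, A *ᵥ b = b ∘ σ := by
    intro b
    funext i
    simp [hAdef, Matrix.mulVec, dotProduct]
  have hAA : A + A = 0 := by rw [← two_smul F A, h2, zero_smul]
  obtain ⟨M, hM⟩ : ∃ M : Matrix (Fin d ⊕ Fin d) (Fin d ⊕ Fin d) F, M = fromBlocks 1 A 0 1 :=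
    ⟨_, rfl⟩
  have hMM : M * M = 1 := by
    rw [hM, fromBlocks_multiply]
    simp only [Matrix.mul_zero, Matrix.zero_mul, Matrix.one_mul, Matrix.mul_one, add_zero,
      zero_add]
    rw [hAA, fromBlocks_one]
  have hMv : ∀ v : Fin d ⊕ Fin d → F,
      M *ᵥ v = Sum.elim (v ∘ Sum.inl + (v ∘ Sum.inr) ∘ σ) (v ∘ Sum.inr) := by
    intro v
    rw [hM, fromBlocks_mulVec, Matrix.one_mulVec, Matrix.one_mulVec, Matrix.zero_mulVec, zero_add,
      hAv]
  have halt : ∀ b : Fin d → F, (b ∘ σ) ⬝ᵥ b = 0 := by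
    intro b
    show ∑ i, b (σ i) * b i = 0
    apply Finset.sum_involution (fun i _ => σ i)
    · intro i _
      rw [hσ2]
      linear_combination (b i * b (σ i)) * h2
    · intro i _ _
      exact hσ1 i
    · intro i _
      exact Finset.mem_univ _
    · intro i _
      exact hσ2 i
  have hiso : ∀ u, Cfsg.quadFormPlus d F (M *ᵥ u) = Cfsg.quadFormPlus d F u := by
    intro u
    rw [nsp_eq, nsp_eq, hMv, Sum.elim_comp_inl, Sum.elim_comp_inr, add_dotProduct, halt, add_zero]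
  have hfixiff : ∀ v, M *ᵥ v = v ↔ v ∘ Sum.inr = 0 := by
    intro v
    rw [hMv]
    constructor
    · intro h
      have h1 := congrArg (fun w => w ∘ Sum.inl) h
      simp only [Sum.elim_comp_inl] at h1
      have h3 : (v ∘ Sum.inr) ∘ σ = 0 := by simpa using h1
      funext i
      have := congrFun h3 (σ i)
      simpa [hσ2] using this
    · intro h
      rw [h]
      funext i
      rcases i with i | i
      · simp
      · simpa using (congrFun h i).symm
  have hfix : ∀ v, M *ᵥ v = v → Cfsg.quadFormPlus d F v = 0 := by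
    intro v hv
    rw [nsp_eq, (hfixiff v).mp hv, dotProduct_zero]
  have hker : LinearMap.ker (M - 1).mulVecLin = stdE d F := by
    ext v
    rw [LinearMap.mem_ker, Matrix.mulVecLin_apply, Matrix.sub_mulVec, Matrix.one_mulVec,
      sub_eq_zero, hfixiff, mem_stdE]
    constructor
    · intro h i
      exact congrFun h i
    · intro h
      funext i
      exact h i
  have hrank := Cfsg.Agent.Lib.Helper8.OmegaConj.rank_le_finrank_ker h2 M hMM
  rw [hker, (stdE_isMTS d F).1, Fintype.card_sum, Fintype.card_fin] at hrank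
  have hMN : M * (M - 1) = M - 1 := by
    rw [Matrix.mul_sub, hMM, Matrix.mul_one, sub_eq_sub_iff_add_eq_add]
    have e1 : (1 : Matrix (Fin d ⊕ Fin d) (Fin d ⊕ Fin d) F) + 1 = 0 := by
      rw [← two_smul F (1 : Matrix (Fin d ⊕ Fin d) (Fin d ⊕ Fin d) F), h2, zero_smul]
    have e2 : M + M = 0 := by rw [← two_smul F M, h2, zero_smul]
    rw [e1, e2]
  have hN0 : ∀ u, Cfsg.quadFormPlus d F ((M - 1) *ᵥ u) = 0 := by
    intro u
    apply hfix
    rw [Matrix.mulVec_mulVec, hMN]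
  refine ⟨M, hMM, ?_, by omega, ?_⟩
  · intro u v
    rw [← plus_polar_symp h2, ← plus_polar_symp h2]
    unfold QuadraticMap.polar
    rw [← Matrix.mulVec_add, hiso, hiso, hiso]
  · intro u
    rw [← plus_polar_symp h2]
    unfold QuadraticMap.polar
    have e : u + (M - 1) *ᵥ u = M *ᵥ u := by
      rw [Matrix.sub_mulVec, Matrix.one_mulVec]
      abel
    rw [e, hiso, hN0]
    ring

/-- The element `diag(A, A⁻ᵀ)` of order `r ∣ q ^ d - 1` without non-zero fixed vectors. -/
theorem arf_witness_plus (d : ℕ) (hd : 1 ≤ d) (r : ℕ) (hr : r.Prime)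
    (hdvd : r ∣ Fintype.card F ^ d - 1) :
    ∃ M : Matrix (Fin d ⊕ Fin d) (Fin d ⊕ Fin d) F, M ^ r = 1 ∧
      (∀ u, Cfsg.quadFormPlus d F (M *ᵥ u) = Cfsg.quadFormPlus d F u) ∧ IsUnit (M - 1) := by
  classical
  obtain ⟨A, hA, hA1⟩ := nsl_exists_A (F := F) d hd r hr hdvd
  obtain ⟨k, rfl⟩ : ∃ k, r = k + 1 := ⟨r - 1, by have := hr.pos; omega⟩
  obtain ⟨B, hB⟩ : ∃ B, B = A ^ k := ⟨_, rfl⟩
  have hAB : A * B = 1 := by rw [hB, ← pow_succ', hA]
  have hBA : B * A = 1 := by rw [hB, ← pow_succ, hA]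
  have hBr : B ^ (k + 1) = 1 := by rw [hB, ← pow_mul, mul_comm, pow_mul, hA, one_pow]
  obtain ⟨M, hM⟩ : ∃ M : Matrix (Fin d ⊕ Fin d) (Fin d ⊕ Fin d) F, M = fromBlocks A 0 0 Bᵀ :=
    ⟨_, rfl⟩
  have hiso : ∀ u, Cfsg.quadFormPlus d F (M *ᵥ u) = Cfsg.quadFormPlus d F u := by
    intro u
    rw [nsp_eq, nsp_eq, hM, fromBlocks_mulVec]
    simp only [Matrix.zero_mulVec, add_zero, zero_add]
    rw [Sum.elim_comp_inl, Sum.elim_comp_inr, Matrix.mulVec_transpose, dotProduct_comm,
      Matrix.dotProduct_mulVec, Matrix.vecMul_vecMul, hBA, Matrix.vecMul_one, dotProduct_comm]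
  have hunit : IsUnit (M - 1) := by
    have hBu : IsUnit B := (Matrix.isUnit_iff_isUnit_det B).mpr (Matrix.isUnit_det_of_left_inverse hAB)
    have hB1 : IsUnit (B - 1) := by
      have e : B - 1 = -(B * (A - 1)) := by rw [Matrix.mul_sub, hBA, Matrix.mul_one]; abel
      rw [e]
      exact (hBu.mul hA1).neg
    have e : M - 1 = fromBlocks (A - 1) 0 0 ((B - 1)ᵀ) := by
      rw [hM]
      ext (i | i) (j | j) <;> simp [Matrix.one_apply]
    rw [e, Matrix.isUnit_iff_isUnit_det, det_fromBlocks_zero₂₁, det_transpose]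
    exact ((Matrix.isUnit_iff_isUnit_det _).mp hA1).mul ((Matrix.isUnit_iff_isUnit_det _).mp hB1)
  refine ⟨M, ?_, hiso, hunit⟩
  rw [hM, fromBlocks_diagonal_pow, hA, ← Matrix.transpose_pow, hBr, Matrix.transpose_one,
    fromBlocks_one]

variable {ι : Type} [Fintype ι] [DecidableEq ι]

/-- If a conjugate of `x` by an isometry `g` of the polar form is a similarity of `Q`, then `x`
preserves the form `Q ∘ g⁻¹`, which has the same polar form and the same number of singular
vectors as `Q`. -/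
theorem arf_conj (Q : QuadraticForm F (ι → F))
    (hQ : (QuadraticMap.polarBilin Q).Nondegenerate) (hne : Nonempty ι) (G : Subgroup (GL ι F))
    (hG : ∀ g : GL ι F, g ∈ G ↔ ∀ u v, QuadraticMap.polar Q ((g : Matrix ι ι F) *ᵥ u)
      ((g : Matrix ι ι F) *ᵥ v) = QuadraticMap.polar Q u v)
    (x g : GL ι F) (hx : x ∈ G) (hg : g ∈ G)
    (hconj : g⁻¹ * x * g ∈ Cfsg.Geo.quadSimilarityGroup (⇑Q)) :
    ∃ Q' : QuadraticForm F (ι → F),
      (∀ u v, QuadraticMap.polar Q' u v = QuadraticMap.polar Q u v) ∧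
      (∀ v, Q' ((x : Matrix ι ι F) *ᵥ v) = Q' v) ∧
      Nat.card {v : ι → F // Q' v = 0} = Nat.card {v : ι → F // Q v = 0} := by
  obtain ⟨c, hc⟩ := hconj
  have hmem : g⁻¹ * x * g ∈ G := G.mul_mem (G.mul_mem (G.inv_mem hg) hx) hg
  have hc1 : (c : F) = 1 := sim_one Q hQ hne _ ((hG _).mp hmem) c hc
  have hginv := (hG _).mp (G.inv_mem hg)
  have hgg : ∀ v, ((g⁻¹ : GL ι F) : Matrix ι ι F) *ᵥ ((g : Matrix ι ι F) *ᵥ v) = v := by
    intro v
    rw [Matrix.mulVec_mulVec, ← Units.val_mul, inv_mul_cancel, Units.val_one, Matrix.one_mulVec]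
  have hgg' : ∀ v, (g : Matrix ι ι F) *ᵥ (((g⁻¹ : GL ι F) : Matrix ι ι F) *ᵥ v) = v := by
    intro v
    rw [Matrix.mulVec_mulVec, ← Units.val_mul, mul_inv_cancel, Units.val_one, Matrix.one_mulVec]
  refine ⟨Q.comp (Matrix.mulVecLin ((g⁻¹ : GL ι F) : Matrix ι ι F)), ?_, ?_, ?_⟩
  · intro u v
    have := hginv u v
    unfold QuadraticMap.polar at this ⊢
    simp only [QuadraticMap.comp_apply, Matrix.mulVecLin_apply, Matrix.mulVec_add]
    rw [← Matrix.mulVec_add] at this
    rw [← Matrix.mulVec_add]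
    exact this
  · intro v
    rw [QuadraticMap.comp_apply, QuadraticMap.comp_apply, Matrix.mulVecLin_apply,
      Matrix.mulVecLin_apply]
    have h1 := hc (((g⁻¹ : GL ι F) : Matrix ι ι F) *ᵥ v)
    rw [hc1, one_mul, Units.val_mul, Units.val_mul, ← Matrix.mulVec_mulVec, hgg',
      ← Matrix.mulVec_mulVec] at h1
    exact h1
  · apply Nat.card_congr
    refine Equiv.subtypeEquiv ⟨fun v => ((g⁻¹ : GL ι F) : Matrix ι ι F) *ᵥ v,
      fun v => (g : Matrix ι ι F) *ᵥ v, hgg', hgg⟩ (fun v => ?_)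
    show Q.comp (Matrix.mulVecLin ((g⁻¹ : GL ι F) : Matrix ι ι F)) v = 0 ↔
      Q (((g⁻¹ : GL ι F) : Matrix ι ι F) *ᵥ v) = 0
    rw [QuadraticMap.comp_apply, Matrix.mulVecLin_apply]

/-- Two forms with the same polar form preserved by a matrix without eigenvalue one coincide. -/
theorem arf_unique {κ : Type*} [Fintype κ] [DecidableEq κ] (Q₁ Q₂ : (κ → F) → F)
    (hpol : ∀ u v, QuadraticMap.polar Q₁ u v = QuadraticMap.polar Q₂ u v) (M : Matrix κ κ F)
    (h1 : ∀ v, Q₁ (M *ᵥ v) = Q₁ v) (h1' : ∀ v, Q₂ (M *ᵥ v) = Q₂ v) (hM : IsUnit (M - 1)) :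
    ∀ v, Q₁ v = Q₂ v := by
  have hadd : ∀ u v, Q₁ (u + v) - Q₂ (u + v) = (Q₁ u - Q₂ u) + (Q₁ v - Q₂ v) := by
    intro u v
    have := hpol u v
    unfold QuadraticMap.polar at this
    linear_combination this
  have hD : ∀ v, Q₁ ((M - 1) *ᵥ v) - Q₂ ((M - 1) *ᵥ v) = 0 := by
    intro v
    have h3 := hadd ((M - 1) *ᵥ v) v
    have e : (M - 1) *ᵥ v + v = M *ᵥ v := by
      rw [Matrix.sub_mulVec, Matrix.one_mulVec]
      abel
    rw [e, h1, h1'] at h3
    linear_combination -h3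
  obtain ⟨U, hU⟩ := hM
  intro v
  have e : (M - 1) *ᵥ ((U⁻¹ : (Matrix κ κ F)ˣ) : Matrix κ κ F) *ᵥ v = v := by
    rw [Matrix.mulVec_mulVec, ← hU, ← Units.val_mul, mul_inv_cancel, Units.val_one,
      Matrix.one_mulVec]
  have := hD (((U⁻¹ : (Matrix κ κ F)ˣ) : Matrix κ κ F) *ᵥ v)
  rw [e] at this
  linear_combination this

/-- Arithmetic: an odd prime dividing `q ^ d + 1` does not divide the number of non-singular
vectors of a plus-type form. -/
theorem arf_w2_arith {p : ℕ} [Fact p.Prime] [CharP F p] (hp : p = 2) {q : ℕ}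
    (hq : Fintype.card F = q) (d : ℕ) (hd : 1 ≤ d) (r : ℕ) (hr : r.Prime) (hr2 : r ≠ 2)
    (hdv : r ∣ q ^ d + 1) (N : ℕ)
    (hN : N + (q ^ (2 * d - 1) + q ^ d - q ^ (d - 1)) = q ^ (2 * d)) (hrN : r ∣ N) : False := by
  have hq2 : 2 ≤ q := by rw [← hq]; exact Fintype.one_lt_card
  obtain ⟨C, hC⟩ : ∃ C : ℕ, C = q ^ (d - 1) := ⟨_, rfl⟩
  have e1 : q ^ d = q * C := by
    rw [hC, ← pow_succ']
    congr 1
    omega
  have e2 : q ^ (2 * d - 1) = q * C * C := by
    rw [hC, mul_assoc, ← pow_add, ← pow_succ']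
    congr 1
    omega
  have e3 : q ^ (2 * d) = q * C * (q * C) := by
    rw [← e1, ← pow_add]
    congr 1
    omega
  have hrq : ¬ r ∣ q := by
    intro h
    obtain ⟨n, hpn, hcardF⟩ := FiniteField.card F p
    rw [← hq, hcardF, hp] at h
    exact hr2 ((Nat.prime_dvd_prime_iff_eq hr Nat.prime_two).mp (hr.dvd_of_dvd_pow h))
  have hC1 : 1 ≤ C := by rw [hC]; exact Nat.one_le_pow _ _ (by omega)
  have h0 : C ≤ q * C := Nat.le_mul_of_pos_left C (by omega)
  have h1 : C ≤ q * C * C + q * C := by omega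
  have h3 : 1 ≤ q := by omega
  have h4 : 1 ≤ q * C := by omega
  rw [e1, e2, e3, ← hC] at hN
  have hNeq : N = C * (q - 1) * (q * C - 1) := by
    zify [h1, h3, h4] at hN ⊢
    linear_combination hN
  have hCd : r ∣ q ^ d - 1 → False := by
    intro h
    have h5 := Nat.dvd_sub hdv h
    have h6 : 1 ≤ q ^ d := Nat.one_le_pow _ _ (by omega)
    have h7 : q ^ d + 1 - (q ^ d - 1) = 2 := by omega
    rw [h7] at h5
    exact hr2 ((Nat.prime_dvd_prime_iff_eq hr Nat.prime_two).mp h5)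
  rw [hNeq] at hrN
  rcases (Nat.Prime.dvd_mul hr).mp hrN with h | h
  · rcases (Nat.Prime.dvd_mul hr).mp h with h | h
    · rw [hC] at h
      exact hrq (hr.dvd_of_dvd_pow h)
    · exact hCd (h.trans (Nat.sub_one_dvd_pow_sub_one _ _))
  · rw [← e1] at h
    exact hCd h

end arfE

end Cfsg.Agent.Lib.Helper99
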