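import Mathlib
import Cfsg.Prelude.Def_LieClassical
import Cfsg.Agent.Lib.Helper45.HermBasic
import Cfsg.Agent.Lib.Helper45.HermCount
import Cfsg.Agent.Lib.Helper99.Quad3

set_option autoImplicit false

namespace Cfsg.Agent.Lib.Helper99

open Module QuadraticMap Cfsg.Agent.Lib.Helper45 Matrix

section hq
variable {K F : Type*} [Field K] [Fintype K] [Field F] [Fintype F] {q : ℕ}

theorem herm_exists_not_fixed (hK : Fintype.card K = q ^ 2) (hq : 2 ≤ q) :
    ∃ c : K, c ^ q ≠ c := by
  classical
  by_contra hcon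
  push Not at hcon
  have h1 : (Polynomial.X ^ q - Polynomial.X : Polynomial K) = 0 := by
    apply Polynomial.eq_zero_of_natDegree_lt_card_of_eval_eq_zero (f := fun x : K => x)
      _ Function.injective_id
    · intro x
      simp [hcon x]
    · rw [FiniteField.X_pow_card_sub_X_natDegree_eq K (by omega), hK]
      nlinarith
  exact FiniteField.X_pow_card_sub_X_ne_zero K (by omega) h1

theorem herm_exists_trace (hK : Fintype.card K = q ^ 2) (hq : 2 ≤ q) :
    ∃ z : K, z + z ^ q ≠ 0 := by
  by_contra hcon
  push Not at hcon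
  obtain ⟨c0, hc0⟩ := herm_exists_not_fixed hK hq
  have h1 : (1 : K) + 1 = 0 := by
    have := hcon 1
    rwa [one_pow] at this
  have h2 : c0 + c0 = 0 := by
    have : c0 + c0 = (1 + 1) * c0 := by ring
    rw [this, h1, zero_mul]
  have h3 := hcon c0
  exact hc0 (add_left_cancel (h3.trans h2.symm))

theorem herm_fixed_mem_range [Algebra F K] (hK : Fintype.card K = q ^ 2)
    (hF : Fintype.card F = q) (z : K) (hz : z ^ q = z) : ∃ t : F, algebraMap F K t = z := by
  classical
  have hq : 2 ≤ q := by rw [← hF]; exact Fintype.one_lt_card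
  let S : Finset K := Finset.univ.filter (fun x => x ^ q = x)
  have hS : S.card ≤ q := by
    have h1 : S.val ⊆ (Polynomial.X ^ q - Polynomial.X : Polynomial K).roots := by
      intro x hx
      rw [Polynomial.mem_roots (FiniteField.X_pow_card_sub_X_ne_zero K (by omega))]
      have h2 : x ^ q = x := (Finset.mem_filter.mp hx).2
      simp [h2]
    have h2 := Polynomial.card_le_degree_of_subset_roots h1
    rwa [FiniteField.X_pow_card_sub_X_natDegree_eq K (by omega)] at h2
  have himg : Finset.univ.image (algebraMap F K) ⊆ S := by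
    intro x hx
    obtain ⟨t, -, rfl⟩ := Finset.mem_image.mp hx
    exact Finset.mem_filter.mpr ⟨Finset.mem_univ _, by rw [← map_pow, ← hF, FiniteField.pow_card]⟩
  have hcard : (Finset.univ.image (algebraMap F K)).card = q := by
    rw [Finset.card_image_of_injective _ (algebraMap F K).injective, Finset.card_univ, hF]
  have heq := Finset.eq_of_subset_of_card_le himg (by rw [hcard]; exact hS)
  have hzS : z ∈ S := Finset.mem_filter.mpr ⟨Finset.mem_univ _, hz⟩
  rw [← heq] at hzS
  obtain ⟨t, -, ht⟩ := Finset.mem_image.mp hzS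
  exact ⟨t, ht⟩

theorem herm_finrank [Algebra F K] (hK : Fintype.card K = q ^ 2) (hF : Fintype.card F = q)
    (m : ℕ) : finrank F (Fin m → K) = 2 * m := by
  have hq : 2 ≤ q := by rw [← hF]; exact Fintype.one_lt_card
  have h1 : Fintype.card (Fin m → K) = Fintype.card F ^ finrank F (Fin m → K) :=
    Module.card_eq_pow_finrank
  rw [Fintype.card_fun, Fintype.card_fin, hK, hF, ← pow_mul] at h1
  exact (Nat.pow_right_injective hq h1).symm

/-- The hermitian norm form as a quadratic form over the subfield. -/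
theorem exists_hermQuad [Algebra F K] (hK : Fintype.card K = q ^ 2) (hF : Fintype.card F = q)
    (m : ℕ) :
    ∃ Q : QuadraticForm F (Fin m → K),
      (∀ v, algebraMap F K (Q v) = Cfsg.hermForm m K q v v) ∧
      (∀ u v, algebraMap F K (polar Q u v)
        = Cfsg.hermForm m K q u v + Cfsg.hermForm m K q v u) := by
  classical
  obtain ⟨lam0, hlam0⟩ : ∃ lam : Module.Dual F K, lam 1 ≠ 0 := by
    by_contra hcon
    push Not at hcon
    exact one_ne_zero ((Module.forall_dual_apply_eq_zero_iff F (1 : K)).mp hcon)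
  obtain ⟨lam, hlam⟩ : ∃ lam : Module.Dual F K, lam 1 = 1 :=
    ⟨(lam0 1)⁻¹ • lam0, by
      rw [LinearMap.smul_apply, smul_eq_mul, inv_mul_cancel₀ hlam0]⟩
  have hlamι : ∀ t : F, lam (algebraMap F K t) = t := by
    intro t
    rw [Algebra.algebraMap_eq_smul_one, map_smul, hlam, smul_eq_mul, mul_one]
  have hfix : ∀ a : F, (algebraMap F K a) ^ q = algebraMap F K a := fun a => by
    rw [← map_pow, ← hF, FiniteField.pow_card]
  have hsm : ∀ (a : F) (u v : Fin m → K),
      Cfsg.hermForm m K q (a • u) v = algebraMap F K a * Cfsg.hermForm m K q u v := by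
    intro a u v
    rw [← algebraMap_smul K a u, herm_smul_left]
  have hsm' : ∀ (a : F) (u v : Fin m → K),
      Cfsg.hermForm m K q u (a • v) = algebraMap F K a * Cfsg.hermForm m K q u v := by
    intro a u v
    rw [← algebraMap_smul K a v, herm_smul_right, hfix]
  have hpol : ∀ u v : Fin m → K, polar (fun v => lam (Cfsg.hermForm m K q v v)) u v
      = lam (Cfsg.hermForm m K q u v) + lam (Cfsg.hermForm m K q v u) := by
    intro u v
    simp only [polar, herm_add_left, herm_add_right hK, map_add]
    ring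
  let Q : QuadraticForm F (Fin m → K) := QuadraticMap.ofPolar
    (fun v => lam (Cfsg.hermForm m K q v v))
    (by
      intro a v
      show lam (Cfsg.hermForm m K q (a • v) (a • v)) = (a * a) • lam (Cfsg.hermForm m K q v v)
      rw [hsm, hsm', ← mul_assoc, ← map_mul, ← Algebra.smul_def, map_smul])
    (by
      intro x x' y
      rw [hpol, hpol, hpol, herm_add_left, herm_add_right hK, map_add, map_add]
      ring)
    (by
      intro a x y
      rw [hpol, hpol, hsm, hsm', ← Algebra.smul_def, ← Algebra.smul_def, map_smul, map_smul,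
        smul_add])
  have hQ : ∀ v, Q v = lam (Cfsg.hermForm m K q v v) := fun _ => rfl
  have hQp : ∀ u v, polar Q u v = lam (Cfsg.hermForm m K q u v) + lam (Cfsg.hermForm m K q v u) :=
    fun u v => hpol u v
  refine ⟨Q, ?_, ?_⟩
  · intro v
    obtain ⟨t, ht⟩ := herm_fixed_mem_range hK hF (Cfsg.hermForm m K q v v) (herm_conj hK m v v)
    rw [hQ, ← ht, hlamι]
  · intro u v
    obtain ⟨t, ht⟩ := herm_fixed_mem_range hK hF
      (Cfsg.hermForm m K q u v + Cfsg.hermForm m K q v u) (by
        rw [conj_add hK, herm_conj hK, herm_conj hK, add_comm])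
    rw [hQp, ← map_add, ← ht, hlamι]

theorem hermQuad_polar_ne [Algebra F K] (hK : Fintype.card K = q ^ 2) (hF : Fintype.card F = q)
    {m : ℕ} (Q : QuadraticForm F (Fin m → K))
    (hQ2 : ∀ u v, algebraMap F K (polar Q u v)
        = Cfsg.hermForm m K q u v + Cfsg.hermForm m K q v u)
    (u : Fin m → K) (i : Fin m) (hi : u i ≠ 0) :
    ∃ c : K, polar Q u (c • (Pi.single i (1 : K) : Fin m → K)) ≠ 0 := by
  classical
  have hq : 2 ≤ q := by rw [← hF]; exact Fintype.one_lt_card
  obtain ⟨z0, hz0⟩ := herm_exists_trace hK hq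
  refine ⟨(z0 / u i) ^ q, fun h0 => hz0 ?_⟩
  have h1 := hQ2 u ((z0 / u i) ^ q • (Pi.single i (1 : K) : Fin m → K))
  rw [h0, map_zero, herm_smul_right, herm_smul_left, herm_single_right (by omega),
    ← herm_conj hK m u (Pi.single i 1), herm_single_right (by omega), conj_conj hK,
    div_mul_cancel₀ _ hi, ← mul_pow, div_mul_cancel₀ _ hi] at h1
  exact h1.symm

/-- A totally isotropic subspace of half dimension in even rank, padded by zeros. -/
theorem herm_singular [Algebra F K] (hK : Fintype.card K = q ^ 2) (r s : ℕ) :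
    ∃ ψ : (Fin r → K) →ₗ[F] (Fin (r + r + s) → K), Function.Injective ψ ∧
      (∀ x y, Cfsg.hermForm (r + r + s) K q (ψ x) (ψ y) = 0) ∧
      (∀ x (j : Fin s), ψ x (Fin.natAdd (r + r) j) = 0) := by
  classical
  obtain ⟨t, ht⟩ : ∃ t : K, t ^ (q + 1) = -1 := by
    have h1 := norm_fiber_card hK (-1 : K) (neg_ne_zero.mpr one_ne_zero) (by
      rw [conj_neg hK, one_pow])
    have h2 : Nonempty {x : K // x ^ (q + 1) = -1} := by
      apply (Nat.card_pos_iff.mp _).1
      rw [h1]; omega
    obtain ⟨⟨t, ht⟩⟩ := h2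
    exact ⟨t, ht⟩
  let ψK : (Fin r → K) →ₗ[K] (Fin (r + r + s) → K) :=
    { toFun := fun x => Fin.append (Fin.append x (t • x)) (0 : Fin s → K)
      map_add' := by
        intro x y
        funext i
        refine Fin.addCases (fun i => ?_) (fun j => ?_) i
        · refine Fin.addCases (fun j => ?_) (fun j => ?_) i
          · simp only [Pi.add_apply, Fin.append_left]
          · simp only [Pi.add_apply, Fin.append_left, Fin.append_right, Pi.smul_apply,
              smul_eq_mul, mul_add]
        · simp only [Pi.add_apply, Fin.append_right, Pi.zero_apply, add_zero]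
      map_smul' := by
        intro c x
        funext i
        refine Fin.addCases (fun i => ?_) (fun j => ?_) i
        · refine Fin.addCases (fun j => ?_) (fun j => ?_) i
          · simp only [Pi.smul_apply, Fin.append_left, smul_eq_mul, RingHom.id_apply]
          · simp only [Pi.smul_apply, Fin.append_left, Fin.append_right, smul_eq_mul,
              RingHom.id_apply]
            ring
        · simp only [Pi.smul_apply, Fin.append_right, Pi.zero_apply, smul_eq_mul,
            RingHom.id_apply, mul_zero] }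
  have hψ : ∀ x, ψK x = Fin.append (Fin.append x (t • x)) (0 : Fin s → K) := fun _ => rfl
  refine ⟨ψK.restrictScalars F, ?_, ?_, ?_⟩
  · intro x y hxy
    have h1 : ψK x = ψK y := hxy
    funext j
    have h2 := congrFun h1 (Fin.castAdd s (Fin.castAdd r j))
    rw [hψ, hψ, Fin.append_left, Fin.append_left, Fin.append_left, Fin.append_left] at h2
    exact h2
  · intro x y
    show Cfsg.hermForm (r + r + s) K q (ψK x) (ψK y) = 0
    rw [hψ, hψ]
    unfold Cfsg.hermForm
    rw [Fin.sum_univ_add, Fin.sum_univ_add, ← Finset.sum_add_distrib]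
    simp only [Fin.append_left, Fin.append_right, Pi.smul_apply, smul_eq_mul, Pi.zero_apply,
      zero_mul, Finset.sum_const_zero, add_zero]
    apply Finset.sum_eq_zero
    intro j _
    have h1 : t * x j * (t * y j) ^ q = t ^ (q + 1) * (x j * y j ^ q) := by ring
    rw [h1, ht]
    ring
  · intro x j
    show ψK x (Fin.natAdd (r + r) j) = 0
    rw [hψ, Fin.append_right]
    rfl

/-- Transport of a subgroup of `GL_m(K)` preserving a function into the isometry group of its
coordinate expression over the subfield. -/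
theorem embed_isometry [Algebra F K] {m : ℕ} {ι₂ : Type} [Fintype ι₂] [DecidableEq ι₂]
    (b : Basis ι₂ F (Fin m → K)) (Qs : (ι₂ → F) → F) (Qv : (Fin m → K) → F)
    (hQ : ∀ v, Qs (b.repr v) = Qv v) (H : Subgroup (Matrix.GeneralLinearGroup (Fin m) K))
    (hH : ∀ g ∈ H, ∀ v, Qv ((g : Matrix (Fin m) (Fin m) K) *ᵥ v) = Qv v) :
    ∃ φ : H →* Cfsg.isometryGroup F Qs, Function.Injective φ := by
  classical
  let L : Matrix (Fin m) (Fin m) K → ((Fin m → K) →ₗ[F] (Fin m → K)) := fun A =>
    (Matrix.mulVecLin A).restrictScalars F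
  have hL : ∀ A x, L A x = A *ᵥ x := fun _ _ => rfl
  let T : Matrix (Fin m) (Fin m) K →* Matrix ι₂ ι₂ F :=
    { toFun := fun A => LinearMap.toMatrix b b (L A)
      map_one' := by
        have h1 : L 1 = LinearMap.id := LinearMap.ext fun x => by
          rw [hL, Matrix.one_mulVec]; rfl
        rw [h1, LinearMap.toMatrix_id]
      map_mul' := by
        intro A B
        have h1 : L (A * B) = L A ∘ₗ L B := LinearMap.ext fun x => by
          rw [LinearMap.comp_apply, hL, hL, hL, Matrix.mulVec_mulVec]
        rw [h1, LinearMap.toMatrix_comp b b b] }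
  have hT : ∀ A, T A = LinearMap.toMatrix b b (L A) := fun _ => rfl
  have hTinj : Function.Injective T := by
    intro A B hAB
    have h2 : L A = L B := (LinearMap.toMatrix b b).injective hAB
    ext i j
    have h3 := congrFun (LinearMap.congr_fun h2 (Pi.single j 1)) i
    rw [hL, hL, Matrix.mulVec_single_one, Matrix.mulVec_single_one] at h3
    exact h3
  let Φ0 : H →* Matrix.GeneralLinearGroup ι₂ F := (Units.map T).comp H.subtype
  have hΦ0 : ∀ g : H, ((Φ0 g : Matrix.GeneralLinearGroup ι₂ F) : Matrix ι₂ ι₂ F)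
      = T ((g : Matrix.GeneralLinearGroup (Fin m) K) : Matrix (Fin m) (Fin m) K) := fun _ => rfl
  have hmem : ∀ g : H, Φ0 g ∈ Cfsg.isometryGroup F Qs := by
    intro g u v
    show Qs (((Φ0 g : Matrix.GeneralLinearGroup ι₂ F) : Matrix ι₂ ι₂ F) *ᵥ u) = Qs u
    obtain ⟨x, rfl⟩ : ∃ x, u = b.repr x := ⟨b.equivFun.symm u, by
      rw [← Basis.equivFun_apply, LinearEquiv.apply_symm_apply]⟩
    rw [hΦ0, hT, LinearMap.toMatrix_mulVec_repr, hQ, hQ, hL, hH g g.2]
  refine ⟨Φ0.codRestrict _ hmem, ?_⟩
  intro g g' hgg'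
  have h1 : Φ0 g = Φ0 g' := congrArg Subtype.val hgg'
  have h2 : T ((g : Matrix.GeneralLinearGroup (Fin m) K) : Matrix (Fin m) (Fin m) K)
      = T ((g' : Matrix.GeneralLinearGroup (Fin m) K) : Matrix (Fin m) (Fin m) K) := by
    rw [← hΦ0, ← hΦ0, h1]
  apply Subtype.ext
  apply Units.ext
  exact hTinj h2

end hq

end Cfsg.Agent.Lib.Helper99
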