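import Mathlib
import Cfsg.Agent.Lib.Helper99.JType3
import Cfsg.Agent.Lib.Helper99.Disc
import Cfsg.Agent.Lib.Helper99.Quad3

/-!
# Jordan types of unipotent isometries: invariant nondegenerate subspaces and discriminants

`jt_sub_type`: a nondegenerate invariant subspace of a unipotent isometry of a symmetric form
carries a sub-type in which even parts have even multiplicity.
`FTypeD`: models of a Jordan type with a recorded Gram determinant; `jt_plus_model` realises
the admissible types of even total size with discriminant `(-1)^d` times a square.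
-/

set_option autoImplicit false

namespace Cfsg.Agent.Lib.Helper99

open Module Matrix Cfsg.Agent.Lib.Helper40

universe u v

section JTSub

variable {F : Type u} [Field F] {V : Type v} [AddCommGroup V] [Module F V]

theorem jt_sub_type [FiniteDimensional F V] (h2 : (2 : F) ≠ 0) (B : LinearMap.BilinForm F V)
    (hS : ∀ x y, B x y = B y x) (g : V →ₗ[F] V) (hg : ∀ x y, B (g x) (g y) = B x y)
    (W : Submodule F V) (hW : ∀ x ∈ W, g x ∈ W)
    (hnd : ∀ w ∈ W, (∀ x ∈ W, B w x = 0) → w = 0)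
    (μ : Multiset ℕ) (hμ : ∀ a ∈ μ, 0 < a)
    (hr : ∀ j, finrank F (LinearMap.range ((g - 1) ^ j)) = Jordan.rk μ j) :
    ∃ ν : Multiset ℕ, ν ≤ μ ∧ ν.sum = finrank F W ∧ ∀ e, Even e → Even (ν.count e) := by
  classical
  have hSW : ∀ x y : W, B.restrict W x y = B.restrict W y x := fun x y => hS x.1 y.1
  have hBW : (B.restrict W).Nondegenerate := by
    have hL : ∀ x : W, (∀ y : W, B.restrict W x y = 0) → x = 0 := fun x hx =>
      Subtype.ext (hnd x.1 x.2 (fun y hy => hx ⟨y, hy⟩))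
    exact ⟨hL, fun y hy => hL y (fun x => by rw [hSW]; exact hy x)⟩
  have hrefl : B.IsRefl := fun x y hxy => by rw [hS]; exact hxy
  have hc : IsCompl W (B.orthogonal W) :=
    LinearMap.BilinForm.isCompl_orthogonal_of_restrict_nondegenerate hrefl hBW
  obtain ⟨gW, hgW⟩ : ∃ gW : W →ₗ[F] W, ∀ x : W, (gW x : V) = g x :=
    ⟨g.restrict hW, fun x => rfl⟩
  have hgWiso : ∀ x y : W, B.restrict W (gW x) (gW y) = B.restrict W x y := fun x y => by
    show B (gW x : V) (gW y : V) = B x.1 y.1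
    rw [hgW, hgW, hg]
  have hinj : Function.Injective gW := by
    rw [← LinearMap.ker_eq_bot, LinearMap.ker_eq_bot']
    intro x hx
    apply hBW.1
    intro y
    rw [← hgWiso, hx]
    simp
  have hsurj : Function.Surjective gW := LinearMap.surjective_of_injective hinj
  have hW' : ∀ x ∈ B.orthogonal W, g x ∈ B.orthogonal W := by
    intro x hx
    rw [LinearMap.BilinForm.mem_orthogonal_iff] at hx ⊢
    intro n hn
    obtain ⟨n₀, hn₀⟩ := hsurj ⟨n, hn⟩
    have e : n = g n₀.1 := by rw [← hgW, hn₀]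
    show B n (g x) = 0
    rw [e, hg]
    exact hx n₀.1 n₀.2
  obtain ⟨gW', hgW'⟩ : ∃ gW' : ↥(B.orthogonal W) →ₗ[F] ↥(B.orthogonal W),
      ∀ x, (gW' x : V) = g x := ⟨g.restrict hW', fun x => rfl⟩
  have hconj : Jordan.Conj ((gW - 1).prodMap (gW' - 1)) (g - 1) := by
    refine ⟨Submodule.prodEquivOfIsCompl W (B.orthogonal W) hc, ?_⟩
    rintro ⟨a, b⟩
    simp only [LinearMap.prodMap_apply, Submodule.coe_prodEquivOfIsCompl', LinearMap.sub_apply,
      Module.End.one_apply, Submodule.coe_sub, hgW, hgW', map_add]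
  have hsum : ∀ j, finrank F (LinearMap.range ((gW - 1) ^ j)) +
      finrank F (LinearMap.range ((gW' - 1) ^ j)) = Jordan.rk μ j := by
    intro j
    rw [← hr j, ← hconj.finrank_range_pow j, Jordan.finrank_range_prodMap_pow]
  have hK : Jordan.rk μ μ.sum = 0 := by
    rw [Jordan.rk_eq_zero_iff]
    intro a ha
    exact Multiset.le_sum_of_mem ha
  have hnil : IsNilpotent (gW - 1) := by
    refine ⟨μ.sum, ?_⟩
    rw [Jordan.pow_eq_zero_iff_finrank]
    have := hsum μ.sum
    omega
  have hnil' : IsNilpotent (gW' - 1) := by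
    refine ⟨μ.sum, ?_⟩
    rw [Jordan.pow_eq_zero_iff_finrank]
    have := hsum μ.sum
    omega
  obtain ⟨ν, hνpos, hν⟩ := Jordan.exists_type (finrank F W) W (gW - 1) rfl hnil
  obtain ⟨ν', hν'pos, hν'⟩ := Jordan.exists_type (finrank F (B.orthogonal W))
    (B.orthogonal W) (gW' - 1) rfl hnil'
  have hμeq : μ = ν + ν' := by
    apply Jordan.rk_injective hμ
    · intro a ha
      rcases Multiset.mem_add.mp ha with h | h
      · exact hνpos a h
      · exact hν'pos a h
    · intro j
      rw [← hsum j, hν, hν']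
      simp [Jordan.rk, Multiset.map_add]
  refine ⟨ν, ?_, ?_, ?_⟩
  · rw [hμeq]
    exact Multiset.le_add_right ν ν'
  · have := hν 0
    rw [Jordan.finrank_range_pow_zero, Jordan.rk_zero] at this
    exact this.symm
  · intro e he
    rcases Nat.eq_zero_or_pos e with rfl | hpos
    · rw [Multiset.count_eq_zero_of_notMem (fun h0 => lt_irrefl _ (hνpos 0 h0))]
      exact Even.zero
    · obtain ⟨c, hc⟩ := jt_parity_symm (B.restrict W) hBW hSW h2 gW hgWiso e hpos he
      rw [hν, hν, hν] at hc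
      obtain ⟨i, rfl⟩ : ∃ i, e = i + 1 := ⟨e - 1, by omega⟩
      have h3 := jt_count ν i
      rw [Nat.add_sub_cancel, show i + 1 + 1 = i + 2 from rfl] at hc
      exact ⟨c, by omega⟩

end JTSub

section JTDisc

variable {F : Type u} [Field F]

/-- A model of the Jordan type `μ` for a nondegenerate symmetric form, with the Gram determinant
`δ` in some basis. -/
def FTypeD (F : Type u) [Field F] (μ : Multiset ℕ) (δ : F) : Prop :=
  ∃ (n : ℕ) (B : LinearMap.BilinForm F (Fin n → F)) (g : (Fin n → F) →ₗ[F] (Fin n → F))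
    (ι : Type) (_ : Fintype ι) (_ : DecidableEq ι) (b : Basis ι F (Fin n → F)),
    (∀ x y, B x y = B y x) ∧ (∀ x, (∀ y, B x y = 0) → x = 0) ∧
    (∀ x y, B (g x) (g y) = B x y) ∧
    (∀ j, finrank F (LinearMap.range ((g - 1) ^ j)) = Jordan.rk μ j) ∧
    (Matrix.of fun i j : ι => B (b i) (b j)).det = δ

theorem FTypeD.of_model {μ : Multiset ℕ} {δ : F} {V : Type v} [AddCommGroup V]
    [Module F V] [FiniteDimensional F V] (B : LinearMap.BilinForm F V) (g : V →ₗ[F] V)
    {ι : Type} [Fintype ι] [DecidableEq ι] (b : Basis ι F V)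
    (h2 : ∀ x y, B x y = B y x)
    (h3 : ∀ x, (∀ y, B x y = 0) → x = 0) (h4 : ∀ x y, B (g x) (g y) = B x y)
    (h5 : ∀ j, finrank F (LinearMap.range ((g - 1) ^ j)) = Jordan.rk μ j)
    (h6 : (Matrix.of fun i j : ι => B (b i) (b j)).det = δ) : FTypeD F μ δ := by
  let e : V ≃ₗ[F] (Fin (finrank F V) → F) := (Module.finBasis F V).equivFun
  refine ⟨finrank F V, B.comp e.symm.toLinearMap e.symm.toLinearMap,
    e.toLinearMap ∘ₗ g ∘ₗ e.symm.toLinearMap, ι, inferInstance, inferInstance, b.map e,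
    ?_, ?_, ?_, ?_, ?_⟩
  · intro x y
    exact h2 _ _
  · intro x hx
    have h0 : e.symm x = 0 := h3 _ (fun y => by
      have := hx (e y)
      simpa using this)
    simpa using h0
  · intro x y
    simp [h4]
  · intro j
    rw [← h5 j]
    have hc : Jordan.Conj (g - 1) (e.toLinearMap ∘ₗ g ∘ₗ e.symm.toLinearMap - 1) :=
      ⟨e, fun x => by simp⟩
    exact (hc.finrank_range_pow j).symm
  · rw [← h6]
    congr 1
    ext i j
    simp

theorem FTypeD.of_ftype {μ : Multiset ℕ} (h : FType F False μ) :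
    ∃ δ : F, δ ≠ 0 ∧ FTypeD F μ δ := by
  classical
  obtain ⟨n, B, g, -, h1, h3, h4, h5⟩ := h
  have hS := h1 not_false
  have hB : B.Nondegenerate := ⟨h3, fun y hy => h3 y (fun x => by rw [hS]; exact hy x)⟩
  have hdet := (LinearMap.BilinForm.nondegenerate_iff_det_ne_zero (Pi.basisFun F (Fin n))).mp hB
  refine ⟨_, ?_, n, B, g, Fin n, inferInstance, inferInstance, Pi.basisFun F (Fin n), hS, h3,
    h4, h5, rfl⟩
  convert hdet using 2
  ext i j
  simp [LinearMap.BilinForm.toMatrix_apply]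

theorem FTypeD.smul {μ : Multiset ℕ} {δ : F} (h : FTypeD F μ δ) (c : F) (hc : c ≠ 0) :
    FTypeD F μ (c ^ μ.sum * δ) := by
  obtain ⟨n, B, g, ι, _, _, b, h2, h3, h4, h5, h6⟩ := h
  have hn : Fintype.card ι = μ.sum := by
    have h0 := h5 0
    rw [Jordan.finrank_range_pow_zero, Jordan.rk_zero, Module.finrank_fin_fun] at h0
    have h1 := Module.finrank_eq_card_basis b
    rw [Module.finrank_fin_fun] at h1
    omega
  refine ⟨n, c • B, g, ι, inferInstance, inferInstance, b, ?_, ?_, ?_, h5, ?_⟩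
  · intro x y
    simp [h2 x y]
  · intro x hx
    apply h3
    intro y
    have := hx y
    simpa [hc] using this
  · intro x y
    simp [h4]
  · have e : (Matrix.of fun i j : ι => (c • B) (b i) (b j)) =
        c • Matrix.of fun i j : ι => B (b i) (b j) := by
      ext i j
      simp
    rw [e, Matrix.det_smul, h6, hn]

theorem FTypeD.add {μ ν : Multiset ℕ} {δ₁ δ₂ : F} (hμ : FTypeD F μ δ₁) (hν : FTypeD F ν δ₂) :
    FTypeD F (μ + ν) (δ₁ * δ₂) := by
  obtain ⟨n₁, B₁, g₁, ι₁, _, _, b₁, a2, a3, a4, a5, a6⟩ := hμ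
  obtain ⟨n₂, B₂, g₂, ι₂, _, _, b₂, c2, c3, c4, c5, c6⟩ := hν
  refine FTypeD.of_model (V := (Fin n₁ → F) × (Fin n₂ → F))
    (B₁.comp (LinearMap.fst F _ _) (LinearMap.fst F _ _) +
      B₂.comp (LinearMap.snd F _ _) (LinearMap.snd F _ _))
    (g₁.prodMap g₂) (b₁.prod b₂) ?_ ?_ ?_ ?_ ?_
  · intro x y
    simp only [LinearMap.add_apply, LinearMap.BilinForm.comp_apply, LinearMap.fst_apply,
      LinearMap.snd_apply]
    rw [a2, c2]
  · rintro ⟨x₁, x₂⟩ hx
    have e1 : x₁ = 0 := a3 _ (fun y => by simpa using hx (y, 0))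
    have e2 : x₂ = 0 := c3 _ (fun y => by simpa using hx (0, y))
    rw [e1, e2]
    rfl
  · intro x y
    simp [a4, c4]
  · intro j
    have e : g₁.prodMap g₂ - 1 = (g₁ - 1).prodMap (g₂ - 1) := by
      apply LinearMap.ext
      rintro ⟨x, y⟩
      simp
    rw [e, Jordan.finrank_range_prodMap_pow, a5, c5]
    simp [Jordan.rk, Multiset.map_add]
  · have e : (Matrix.of fun i j : ι₁ ⊕ ι₂ =>
        (B₁.comp (LinearMap.fst F (Fin n₁ → F) (Fin n₂ → F)) (LinearMap.fst F _ _) +
          B₂.comp (LinearMap.snd F (Fin n₁ → F) (Fin n₂ → F)) (LinearMap.snd F _ _))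
          ((b₁.prod b₂) i) ((b₁.prod b₂) j)) =
        Matrix.fromBlocks (Matrix.of fun i j : ι₁ => B₁ (b₁ i) (b₁ j)) 0 0
          (Matrix.of fun i j : ι₂ => B₂ (b₂ i) (b₂ j)) := by
      ext i j
      rcases i with i | i <;> rcases j with j | j <;> simp [Module.Basis.prod_apply]
    rw [e, Matrix.det_fromBlocks_zero₂₁, a6, c6]

theorem FTypeD.zero : FTypeD F 0 1 := by
  refine ⟨0, 0, 1, Fin 0, inferInstance, inferInstance, Pi.basisFun F (Fin 0), fun x y => rfl,
    fun x _ => Subsingleton.elim _ _, fun x y => rfl, fun j => ?_, Matrix.det_isEmpty⟩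
  have h1 : finrank F (LinearMap.range (((1 : (Fin 0 → F) →ₗ[F] (Fin 0 → F)) - 1) ^ j)) ≤
      finrank F (Fin 0 → F) := Submodule.finrank_le _
  have h2 : finrank F (Fin 0 → F) = 0 := by simp
  have h3 : Jordan.rk 0 j = 0 := by simp [Jordan.rk]
  omega

/-- Two blocks of equal size: the hyperbolic form, of discriminant `(-1)^s`. -/
theorem FTypeD.pair (h2 : (2 : F) ≠ 0) (s : ℕ) : FTypeD F {s, s} ((-1) ^ s) := by
  classical
  obtain ⟨L, hL⟩ : ∃ L : Matrix (Fin s) (Fin s) F, L = Cfsg.jordanBlock s F - 1 := ⟨_, rfl⟩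
  have hr : ∀ j, (L ^ j).rank = s - j := fun j => by
    rw [hL]
    exact jt_rank_block s j
  have hLnil : IsNilpotent L := ⟨s, by rw [hL]; exact jt_block_nil s⟩
  have hXu : IsUnit (1 + L).det := (Matrix.isUnit_iff_isUnit_det _).mp hLnil.isUnit_one_add
  have h1 : (1 + L)⁻¹ * (1 + L) = 1 := Matrix.nonsing_inv_mul _ hXu
  refine FTypeD.of_model (jtPairForm s 1)
    ((Matrix.toLin' (1 + L)).prodMap (Matrix.toLin' ((1 + L)⁻¹)ᵀ))
    ((Pi.basisFun F (Fin s)).prod (Pi.basisFun F (Fin s))) ?_ ?_ ?_ ?_ ?_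
  · intro v w
    rw [jtPairForm_apply, jtPairForm_apply, dotProduct_comm v.1 w.2,
      dotProduct_comm v.2 w.1]
    ring
  · rintro ⟨x, y⟩ hv
    have hx : x = 0 := by
      funext i
      have := hv (0, Pi.single i 1)
      rw [jtPairForm_apply] at this
      simpa using this
    have hy : y = 0 := by
      funext i
      have := hv (Pi.single i 1, 0)
      rw [jtPairForm_apply] at this
      simpa using this
    rw [hx, hy]
    rfl
  · intro v w
    rw [jtPairForm_apply, jtPairForm_apply]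
    simp only [LinearMap.prodMap_apply, Matrix.toLin'_apply]
    rw [jt_dot_adj _ _ h1, dotProduct_comm ((1 + L)⁻¹ᵀ *ᵥ v.2), jt_dot_adj _ _ h1,
      dotProduct_comm w.1]
  · intro j
    have e : (Matrix.toLin' (1 + L)).prodMap (Matrix.toLin' ((1 + L)⁻¹)ᵀ) - 1 =
        (Matrix.toLin' L).prodMap (Matrix.toLin' (((1 + L)⁻¹)ᵀ - 1)) := by
      apply LinearMap.ext
      rintro ⟨x, y⟩
      simp
    have e2 : ((1 + L)⁻¹)ᵀ - 1 = ((-(1 + L)⁻¹) * L)ᵀ := by
      have e3 : (1 + L)⁻¹ - 1 = -(1 + L)⁻¹ * L := by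
        have h3 : (1 + L)⁻¹ + (1 + L)⁻¹ * L = 1 := by
          have h3' : (1 + L)⁻¹ * (1 + L) = (1 + L)⁻¹ + (1 + L)⁻¹ * L := by rw [mul_add, mul_one]
          exact h3'.symm.trans h1
        rw [neg_mul, sub_eq_iff_eq_add, ← sub_eq_neg_add, eq_sub_iff_add_eq]
        exact h3
      rw [← e3, Matrix.transpose_sub, Matrix.transpose_one]
    have hcomm : Commute (-(1 + L)⁻¹) L := by
      have h4 : (1 + L) * L = L * (1 + L) := by rw [add_mul, mul_add, one_mul, mul_one]
      have h5 := ru_inv_comm _ _ hXu h4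
      show -(1 + L)⁻¹ * L = L * -(1 + L)⁻¹
      rw [neg_mul, mul_neg, h5]
    have hunit : IsUnit ((-(1 + L)⁻¹) ^ j).det := by
      have h6 : IsUnit ((1 + L)⁻¹) :=
        (Matrix.isUnit_iff_isUnit_det _).mpr (Matrix.isUnit_nonsing_inv_det _ hXu)
      exact (Matrix.isUnit_iff_isUnit_det _).mp (h6.neg.pow j)
    rw [e, Jordan.finrank_range_prodMap_pow, ← jt_rank_pow_eq, ← jt_rank_pow_eq, hr, e2,
      ← Matrix.transpose_pow, Matrix.rank_transpose, hcomm.mul_pow,
      Matrix.rank_mul_eq_right_of_isUnit_det _ _ hunit, hr]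
    simp [Jordan.rk]
  · have e : (Matrix.of fun i j : Fin s ⊕ Fin s =>
        jtPairForm s (1 : F) (((Pi.basisFun F (Fin s)).prod (Pi.basisFun F (Fin s))) i)
          (((Pi.basisFun F (Fin s)).prod (Pi.basisFun F (Fin s))) j)) =
        Matrix.fromBlocks (0 : Matrix (Fin s) (Fin s) F) 1 1 0 := by
      ext i j
      rcases i with i | i <;> rcases j with j | j <;>
        simp [Module.Basis.prod_apply, jtPairForm_apply, Matrix.one_apply, Pi.single_apply,
          eq_comm]
    rw [e, det_swap s h2]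

theorem ftype_orth (h2 : (2 : F) ≠ 0) (μ : Multiset ℕ) (hpos : ∀ a ∈ μ, 1 ≤ a)
    (hpar : ∀ j, Even j → Even (μ.count j)) : FType F False μ := by
  classical
  refine FType.of_blocks (F := F) (fun j => Even j) ?_ ?_ _ μ rfl hpos hpar
  · intro a _ hne
    exact FType.odd_block h2 a (Nat.not_even_iff_odd.mp hne)
  · intro a
    exact FType.pair False a

theorem FTypeD.of_pairs (h2 : (2 : F) ≠ 0) : ∀ (c : ℕ) (μ : Multiset ℕ), Multiset.card μ = c →
    (∀ j, Even (μ.count j)) → ∃ k, μ.sum = 2 * k ∧ FTypeD F μ ((-1) ^ k) := by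
  classical
  intro c
  induction c using Nat.strong_induction_on with
  | _ c ih =>
    intro μ hc hpar
    by_cases h0 : μ = 0
    · rw [h0]
      exact ⟨0, by simp, by simpa using (FTypeD.zero (F := F))⟩
    obtain ⟨a, ha⟩ := Multiset.exists_mem_of_ne_zero h0
    obtain ⟨μ', rfl⟩ := Multiset.exists_cons_of_mem ha
    rw [Multiset.card_cons] at hc
    have hev := hpar a
    rw [Multiset.count_cons_self] at hev
    have hpos' : 0 < μ'.count a := by
      rcases hev with ⟨r, hr⟩
      omega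
    obtain ⟨μ'', rfl⟩ := Multiset.exists_cons_of_mem (Multiset.count_pos.mp hpos')
    rw [Multiset.card_cons] at hc
    have e : a ::ₘ a ::ₘ μ'' = ({a, a} : Multiset ℕ) + μ'' := by
      rw [Multiset.insert_eq_cons, Multiset.cons_add, Multiset.singleton_add]
    obtain ⟨k, hk, hF⟩ := ih (Multiset.card μ'') (by omega) μ'' rfl (by
      intro j
      have h1 := hpar j
      by_cases hja : j = a
      · subst hja
        rw [Multiset.count_cons_self, Multiset.count_cons_self] at h1
        rcases h1 with ⟨r, hr⟩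
        exact ⟨r - 1, by omega⟩
      · rw [Multiset.count_cons_of_ne hja, Multiset.count_cons_of_ne hja] at h1
        exact h1)
    refine ⟨a + k, ?_, ?_⟩
    · rw [Multiset.sum_cons, Multiset.sum_cons, hk]
      ring
    · rw [e, pow_add]
      exact FTypeD.add (FTypeD.pair h2 a) hF

/-- Admissible types of even total size `2d` have a model whose discriminant is `(-1)^d` times
a square. -/
theorem jt_plus_model (h2 : (2 : F) ≠ 0) (μ : Multiset ℕ) (hpos : ∀ a ∈ μ, 1 ≤ a)
    (hpar : ∀ j, Even j → Even (μ.count j)) (d : ℕ) (hsum : μ.sum = 2 * d) :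
    ∃ δ : F, FTypeD F μ δ ∧ IsSquare ((-1) ^ d * δ) := by
  classical
  by_cases hall : ∀ j, Even (μ.count j)
  · obtain ⟨k, hk, hF⟩ := FTypeD.of_pairs h2 _ μ rfl hall
    have hkd : k = d := by omega
    subst hkd
    refine ⟨_, hF, ⟨1, ?_⟩⟩
    rw [← mul_pow]
    simp
  · obtain ⟨s, hs⟩ := not_forall.mp hall
    have hsodd : Odd s := by
      rw [← Nat.not_even_iff_odd]
      intro hev
      exact hs (hpar s hev)
    have hmem : s ∈ μ := by
      apply Multiset.count_pos.mp
      rcases Nat.eq_zero_or_pos (μ.count s) with h0 | h0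
      · rw [h0] at hs
        exact absurd Even.zero hs
      · exact h0
    obtain ⟨μ', rfl⟩ := Multiset.exists_cons_of_mem hmem
    have hF' : FType F False μ' :=
      ftype_orth h2 μ' (fun a ha => hpos a (Multiset.mem_cons_of_mem ha)) (by
        intro j hj
        have h1 := hpar j hj
        have hne : j ≠ s := by
          rintro rfl
          exact (Nat.not_even_iff_odd.mpr hsodd) hj
        rwa [Multiset.count_cons_of_ne hne] at h1)
    obtain ⟨δ', hδ', hD'⟩ := FTypeD.of_ftype hF'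
    obtain ⟨δ₀, hδ₀, hD₀⟩ := FTypeD.of_ftype (FType.odd_block h2 s hsodd)
    obtain ⟨c, hc⟩ : ∃ c : F, c = (-1) ^ d * δ₀ * δ' := ⟨_, rfl⟩
    have hc0 : c ≠ 0 := by
      rw [hc]
      exact mul_ne_zero (mul_ne_zero (pow_ne_zero _ (by norm_num)) hδ₀) hδ'
    have hD := (hD₀.smul c hc0).add hD'
    rw [Multiset.sum_singleton, Multiset.singleton_add] at hD
    refine ⟨_, hD, ?_⟩
    obtain ⟨t, ht⟩ := hsodd
    refine ⟨c ^ (t + 1), ?_⟩
    have h1 : (-1 : F) ^ d * (c ^ s * δ₀ * δ') = c ^ s * ((-1) ^ d * δ₀ * δ') := by ring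
    rw [h1, ← hc, ht]
    ring

end JTDisc

end Cfsg.Agent.Lib.Helper99
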