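import Mathlib
import Cfsg.Agent.Lib.Helper99.JType4
import Cfsg.Agent.Lib.Helper14.Forms
import Cfsg.Agent.Lib.Helper43.OMinusBal.Group1

/-!
# Jordan types of unipotent elements of `Ω⁺_{2d}(q)` and `Ω_{2d+1}(q)`, `q` odd

`jt_exists_plus`, `jt_exists_odd`: realisation of the admissible types by elements of order
dividing `p` in `Ω` of the standard forms.  `jt_matrix_sub_type`: the type induced on an
invariant nondegenerate subspace.
-/

set_option autoImplicit false

namespace Cfsg.Agent.Lib.Helper99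

open Module Matrix Cfsg.Agent.Lib.Helper40

universe u v

section JTWitt

open QuadraticMap

variable {F : Type u} [Field F] {V : Type v} [AddCommGroup V] [Module F V]

/-- If `(-1)^k` times the Gram determinant is a square, a nondegenerate symmetric form in
dimension `2k` over a finite field of odd order is the standard plus-type form in a suitable
basis. -/
theorem witt_plus_of_disc [Fintype F] [FiniteDimensional F V] (h2 : (2 : F) ≠ 0)
    (B : LinearMap.BilinForm F V) (hB : B.Nondegenerate) (hsymm : ∀ x y, B x y = B y x) (k : ℕ)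
    (hV : finrank F V = 2 * k) {ι : Type*} [Fintype ι] [DecidableEq ι] (b : Basis ι F V)
    (hsq : IsSquare ((-1) ^ k * (Matrix.of fun i j : ι => B (b i) (b j)).det)) :
    ∃ c : Basis (Fin k ⊕ Fin k) F V, ∀ v, B v v = Cfsg.quadFormPlus k F (c.equivFun v) := by
  classical
  let Q : QuadraticForm F V := LinearMap.BilinMap.toQuadraticMap B
  have hQ : ∀ x, Q x = B x x := fun _ => rfl
  have hpol : ∀ x y, polar Q x y = 2 * B x y := by
    intro x y
    simp only [polar, hQ, map_add, LinearMap.add_apply]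
    rw [hsymm y x]
    ring
  have hQnd : Q.polarBilin.Nondegenerate := by
    have hL : ∀ x, (∀ y, polar Q x y = 0) → x = 0 := by
      intro x hx
      apply hB.1
      intro u
      have h3 := hx u
      rw [hpol] at h3
      exact (mul_eq_zero.mp h3).resolve_left h2
    exact ⟨fun x hx => hL x hx, fun y hy => hL y (fun x => by
      have h := hy x
      rw [polarBilin_apply_apply] at h
      rw [polar_comm]; exact h)⟩
  obtain ⟨k', e, f, hH, h | h | h⟩ := witt Q hQnd
  · obtain ⟨c, hc1, hc2⟩ := h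
    have hk' : k' = k := by
      have h3 := Module.finrank_eq_card_basis c
      simp only [Fintype.card_sum, Fintype.card_fin] at h3
      omega
    subst hk'
    refine ⟨c, fun v => ?_⟩
    have h1 := hyp_eval Q e f hH (fun i => c.repr v (Sum.inl i))
      (fun i => c.repr v (Sum.inr i)) 0 (fun i => by simp)
    have h3 : (∑ i, c.repr v (Sum.inl i) • e i + ∑ i, c.repr v (Sum.inr i) • f i + 0) = v := by
      rw [add_zero]
      conv_rhs => rw [← c.sum_repr v]
      rw [Fintype.sum_sum_type]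
      simp only [hc1, hc2]
    rw [h3] at h1
    rw [← hQ v, h1, map_zero, add_zero]
    rfl
  · obtain ⟨x, c, -⟩ := h
    have h3 := Module.finrank_eq_card_basis c
    simp only [Fintype.card_sum, Fintype.card_fin, Fintype.card_unit] at h3
    omega
  · obtain ⟨x, y, c, hQx, hxy, ht, hxe, hye, hc1, hc2, hc3, hc4⟩ := h
    exfalso
    have hk' : k = k' + 1 := by
      have h3 := Module.finrank_eq_card_basis c
      simp only [Fintype.card_sum, Fintype.card_fin] at h3
      omega
    subst hk'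
    obtain ⟨p, hp0, hp⟩ := gram_det_bases B b c
    have hG : Matrix.of (fun s t => polar Q (c s) (c t))
        = Matrix.fromBlocks (Matrix.fromBlocks (0 : Matrix (Fin k') (Fin k') F) 1 1 0) 0 0
          (Matrix.of ![![2, 1], ![1, 2 * Q y]]) := by
      ext s t
      rcases s with (i | i) | i <;> rcases t with (j | j) | j
      · simp [hc1, (hH.2.2 i j).1]
      · simp [hc1, hc2, hH.2.1 i j, Matrix.one_apply]
      · fin_cases j
        · simp [hc1, hc3]
          rw [polar_comm]; exact (hxe i).1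
        · simp [hc1, hc4]
          rw [polar_comm]; exact (hye i).1
      · simp only [Matrix.of_apply, hc1, hc2, Matrix.fromBlocks_apply₁₁,
          Matrix.fromBlocks_apply₂₁, Matrix.one_apply]
        rw [polar_comm, hH.2.1 j i]
        simp [eq_comm]
      · simp [hc2, (hH.2.2 i j).2]
      · fin_cases j
        · simp [hc2, hc3]
          rw [polar_comm]; exact (hxe i).2
        · simp [hc2, hc4]
          rw [polar_comm]; exact (hye i).2
      · fin_cases i
        · simp [hc1, hc3, (hxe j).1]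
        · simp [hc1, hc4, (hye j).1]
      · fin_cases i
        · simp [hc2, hc3, (hxe j).2]
        · simp [hc2, hc4, (hye j).2]
      · fin_cases i <;> fin_cases j
        · simp [hc3, polar_self, hQx]
        · simp [hc3, hc4, hxy]
        · simp [hc3, hc4]
          rw [polar_comm]; exact hxy
        · simp [hc4, polar_self]
    have hdetG : (Matrix.fromBlocks (Matrix.fromBlocks (0 : Matrix (Fin k') (Fin k') F) 1 1 0)
        (0 : Matrix (Fin k' ⊕ Fin k') (Fin 2) F) (0 : Matrix (Fin 2) (Fin k' ⊕ Fin k') F)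
          (Matrix.of ![![2, 1], ![1, 2 * Q y]])).det = (-1) ^ k' * (4 * Q y - 1) := by
      rw [Matrix.det_fromBlocks_zero₁₂, det_swap k' h2, Matrix.det_fin_two_of]
      ring
    have hsm : Matrix.of (fun s t => polar Q (c s) (c t))
        = (2 : F) • Matrix.of (fun s t => B (c s) (c t)) := by
      ext s t
      simp [hpol]
    have hdet2 : (2 : F) ^ (k' + 1) * (2 : F) ^ (k' + 1)
        * (Matrix.of (fun s t => B (c s) (c t))).det = (-1) ^ k' * (4 * Q y - 1) := by
      rw [← hdetG, ← hG, hsm, Matrix.det_smul]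
      simp only [Fintype.card_sum, Fintype.card_fin]
      ring
    obtain ⟨r, hr⟩ := hsq
    rw [hp] at hr
    have hone : ((-1 : F) ^ k') * ((-1) ^ k') = 1 := by
      rw [← mul_pow]; simp
    have hs : (r * 2 ^ (k' + 1)) ^ 2 = p ^ 2 * (1 - 4 * Q y) := by
      rw [pow_succ (-1 : F) k'] at hr
      linear_combination (-(2 : F) ^ (k' + 1) * (2 : F) ^ (k' + 1)) * hr
        + (-((-1 : F) ^ k' * p * p)) * hdet2 + (-(p * p * (4 * Q y - 1))) * hone
    apply ht ((r * 2 ^ (k' + 1) / p - 1) / 2)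
    field_simp
    linear_combination hs

end JTWitt

section JTFinal

variable {F : Type u} [Field F]

theorem jt_pow_eq_zero_of_rank {ι : Type*} [Fintype ι] [DecidableEq ι] (N : Matrix ι ι F)
    (j : ℕ) (h : (N ^ j).rank = 0) : N ^ j = 0 := by
  rw [jt_rank_pow_eq] at h
  have h1 := (Jordan.pow_eq_zero_iff_finrank (Matrix.toLin' N) j).mpr h
  rw [← Matrix.toLin'_pow] at h1
  exact Matrix.toLin'.injective (h1.trans (map_zero _).symm)

/-- Transfer of a model with square signed discriminant to the standard plus-type form. -/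
theorem jt_plus_transfer [Fintype F] (h2 : (2 : F) ≠ 0) (d : ℕ) {μ : Multiset ℕ} {δ : F}
    (h : FTypeD F μ δ) (hsq : IsSquare ((-1) ^ d * δ)) (hsum : μ.sum = 2 * d) :
    ∃ M : Matrix (Fin d ⊕ Fin d) (Fin d ⊕ Fin d) F,
      (∀ u, Cfsg.quadFormPlus d F (M *ᵥ u) = Cfsg.quadFormPlus d F u) ∧
      ∀ j, ((M - 1) ^ j).rank = Jordan.rk μ j := by
  classical
  obtain ⟨n, B, g, ι, _, _, b, a2, a3, a4, a5, a6⟩ := h
  have hn : n = 2 * d := by
    have h0 := a5 0
    rw [Jordan.finrank_range_pow_zero, Jordan.rk_zero, Module.finrank_fin_fun] at h0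
    omega
  have hB : B.Nondegenerate := ⟨a3, fun y hy => a3 y (fun x => by rw [a2]; exact hy x)⟩
  obtain ⟨c, hc⟩ := witt_plus_of_disc h2 B hB a2 d (by rw [Module.finrank_fin_fun, hn]) b
    (by rw [a6]; exact hsq)
  refine ⟨jtMat c.equivFun g, fun u => ?_, fun j => ?_⟩
  · rw [jtMat_mulVec, ← hc, a4, hc, LinearEquiv.apply_symm_apply]
  · rw [jtMat_rank, a5]

/-- A unipotent isometry in odd characteristic lies in `Ω`. -/
theorem jt_unip_mem_omega {ι : Type} [Fintype ι] [DecidableEq ι] [Nonempty ι]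
    (h2 : (2 : F) ≠ 0) (p : ℕ) [Fact p.Prime] [CharP F p] (Q : QuadraticForm F (ι → F))
    (hQ : (QuadraticMap.polarBilin Q).Nondegenerate) (M : Matrix ι ι F)
    (hM : ∀ u, Q (M *ᵥ u) = Q u) (hN : (M - 1) ^ p = 0) :
    ∃ x : GL ι F, (x : Matrix ι ι F) = M ∧ x ∈ Cfsg.Geo.omegaGL ⇑Q ∧ x ^ p = 1 := by
  have hp := (Fact.out : p.Prime)
  have hMp : M ^ p = 1 := by
    have h1 : (M - 1) ^ p = M ^ p - 1 ^ p := sub_pow_char_of_commute p (Commute.one_right M)
    rw [one_pow, hN] at h1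
    exact sub_eq_zero.mp h1.symm
  have hpodd : Odd p := by
    rcases hp.eq_two_or_odd' with h | h
    · exfalso
      apply h2
      have h3 := CharP.cast_eq_zero F p
      rw [h] at h3
      exact_mod_cast h3
    · exact h
  obtain ⟨x, hx⟩ : ∃ x : GL ι F, (x : Matrix ι ι F) = M := by
    obtain ⟨r, hr⟩ : ∃ r, p = r + 1 := ⟨p - 1, by have := hp.pos; omega⟩
    refine ⟨⟨M, M ^ r, ?_, ?_⟩, rfl⟩
    · rw [← pow_succ', ← hr, hMp]
    · rw [← pow_succ, ← hr, hMp]
  have hxp : x ^ p = 1 := by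
    apply Units.ext
    rw [Units.val_pow_eq_pow_val, hx, hMp]
    rfl
  have hmem : x ∈ Cfsg.isometryGroup F ⇑Q := by
    intro u v
    show Q ((x : Matrix ι ι F) *ᵥ u) = Q u
    rw [hx]
    exact hM u
  have hΩ := Cfsg.Agent.Lib.Helper43.OMinusBal.mem_omega_of_pow h2 Q hQ ⟨x, hmem⟩ p hpodd (by
    apply Subtype.ext
    rw [Subgroup.coe_pow]
    exact hxp)
  refine ⟨x, hx, ?_, hxp⟩
  unfold Cfsg.Geo.omegaGL
  exact Subgroup.mem_map.mpr ⟨⟨x, hmem⟩, hΩ, rfl⟩

/-- The Jordan type induced on an invariant nondegenerate subspace. -/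
theorem jt_matrix_sub_type {ι : Type} [Fintype ι] [DecidableEq ι] (h2 : (2 : F) ≠ 0)
    (Q : QuadraticForm F (ι → F)) (M : Matrix ι ι F) (hM : ∀ u, Q (M *ᵥ u) = Q u)
    (W : Submodule F (ι → F))
    (hnd : Cfsg.Geo.IsNondegenerateOn (QuadraticMap.polar ⇑Q) W)
    (hW : W.map (Matrix.toLin' M) ≤ W) (μ : Multiset ℕ) (hμ : ∀ a ∈ μ, 0 < a)
    (hr : ∀ j, ((M - 1) ^ j).rank = Jordan.rk μ j) :
    ∃ ν : Multiset ℕ, ν ≤ μ ∧ ν.sum = finrank F W ∧ ∀ e, Even e → Even (ν.count e) := by
  have e1 : Matrix.toLin' M - 1 = Matrix.toLin' (M - 1) := by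
    rw [map_sub, Matrix.toLin'_one]
    rfl
  refine jt_sub_type h2 (QuadraticMap.polarBilin Q) (fun x y => ?_) (Matrix.toLin' M)
    (fun x y => ?_) W (fun x hx => hW (Submodule.mem_map_of_mem hx)) (fun w hw hw0 => ?_) μ hμ
    (fun j => ?_)
  · simp only [QuadraticMap.polarBilin_apply_apply]
    exact QuadraticMap.polar_comm Q x y
  · simp only [QuadraticMap.polarBilin_apply_apply, Matrix.toLin'_apply]
    unfold QuadraticMap.polar
    rw [← Matrix.mulVec_add, hM, hM, hM]
  · by_contra hne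
    obtain ⟨-, x, hx, hx0⟩ := hnd w hw hne
    exact hx0 (hw0 x hx)
  · rw [e1, ← jt_rank_pow_eq, hr]

/-- Realisation of the admissible unipotent types in `Ω⁺_{2d}(q)`, `q` odd. -/
theorem jt_exists_plus [Fintype F] (h2 : (2 : F) ≠ 0) (p : ℕ) [Fact p.Prime] [CharP F p]
    (d : ℕ) (hd : 1 ≤ d) (μ : Multiset ℕ) (hpos : ∀ a ∈ μ, 1 ≤ a) (hle : ∀ a ∈ μ, a ≤ p)
    (hpar : ∀ j, Even j → Even (μ.count j)) (hsum : μ.sum = 2 * d) :
    ∃ x : GL (Fin d ⊕ Fin d) F, x ∈ Cfsg.Geo.omegaGL (Cfsg.quadFormPlus d F) ∧ x ^ p = 1 ∧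
      (∀ u, Cfsg.quadFormPlus d F ((x : Matrix (Fin d ⊕ Fin d) (Fin d ⊕ Fin d) F) *ᵥ u) =
        Cfsg.quadFormPlus d F u) ∧
      ∀ j, (((x : Matrix (Fin d ⊕ Fin d) (Fin d ⊕ Fin d) F) - 1) ^ j).rank = Jordan.rk μ j := by
  obtain ⟨δ, hD, hsq⟩ := jt_plus_model h2 μ hpos hpar d hsum
  obtain ⟨M, hM, hr⟩ := jt_plus_transfer h2 d hD hsq hsum
  have hne : Nonempty (Fin d ⊕ Fin d) := ⟨Sum.inl ⟨0, hd⟩⟩
  have hN : (M - 1) ^ p = 0 := by
    apply jt_pow_eq_zero_of_rank
    rw [hr, Jordan.rk_eq_zero_iff]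
    exact hle
  have hcoe := Cfsg.Agent.Lib.Helper14.plusQF_coe d F
  obtain ⟨x, hx, hxΩ, hxp⟩ := jt_unip_mem_omega h2 p (Cfsg.Agent.Lib.Helper14.plusQF d F)
    (Cfsg.Agent.Lib.Helper14.plusQF_nondegenerate d F) M (fun u => by rw [hcoe]; exact hM u) hN
  rw [hcoe] at hxΩ
  exact ⟨x, hxΩ, hxp, by rw [hx]; exact hM, by rw [hx]; exact hr⟩

/-- A matrix with a nontrivial unipotent rank sequence is not scalar. -/
theorem jt_not_scalar {ι : Type*} [Fintype ι] [DecidableEq ι] [Nonempty ι] (M : Matrix ι ι F)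
    (μ : Multiset ℕ) (hr : ∀ j, ((M - 1) ^ j).rank = Jordan.rk μ j) (hμ : ¬ ∀ a ∈ μ, a ≤ 1)
    (z : F) : M ≠ z • (1 : Matrix ι ι F) := by
  intro hz
  have hK : Jordan.rk μ μ.sum = 0 := by
    rw [Jordan.rk_eq_zero_iff]
    intro a ha
    exact Multiset.le_sum_of_mem ha
  have h1 : (M - 1) ^ μ.sum = 0 := by
    apply jt_pow_eq_zero_of_rank
    rw [hr, hK]
  have h3 : M - 1 = (z - 1) • (1 : Matrix ι ι F) := by
    rw [hz, sub_smul, one_smul]
  have hz1 : z - 1 = 0 := by
    rw [h3, smul_pow, one_pow] at h1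
    obtain ⟨i⟩ := (inferInstance : Nonempty ι)
    have h4 := congrFun (congrFun h1 i) i
    simp only [Matrix.smul_apply, Matrix.one_apply_eq, smul_eq_mul, mul_one,
      Matrix.zero_apply] at h4
    exact pow_eq_zero_iff (n := μ.sum) (by
      intro h0
      apply hμ
      intro a ha
      have := Multiset.le_sum_of_mem ha
      omega) |>.mp h4
  have h5 : (M - 1) ^ 1 = 0 := by
    rw [pow_one, h3, hz1, zero_smul]
  have h6 := hr 1
  rw [h5, Matrix.rank_zero] at h6
  exact hμ ((Jordan.rk_eq_zero_iff μ 1).mp h6.symm)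

end JTFinal

end Cfsg.Agent.Lib.Helper99
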