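import Mathlib
import Cfsg.Agent.Lib.Helper99.JType5

/-!
# Jordan types of unipotent elements of `Ω_{2d+1}(q)`, `q` odd

`jt_exists_odd`: realisation of the admissible types by elements of order dividing `p` in `Ω`
of the standard odd-dimensional form.
-/

set_option autoImplicit false

namespace Cfsg.Agent.Lib.Helper99

open Module Matrix Cfsg.Agent.Lib.Helper40

universe u v

section JTOdd

open QuadraticMap

variable {F : Type u} [Field F]

/-- Transfer of a model of odd dimension to the standard odd-dimensional form. -/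
theorem jt_odd_transfer [Fintype F] (h2 : (2 : F) ≠ 0) (d : ℕ) {μ : Multiset ℕ}
    (h : FType F False μ) (hsum : μ.sum = 2 * d + 1) :
    ∃ M : Matrix (Unit ⊕ (Fin d ⊕ Fin d)) (Unit ⊕ (Fin d ⊕ Fin d)) F,
      (∀ u, Cfsg.quadFormOdd d F (M *ᵥ u) = Cfsg.quadFormOdd d F u) ∧
      ∀ j, ((M - 1) ^ j).rank = Jordan.rk μ j := by
  classical
  obtain ⟨n, B, g, -, h1, a3, a4, a5⟩ := h
  have hsymm := h1 not_false
  have hn : n = 2 * d + 1 := by
    have h0 := a5 0
    rw [Jordan.finrank_range_pow_zero, Jordan.rk_zero, Module.finrank_fin_fun] at h0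
    omega
  let Q : QuadraticForm F (Fin n → F) := LinearMap.BilinMap.toQuadraticMap B
  have hQ : ∀ x, Q x = B x x := fun _ => rfl
  have hpol : ∀ x y, polar Q x y = 2 * B x y := by
    intro x y
    simp only [polar, hQ, map_add, LinearMap.add_apply]
    rw [hsymm y x]
    ring
  have hQnd : Q.polarBilin.Nondegenerate := by
    have hL : ∀ x, (∀ y, polar Q x y = 0) → x = 0 := by
      intro x hx
      apply a3
      intro u
      have h3 := hx u
      rw [hpol] at h3
      exact (mul_eq_zero.mp h3).resolve_left h2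
    exact ⟨fun x hx => hL x hx, fun y hy => hL y (fun x => by
      have h := hy x
      rw [polarBilin_apply_apply] at h
      rw [polar_comm]; exact h)⟩
  obtain ⟨k, e, f, hH, h | h | h⟩ := witt Q hQnd
  · obtain ⟨c, -⟩ := h
    have h3 := Module.finrank_eq_card_basis c
    simp only [Fintype.card_sum, Fintype.card_fin, Module.finrank_fin_fun] at h3
    omega
  · obtain ⟨x, c, hQx, hperp, hc1, hc2, hc3⟩ := h
    have hk : k = d := by
      have h3 := Module.finrank_eq_card_basis c
      simp only [Fintype.card_sum, Fintype.card_fin, Fintype.card_unit,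
        Module.finrank_fin_fun] at h3
      omega
    subst hk
    obtain ⟨w, hw⟩ : ∃ w : (Fin k ⊕ Fin k) ⊕ Unit → F,
        w = Sum.elim (Sum.elim (fun _ => Q x) (fun _ => 1)) (fun _ => 1) := ⟨_, rfl⟩
    have hwu : ∀ i, IsUnit (w i) := by
      rw [hw]
      rintro ((i | i) | i)
      · exact IsUnit.mk0 _ hQx
      · exact isUnit_one
      · exact isUnit_one
    obtain ⟨b', hb1, hb2, hb3⟩ : ∃ b' : Basis (Unit ⊕ (Fin k ⊕ Fin k)) F (Fin n → F),
        b' (Sum.inl ()) = x ∧ (∀ i, b' (Sum.inr (Sum.inl i)) = Q x • e i) ∧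
          (∀ i, b' (Sum.inr (Sum.inr i)) = f i) := by
      refine ⟨(c.isUnitSMul hwu).reindex (Equiv.sumComm _ _), ?_, ?_, ?_⟩
      · rw [Basis.reindex_apply, Basis.isUnitSMul_apply]
        show w (Sum.inr ()) • c (Sum.inr ()) = x
        rw [hc3, hw]
        simp
      · intro i
        rw [Basis.reindex_apply, Basis.isUnitSMul_apply]
        show w (Sum.inl (Sum.inl i)) • c (Sum.inl (Sum.inl i)) = Q x • e i
        rw [hc1, hw]
        rfl
      · intro i
        rw [Basis.reindex_apply, Basis.isUnitSMul_apply]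
        show w (Sum.inl (Sum.inr i)) • c (Sum.inl (Sum.inr i)) = f i
        rw [hc2, hw]
        simp
    have hQv : ∀ v, Q v = Q x * Cfsg.quadFormOdd k F (b'.equivFun v) := by
      intro v
      have h1' := hyp_eval Q e f hH (fun i => b'.repr v (Sum.inr (Sum.inl i)) * Q x)
        (fun i => b'.repr v (Sum.inr (Sum.inr i))) (b'.repr v (Sum.inl ()) • x) (fun i => by
          rw [polar_smul_left, polar_smul_left, (hperp i).1, (hperp i).2]
          simp)
      have h3 : (∑ i, (b'.repr v (Sum.inr (Sum.inl i)) * Q x) • e i +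
          ∑ i, b'.repr v (Sum.inr (Sum.inr i)) • f i + b'.repr v (Sum.inl ()) • x) = v := by
        conv_rhs => rw [← b'.sum_repr v]
        rw [Fintype.sum_sum_type, Fintype.sum_sum_type]
        simp only [hb1, hb2, hb3, Finset.univ_unique, Finset.sum_singleton, smul_smul,
          PUnit.default_eq_unit]
        abel
      rw [h3] at h1'
      rw [h1', QuadraticMap.map_smul]
      simp only [Cfsg.quadFormOdd, Basis.equivFun_apply]
      rw [mul_add, Finset.mul_sum, add_comm]
      congr 1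
      · rw [smul_eq_mul]
        ring
      · exact Finset.sum_congr rfl (fun i _ => by ring)
    refine ⟨jtMat b'.equivFun g, fun u => ?_, fun j => ?_⟩
    · have hQv' : ∀ v, Cfsg.quadFormOdd k F (b'.equivFun v) = (Q x)⁻¹ * Q v := by
        intro v
        rw [hQv v, ← mul_assoc, inv_mul_cancel₀ hQx, one_mul]
      have hg : ∀ z, Q (g z) = Q z := fun z => a4 z z
      rw [jtMat_mulVec, hQv', hg, ← hQv', LinearEquiv.apply_symm_apply]
    · rw [jtMat_rank, a5]
  · obtain ⟨x, y, c, -⟩ := h
    have h3 := Module.finrank_eq_card_basis c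
    simp only [Fintype.card_sum, Fintype.card_fin, Module.finrank_fin_fun] at h3
    omega

/-- Realisation of the admissible unipotent types in `Ω_{2d+1}(q)`, `q` odd. -/
theorem jt_exists_odd [Fintype F] (h2 : (2 : F) ≠ 0) (p : ℕ) [Fact p.Prime] [CharP F p]
    (d : ℕ) (μ : Multiset ℕ) (hpos : ∀ a ∈ μ, 1 ≤ a) (hle : ∀ a ∈ μ, a ≤ p)
    (hpar : ∀ j, Even j → Even (μ.count j)) (hsum : μ.sum = 2 * d + 1) :
    ∃ x : GL (Unit ⊕ (Fin d ⊕ Fin d)) F, x ∈ Cfsg.Geo.omegaGL (Cfsg.quadFormOdd d F) ∧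
      x ^ p = 1 ∧
      (∀ u, Cfsg.quadFormOdd d F
          ((x : Matrix (Unit ⊕ (Fin d ⊕ Fin d)) (Unit ⊕ (Fin d ⊕ Fin d)) F) *ᵥ u) =
        Cfsg.quadFormOdd d F u) ∧
      ∀ j, (((x : Matrix (Unit ⊕ (Fin d ⊕ Fin d)) (Unit ⊕ (Fin d ⊕ Fin d)) F) - 1) ^ j).rank =
        Jordan.rk μ j := by
  obtain ⟨M, hM, hr⟩ := jt_odd_transfer h2 d (ftype_orth h2 μ hpos hpar) hsum
  have hN : (M - 1) ^ p = 0 := by
    apply jt_pow_eq_zero_of_rank
    rw [hr, Jordan.rk_eq_zero_iff]
    exact hle
  have hcoe := Cfsg.Agent.Lib.Helper14.oddQF_coe d F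
  obtain ⟨x, hx, hxΩ, hxp⟩ := jt_unip_mem_omega h2 p (Cfsg.Agent.Lib.Helper14.oddQF d F)
    (Cfsg.Agent.Lib.Helper14.oddQF_nondegenerate d F h2) M
    (fun u => by rw [hcoe]; exact hM u) hN
  rw [hcoe] at hxΩ
  exact ⟨x, hxΩ, hxp, by rw [hx]; exact hM, by rw [hx]; exact hr⟩

/-- The sum of a multiset with at most two kinds of parts, one of them `2`. -/
theorem jt_sum_two_kinds (u : ℕ) (hu : u ≠ 2) (ν : Multiset ℕ)
    (h : ∀ e ∈ ν, e = u ∨ e = 2) : ν.sum = u * ν.count u + 2 * ν.count 2 := by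
  induction ν using Multiset.induction with
  | empty => simp
  | cons a ν ih =>
    have ih' := ih (fun e he => h e (Multiset.mem_cons_of_mem he))
    rw [Multiset.sum_cons, Multiset.count_cons, Multiset.count_cons, ih']
    rcases h a (Multiset.mem_cons_self a ν) with h1 | h1
    · rw [h1, if_pos rfl, if_neg (Ne.symm hu)]
      ring
    · rw [h1, if_neg hu, if_pos rfl]
      ring

end JTOdd

end Cfsg.Agent.Lib.Helper99
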