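import Mathlib
import Cfsg.Agent.Lib.Helper99.JType6
import Cfsg.Agent.Lib.Helper44.DiagIso

/-!
# Jordan types of unipotent elements of `Ω⁻_{2d}(q)`, `q` odd

`jt_sub_type_rk`: the induced type on an invariant nondegenerate subspace, with its rank
sequence; `jt_matrix_sub_type_rk`: an invariant elliptic subspace does not carry the type
`(2^{2k})`; `jt_exists_minus`: realisation of the admissible types with an odd part in `Ω⁻`;
`jt_even_fix`: the combinatorial reduction for types without odd parts.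
-/

set_option autoImplicit false

namespace Cfsg.Agent.Lib.Helper99

open Module Matrix Cfsg.Agent.Lib.Helper40

universe u v

section JTSubRk

variable {F : Type u} [Field F] {V : Type v} [AddCommGroup V] [Module F V]

theorem jt_sub_type_rk [FiniteDimensional F V] (h2 : (2 : F) ≠ 0) (B : LinearMap.BilinForm F V)
    (hS : ∀ x y, B x y = B y x) (g : V →ₗ[F] V) (hg : ∀ x y, B (g x) (g y) = B x y)
    (W : Submodule F V) (hW : ∀ x ∈ W, g x ∈ W)
    (hnd : ∀ w ∈ W, (∀ x ∈ W, B w x = 0) → w = 0)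
    (μ : Multiset ℕ) (hμ : ∀ a ∈ μ, 0 < a)
    (hr : ∀ j, finrank F (LinearMap.range ((g - 1) ^ j)) = Jordan.rk μ j) :
    ∃ ν : Multiset ℕ, ν ≤ μ ∧ ν.sum = finrank F W ∧ (∀ e, Even e → Even (ν.count e)) ∧
      ∀ j, finrank F (W.map ((g - 1) ^ j)) = Jordan.rk ν j := by
  classical
  have hSW : ∀ x y : W, B.restrict W x y = B.restrict W y x := fun x y => hS x.1 y.1
  have hBW : (B.restrict W).Nondegenerate := by
    have hL : ∀ x : W, (∀ y : W, B.restrict W x y = 0) → x = 0 := fun x hx =>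
      Subtype.ext (hnd x.1 x.2 (fun y hy => hx ⟨y, hy⟩))
    exact ⟨hL, fun y hy => hL y (fun x => by rw [hSW]; exact hy x)⟩
  have hrefl : B.IsRefl := fun x y hxy => by rw [hS]; exact hxy
  have hc : IsCompl W (B.orthogonal W) :=
    LinearMap.BilinForm.isCompl_orthogonal_of_restrict_nondegenerate hrefl hBW
  obtain ⟨gW, hgW⟩ : ∃ gW : W →ₗ[F] W, ∀ x : W, (gW x : V) = g x :=
    ⟨g.restrict hW, fun x => rfl⟩
  have hgWiso : ∀ x y : W, B.restrict W (gW x) (gW y) = B.restrict W x y := fun x y => by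
    show B (gW x : V) (gW y : V) = B x.1 y.1
    rw [hgW, hgW, hg]
  have hinj : Function.Injective gW := by
    rw [← LinearMap.ker_eq_bot, LinearMap.ker_eq_bot']
    intro x hx
    apply hBW.1
    intro y
    rw [← hgWiso, hx]
    simp
  have hsurj : Function.Surjective gW := LinearMap.surjective_of_injective hinj
  have hW' : ∀ x ∈ B.orthogonal W, g x ∈ B.orthogonal W := by
    intro x hx
    rw [LinearMap.BilinForm.mem_orthogonal_iff] at hx ⊢
    intro n hn
    obtain ⟨n₀, hn₀⟩ := hsurj ⟨n, hn⟩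
    have e : n = g n₀.1 := by rw [← hgW, hn₀]
    show B n (g x) = 0
    rw [e, hg]
    exact hx n₀.1 n₀.2
  obtain ⟨gW', hgW'⟩ : ∃ gW' : ↥(B.orthogonal W) →ₗ[F] ↥(B.orthogonal W),
      ∀ x, (gW' x : V) = g x := ⟨g.restrict hW', fun x => rfl⟩
  have hconj : Jordan.Conj ((gW - 1).prodMap (gW' - 1)) (g - 1) := by
    refine ⟨Submodule.prodEquivOfIsCompl W (B.orthogonal W) hc, ?_⟩
    rintro ⟨a, b⟩
    simp only [LinearMap.prodMap_apply, Submodule.coe_prodEquivOfIsCompl', LinearMap.sub_apply,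
      Module.End.one_apply, Submodule.coe_sub, hgW, hgW', map_add]
  have hsum : ∀ j, finrank F (LinearMap.range ((gW - 1) ^ j)) +
      finrank F (LinearMap.range ((gW' - 1) ^ j)) = Jordan.rk μ j := by
    intro j
    rw [← hr j, ← hconj.finrank_range_pow j, Jordan.finrank_range_prodMap_pow]
  have hK : Jordan.rk μ μ.sum = 0 := by
    rw [Jordan.rk_eq_zero_iff]
    intro a ha
    exact Multiset.le_sum_of_mem ha
  have hnil : IsNilpotent (gW - 1) := by
    refine ⟨μ.sum, ?_⟩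
    rw [Jordan.pow_eq_zero_iff_finrank]
    have := hsum μ.sum
    omega
  have hnil' : IsNilpotent (gW' - 1) := by
    refine ⟨μ.sum, ?_⟩
    rw [Jordan.pow_eq_zero_iff_finrank]
    have := hsum μ.sum
    omega
  obtain ⟨ν, hνpos, hν⟩ := Jordan.exists_type (finrank F W) W (gW - 1) rfl hnil
  obtain ⟨ν', hν'pos, hν'⟩ := Jordan.exists_type (finrank F (B.orthogonal W))
    (B.orthogonal W) (gW' - 1) rfl hnil'
  have hμeq : μ = ν + ν' := by
    apply Jordan.rk_injective hμ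
    · intro a ha
      rcases Multiset.mem_add.mp ha with h | h
      · exact hνpos a h
      · exact hν'pos a h
    · intro j
      rw [← hsum j, hν, hν']
      simp [Jordan.rk, Multiset.map_add]
  have hsub1 : ∀ x : W, (((gW - 1) x : W) : V) = (g - 1) x.1 := by
    intro x
    simp [hgW]
  have hpowW : ∀ (j : ℕ) (x : W), ((((gW - 1) ^ j) x : W) : V) = ((g - 1) ^ j) x.1 := by
    intro j
    induction j with
    | zero =>
      intro x
      simp
    | succ j ih =>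
      intro x
      rw [pow_succ, Module.End.mul_apply, ih, hsub1, pow_succ, Module.End.mul_apply]
  have hmapW : ∀ j, (LinearMap.range ((gW - 1) ^ j)).map W.subtype = W.map ((g - 1) ^ j) := by
    intro j
    ext y
    constructor
    · rintro ⟨_, ⟨x, rfl⟩, rfl⟩
      exact ⟨x.1, x.2, (hpowW j x).symm⟩
    · rintro ⟨x, hx, rfl⟩
      exact ⟨_, ⟨⟨x, hx⟩, rfl⟩, hpowW j ⟨x, hx⟩⟩
  refine ⟨ν, ?_, ?_, ?_, ?_⟩
  · rw [hμeq]
    exact Multiset.le_add_right ν ν'
  · have := hν 0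
    rw [Jordan.finrank_range_pow_zero, Jordan.rk_zero] at this
    exact this.symm
  · intro e he
    rcases Nat.eq_zero_or_pos e with rfl | hpos
    · rw [Multiset.count_eq_zero_of_notMem (fun h0 => lt_irrefl _ (hνpos 0 h0))]
      exact Even.zero
    · obtain ⟨c, hc⟩ := jt_parity_symm (B.restrict W) hBW hSW h2 gW hgWiso e hpos he
      rw [hν, hν, hν] at hc
      obtain ⟨i, rfl⟩ : ∃ i, e = i + 1 := ⟨e - 1, by omega⟩
      have h3 := jt_count ν i
      rw [Nat.add_sub_cancel, show i + 1 + 1 = i + 2 from rfl] at hc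
      exact ⟨c, by omega⟩
  · intro j
    rw [← hmapW j, Submodule.finrank_map_subtype_eq, hν]

end JTSubRk

section JTMinus

variable {F : Type u} [Field F]

/-- An invariant nondegenerate subspace which is not of plus type does not carry the type
`(2^{2k})`. -/
theorem jt_matrix_sub_type_rk {ι : Type} [Fintype ι] [DecidableEq ι] (h2 : (2 : F) ≠ 0)
    (Q : QuadraticForm F (ι → F)) (M : Matrix ι ι F) (hM : ∀ u, Q (M *ᵥ u) = Q u)
    (W : Submodule F (ι → F))
    (hnd : Cfsg.Geo.IsNondegenerateOn (QuadraticMap.polar ⇑Q) W)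
    (hminus : ¬ Cfsg.Geo.IsPlusTypeOn ⇑Q W)
    (hW : W.map (Matrix.toLin' M) ≤ W) (μ : Multiset ℕ) (hμ : ∀ a ∈ μ, 0 < a)
    (hr : ∀ j, ((M - 1) ^ j).rank = Jordan.rk μ j) :
    ∃ ν : Multiset ℕ, ν ≤ μ ∧ ν.sum = finrank F W ∧ (∀ e, Even e → Even (ν.count e)) ∧
      ¬ (Jordan.rk ν 2 = 0 ∧ 2 * Jordan.rk ν 1 = finrank F W) := by
  have e1 : Matrix.toLin' M - 1 = Matrix.toLin' (M - 1) := by
    rw [map_sub, Matrix.toLin'_one]
    rfl
  have hgiso : ∀ x y, QuadraticMap.polarBilin Q (Matrix.toLin' M x) (Matrix.toLin' M y) =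
      QuadraticMap.polarBilin Q x y := by
    intro x y
    simp only [QuadraticMap.polarBilin_apply_apply, Matrix.toLin'_apply]
    unfold QuadraticMap.polar
    rw [← Matrix.mulVec_add, hM, hM, hM]
  have hWg : ∀ x ∈ W, Matrix.toLin' M x ∈ W := fun x hx => hW (Submodule.mem_map_of_mem hx)
  obtain ⟨ν, hν1, hν2, hν3, hν4⟩ := jt_sub_type_rk h2 (QuadraticMap.polarBilin Q)
    (fun x y => by
      simp only [QuadraticMap.polarBilin_apply_apply]
      exact QuadraticMap.polar_comm Q x y) (Matrix.toLin' M) hgiso W hWg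
    (fun w hw hw0 => by
      by_contra hne
      obtain ⟨-, x, hx, hx0⟩ := hnd w hw hne
      exact hx0 (hw0 x hx)) μ hμ (fun j => by rw [e1, ← jt_rank_pow_eq, hr])
  refine ⟨ν, hν1, hν2, hν3, ?_⟩
  rintro ⟨h20, h21⟩
  apply hminus
  obtain ⟨N, hN⟩ : ∃ N : (ι → F) →ₗ[F] (ι → F), N = Matrix.toLin' M - 1 := ⟨_, rfl⟩
  rw [← hN] at hν4
  have hN2 : ∀ w ∈ W, N (N w) = 0 := by
    intro w hw
    have h3 := hν4 2
    rw [h20, Submodule.finrank_eq_zero] at h3
    have h4 : (N ^ 2) w ∈ W.map (N ^ 2) := Submodule.mem_map_of_mem hw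
    rw [h3, Submodule.mem_bot, pow_two, Module.End.mul_apply] at h4
    exact h4
  have hgN : ∀ w, Matrix.toLin' M w = w + N w := by
    intro w
    rw [hN]
    simp
  refine ⟨W.map N, ?_, ?_, ?_⟩
  · rintro _ ⟨w, hw, rfl⟩
    have h3 : N w = Matrix.toLin' M w - w := by
      rw [hN]
      simp
    rw [h3]
    exact W.sub_mem (hWg w hw) hw
  · rintro _ ⟨w, hw, rfl⟩
    show Q (N w) = 0
    have h5 := hgiso (N w) w
    rw [hgN (N w), hN2 w hw, add_zero, hgN w, map_add] at h5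
    have h6 : QuadraticMap.polarBilin Q (N w) (N w) = 0 := by
      linear_combination h5
    rw [QuadraticMap.polarBilin_apply_apply, QuadraticMap.polar_self, two_nsmul] at h6
    have h7 : (2 : F) * Q (N w) = 0 := by linear_combination h6
    exact (mul_eq_zero.mp h7).resolve_left h2
  · have h3 := hν4 1
    rw [pow_one] at h3
    rw [h3, h21]

/-- In a finite field, two non-squares differ by a nonzero square factor. -/
theorem jt_nonsq_ratio [Fintype F] (x y : F) (hx : ¬ IsSquare x) (hy : ¬ IsSquare y) :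
    ∃ t : F, t ≠ 0 ∧ x = t ^ 2 * y := by
  classical
  have hx0 : x ≠ 0 := by
    rintro rfl
    exact hx (IsSquare.zero)
  have hy0 : y ≠ 0 := by
    rintro rfl
    exact hy (IsSquare.zero)
  have h1 : quadraticChar F (x * y) = 1 := by
    rw [map_mul, quadraticChar_neg_one_iff_not_isSquare.mpr hx,
      quadraticChar_neg_one_iff_not_isSquare.mpr hy]
    norm_num
  obtain ⟨r, hr⟩ := (quadraticChar_one_iff_isSquare (mul_ne_zero hx0 hy0)).mp h1
  have hr0 : r ≠ 0 := by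
    rintro rfl
    rw [mul_zero] at hr
    exact (mul_ne_zero hx0 hy0) hr
  refine ⟨r / y, div_ne_zero hr0 hy0, ?_⟩
  rw [div_pow, pow_two r, ← hr]
  field_simp

/-- Admissible types with an odd part have a model whose signed discriminant is a non-square. -/
theorem jt_minus_model [Fintype F] (h2 : (2 : F) ≠ 0) (μ : Multiset ℕ) (hpos : ∀ a ∈ μ, 1 ≤ a)
    (hpar : ∀ j, Even j → Even (μ.count j)) (d : ℕ) (s : ℕ) (hmem : s ∈ μ) (hsodd : Odd s) :
    ∃ δ : F, FTypeD F μ δ ∧ ¬ IsSquare ((-1) ^ d * δ) := by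
  classical
  have hchar : ringChar F ≠ 2 := by
    intro h
    apply h2
    have h3 := ringChar.Nat.cast_ringChar (R := F)
    rw [h] at h3
    exact_mod_cast h3
  obtain ⟨ζ, hζ⟩ := FiniteField.exists_nonsquare hchar
  have hζ0 : ζ ≠ 0 := by
    rintro rfl
    exact hζ (IsSquare.zero)
  obtain ⟨μ', rfl⟩ := Multiset.exists_cons_of_mem hmem
  have hF' : FType F False μ' :=
    ftype_orth h2 μ' (fun a ha => hpos a (Multiset.mem_cons_of_mem ha)) (by
      intro j hj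
      have h1 := hpar j hj
      have hne : j ≠ s := by
        rintro rfl
        exact (Nat.not_even_iff_odd.mpr hsodd) hj
      rwa [Multiset.count_cons_of_ne hne] at h1)
  obtain ⟨δ', hδ', hD'⟩ := FTypeD.of_ftype hF'
  obtain ⟨δ₀, hδ₀, hD₀⟩ := FTypeD.of_ftype (FType.odd_block h2 s hsodd)
  obtain ⟨c₀, hc₀⟩ : ∃ c₀ : F, c₀ = (-1) ^ d * δ₀ * δ' := ⟨_, rfl⟩
  have hc₀0 : c₀ ≠ 0 := by
    rw [hc₀]
    exact mul_ne_zero (mul_ne_zero (pow_ne_zero _ (by norm_num)) hδ₀) hδ'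
  have hc0 : ζ * c₀ ≠ 0 := mul_ne_zero hζ0 hc₀0
  have hD := (hD₀.smul (ζ * c₀) hc0).add hD'
  rw [Multiset.sum_singleton, Multiset.singleton_add] at hD
  refine ⟨_, hD, ?_⟩
  obtain ⟨t, ht⟩ := hsodd
  have h1 : (-1 : F) ^ d * ((ζ * c₀) ^ s * δ₀ * δ') = ζ * (ζ ^ t * c₀ ^ (t + 1)) ^ 2 := by
    have h3 : (-1 : F) ^ d * ((ζ * c₀) ^ s * δ₀ * δ') = (ζ * c₀) ^ s * ((-1) ^ d * δ₀ * δ') := by
      ring
    rw [h3, ← hc₀, ht]
    ring
  rw [h1]
  rintro ⟨r, hr⟩
  have hu : ζ ^ t * c₀ ^ (t + 1) ≠ 0 := mul_ne_zero (pow_ne_zero _ hζ0) (pow_ne_zero _ hc₀0)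
  apply hζ
  refine ⟨r / (ζ ^ t * c₀ ^ (t + 1)), ?_⟩
  field_simp
  linear_combination hr

/-- Transfer of a model with non-square signed discriminant to a standard minus-type form. -/
theorem jt_minus_transfer [Fintype F] (hF : Odd (Fintype.card F)) (h2 : (2 : F) ≠ 0) (d : ℕ)
    (hd : 1 ≤ d) {μ : Multiset ℕ} {δ : F} (h : FTypeD F μ δ)
    (hsq : ¬ IsSquare ((-1) ^ d * δ)) (hsum : μ.sum = 2 * d) (a b : F)
    (hab : ∀ x y : F, x ^ 2 + a * x * y + b * y ^ 2 = 0 → x = 0 ∧ y = 0) :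
    ∃ M : Matrix ((Fin (d - 1) ⊕ Fin (d - 1)) ⊕ Fin 2) ((Fin (d - 1) ⊕ Fin (d - 1)) ⊕ Fin 2) F,
      (∀ u, Cfsg.quadFormMinus (d - 1) F a b (M *ᵥ u) = Cfsg.quadFormMinus (d - 1) F a b u) ∧
      ∀ j, ((M - 1) ^ j).rank = Jordan.rk μ j := by
  classical
  obtain ⟨n, B, g, ι, _, _, bb, a2, a3, a4, a5, a6⟩ := h
  have hn : n = 2 * d := by
    have h0 := a5 0
    rw [Jordan.finrank_range_pow_zero, Jordan.rk_zero, Module.finrank_fin_fun] at h0
    omega
  have hB : B.Nondegenerate := ⟨a3, fun y hy => a3 y (fun x => by rw [a2]; exact hy x)⟩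
  have hinv : Invertible (2 : F) := invertibleOfNonzero h2
  obtain ⟨v, hv⟩ := LinearMap.BilinForm.exists_orthogonal_basis
    (LinearMap.BilinForm.isSymm_iff.mp (LinearMap.BilinForm.isSymm_def.mpr a2))
  have hv' : ∀ i j, i ≠ j → B (v i) (v j) = 0 := hv
  obtain ⟨c, hc⟩ : ∃ c : Fin (finrank F (Fin n → F)) → F, c = fun i => B (v i) (v i) := ⟨_, rfl⟩
  have hGram : (Matrix.of fun i j => B (v i) (v j)) = Matrix.diagonal c := by
    ext i j
    by_cases hij : i = j
    · subst hij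
      rw [Matrix.diagonal_apply_eq, hc]
      rfl
    · rw [Matrix.diagonal_apply_ne _ hij]
      exact hv' i j hij
  obtain ⟨pp, hpp0, hpp⟩ := gram_det_bases B bb v
  rw [a6, hGram, Matrix.det_diagonal] at hpp
  have hδ0 : δ ≠ 0 := by
    rintro rfl
    apply hsq
    rw [mul_zero]
    exact IsSquare.zero
  have hprod0 : ∏ i, c i ≠ 0 := by
    intro h0
    rw [h0, mul_zero] at hpp
    exact hδ0 hpp
  have hcne : ∀ i, c i ≠ 0 := fun i => by
    intro h0
    exact hprod0 (Finset.prod_eq_zero (Finset.mem_univ i) h0)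
  -- the diagonal form
  have hQc : ∀ x, Cfsg.Agent.Lib.Helper44.dQ c (v.equivFun x) = B x x := by
    intro x
    have hx : x = ∑ i, v.repr x i • v i := (v.sum_repr x).symm
    conv_rhs => rw [hx]
    simp only [map_sum, LinearMap.sum_apply, map_smul, LinearMap.smul_apply, smul_eq_mul]
    unfold Cfsg.Agent.Lib.Helper44.dQ
    refine Finset.sum_congr rfl (fun i _ => ?_)
    rw [Finset.sum_eq_single i]
    · rw [hc, Basis.equivFun_apply]
      ring
    · intro j _ hji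
      rw [hv' j i hji]
      ring
    · intro h
      exact absurd (Finset.mem_univ _) h
  -- the target diagonal form
  obtain ⟨e0, he0⟩ : ∃ e0 : F, e0 = b - a ^ 2 / 4 := ⟨_, rfl⟩
  have h4 : (4 : F) ≠ 0 := by
    have : (4 : F) = 2 * 2 := by norm_num
    rw [this]
    exact mul_ne_zero h2 h2
  have he0sq : ¬ IsSquare (-e0) := by
    rintro ⟨r, hr⟩
    have h3 := hab (r - a / 2) 1 (by
      rw [he0] at hr
      field_simp at hr ⊢
      linear_combination (-1 : F) * hr)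
    exact one_ne_zero h3.2
  have he00 : e0 ≠ 0 := by
    rintro h0
    apply he0sq
    rw [h0, neg_zero]
    exact IsSquare.zero
  obtain ⟨c', hc'⟩ : ∃ c' : (Fin (d - 1) ⊕ Fin (d - 1)) ⊕ Fin 2 → F,
      c' = Sum.elim (Sum.elim (fun _ : Fin (d - 1) => (1 : F)) (fun _ : Fin (d - 1) => (-1 : F)))
        ![1, b - a ^ 2 / 4] := ⟨_, rfl⟩
  have hc'ne : ∀ i, c' i ≠ 0 := by
    rw [hc']
    rintro ((i | i) | i)
    · exact one_ne_zero
    · simp
    · fin_cases i
      · simp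
      · simp only [Sum.elim_inr]
        rw [← he0]
        simpa using he00
  have hprod' : ∏ i, c' i = (-1) ^ (d - 1) * e0 := by
    rw [hc', Fintype.prod_sum_type, Fintype.prod_sum_type]
    simp only [Sum.elim_inl, Sum.elim_inr, Finset.prod_const, Finset.card_univ, Fintype.card_fin,
      one_pow, one_mul, Fin.prod_univ_two, Matrix.cons_val_zero, Matrix.cons_val_one]
    rw [he0]
  have hX : ¬ IsSquare ((-1) ^ d * (pp * pp * ∏ i, c i)) := by
    rw [← hpp]
    exact hsq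
  obtain ⟨t, ht0, ht⟩ := jt_nonsq_ratio _ _ hX he0sq
  have hcard : Fintype.card (Fin (finrank F (Fin n → F))) =
      Fintype.card ((Fin (d - 1) ⊕ Fin (d - 1)) ⊕ Fin 2) := by
    simp only [Fintype.card_fin, Fintype.card_sum, Module.finrank_fin_fun]
    omega
  obtain ⟨sg, hsg⟩ : ∃ sg : F, sg = (-1) ^ d := ⟨_, rfl⟩
  have hsg2 : sg * sg = 1 := by
    rw [hsg, ← mul_pow]
    simp
  have hsg' : (-1 : F) ^ (d - 1) = -sg := by
    obtain ⟨k, rfl⟩ : ∃ k, d = k + 1 := ⟨d - 1, by omega⟩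
    rw [hsg, Nat.add_sub_cancel, pow_succ]
    ring
  rw [← hsg] at ht
  rw [hsg'] at hprod'
  obtain ⟨P, hP⟩ : ∃ P : F, P = ∏ i, c i := ⟨_, rfl⟩
  rw [← hP] at ht
  have hI := Cfsg.Agent.Lib.Helper44.dQ_classify hF c c' hcne hc'ne hcard (by
      rw [Fintype.card_fin, Module.finrank_fin_fun]
      omega) (t / pp) (div_ne_zero ht0 hpp0) (by
      rw [hprod', ← hP]
      field_simp
      linear_combination sg * ht - pp ^ 2 * P * hsg2)
  have hI2 := (Cfsg.Agent.Lib.Helper44.minus_iso h2 (d - 1) a b).symm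
  rw [← hc'] at hI2
  obtain ⟨e, he⟩ := hI.trans hI2
  have hQe : ∀ x, Cfsg.quadFormMinus (d - 1) F a b (e (v.equivFun x)) = B x x := by
    intro x
    rw [he, hQc]
  refine ⟨jtMat (v.equivFun.trans e) g, fun u => ?_, fun j => ?_⟩
  · have hQe' : ∀ x, Cfsg.quadFormMinus (d - 1) F a b ((v.equivFun.trans e) x) = B x x := hQe
    rw [jtMat_mulVec, hQe', a4, ← hQe', LinearEquiv.apply_symm_apply]
  · rw [jtMat_rank, a5]

/-- Realisation of the admissible unipotent types with an odd part in `Ω⁻_{2d}(q)`, `q` odd. -/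
theorem jt_exists_minus [Fintype F] (hF : Odd (Fintype.card F)) (h2 : (2 : F) ≠ 0) (p : ℕ)
    [Fact p.Prime] [CharP F p] (d : ℕ) (hd : 1 ≤ d) (a b : F)
    (hab : ∀ x y : F, x ^ 2 + a * x * y + b * y ^ 2 = 0 → x = 0 ∧ y = 0)
    (μ : Multiset ℕ) (hpos : ∀ a ∈ μ, 1 ≤ a) (hle : ∀ a ∈ μ, a ≤ p)
    (hpar : ∀ j, Even j → Even (μ.count j)) (hsum : μ.sum = 2 * d) (s : ℕ) (hmem : s ∈ μ)
    (hsodd : Odd s) :
    ∃ x : GL ((Fin (d - 1) ⊕ Fin (d - 1)) ⊕ Fin 2) F,
      x ∈ Cfsg.Geo.omegaGL (Cfsg.quadFormMinus (d - 1) F a b) ∧ x ^ p = 1 ∧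
      (∀ u, Cfsg.quadFormMinus (d - 1) F a b
          ((x : Matrix ((Fin (d - 1) ⊕ Fin (d - 1)) ⊕ Fin 2)
            ((Fin (d - 1) ⊕ Fin (d - 1)) ⊕ Fin 2) F) *ᵥ u) =
        Cfsg.quadFormMinus (d - 1) F a b u) ∧
      ∀ j, (((x : Matrix ((Fin (d - 1) ⊕ Fin (d - 1)) ⊕ Fin 2)
            ((Fin (d - 1) ⊕ Fin (d - 1)) ⊕ Fin 2) F) - 1) ^ j).rank = Jordan.rk μ j := by
  obtain ⟨δ, hD, hsq⟩ := jt_minus_model h2 μ hpos hpar d s hmem hsodd
  obtain ⟨M, hM, hr⟩ := jt_minus_transfer hF h2 d hd hD hsq hsum a b hab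
  have hne : Nonempty ((Fin (d - 1) ⊕ Fin (d - 1)) ⊕ Fin 2) := ⟨Sum.inr 0⟩
  have hN : (M - 1) ^ p = 0 := by
    apply jt_pow_eq_zero_of_rank
    rw [hr, Jordan.rk_eq_zero_iff]
    exact hle
  have hcoe := Cfsg.Agent.Lib.Helper14.minusQF_coe (d - 1) F a b
  obtain ⟨x, hx, hxΩ, hxp⟩ := jt_unip_mem_omega h2 p (Cfsg.Agent.Lib.Helper14.minusQF (d - 1) F a b)
    (Cfsg.Agent.Lib.Helper14.minusQF_nondegenerate (d - 1) F h2 a b hab) M
    (fun u => by rw [hcoe]; exact hM u) hN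
  rw [hcoe] at hxΩ
  exact ⟨x, hxΩ, hxp, by rw [hx]; exact hM, by rw [hx]; exact hr⟩

end JTMinus

end Cfsg.Agent.Lib.Helper99
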