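import Mathlib
import Cfsg.Agent.Lib.Helper99.JType7

/-!
# Combinatorics of sub-types for the minus-type Jordan condition
-/

set_option autoImplicit false

namespace Cfsg.Agent.Lib.Helper99

open Module Matrix Cfsg.Agent.Lib.Helper40

section JTComb

/-- Replacing the odd pair `(e+1, e-1)` by `(e, e)`: an even-sum admissible sub-multiset of the
modified type gives one of the original type. -/
theorem jt_even_fix (μ₀ : Multiset ℕ) (hμ₀ : ∀ x ∈ μ₀, Even x) (e m : ℕ) (he : Even e)
    (he2 : 2 ≤ e) (hm : Even m) (ν' : Multiset ℕ) (hν' : ν' ≤ (e + 1) ::ₘ (e - 1) ::ₘ μ₀)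
    (hsum : ν'.sum = m) (hpar : ∀ j, Even j → Even (ν'.count j)) :
    ∃ ν : Multiset ℕ, ν ≤ e ::ₘ e ::ₘ μ₀ ∧ ν.sum = m ∧ ∀ j, Even j → Even (ν.count j) := by
  classical
  have hodd1 : ¬ Even (e + 1) := by
    rw [Nat.not_even_iff_odd]
    exact he.add_one
  have hodd2 : ¬ Even (e - 1) := by
    rw [Nat.not_even_iff_odd]
    obtain ⟨k, hk⟩ := he
    exact ⟨k - 1, by omega⟩
  obtain ⟨ν₀, hν₀⟩ : ∃ ν₀ : Multiset ℕ, ν₀ = ν'.filter (fun x => Even x) := ⟨_, rfl⟩
  obtain ⟨ν₁, hν₁⟩ : ∃ ν₁ : Multiset ℕ, ν₁ = ν'.filter (fun x => ¬ Even x) := ⟨_, rfl⟩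
  have hsplit : ν₀ + ν₁ = ν' := by
    rw [hν₀, hν₁]
    exact Multiset.filter_add_not _ _
  have h0 : ν₀ ≤ μ₀ := by
    have h := Multiset.filter_le_filter (fun x => Even x) hν'
    rw [Multiset.filter_cons_of_neg _ hodd1, Multiset.filter_cons_of_neg _ hodd2,
      Multiset.filter_eq_self.mpr hμ₀] at h
    rw [hν₀]
    exact h
  have h1 : ν₁ ≤ (e + 1) ::ₘ (e - 1) ::ₘ 0 := by
    have h := Multiset.filter_le_filter (fun x => ¬ Even x) hν'
    rw [Multiset.filter_cons_of_pos (p := fun x => ¬ Even x) _ hodd1,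
      Multiset.filter_cons_of_pos (p := fun x => ¬ Even x) _ hodd2,
      Multiset.filter_eq_nil.mpr (fun x hx => not_not.mpr (hμ₀ x hx))] at h
    rw [hν₁]
    exact h
  have hev0 : Even ν₀.sum := by
    rw [even_iff_two_dvd]
    apply Multiset.dvd_sum
    intro x hx
    rw [hν₀, Multiset.mem_filter] at hx
    exact even_iff_two_dvd.mp hx.2
  have hsum' : ν₀.sum + ν₁.sum = m := by
    rw [← Multiset.sum_add, hsplit, hsum]
  have hcard := Multiset.card_le_card h1
  simp only [Multiset.card_cons, Multiset.card_zero] at hcard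
  have hcount0 : ∀ j, Even j → ν₀.count j = ν'.count j := by
    intro j hj
    rw [hν₀, Multiset.count_filter_of_pos hj]
  obtain h | h | h : Multiset.card ν₁ = 0 ∨ Multiset.card ν₁ = 1 ∨ Multiset.card ν₁ = 2 := by
    omega
  · have hz : ν₁ = 0 := Multiset.card_eq_zero.mp h
    rw [hz, add_zero] at hsplit
    refine ⟨ν', ?_, hsum, hpar⟩
    rw [← hsplit]
    exact h0.trans ((Multiset.le_cons_self _ _).trans (Multiset.le_cons_self _ _))
  · exfalso
    obtain ⟨x, hx⟩ := Multiset.card_eq_one.mp h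
    have hxodd : ¬ Even x := by
      have h3 : x ∈ ν₁ := by
        rw [hx]
        exact Multiset.mem_singleton_self x
      rw [hν₁, Multiset.mem_filter] at h3
      exact h3.2
    rw [hx, Multiset.sum_singleton] at hsum'
    apply hxodd
    obtain ⟨u, hu⟩ := hev0
    obtain ⟨w, hw⟩ := hm
    exact ⟨w - u, by omega⟩
  · have heq : ν₁ = (e + 1) ::ₘ (e - 1) ::ₘ 0 :=
      Multiset.eq_of_le_of_card_le h1 (by simp [h])
    refine ⟨e ::ₘ e ::ₘ ν₀, ?_, ?_, ?_⟩
    · exact Multiset.cons_le_cons _ (Multiset.cons_le_cons _ h0)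
    · rw [heq] at hsum'
      simp only [Multiset.sum_cons, Multiset.sum_zero] at hsum' ⊢
      omega
    · intro j hj
      rw [Multiset.count_cons, Multiset.count_cons, hcount0 j hj]
      obtain ⟨u, hu⟩ := hpar j hj
      by_cases hje : j = e
      · rw [if_pos hje]
        exact ⟨u + 1, by omega⟩
      · rw [if_neg hje]
        exact ⟨u, by omega⟩

theorem jt_sum_123 (ν : Multiset ℕ) (h : ∀ x ∈ ν, x = 1 ∨ x = 2 ∨ x = 3) :
    ν.sum = ν.count 1 + 2 * ν.count 2 + 3 * ν.count 3 := by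
  induction ν using Multiset.induction with
  | empty => simp
  | cons a ν ih =>
    have ih' := ih (fun x hx => h x (Multiset.mem_cons_of_mem hx))
    rw [Multiset.sum_cons, Multiset.count_cons, Multiset.count_cons, Multiset.count_cons, ih']
    rcases h a (Multiset.mem_cons_self a ν) with h1 | h1 | h1
    · subst h1
      norm_num
      ring
    · subst h1
      norm_num
      ring
    · subst h1
      norm_num
      ring

end JTComb

end Cfsg.Agent.Lib.Helper99
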