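import Mathlib
import Cfsg.Agent.Lib.Helper99.Symp
import Cfsg.Agent.Lib.Helper99.Quad
import Cfsg.Agent.Lib.Helper13.Symp
import Cfsg.Agent.Lib.Helper45.HermGU

set_option autoImplicit false

namespace Cfsg.Agent.Lib.Helper99

open Matrix Cfsg.Agent.Lib.Helper13 Cfsg.Agent.Lib.Helper45

section ext
variable {F K : Type*} [Field F] [Field K] [Algebra F K]

/-- Uniqueness of the coordinates with respect to `1, ω`. -/
theorem k_unique (hirr : ∀ c : F, c ^ 2 + c + 1 ≠ 0) {ω : K} (hω : ω ^ 2 + ω + 1 = 0) {a b : F}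
    (h : algebraMap F K a + algebraMap F K b * ω = 0) : a = 0 ∧ b = 0 := by
  have hinj := (algebraMap F K).injective
  by_cases hb : b = 0
  · subst hb
    rw [map_zero, zero_mul, add_zero] at h
    exact ⟨hinj (by rw [h, map_zero]), rfl⟩
  · exfalso
    have hb' : algebraMap F K b ≠ 0 := fun h0 => hb (hinj (by rw [h0, map_zero]))
    have h1 : ω = algebraMap F K (-a / b) := by
      rw [map_div₀, map_neg, eq_div_iff hb']
      linear_combination h
    apply hirr (-a / b)
    apply hinj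
    rw [map_add, map_add, map_pow, map_one, map_zero, ← h1]
    exact hω

/-- The first coordinate. -/
noncomputable def kre {ω : K}
    (hdec : ∀ z : K, ∃ a b : F, z = algebraMap F K a + algebraMap F K b * ω) (z : K) : F :=
  (hdec z).choose

/-- The second coordinate. -/
noncomputable def kim {ω : K}
    (hdec : ∀ z : K, ∃ a b : F, z = algebraMap F K a + algebraMap F K b * ω) (z : K) : F :=
  (hdec z).choose_spec.choose

theorem k_eq {ω : K} (hdec : ∀ z : K, ∃ a b : F, z = algebraMap F K a + algebraMap F K b * ω)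
    (z : K) : z = algebraMap F K (kre hdec z) + algebraMap F K (kim hdec z) * ω :=
  (hdec z).choose_spec.choose_spec

theorem k_coord (hirr : ∀ c : F, c ^ 2 + c + 1 ≠ 0) {ω : K} (hω : ω ^ 2 + ω + 1 = 0)
    (hdec : ∀ z : K, ∃ a b : F, z = algebraMap F K a + algebraMap F K b * ω) {z : K} {a b : F}
    (h : z = algebraMap F K a + algebraMap F K b * ω) : kre hdec z = a ∧ kim hdec z = b := by
  have h1 := k_eq hdec z
  have h2 : algebraMap F K (kre hdec z - a) + algebraMap F K (kim hdec z - b) * ω = 0 := by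
    rw [map_sub, map_sub]
    linear_combination h - h1
  obtain ⟨h3, h4⟩ := k_unique hirr hω h2
  exact ⟨sub_eq_zero.mp h3, sub_eq_zero.mp h4⟩

theorem k_add (hirr : ∀ c : F, c ^ 2 + c + 1 ≠ 0) {ω : K} (hω : ω ^ 2 + ω + 1 = 0)
    (hdec : ∀ z : K, ∃ a b : F, z = algebraMap F K a + algebraMap F K b * ω) (z w : K) :
    kre hdec (z + w) = kre hdec z + kre hdec w ∧ kim hdec (z + w) = kim hdec z + kim hdec w := by
  apply k_coord hirr hω hdec
  rw [map_add, map_add]
  linear_combination k_eq hdec z + k_eq hdec w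

theorem k_zero (hirr : ∀ c : F, c ^ 2 + c + 1 ≠ 0) {ω : K} (hω : ω ^ 2 + ω + 1 = 0)
    (hdec : ∀ z : K, ∃ a b : F, z = algebraMap F K a + algebraMap F K b * ω) :
    kre hdec (0 : K) = 0 ∧ kim hdec (0 : K) = 0 := by
  apply k_coord hirr hω hdec
  simp

theorem k_mul (hirr : ∀ c : F, c ^ 2 + c + 1 ≠ 0) {ω : K} (hω : ω ^ 2 + ω + 1 = 0)
    (hdec : ∀ z : K, ∃ a b : F, z = algebraMap F K a + algebraMap F K b * ω) (z w : K) :
    kre hdec (z * w) = kre hdec z * kre hdec w - kim hdec z * kim hdec w ∧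
      kim hdec (z * w) = kre hdec z * kim hdec w + kim hdec z * kre hdec w
        - kim hdec z * kim hdec w := by
  apply k_coord hirr hω hdec
  simp only [map_add, map_sub, map_mul]
  have hz := k_eq hdec z
  have hw := k_eq hdec w
  linear_combination (w) * hz + (algebraMap F K (kre hdec z) + algebraMap F K (kim hdec z) * ω) * hw
    + algebraMap F K (kim hdec z) * algebraMap F K (kim hdec w) * hω

theorem k_omega_mul (hirr : ∀ c : F, c ^ 2 + c + 1 ≠ 0) {ω : K} (hω : ω ^ 2 + ω + 1 = 0)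
    (hdec : ∀ z : K, ∃ a b : F, z = algebraMap F K a + algebraMap F K b * ω) (z : K) :
    kre hdec (ω * z) = - kim hdec z ∧ kim hdec (ω * z) = kre hdec z - kim hdec z := by
  apply k_coord hirr hω hdec
  simp only [map_neg, map_sub]
  have hz := k_eq hdec z
  linear_combination ω * hz + algebraMap F K (kim hdec z) * hω

theorem k_sum (hirr : ∀ c : F, c ^ 2 + c + 1 ≠ 0) {ω : K} (hω : ω ^ 2 + ω + 1 = 0)
    (hdec : ∀ z : K, ∃ a b : F, z = algebraMap F K a + algebraMap F K b * ω) {ι : Type*}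
    (s : Finset ι) (f : ι → K) :
    kre hdec (∑ i ∈ s, f i) = ∑ i ∈ s, kre hdec (f i) ∧
      kim hdec (∑ i ∈ s, f i) = ∑ i ∈ s, kim hdec (f i) := by
  classical
  induction s using Finset.induction_on with
  | empty => simpa using k_zero hirr hω hdec
  | insert a s ha ih =>
    rw [Finset.sum_insert ha, Finset.sum_insert ha, Finset.sum_insert ha,
      (k_add hirr hω hdec _ _).1, (k_add hirr hω hdec _ _).2, ih.1, ih.2]
    exact ⟨rfl, rfl⟩

theorem k_conj [Fintype F] [Fintype K] {q : ℕ} (hF : Fintype.card F = q)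
    (hK : Fintype.card K = q ^ 2) (hq : q % 3 = 2)
    (hirr : ∀ c : F, c ^ 2 + c + 1 ≠ 0) {ω : K} (hω : ω ^ 2 + ω + 1 = 0)
    (hdec : ∀ z : K, ∃ a b : F, z = algebraMap F K a + algebraMap F K b * ω) (z : K) :
    kre hdec (z ^ q) = kre hdec z - kim hdec z ∧ kim hdec (z ^ q) = - kim hdec z := by
  apply k_coord hirr hω hdec
  have hz := k_eq hdec z
  have hfix : ∀ a : F, (algebraMap F K a) ^ q = algebraMap F K a := by
    intro a
    rw [← map_pow, ← hF, FiniteField.pow_card]
  have hω3 : ω ^ 3 = 1 := by linear_combination (ω - 1) * hω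
  have hωq : ω ^ q = ω ^ 2 := by
    have h1 : q = 3 * (q / 3) + 2 := by omega
    rw [h1, pow_add, pow_mul, hω3, one_pow, one_mul]
  conv_lhs => rw [hz]
  rw [conj_add hK, mul_pow, hfix, hfix, hωq, map_sub, map_neg]
  linear_combination algebraMap F K (kim hdec z) * hω

/-- Coordinates of a vector. -/
noncomputable def kvec {ω : K}
    (hdec : ∀ z : K, ∃ a b : F, z = algebraMap F K a + algebraMap F K b * ω) {m : ℕ}
    (a : Fin m → K) : Fin m ⊕ Fin m → F :=
  Sum.elim (fun i => kim hdec (a i)) (fun i => kre hdec (a i))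

/-- The matrix over `F` of a matrix over `K`. -/
noncomputable def kmat {ω : K}
    (hdec : ∀ z : K, ∃ a b : F, z = algebraMap F K a + algebraMap F K b * ω) {m : ℕ}
    (M : Matrix (Fin m) (Fin m) K) : Matrix (Fin m ⊕ Fin m) (Fin m ⊕ Fin m) F :=
  Matrix.fromBlocks (M.map (kre hdec) - M.map (kim hdec)) (M.map (kim hdec))
    (-M.map (kim hdec)) (M.map (kre hdec))

theorem kvec_surj (hirr : ∀ c : F, c ^ 2 + c + 1 ≠ 0) {ω : K} (hω : ω ^ 2 + ω + 1 = 0)
    (hdec : ∀ z : K, ∃ a b : F, z = algebraMap F K a + algebraMap F K b * ω) {m : ℕ}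
    (u : Fin m ⊕ Fin m → F) : ∃ a : Fin m → K, kvec hdec a = u := by
  refine ⟨fun i => algebraMap F K (u (Sum.inr i)) + algebraMap F K (u (Sum.inl i)) * ω, ?_⟩
  funext s
  rcases s with i | i
  · exact (k_coord hirr hω hdec rfl).2
  · exact (k_coord hirr hω hdec rfl).1

theorem kmat_mulVec (hirr : ∀ c : F, c ^ 2 + c + 1 ≠ 0) {ω : K} (hω : ω ^ 2 + ω + 1 = 0)
    (hdec : ∀ z : K, ∃ a b : F, z = algebraMap F K a + algebraMap F K b * ω) {m : ℕ}
    (M : Matrix (Fin m) (Fin m) K) (a : Fin m → K) :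
    kmat hdec M *ᵥ kvec hdec a = kvec hdec (M *ᵥ a) := by
  funext s
  rcases s with i | i
  · unfold kvec
    rw [kmat, Matrix.fromBlocks_mulVec]
    simp only [Sum.elim_inl, Pi.add_apply, Matrix.mulVec,
      dotProduct, Matrix.sub_apply, Matrix.map_apply, Function.comp_apply, Sum.elim_inr]
    rw [(k_sum hirr hω hdec _ _).2, ← Finset.sum_add_distrib]
    apply Finset.sum_congr rfl
    intro j _
    rw [(k_mul hirr hω hdec _ _).2]
    ring
  · unfold kvec
    rw [kmat, Matrix.fromBlocks_mulVec]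
    simp only [Sum.elim_inl, Pi.add_apply, Matrix.mulVec,
      dotProduct, Matrix.neg_apply, Matrix.map_apply, Function.comp_apply, Sum.elim_inr]
    rw [(k_sum hirr hω hdec _ _).1, ← Finset.sum_add_distrib]
    apply Finset.sum_congr rfl
    intro j _
    rw [(k_mul hirr hω hdec _ _).1]
    ring

theorem kvec_symp [Fintype F] [Fintype K] {q : ℕ} (hF : Fintype.card F = q)
    (hK : Fintype.card K = q ^ 2) (hq : q % 3 = 2)
    (hirr : ∀ c : F, c ^ 2 + c + 1 ≠ 0) {ω : K} (hω : ω ^ 2 + ω + 1 = 0)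
    (hdec : ∀ z : K, ∃ a b : F, z = algebraMap F K a + algebraMap F K b * ω) {m : ℕ}
    (a b : Fin m → K) :
    Cfsg.sympForm m F (kvec hdec a) (kvec hdec b) = - kim hdec (Cfsg.hermForm m K q a b) := by
  rw [sympForm_eq, herm_def, (k_sum hirr hω hdec _ _).2, ← Finset.sum_neg_distrib]
  apply Finset.sum_congr rfl
  intro i _
  rw [(k_mul hirr hω hdec _ _).2, (k_conj hF hK hq hirr hω hdec _).1,
    (k_conj hF hK hq hirr hω hdec _).2]
  simp only [kvec, Sum.elim_inl, Sum.elim_inr]
  ring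

theorem kmat_mem_iff [Fintype F] [Fintype K] {q : ℕ} (hF : Fintype.card F = q)
    (hK : Fintype.card K = q ^ 2) (hq : q % 3 = 2)
    (hirr : ∀ c : F, c ^ 2 + c + 1 ≠ 0) {ω : K} (hω : ω ^ 2 + ω + 1 = 0)
    (hdec : ∀ z : K, ∃ a b : F, z = algebraMap F K a + algebraMap F K b * ω) {m : ℕ}
    (M : Matrix (Fin m) (Fin m) K) :
    kmat hdec M ∈ Matrix.symplecticGroup (Fin m) F ↔ IsHermIso m K q M := by
  constructor
  · intro h a b
    have key : ∀ a b : Fin m → K, kim hdec (Cfsg.hermForm m K q (M *ᵥ a) (M *ᵥ b)) =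
        kim hdec (Cfsg.hermForm m K q a b) := by
      intro a b
      have h1 := sympForm_mulVec_of_mem m h (kvec hdec a) (kvec hdec b)
      rw [kmat_mulVec hirr hω hdec, kmat_mulVec hirr hω hdec, kvec_symp hF hK hq hirr hω hdec,
        kvec_symp hF hK hq hirr hω hdec] at h1
      exact neg_injective h1
    have k1 := key a b
    have k2 := key (ω • a) b
    rw [Matrix.mulVec_smul, herm_smul_left, herm_smul_left, (k_omega_mul hirr hω hdec _).2,
      (k_omega_mul hirr hω hdec _).2, k1] at k2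
    have k3 : kre hdec (Cfsg.hermForm m K q (M *ᵥ a) (M *ᵥ b)) =
        kre hdec (Cfsg.hermForm m K q a b) := by linear_combination k2
    rw [k_eq hdec (Cfsg.hermForm m K q (M *ᵥ a) (M *ᵥ b)), k_eq hdec (Cfsg.hermForm m K q a b),
      k1, k3]
  · intro hM
    apply mem_symplecticGroup_of_sympForm
    intro u v
    obtain ⟨a, rfl⟩ := kvec_surj hirr hω hdec u
    obtain ⟨b, rfl⟩ := kvec_surj hirr hω hdec v
    rw [kmat_mulVec hirr hω hdec, kmat_mulVec hirr hω hdec, kvec_symp hF hK hq hirr hω hdec,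
      kvec_symp hF hK hq hirr hω hdec, hM a b]

/-- The standard element of order three. -/
def stdX (m : ℕ) (F : Type*) [Field F] : Matrix (Fin m ⊕ Fin m) (Fin m ⊕ Fin m) F :=
  Matrix.fromBlocks (-1) 1 (-1) 0

theorem stdX_mem (m : ℕ) : stdX m F ∈ Matrix.symplecticGroup (Fin m) F := by
  rw [SymplecticGroup.mem_iff, stdX, Matrix.J, Matrix.fromBlocks_transpose,
    Matrix.fromBlocks_multiply, Matrix.fromBlocks_multiply]
  simp

theorem kmat_comm {ω : K}
    (hdec : ∀ z : K, ∃ a b : F, z = algebraMap F K a + algebraMap F K b * ω) {m : ℕ}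
    (M : Matrix (Fin m) (Fin m) K) : stdX m F * kmat hdec M = kmat hdec M * stdX m F := by
  rw [kmat, stdX, Matrix.fromBlocks_multiply, Matrix.fromBlocks_multiply, Matrix.fromBlocks_inj]
  refine ⟨?_, ?_, ?_, ?_⟩ <;>
  simp only [Matrix.mul_neg, Matrix.neg_mul, Matrix.mul_one, Matrix.one_mul, Matrix.mul_zero,
    Matrix.zero_mul, add_zero] <;> (try abel)

theorem comm_stdX {m : ℕ} (g : Matrix (Fin m ⊕ Fin m) (Fin m ⊕ Fin m) F)
    (h : stdX m F * g = g * stdX m F) :
    g.toBlocks₁₁ = g.toBlocks₂₂ - g.toBlocks₁₂ ∧ g.toBlocks₂₁ = - g.toBlocks₁₂ := by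
  obtain ⟨P, Q, R, S, rfl⟩ : ∃ P Q R S, g = Matrix.fromBlocks P Q R S :=
    ⟨_, _, _, _, (Matrix.fromBlocks_toBlocks g).symm⟩
  rw [stdX, Matrix.fromBlocks_multiply, Matrix.fromBlocks_multiply, Matrix.fromBlocks_inj] at h
  obtain ⟨h1, h2, -, -⟩ := h
  simp only [Matrix.mul_neg, Matrix.neg_mul, Matrix.mul_one, Matrix.one_mul, Matrix.mul_zero,
    add_zero] at h1 h2
  rw [Matrix.toBlocks_fromBlocks₁₁, Matrix.toBlocks_fromBlocks₁₂, Matrix.toBlocks_fromBlocks₂₁,
    Matrix.toBlocks_fromBlocks₂₂]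
  have hR : R = -Q := (add_left_cancel h1)
  refine ⟨?_, hR⟩
  rw [← h2]
  abel

theorem card_cent_stdX [Fintype F] [Fintype K] {q : ℕ} (hF : Fintype.card F = q)
    (hK : Fintype.card K = q ^ 2) (hq : q % 3 = 2)
    (hirr : ∀ c : F, c ^ 2 + c + 1 ≠ 0) {ω : K} (hω : ω ^ 2 + ω + 1 = 0)
    (hdec : ∀ z : K, ∃ a b : F, z = algebraMap F K a + algebraMap F K b * ω) (m : ℕ) :
    Nat.card ↥(Subgroup.centralizer
      ({⟨stdX m F, stdX_mem m⟩} : Set ↥(Matrix.symplecticGroup (Fin m) F))) =
      (hermIsoSet m K q).card := by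
  classical
  rw [← Nat.card_eq_finsetCard]
  symm
  let f : {M // M ∈ hermIsoSet m K q} → ↥(Subgroup.centralizer
      ({⟨stdX m F, stdX_mem m⟩} : Set ↥(Matrix.symplecticGroup (Fin m) F))) := fun M =>
    ⟨⟨kmat hdec M.1, (kmat_mem_iff hF hK hq hirr hω hdec M.1).mpr (mem_hermIsoSet.mp M.2)⟩, by
      rw [Subgroup.mem_centralizer_singleton_iff]
      apply Subtype.ext
      exact (kmat_comm hdec M.1).symm⟩
  apply Nat.card_congr (Equiv.ofBijective f ⟨?_, ?_⟩)
  · intro M M' h
    have h1 : kmat hdec M.1 = kmat hdec M'.1 :=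
      congrArg (fun g : ↥(Subgroup.centralizer
        ({⟨stdX m F, stdX_mem m⟩} : Set ↥(Matrix.symplecticGroup (Fin m) F))) =>
          (g.1 : Matrix (Fin m ⊕ Fin m) (Fin m ⊕ Fin m) F)) h
    rw [kmat, kmat, Matrix.fromBlocks_inj] at h1
    obtain ⟨-, hB, -, hA⟩ := h1
    apply Subtype.ext
    ext i j
    rw [k_eq hdec (M.1 i j), k_eq hdec (M'.1 i j)]
    have hA' := congrFun (congrFun hA i) j
    have hB' := congrFun (congrFun hB i) j
    simp only [Matrix.map_apply] at hA' hB'
    rw [hA', hB']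
  · intro g
    have hg : stdX m F * g.1.1 = g.1.1 * stdX m F := by
      have h1 := g.2
      rw [Subgroup.mem_centralizer_singleton_iff] at h1
      exact (congrArg Subtype.val h1).symm
    obtain ⟨h11, h21⟩ := comm_stdX g.1.1 hg
    let M : Matrix (Fin m) (Fin m) K := fun i j =>
      algebraMap F K (g.1.1.toBlocks₂₂ i j) + algebraMap F K (g.1.1.toBlocks₁₂ i j) * ω
    have hre : M.map (kre hdec) = g.1.1.toBlocks₂₂ := by
      ext i j
      exact (k_coord hirr hω hdec rfl).1
    have him : M.map (kim hdec) = g.1.1.toBlocks₁₂ := by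
      ext i j
      exact (k_coord hirr hω hdec rfl).2
    have hM : kmat hdec M = g.1.1 := by
      rw [kmat, hre, him, ← h11, ← h21, Matrix.fromBlocks_toBlocks]
    have hMh : IsHermIso m K q M :=
      (kmat_mem_iff hF hK hq hirr hω hdec M).mp (by rw [hM]; exact g.1.2)
    refine ⟨⟨M, mem_hermIsoSet.mpr hMh⟩, ?_⟩
    apply Subtype.ext
    apply Subtype.ext
    exact hM

end ext

section frame
variable {F : Type*} [Field F]

theorem norm_aniso (hirr : ∀ c : F, c ^ 2 + c + 1 ≠ 0) {α β : F}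
    (h : α ^ 2 - α * β + β ^ 2 = 0) : α = 0 ∧ β = 0 := by
  by_cases hβ : β = 0
  · subst hβ
    simp at h
    exact ⟨h, rfl⟩
  · exfalso
    apply hirr (-α / β)
    field_simp
    linear_combination h

theorem norm_repr [Fintype F] (hirr : ∀ c : F, c ^ 2 + c + 1 ≠ 0) (c : F) :
    ∃ α β : F, α ^ 2 - α * β + β ^ 2 = c := by
  obtain ⟨x, hx, h⟩ := cw3 (fun i j : Fin 3 => if i = 0 ∧ j = 0 then (1 : F) else
    if i = 0 ∧ j = 1 then -1 else if i = 1 ∧ j = 1 then 1 else if i = 2 ∧ j = 2 then -c else 0)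
  simp [Fin.sum_univ_three] at h
  by_cases hx2 : x 2 = 0
  · exfalso
    have h1 : x 0 ^ 2 - x 0 * x 1 + x 1 ^ 2 = 0 := by
      rw [hx2] at h
      linear_combination h
    obtain ⟨h0, h1'⟩ := norm_aniso hirr h1
    apply hx
    funext i
    fin_cases i <;> simp [h0, h1', hx2]
  · refine ⟨x 0 / x 2, x 1 / x 2, ?_⟩
    field_simp
    linear_combination h

theorem exists_frame {V : Type*} [AddCommGroup V] [Module F V] [Fintype F] [FiniteDimensional F V]
    (h3 : (3 : F) ≠ 0) (hirr : ∀ c : F, c ^ 2 + c + 1 ≠ 0)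
    (B : LinearMap.BilinForm F V) (hB : B.IsAlt) (T : V →ₗ[F] V)
    (hT : ∀ v, T (T v) = - v - T v) (hBT : ∀ u v, B (T u) (T v) = B u v) :
    ∀ (d : ℕ) (M : Submodule F V), Module.finrank F M = 2 * d → NondegOn B M →
      (∀ v ∈ M, T v ∈ M) →
      ∃ e : Fin d → V, (∀ i, e i ∈ M) ∧ (∀ i j, B (e i) (e j) = 0) ∧
        (∀ i j, B (e i) (T (e j)) = if i = j then 1 else 0) := by
  intro d
  induction d with
  | zero =>
    intro M _ _ _
    exact ⟨Fin.elim0, fun i => i.elim0, fun i => i.elim0, fun i => i.elim0⟩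
  | succ d ih =>
    intro M hfin hM hTM
    have hM0 : M ≠ ⊥ := by
      rintro rfl
      simp at hfin
    obtain ⟨w, hw, hw0⟩ := (Submodule.ne_bot_iff M).mp hM0
    have hex : ∃ w' ∈ M, B w w' ≠ 0 := by
      by_contra hcon
      push Not at hcon
      exact hw0 (hM w hw hcon)
    obtain ⟨w', hw', hww'⟩ := hex
    have hswap : ∀ u v : V, B v (T u) = B u (T v) + B u v := by
      intro u v
      have h1 := hBT v (T u)
      rw [hT u] at h1
      rw [← h1]
      simp only [map_sub, map_neg]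
      rw [hBT v u, ← hB.neg_eq u (T v), ← hB.neg_eq u v]
      ring
    have hexu : ∃ u ∈ M, B u (T u) ≠ 0 := by
      by_contra hcon
      push Not at hcon
      have h1 : ∀ u ∈ M, ∀ v ∈ M, 2 * B u (T v) + B u v = 0 := by
        intro u hu v hv
        have h2 := hcon (u + v) (M.add_mem hu hv)
        simp only [map_add, LinearMap.add_apply] at h2
        rw [hcon u hu, hcon v hv, hswap u v] at h2
        linear_combination h2
      have h3' := h1 w hw w' hw'
      have h4 := h1 w hw (T w') (hTM w' hw')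
      rw [hT w'] at h4
      simp only [map_sub, map_neg] at h4
      have h5 : (3 : F) * B w w' = 0 := by linear_combination (-1 : F) * h3' - 2 * h4
      rcases mul_eq_zero.mp h5 with h6 | h6
      · exact h3 h6
      · exact hww' h6
    obtain ⟨u, hu, huT⟩ := hexu
    obtain ⟨α, β, hαβ⟩ := norm_repr hirr (B u (T u))⁻¹
    obtain ⟨e, he⟩ : ∃ e, e = α • u + β • T u := ⟨_, rfl⟩
    have heM : e ∈ M := by
      rw [he]
      exact M.add_mem (M.smul_mem _ hu) (M.smul_mem _ (hTM u hu))
    have hTeM : T e ∈ M := hTM e heM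
    have hTe : T e = (-β) • u + (α - β) • T u := by
      rw [he, map_add, map_smul, map_smul, hT u]
      module
    have hone : B e (T e) = 1 := by
      rw [hTe, he]
      simp only [map_add, map_smul, LinearMap.add_apply, LinearMap.smul_apply, smul_eq_mul,
        hB.self_eq_zero]
      rw [← hB.neg_eq u (T u)]
      linear_combination (B u (T u)) * hαβ + inv_mul_cancel₀ huT
    have hne : B e (T e) ≠ 0 := by
      rw [hone]
      exact one_ne_zero
    obtain ⟨M', hM'⟩ : ∃ M', M' = M ⊓ perp2 B e (T e) := ⟨_, rfl⟩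
    have hM'nd : NondegOn B M' := by
      rw [hM']
      exact nondegOn_perp2 hB hM heM hTeM hne
    have hperp : ∀ y ∈ M', B y e = 0 ∧ B y (T e) = 0 := fun y hy => by
      rw [hM'] at hy
      exact (mem_perp2 B e (T e) y).mp (Submodule.mem_inf.mp hy).2
    have hM'le : M' ≤ M := by
      rw [hM']
      exact inf_le_left
    have hM'T : ∀ v ∈ M', T v ∈ M' := by
      intro v hv
      obtain ⟨h1, h2⟩ := hperp v hv
      rw [hM']
      refine Submodule.mem_inf.mpr ⟨hTM v (hM'le hv), (mem_perp2 B e (T e) (T v)).mpr ⟨?_, ?_⟩⟩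
      · rw [← hBT (T v) e, hT v]
        simp only [map_sub, map_neg, LinearMap.sub_apply, LinearMap.neg_apply]
        rw [hBT v e, h1, h2]
        simp
      · rw [hBT v e]
        exact h1
    have hfin' : Module.finrank F M' = 2 * d := by
      obtain ⟨H, hH⟩ : ∃ H, H = Submodule.span F (Set.range ![e, T e]) := ⟨_, rfl⟩
      have hli : LinearIndependent F ![e, T e] := by
        rw [LinearIndependent.pair_iff]
        intro s t hst
        have h0 : s • e + t • T e ∈ perp2 B e (T e) := by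
          rw [hst]
          exact Submodule.zero_mem _
        exact perp2_span hB hne h0
      have hH2 : Module.finrank F H = 2 := by
        rw [hH, finrank_span_eq_card hli]
        simp
      have hsup : M' ⊔ H = M := by
        apply le_antisymm
        · refine sup_le hM'le ?_
          rw [hH, Submodule.span_le]
          rintro _ ⟨i, rfl⟩
          fin_cases i
          · exact heM
          · exact hTeM
        · intro y hy
          obtain ⟨m', hm', a, b, rfl⟩ := perp2_decomp hB heM hTeM hne hy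
          rw [add_assoc]
          refine Submodule.add_mem_sup (by rw [hM']; exact hm') ?_
          rw [hH]
          exact Submodule.add_mem _
            (Submodule.smul_mem _ _ (Submodule.subset_span ⟨0, rfl⟩))
            (Submodule.smul_mem _ _ (Submodule.subset_span ⟨1, rfl⟩))
      have hinf : M' ⊓ H = ⊥ := by
        rw [eq_bot_iff]
        intro y hy
        obtain ⟨hy1, hy2⟩ := Submodule.mem_inf.mp hy
        rw [hH] at hy2
        obtain ⟨c, rfl⟩ := (Submodule.mem_span_range_iff_exists_fun F).mp hy2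
        simp only [Fin.sum_univ_two, Matrix.cons_val_zero, Matrix.cons_val_one] at hy1 ⊢
        have h0 : c 0 • e + c 1 • T e ∈ perp2 B e (T e) := by
          rw [hM'] at hy1
          exact (Submodule.mem_inf.mp hy1).2
        obtain ⟨h1, h2⟩ := perp2_span hB hne h0
        rw [h1, h2]
        simp
      have hdim := Submodule.finrank_sup_add_finrank_inf_eq M' H
      rw [hsup, hinf, finrank_bot, hfin, hH2] at hdim
      omega
    obtain ⟨e', he'M, he'0, he'1⟩ := ih M' hfin' hM'nd hM'T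
    refine ⟨Fin.cons e e', ?_, ?_, ?_⟩
    · intro i
      refine Fin.cases ?_ (fun i' => ?_) i
      · simpa using heM
      · simpa using hM'le (he'M i')
    · intro i j
      refine Fin.cases ?_ (fun i' => ?_) i <;> refine Fin.cases ?_ (fun j' => ?_) j
      · simp [hB.self_eq_zero]
      · simp only [Fin.cons_zero, Fin.cons_succ]
        rw [← hB.neg_eq (e' j') e, (hperp _ (he'M j')).1, neg_zero]
      · simp only [Fin.cons_zero, Fin.cons_succ]
        exact (hperp _ (he'M i')).1
      · simp only [Fin.cons_succ]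
        exact he'0 i' j'
    · intro i j
      refine Fin.cases ?_ (fun i' => ?_) i <;> refine Fin.cases ?_ (fun j' => ?_) j
      · simp [hone]
      · simp only [Fin.cons_zero, Fin.cons_succ]
        rw [← hB.neg_eq (T (e' j')) e, (hperp _ (hM'T _ (he'M j'))).1, neg_zero,
          if_neg (Fin.succ_ne_zero j').symm]
      · simp only [Fin.cons_zero, Fin.cons_succ]
        rw [(hperp _ (he'M i')).2, if_neg (Fin.succ_ne_zero i')]
      · simp only [Fin.cons_succ, Fin.succ_inj]
        exact he'1 i' j'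

theorem symp_entry {m : ℕ} {ι κ : Type*} (E₁ : Matrix (Fin m ⊕ Fin m) ι F)
    (E₂ : Matrix (Fin m ⊕ Fin m) κ F) (i : ι) (j : κ) :
    (E₁ᵀ * Matrix.J (Fin m) F * E₂) i j =
      Cfsg.sympForm m F (fun k => E₁ k i) (fun k => E₂ k j) := by
  unfold Cfsg.sympForm
  simp only [Matrix.mul_apply, Matrix.transpose_apply, dotProduct, Matrix.mulVec, Finset.sum_mul,
    Finset.mul_sum]
  rw [Finset.sum_comm]
  refine Finset.sum_congr rfl fun a _ => Finset.sum_congr rfl fun b _ => ?_
  ring

theorem exists_conj_stdX [Fintype F] (h3 : (3 : F) ≠ 0) (hirr : ∀ c : F, c ^ 2 + c + 1 ≠ 0)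
    {m : ℕ} (x : Matrix.symplecticGroup (Fin m) F)
    (hx : (x : Matrix (Fin m ⊕ Fin m) (Fin m ⊕ Fin m) F) *
      (x : Matrix (Fin m ⊕ Fin m) (Fin m ⊕ Fin m) F) =
        - (x : Matrix (Fin m ⊕ Fin m) (Fin m ⊕ Fin m) F) - 1) :
    ∃ p : Matrix.symplecticGroup (Fin m) F, x * p = p * ⟨stdX m F, stdX_mem m⟩ := by
  classical
  obtain ⟨X, hX⟩ : ∃ X : Matrix (Fin m ⊕ Fin m) (Fin m ⊕ Fin m) F, X = x := ⟨_, rfl⟩
  have hXX : X * X = - X - 1 := by
    rw [hX]
    exact hx
  have hT : ∀ v, Matrix.toLin' X (Matrix.toLin' X v) = - v - Matrix.toLin' X v := by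
    intro v
    rw [Matrix.toLin'_apply, Matrix.toLin'_apply, Matrix.mulVec_mulVec, hXX, Matrix.sub_mulVec,
      Matrix.neg_mulVec, Matrix.one_mulVec]
    abel
  have hBT : ∀ u v, sympB (F := F) m (Matrix.toLin' X u) (Matrix.toLin' X v) =
      sympB (F := F) m u v := by
    intro u v
    rw [Matrix.toLin'_apply, Matrix.toLin'_apply, hX]
    exact sympB_invariant m x.2 u v
  have hfin : Module.finrank F (⊤ : Submodule F (Fin m ⊕ Fin m → F)) = 2 * m := by
    rw [finrank_top, Module.finrank_fintype_fun_eq_card, Fintype.card_sum, Fintype.card_fin]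
    ring
  have hnd : NondegOn (sympB (F := F) m) ⊤ := fun u _ h =>
    sympB_nondeg m u (fun v => h v Submodule.mem_top)
  obtain ⟨e, -, he0, he1⟩ := exists_frame h3 hirr (sympB (F := F) m) (sympB_isAlt m)
    (Matrix.toLin' X) hT hBT m ⊤ hfin hnd (fun _ _ => Submodule.mem_top)
  simp only [sympB_apply, Matrix.toLin'_apply] at he0 he1
  let E : Matrix (Fin m ⊕ Fin m) (Fin m) F := Matrix.of fun k i => e i k
  have hEcol : ∀ i, (fun k => E k i) = e i := fun i => rfl
  have hXEcol : ∀ i, (fun k => (X * E) k i) = X *ᵥ e i := by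
    intro i
    funext k
    simp [Matrix.mul_apply, Matrix.mulVec, dotProduct, E]
  have hJ : Matrix.J (Fin m) F = Matrix.fromBlocks 0 (-1) 1 0 := rfl
  have hXmem : X ∈ Matrix.symplecticGroup (Fin m) F := by
    rw [hX]
    exact x.2
  have hP : Matrix.fromCols (X * E) E ∈ Matrix.symplecticGroup (Fin m) F := by
    rw [SymplecticGroup.mem_iff', Matrix.transpose_fromCols, Matrix.fromRows_mul,
      Matrix.fromRows_mul_fromCols]
    conv_rhs => rw [hJ]
    rw [Matrix.fromBlocks_inj]
    refine ⟨?_, ?_, ?_, ?_⟩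
    · ext i j
      rw [symp_entry, hXEcol, hXEcol, sympForm_mulVec_of_mem m hXmem, he0]
      rfl
    · ext i j
      rw [symp_entry, hXEcol, hEcol, sympForm_swap, he1 j i]
      simp [Matrix.one_apply, eq_comm]
    · ext i j
      rw [symp_entry, hEcol, hXEcol, he1 i j]
      simp [Matrix.one_apply]
    · ext i j
      rw [symp_entry, hEcol, hEcol, he0]
      rfl
  refine ⟨⟨Matrix.fromCols (X * E) E, hP⟩, ?_⟩
  apply Subtype.ext
  show (x : Matrix (Fin m ⊕ Fin m) (Fin m ⊕ Fin m) F) * Matrix.fromCols (X * E) E =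
    Matrix.fromCols (X * E) E * stdX m F
  rw [← hX, Matrix.mul_fromCols, stdX, Matrix.fromCols_mul_fromBlocks]
  congr 1
  · rw [← Matrix.mul_assoc, hXX, Matrix.sub_mul, Matrix.neg_mul, Matrix.one_mul, Matrix.mul_neg,
      Matrix.mul_neg, Matrix.mul_one, Matrix.mul_one]
    abel
  · simp

theorem card_centralizer_conj {G : Type*} [Group G] (p t : G) :
    Nat.card ↥(Subgroup.centralizer ({p * t * p⁻¹} : Set G)) =
      Nat.card ↥(Subgroup.centralizer ({t} : Set G)) := by
  apply Nat.card_congr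
  refine ⟨fun g => ⟨p⁻¹ * g.1 * p, ?_⟩, fun g => ⟨p * g.1 * p⁻¹, ?_⟩, ?_, ?_⟩
  · have h := g.2
    rw [Subgroup.mem_centralizer_singleton_iff] at h ⊢
    calc p⁻¹ * g.1 * p * t = p⁻¹ * (g.1 * (p * t * p⁻¹)) * p := by group
      _ = p⁻¹ * (p * t * p⁻¹ * g.1) * p := by rw [h]
      _ = t * (p⁻¹ * g.1 * p) := by group
  · have h := g.2
    rw [Subgroup.mem_centralizer_singleton_iff] at h ⊢
    calc p * g.1 * p⁻¹ * (p * t * p⁻¹) = p * (g.1 * t) * p⁻¹ := by group
      _ = p * (t * g.1) * p⁻¹ := by rw [h]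
      _ = p * t * p⁻¹ * (p * g.1 * p⁻¹) := by group
  · intro g
    apply Subtype.ext
    show p * (p⁻¹ * g.1 * p) * p⁻¹ = g.1
    group
  · intro g
    apply Subtype.ext
    show p⁻¹ * (p * g.1 * p⁻¹) * p = g.1
    group

end frame

section final
open Polynomial

universe u

/-- The polynomial `X ^ 2 + X + 1`. -/
noncomputable abbrev cyc (F : Type*) [Field F] : F[X] := X ^ 2 + X + 1

theorem exists_ext {F : Type u} [Field F] [Fintype F] (hirr : ∀ c : F, c ^ 2 + c + 1 ≠ 0) :
    ∃ (K : Type u) (_ : Field K) (_ : Algebra F K) (_ : Fintype K) (ω : K),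
      Fintype.card K = Fintype.card F ^ 2 ∧ ω ^ 2 + ω + 1 = 0 ∧
      ∀ z : K, ∃ a b : F, z = algebraMap F K a + algebraMap F K b * ω := by
  classical
  have hfdeg : (cyc F).natDegree = 2 := by
    unfold cyc
    compute_degree!
  have hfirr : Irreducible (cyc F) := by
    apply irreducible_of_degree_le_three_of_not_isRoot
    · rw [hfdeg]
      simp
    · intro c hc
      apply hirr c
      have h1 : (cyc F).eval c = 0 := hc
      simpa [cyc] using h1
  haveI : Fact (Irreducible (cyc F)) := ⟨hfirr⟩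
  have hf0 : cyc F ≠ 0 := hfirr.ne_zero
  haveI : Module.Finite F (AdjoinRoot (cyc F)) := (AdjoinRoot.powerBasis hf0).finite
  haveI : Finite (AdjoinRoot (cyc F)) := Module.finite_of_finite F
  letI : Fintype (AdjoinRoot (cyc F)) := Fintype.ofFinite _
  have hω : (AdjoinRoot.root (cyc F)) ^ 2 + AdjoinRoot.root (cyc F) + 1 = 0 := by
    have h1 : Polynomial.eval₂ (AdjoinRoot.of (cyc F)) (AdjoinRoot.root (cyc F))
        (X ^ 2 + X + 1 : F[X]) = 0 := AdjoinRoot.eval₂_root (cyc F)
    simpa [Polynomial.eval₂_add, Polynomial.eval₂_pow] using h1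
  refine ⟨AdjoinRoot (cyc F), inferInstance, inferInstance, inferInstance,
    AdjoinRoot.root (cyc F), ?_, hω, ?_⟩
  · rw [← Nat.card_eq_fintype_card, Module.natCard_eq_pow_finrank (K := F),
      (AdjoinRoot.powerBasis hf0).finrank, AdjoinRoot.powerBasis_dim, hfdeg,
      Nat.card_eq_fintype_card]
  · intro z
    induction z using AdjoinRoot.induction_on with
    | ih p =>
      induction p using Polynomial.induction_on with
      | C a =>
        refine ⟨a, 0, ?_⟩
        rw [map_zero, zero_mul, add_zero]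
        rfl
      | add p q hp hq =>
        obtain ⟨a, b, h1⟩ := hp
        obtain ⟨a', b', h2⟩ := hq
        refine ⟨a + a', b + b', ?_⟩
        rw [map_add, h1, h2, map_add, map_add]
        ring
      | monomial n a h =>
        obtain ⟨α, β, h1⟩ := h
        refine ⟨-β, α - β, ?_⟩
        rw [pow_succ, ← mul_assoc, map_mul, h1, AdjoinRoot.mk_X, map_neg, map_sub]
        linear_combination (algebraMap F (AdjoinRoot (cyc F)) β) * hω

theorem card_cent_order3 {F : Type u} [Field F] [Fintype F] (hq : Fintype.card F % 3 = 2)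
    {m : ℕ} (x : Matrix.symplecticGroup (Fin m) F) (hx3 : x ^ 3 = 1)
    (hfpf : IsUnit ((x : Matrix (Fin m ⊕ Fin m) (Fin m ⊕ Fin m) F) - 1)) :
    Nat.card ↥(Subgroup.centralizer ({x} : Set ↥(Matrix.symplecticGroup (Fin m) F))) =
      Fintype.card F ^ (m * (m - 1) / 2) * ∏ i ∈ Finset.range m,
        (if Even i then Fintype.card F ^ (i + 1) + 1 else Fintype.card F ^ (i + 1) - 1) := by
  classical
  have hq0 : ((Fintype.card F : ℕ) : F) = 0 := Nat.cast_card_eq_zero F
  have h3 : (3 : F) ≠ 0 := by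
    intro h3
    have h1 : Fintype.card F = 3 * (Fintype.card F / 3) + 2 := by omega
    rw [h1] at hq0
    push_cast at hq0
    rw [h3, zero_mul, zero_add] at hq0
    exact one_ne_zero (α := F) (by linear_combination h3 - hq0)
  have hirr : ∀ c : F, c ^ 2 + c + 1 ≠ 0 := by
    intro c hc
    have hc3 : c ^ 3 = 1 := by linear_combination (c - 1) * hc
    have hc0 : c ≠ 0 := by
      rintro rfl
      simp at hc
    have h1 := FiniteField.pow_card_sub_one_eq_one c hc0
    have h2 : Fintype.card F - 1 = 3 * (Fintype.card F / 3) + 1 := by omega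
    rw [h2, pow_add, pow_mul, hc3, one_pow, one_mul, pow_one] at h1
    rw [h1] at hc
    apply h3
    linear_combination hc
  obtain ⟨A, hA⟩ : ∃ A : Matrix (Fin m ⊕ Fin m) (Fin m ⊕ Fin m) F, A = x := ⟨_, rfl⟩
  have hA3 : A ^ 3 = 1 := by
    rw [hA]
    have h1 := congrArg (fun g : Matrix.symplecticGroup (Fin m) F =>
      (g : Matrix (Fin m ⊕ Fin m) (Fin m ⊕ Fin m) F)) hx3
    simpa using h1
  have hxx : (x : Matrix (Fin m ⊕ Fin m) (Fin m ⊕ Fin m) F) *
      (x : Matrix (Fin m ⊕ Fin m) (Fin m ⊕ Fin m) F) =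
        - (x : Matrix (Fin m ⊕ Fin m) (Fin m ⊕ Fin m) F) - 1 := by
    rw [← hA]
    have h1 : (A - 1) * (A * A + A + 1) = 0 := by
      have h2 : (A - 1) * (A * A + A + 1) = A ^ 3 - 1 := by noncomm_ring
      rw [h2, hA3, sub_self]
    rw [← hA] at hfpf
    obtain ⟨v, hv⟩ := hfpf
    have h2 : A * A + A + 1 = 0 := by
      have h4 : (↑v⁻¹ : Matrix (Fin m ⊕ Fin m) (Fin m ⊕ Fin m) F) *
          ((A - 1) * (A * A + A + 1)) = 0 := by rw [h1, mul_zero]
      rw [← mul_assoc, ← hv, Units.inv_mul, one_mul] at h4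
      exact h4
    rw [add_assoc, add_eq_zero_iff_eq_neg] at h2
    rw [h2]
    abel
  obtain ⟨K, hKf, hKa, hKt, ω, hK, hω, hdec⟩ := exists_ext hirr
  obtain ⟨p, hp⟩ := exists_conj_stdX h3 hirr x hxx
  have hxp : x = p * ⟨stdX m F, stdX_mem m⟩ * p⁻¹ := eq_mul_inv_of_mul_eq hp
  rw [hxp, card_centralizer_conj, card_cent_stdX rfl hK hq hirr hω hdec m, card_hermIsoSet hK m]

end final

end Cfsg.Agent.Lib.Helper99
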