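import Cfsg.Agent.Lib.Helper94.FrameMax

set_option autoImplicit false
set_option linter.unusedSectionVars false

namespace Cfsg.Agent.Lib.Helper99

open Cfsg Cfsg.Geo Cfsg.Agent.Lib.Helper94
open scoped MatrixGroups Matrix commutatorElement

variable {ι : Type} [Fintype ι] [DecidableEq ι] {F : Type*} [Field F]
variable {Q : (ι → F) → F}

/-- Generic non-maximality criterion: a set preserved by the decomposition stabiliser in `Ω`,
by some element of `Ω` outside the stabiliser, and not by all of `Ω`. -/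
theorem onm_notmax_of_set [Finite F] {t : ℕ} (D : Fin t → Submodule F (ι → F))
    (S : Set (ι → F))
    (hS : ∀ g ∈ decompositionStabilizer D ⊓ omegaGL Q, ∀ v ∈ S, (g : Matrix ι ι F) *ᵥ v ∈ S)
    (h1 : ∃ g ∈ omegaGL Q, (∀ v ∈ S, (g : Matrix ι ι F) *ᵥ v ∈ S) ∧
      g ∉ decompositionStabilizer D)
    (h2 : ∃ g ∈ omegaGL Q, ∃ v ∈ S, (g : Matrix ι ι F) *ᵥ v ∉ S) :
    ∃ K : Subgroup (GL ι F), decompositionStabilizer D ⊓ omegaGL Q < K ∧ K < omegaGL Q := by
  refine ⟨stabilizing (glToMat ι F) S ⊓ omegaGL Q, ?_, ?_⟩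
  · rw [SetLike.lt_iff_le_and_exists]
    constructor
    · intro g hg
      exact Subgroup.mem_inf.mpr
        ⟨mem_stabilizing_of_mapsTo g S (hS g hg), (Subgroup.mem_inf.mp hg).2⟩
    · obtain ⟨g, hgΩ, hgS, hgD⟩ := h1
      exact ⟨g, Subgroup.mem_inf.mpr ⟨mem_stabilizing_of_mapsTo g S hgS, hgΩ⟩,
        fun h => hgD (Subgroup.mem_inf.mp h).1⟩
  · rw [SetLike.lt_iff_le_and_exists]
    obtain ⟨g, hgΩ, v, hv, hgv⟩ := h2
    refine ⟨inf_le_right, g, hgΩ, fun h => hgv ?_⟩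
    exact ((mem_stabilizing_iff g S).mp (Subgroup.mem_inf.mp h).1 v).mp hv

/-- The commutator of two reflections in vectors of equal norm `c` with polar value `-c`. -/
lemma onm_comm_refl (hQ : IsNondegenerateQuadraticForm Q) (x y : ι → F) (c : F) (hc : c ≠ 0)
    (hx : Q x = c) (hy : Q y = c) (hxy : pol Q x y = -c) :
    ∃ g : GL ι F, g ∈ omegaGL Q ∧ ∀ v, (g : Matrix ι ι F) *ᵥ v =
      v - (pol Q v x / c) • x - ((pol Q v y + pol Q v x) / c) • y := by
  have hxne : Q x ≠ 0 := by rw [hx]; exact hc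
  have hyne : Q y ≠ 0 := by rw [hy]; exact hc
  refine ⟨_, comm_mem_omegaGL _ _ (reflGL_mem hQ x hxne) (reflGL_mem hQ y hyne), fun v => ?_⟩
  rw [reflGL_mul_mulVec hQ x y hxne hyne, comm_refl_apply hQ x y v hxne hyne, hx, hy, hxy]
  match_scalars <;> field_simp <;> ring

/-- The commutator of two reflections in vectors of norm `1` with polar value `-1`. -/
lemma onm_comm_refl_one (hQ : IsNondegenerateQuadraticForm Q) (x y : ι → F)
    (hx : Q x = 1) (hy : Q y = 1) (hxy : pol Q x y = -1) :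
    ∃ g : GL ι F, g ∈ omegaGL Q ∧ ∀ v, (g : Matrix ι ι F) *ᵥ v =
      v - pol Q v x • x - (pol Q v y + pol Q v x) • y := by
  obtain ⟨g, hg, h⟩ := onm_comm_refl hQ x y 1 one_ne_zero hx hy hxy
  exact ⟨g, hg, fun v => by rw [h v]; simp⟩

/-- A vector pairing non-trivially with vectors of two different blocks lies in no block. -/
lemma onm_not_mem_block {t : ℕ} (D : Fin t → Submodule F (ι → F))
    (horth : ∀ i j, i ≠ j → ∀ u ∈ D i, ∀ v ∈ D j, pol Q u v = 0) {ia ib : Fin t} (hne : ia ≠ ib)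
    {a b w : ι → F} (ha : a ∈ D ia) (hb : b ∈ D ib) (hwa : pol Q w a ≠ 0) (hwb : pol Q w b ≠ 0)
    (j : Fin t) : w ∉ D j := by
  intro hw
  by_cases hj : j = ia
  · subst hj
    exact hwb (horth j ib hne w hw b hb)
  · exact hwa (horth j ia hj w hw a ha)

lemma onm_pol_isometry (g : GL ι F) (hg : g ∈ isometryGroup F Q) (u v : ι → F) :
    pol Q ((g : Matrix ι ι F) *ᵥ u) ((g : Matrix ι ι F) *ᵥ v) = pol Q u v := by
  simp only [pol, QuadraticMap.polar, ← Matrix.mulVec_add, isometry_apply g hg]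

/-- The number of blocks times their dimension is the dimension of the space. -/
lemma onm_card_blocks {t k : ℕ} (D : Fin t → Submodule F (ι → F)) (hD : IsMDecomposition k D) :
    t * k = Fintype.card ι := by
  have hint := DirectSum.isInternal_submodule_of_iSupIndep_of_iSup_eq_top hD.indep hD.iSup_eq_top
  have e := LinearEquiv.ofBijective (DirectSum.coeLinearMap D) hint
  have h : ∑ i, Module.finrank F (D i) = Fintype.card ι := by
    rw [← Module.finrank_fintype_fun_eq_card (R := F), ← e.finrank_eq, Module.finrank_directSum]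
  simpa [hD.finrank_eq] using h

/-- A plane with a non-zero singular vector is of plus type. -/
lemma onm_plus_of_singular (hQ : IsNondegenerateQuadraticForm Q) (W : Submodule F (ι → F))
    (hdim : Module.finrank F W = 2) (v : ι → F) (hv : v ∈ W) (hv0 : v ≠ 0) (hQv : Q v = 0) :
    IsPlusTypeOn Q W := by
  refine ⟨Submodule.span F {v}, ?_, ?_, ?_⟩
  · rw [Submodule.span_le]
    intro w hw
    rw [Set.mem_singleton_iff] at hw
    rw [hw]
    exact hv
  · intro w hw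
    rw [Submodule.mem_span_singleton] at hw
    obtain ⟨a, rfl⟩ := hw
    rw [Q_smul hQ, hQv, mul_zero]
  · rw [finrank_span_singleton hv0, hdim]

lemma onm_singular_transport (W W' : Submodule F (ι → F)) (hiso : AreIsometricFor Q W W')
    (h : ∃ v ∈ W, v ≠ 0 ∧ Q v = 0) : ∃ v ∈ W', v ≠ 0 ∧ Q v = 0 := by
  obtain ⟨φ, hφ⟩ := hiso
  obtain ⟨v, hv, hv0, hQv⟩ := h
  refine ⟨φ ⟨v, hv⟩, (φ ⟨v, hv⟩).2, ?_, by rw [hφ]; exact hQv⟩
  intro h0
  have h1 : φ ⟨v, hv⟩ = 0 := Subtype.ext h0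
  rw [LinearEquiv.map_eq_zero_iff] at h1
  exact hv0 (congrArg Subtype.val h1)

/-- Hyperbolic pairs in all blocks of a decomposition into plus-type planes. -/
lemma onm_hyp_pairs (hQ : IsNondegenerateQuadraticForm Q) {t : ℕ}
    (D : Fin t → Submodule F (ι → F)) (hD : IsOrthogonalMDecomposition Q 2 D)
    (hplus : ∀ i, IsPlusTypeOn Q (D i)) :
    ∃ e f : Fin t → (ι → F), ∀ i, e i ∈ D i ∧ f i ∈ D i ∧ Q (e i) = 0 ∧ Q (f i) = 0 ∧
      pol Q (e i) (f i) = 1 ∧ ∀ v ∈ D i, ∃ a b : F, v = a • e i + b • f i := by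
  have h : ∀ i, ∃ p : (ι → F) × (ι → F), p.1 ∈ D i ∧ p.2 ∈ D i ∧ Q p.1 = 0 ∧ Q p.2 = 0 ∧
      pol Q p.1 p.2 = 1 ∧ ∀ v ∈ D i, ∃ a b : F, v = a • p.1 + b • p.2 := by
    intro i
    obtain ⟨u, w, h⟩ := exists_hyperbolic_pair hQ (D i) (hD.decomp.decomp.finrank_eq i)
      (hD.decomp.nondegenerate i) (hplus i)
    exact ⟨(u, w), h⟩
  choose p hp using h
  exact ⟨fun i => (p i).1, fun i => (p i).2, hp⟩

/-- The action of an element of the decomposition stabiliser in `Ω`. -/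
lemma onm_stab_data {t : ℕ} (D : Fin t → Submodule F (ι → F)) (g : GL ι F)
    (hg : g ∈ decompositionStabilizer D ⊓ omegaGL Q) :
    (∃ σ : Equiv.Perm (Fin t), ∀ i, ∀ v ∈ D i, (g : Matrix ι ι F) *ᵥ v ∈ D (σ i)) ∧
      (∀ v, Q ((g : Matrix ι ι F) *ᵥ v) = Q v) ∧
      (∀ u v, pol Q ((g : Matrix ι ι F) *ᵥ u) ((g : Matrix ι ι F) *ᵥ v) = pol Q u v) := by
  obtain ⟨hgD, hgΩ⟩ := Subgroup.mem_inf.mp hg
  obtain ⟨σ, hσ⟩ := (mem_decompositionStabilizer_iff D g).mp hgD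
  exact ⟨⟨σ, fun i v hv => mulVec_mem_of_mem_decompositionStabilizer D g σ hσ i v hv⟩,
    fun v => isometry_apply g (omegaGL_le Q hgΩ) v,
    fun u v => onm_pol_isometry g (omegaGL_le Q hgΩ) u v⟩

/-- The set of vectors of norm `c` in the blocks is preserved by the stabiliser in `Ω`. -/
lemma onm_norm_set_stable {t : ℕ} (D : Fin t → Submodule F (ι → F)) (c : F) (g : GL ι F)
    (hg : g ∈ decompositionStabilizer D ⊓ omegaGL Q) (v : ι → F)
    (hv : v ∈ {v : ι → F | ∃ i, v ∈ D i ∧ Q v = c}) :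
    (g : Matrix ι ι F) *ᵥ v ∈ {v : ι → F | ∃ i, v ∈ D i ∧ Q v = c} := by
  obtain ⟨⟨σ, hσ⟩, hgQ, -⟩ := onm_stab_data D g hg
  obtain ⟨i, hvi, hQv⟩ := hv
  exact ⟨σ i, hσ i v hvi, by rw [hgQ, hQv]⟩

end Cfsg.Agent.Lib.Helper99
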