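import Cfsg.Agent.Lib.Helper99.OrthNMBase

set_option autoImplicit false
set_option linter.unusedSectionVars false

namespace Cfsg.Agent.Lib.Helper99

open Cfsg Cfsg.Geo Cfsg.Agent.Lib.Helper94
open scoped MatrixGroups Matrix commutatorElement

variable {ι : Type} [Fintype ι] [DecidableEq ι] {F : Type*} [Field F]
variable {Q : (ι → F) → F}

/-- In odd characteristic: the stabiliser in Ω of an orthogonal decomposition whose members
carry a frame is not maximal. -/
theorem onm_frame_not_max [Finite F] (h2 : (2 : F) ≠ 0)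
    (hQ : IsNondegenerateQuadraticForm Q) {t k : ℕ} (D : Fin t → Submodule F (ι → F))
    (hD : IsOrthogonalMDecomposition Q k D) (i0 i1 : Fin t) (hne : i0 ≠ i1) (c : F) (hc : c ≠ 0)
    (p q : ι → F) (hfr : IsFramePair Q (D i0) c p q) :
    ∃ K : Subgroup (GL ι F), decompositionStabilizer D ⊓ omegaGL Q < K ∧ K < omegaGL Q := by
  obtain ⟨p', q', hfr'⟩ := frame_transport (D i0) (D i1) (hD.isometric i0 i1) c p q hfr
  obtain ⟨hp, hq, hQp, hQq, hpq, hchar⟩ := hfr
  obtain ⟨hp', hq', hQp', hQq', hpq', hchar'⟩ := hfr'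
  have h2c : (2 : F) * c ≠ 0 := mul_ne_zero h2 hc
  have horth : ∀ i j, i ≠ j → ∀ u ∈ D i, ∀ v ∈ D j, pol Q u v = 0 := hD.decomp.orthogonal
  have hpp' : pol Q p p' = 0 := horth i0 i1 hne p hp p' hp'
  have hpq'' : pol Q p q' = 0 := horth i0 i1 hne p hp q' hq'
  have hqp' : pol Q q p' = 0 := horth i0 i1 hne q hq p' hp'
  have hqq' : pol Q q q' = 0 := horth i0 i1 hne q hq q' hq'
  have hqp : pol Q q p = 0 := by rw [pol_comm, hpq]
  have hp'p : pol Q p' p = 0 := by rw [pol_comm, hpp']
  have hp'q : pol Q p' q = 0 := by rw [pol_comm, hqp']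
  have hq'p : pol Q q' p = 0 := by rw [pol_comm, hpq'']
  have hq'q : pol Q q' q = 0 := by rw [pol_comm, hqq']
  have hq'p' : pol Q q' p' = 0 := by rw [pol_comm, hpq']
  have hppself : pol Q p p = 2 * c := by rw [pol_self hQ, hQp]
  have hqqself : pol Q q q = 2 * c := by rw [pol_self hQ, hQq]
  have hp'p'self : pol Q p' p' = 2 * c := by rw [pol_self hQ, hQp']
  have hq'q'self : pol Q q' q' = 2 * c := by rw [pol_self hQ, hQq']
  have hpS : ∀ v : ι → F, (∃ i, v ∈ D i ∧ Q v = c) → ∃ i, -v ∈ D i ∧ Q (-v) = c := by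
    rintro v ⟨i, hvi, hQv⟩
    exact ⟨i, (D i).neg_mem hvi, by rw [Q_neg hQ, hQv]⟩
  refine ⟨stabilizing (glToMat ι F) {v | ∃ i, v ∈ D i ∧ Q v = c} ⊓ omegaGL Q, ?_, ?_⟩
  · rw [SetLike.lt_iff_le_and_exists]
    constructor
    · intro g hg
      rw [Subgroup.mem_inf] at hg ⊢
      obtain ⟨hgD, hgΩ⟩ := hg
      refine ⟨mem_stabilizing_of_mapsTo g _ ?_, hgΩ⟩
      obtain ⟨σ, hσ⟩ := (mem_decompositionStabilizer_iff D g).mp hgD
      rintro v ⟨i, hvi, hQv⟩
      exact ⟨σ i, mulVec_mem_of_mem_decompositionStabilizer D g σ hσ i v hvi,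
        by rw [isometry_apply g (omegaGL_le Q hgΩ) v, hQv]⟩
    · -- the 3-cycle p → p' → q → p
      obtain ⟨x, hx⟩ : ∃ x : ι → F, x = p - q := ⟨_, rfl⟩
      obtain ⟨y, hy⟩ : ∃ y : ι → F, y = q - p' := ⟨_, rfl⟩
      have hQx : Q x = 2 * c := by rw [hx, Q_sub hQ, hQp, hQq, hpq]; ring
      have hQy : Q y = 2 * c := by rw [hy, Q_sub hQ, hQq, hQp', hqp']; ring
      have hxy : pol Q x y = -(2 * c) := by
        rw [hx, hy]
        simp only [pol_sub_left hQ, pol_sub_right hQ, hpq, hpp', hqqself, hqp']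
        ring
      have hxne : Q x ≠ 0 := by rw [hQx]; exact h2c
      have hyne : Q y ≠ 0 := by rw [hQy]; exact h2c
      obtain ⟨g, hgΩ, hg⟩ : ∃ g : GL ι F, g ∈ omegaGL Q ∧ ∀ v, (g : Matrix ι ι F) *ᵥ v =
          reflLin hQ x (reflLin hQ y (reflLin hQ x (reflLin hQ y v))) :=
        ⟨_, comm_mem_omegaGL _ _ (reflGL_mem hQ x hxne) (reflGL_mem hQ y hyne),
          reflGL_mul_mulVec hQ x y hxne hyne⟩
      have hg' : ∀ v, (g : Matrix ι ι F) *ᵥ v =
          v - (pol Q v x / (2 * c)) • x - ((pol Q v x + pol Q v y) / (2 * c)) • y := by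
        intro v
        rw [hg, comm_refl_apply hQ x y v hxne hyne, hQx, hQy, hxy]
        match_scalars <;> field_simp <;> ring
      have hfix : ∀ v, pol Q v x = 0 → pol Q v y = 0 → (g : Matrix ι ι F) *ᵥ v = v := by
        intro v h1 h2'
        rw [hg', h1, h2']
        simp
      have hgp : (g : Matrix ι ι F) *ᵥ p = p' := by
        have e1 : pol Q p x = 2 * c := by rw [hx, pol_sub_right hQ, hppself, hpq]; ring
        have e2 : pol Q p y = 0 := by rw [hy, pol_sub_right hQ, hpq, hpp']; ring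
        rw [hg', e1, e2, hx, hy]
        match_scalars <;> field_simp <;> ring
      have hgq : (g : Matrix ι ι F) *ᵥ q = p := by
        have e1 : pol Q q x = -(2 * c) := by rw [hx, pol_sub_right hQ, hqqself, hqp]; ring
        have e2 : pol Q q y = 2 * c := by rw [hy, pol_sub_right hQ, hqqself, hqp']; ring
        rw [hg', e1, e2, hx, hy]
        match_scalars <;> field_simp <;> ring
      have hgp' : (g : Matrix ι ι F) *ᵥ p' = q := by
        have e1 : pol Q p' x = 0 := by rw [hx, pol_sub_right hQ, hp'p, hp'q]; ring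
        have e2 : pol Q p' y = -(2 * c) := by rw [hy, pol_sub_right hQ, hp'p'self, hp'q]; ring
        rw [hg', e1, e2, hx, hy]
        match_scalars <;> field_simp <;> ring
      refine ⟨g, Subgroup.mem_inf.mpr ⟨mem_stabilizing_of_mapsTo g _ ?_, hgΩ⟩, ?_⟩
      · rintro v ⟨i, hvi, hQv⟩
        by_cases hi0 : i = i0
        · subst hi0
          rcases hchar v hvi hQv with h | h | h | h | ⟨h1, h2'⟩
          · rw [h, hgp]; exact ⟨i1, hp', hQp'⟩
          · rw [h, Matrix.mulVec_neg, hgp]; exact hpS _ ⟨i1, hp', hQp'⟩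
          · rw [h, hgq]; exact ⟨i, hp, hQp⟩
          · rw [h, Matrix.mulVec_neg, hgq]; exact hpS _ ⟨i, hp, hQp⟩
          · rw [hfix v (by rw [hx, pol_sub_right hQ, h1, h2']; ring)
              (by rw [hy, pol_sub_right hQ, h2', horth i i1 hne v hvi p' hp']; ring)]
            exact ⟨i, hvi, hQv⟩
        · by_cases hi1 : i = i1
          · subst hi1
            have hvp : pol Q v p = 0 := horth i i0 hi0 v hvi p hp
            have hvq : pol Q v q = 0 := horth i i0 hi0 v hvi q hq
            have hcases : v = p' ∨ v = -p' ∨ pol Q v p' = 0 := by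
              rcases hchar' v hvi hQv with h | h | h | h | ⟨h1, -⟩
              · exact Or.inl h
              · exact Or.inr (Or.inl h)
              · exact Or.inr (Or.inr (by rw [h, hq'p']))
              · exact Or.inr (Or.inr (by rw [h, pol_neg_left hQ, hq'p', neg_zero]))
              · exact Or.inr (Or.inr h1)
            rcases hcases with h | h | h
            · rw [h, hgp']; exact ⟨i0, hq, hQq⟩
            · rw [h, Matrix.mulVec_neg, hgp']; exact hpS _ ⟨i0, hq, hQq⟩
            · rw [hfix v (by rw [hx, pol_sub_right hQ, hvp, hvq]; ring)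
                (by rw [hy, pol_sub_right hQ, hvq, h]; ring)]
              exact ⟨i, hvi, hQv⟩
          · have hvp : pol Q v p = 0 := horth i i0 hi0 v hvi p hp
            have hvq : pol Q v q = 0 := horth i i0 hi0 v hvi q hq
            have hvp' : pol Q v p' = 0 := horth i i1 hi1 v hvi p' hp'
            rw [hfix v (by rw [hx, pol_sub_right hQ, hvp, hvq]; ring)
              (by rw [hy, pol_sub_right hQ, hvq, hvp']; ring)]
            exact ⟨i, hvi, hQv⟩
      · intro hg''
        obtain ⟨σ, hσ⟩ := (mem_decompositionStabilizer_iff D g).mp (Subgroup.mem_inf.mp hg'').1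
        have m1 := mulVec_mem_of_mem_decompositionStabilizer D g σ hσ i0 p hp
        have m2 := mulVec_mem_of_mem_decompositionStabilizer D g σ hσ i0 q hq
        rw [hgp] at m1
        rw [hgq] at m2
        by_cases hσ0 : σ i0 = i0
        · rw [hσ0] at m1
          have := horth i0 i1 hne p' m1 p' hp'
          rw [hp'p'self] at this
          exact h2c this
        · have := horth (σ i0) i0 hσ0 p m2 p hp
          rw [hppself] at this
          exact h2c this
  · rw [SetLike.lt_iff_le_and_exists]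
    obtain ⟨x, hx⟩ : ∃ x : ι → F, x = (-(2 : F)⁻¹) • (p + q + p' + q') := ⟨_, rfl⟩
    have hQx : Q x = c := by
      rw [hx, Q_smul hQ]
      simp only [Q_add (Q := Q), pol_add_left hQ, hQp, hQq, hQp', hQq', hpq, hpp', hpq'', hqp',
        hqq', hpq']
      field_simp
      ring
    have hxp : pol Q x p = -c := by
      rw [hx, pol_smul_left hQ]
      simp only [pol_add_left hQ, hppself, hqp, hp'p, hq'p]
      field_simp
      ring
    obtain ⟨g, hgΩ, hg⟩ := onm_comm_refl hQ x p c hc hQx hQp hxp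
    have hqx : pol Q q x = -c := by
      rw [hx, pol_smul_right hQ]
      simp only [pol_add_right hQ, hqp, hqqself, hqp', hqq']
      field_simp
      ring
    have hgq : (g : Matrix ι ι F) *ᵥ q = q + x + p := by
      rw [hg, hqx, hqp]
      match_scalars <;> field_simp <;> ring
    refine ⟨inf_le_right, g, hgΩ, ?_⟩
    intro hg'
    have hgS := (mem_stabilizing_iff _ _).mp (Subgroup.mem_inf.mp hg').1
    obtain ⟨i, hwi, -⟩ := (hgS q).mp ⟨i0, hq, hQq⟩
    rw [hgq] at hwi
    have e1 : pol Q (q + x + p) p = c := by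
      rw [pol_add_left hQ, pol_add_left hQ, hqp, hxp, hppself]
      ring
    have e2 : pol Q (q + x + p) p' = -c := by
      rw [pol_add_left hQ, pol_add_left hQ, hqp', hpp', hx, pol_smul_left hQ]
      simp only [pol_add_left hQ, hpp', hqp', hp'p'self, hq'p']
      field_simp
      ring
    exact onm_not_mem_block D horth hne hp hp' (by rw [e1]; exact hc)
      (by rw [e2]; exact neg_ne_zero.mpr hc) i hwi

end Cfsg.Agent.Lib.Helper99
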