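import Cfsg.Agent.Lib.Helper99.OrthNMFrame

set_option autoImplicit false
set_option linter.unusedSectionVars false
set_option linter.unnecessarySeqFocus false
set_option linter.unusedSimpArgs false

namespace Cfsg.Agent.Lib.Helper99

open Cfsg Cfsg.Geo Cfsg.Agent.Lib.Helper94
open scoped MatrixGroups Matrix commutatorElement

variable {ι : Type} [Fintype ι] [DecidableEq ι] {F : Type*} [Field F]
variable {Q : (ι → F) → F}

/-- Pairing table of a family of hyperbolic pairs in pairwise orthogonal blocks. -/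
lemma onm_hyp_table (hQ : IsNondegenerateQuadraticForm Q) {t : ℕ}
    (D : Fin t → Submodule F (ι → F))
    (horth : ∀ i j, i ≠ j → ∀ u ∈ D i, ∀ v ∈ D j, pol Q u v = 0) (e f : Fin t → (ι → F))
    (h : ∀ i, e i ∈ D i ∧ f i ∈ D i ∧ Q (e i) = 0 ∧ Q (f i) = 0 ∧ pol Q (e i) (f i) = 1 ∧
      ∀ v ∈ D i, ∃ a b : F, v = a • e i + b • f i) :
    (∀ i j, pol Q (e i) (e j) = 0) ∧ (∀ i j, pol Q (f i) (f j) = 0) ∧
    (∀ i j, pol Q (e i) (f j) = if i = j then 1 else 0) ∧
    (∀ i j, pol Q (f i) (e j) = if i = j then 1 else 0) := by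
  refine ⟨fun i j => ?_, fun i j => ?_, fun i j => ?_, fun i j => ?_⟩
  · by_cases hij : i = j
    · subst hij
      rw [pol_self hQ, (h i).2.2.1, mul_zero]
    · exact horth i j hij _ (h i).1 _ (h j).1
  · by_cases hij : i = j
    · subst hij
      rw [pol_self hQ, (h i).2.2.2.1, mul_zero]
    · exact horth i j hij _ (h i).2.1 _ (h j).2.1
  · by_cases hij : i = j
    · subst hij
      rw [if_pos rfl]
      exact (h i).2.2.2.2.1
    · rw [if_neg hij]
      exact horth i j hij _ (h i).1 _ (h j).2.1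
  · by_cases hij : i = j
    · subst hij
      rw [if_pos rfl, pol_comm]
      exact (h i).2.2.2.2.1
    · rw [if_neg hij]
      exact horth i j hij _ (h i).2.1 _ (h j).1

lemma onm_not_stab_of_mem {t : ℕ} (D : Fin t → Submodule F (ι → F)) (g : GL ι F) (i : Fin t)
    (w : ι → F) (hw : w ∈ D i) (h : ∀ j, (g : Matrix ι ι F) *ᵥ w ∉ D j) :
    g ∉ decompositionStabilizer D := by
  intro hg
  obtain ⟨σ, hσ⟩ := (mem_decompositionStabilizer_iff D g).mp hg
  exact h (σ i) (mulVec_mem_of_mem_decompositionStabilizer D g σ hσ i w hw)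

lemma onm_not_stab_of_fix_move {t : ℕ} (D : Fin t → Submodule F (ι → F))
    (horth : ∀ i j, i ≠ j → ∀ u ∈ D i, ∀ v ∈ D j, pol Q u v = 0) (g : GL ι F) (i1 i3 : Fin t)
    (hne : i1 ≠ i3) (a a' b c c' : ι → F) (ha : a ∈ D i1) (ha' : a' ∈ D i1)
    (haa' : pol Q a a' ≠ 0) (hb : b ∈ D i1) (hc' : c' ∈ D i3) (hcc' : pol Q c c' ≠ 0)
    (hga : (g : Matrix ι ι F) *ᵥ a = a) (hgb : (g : Matrix ι ι F) *ᵥ b = c) :
    g ∉ decompositionStabilizer D := by
  intro hg
  obtain ⟨σ, hσ⟩ := (mem_decompositionStabilizer_iff D g).mp hg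
  have m1 := mulVec_mem_of_mem_decompositionStabilizer D g σ hσ i1 a ha
  have m2 := mulVec_mem_of_mem_decompositionStabilizer D g σ hσ i1 b hb
  rw [hga] at m1
  rw [hgb] at m2
  by_cases hσ1 : σ i1 = i1
  · rw [hσ1] at m2
    exact hcc' (horth i1 i3 hne c m2 c' hc')
  · exact haa' (horth (σ i1) i1 hσ1 a m1 a' ha')

/-! ### `q = 5`, plus-type planes -/

lemma onm_five_eq_zero [Fintype F] (hF : Fintype.card F = 5) : (5 : F) = 0 := by
  have := FiniteField.cast_card_eq_zero F
  rw [hF] at this
  exact_mod_cast this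

lemma onm_five_cases [Fintype F] (hF : Fintype.card F = 5) (a : F) :
    a = 0 ∨ a = 1 ∨ a = -1 ∨ a = 2 ∨ a = -2 := by
  have h5 := onm_five_eq_zero hF
  have h := FiniteField.pow_card a
  rw [hF] at h
  have h' : a * (a - 1) * (a + 1) * (a - 2) * (a + 2) = 0 := by
    linear_combination h + (a - a ^ 3) * h5
  simp only [mul_eq_zero] at h'
  rcases h' with (((h | h) | h) | h) | h
  · left; exact h
  · right; left; linear_combination h
  · right; right; left; linear_combination h
  · right; right; right; left; linear_combination h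
  · right; right; right; right; linear_combination h

lemma onm_frame_five [Fintype F] (hF : Fintype.card F = 5) (hQ : IsNondegenerateQuadraticForm Q)
    (D : Submodule F (ι → F)) (e f : ι → F) (he : e ∈ D) (hf : f ∈ D) (hQe : Q e = 0)
    (hQf : Q f = 0) (hef : pol Q e f = 1) (hspan : ∀ v ∈ D, ∃ a b : F, v = a • e + b • f) :
    IsFramePair Q D 1 (e + f) ((2 : F) • (e - f)) := by
  have h5 := onm_five_eq_zero hF
  have hfe : pol Q f e = 1 := by rw [pol_comm, hef]
  have hee : pol Q e e = 0 := by rw [pol_self hQ, hQe, mul_zero]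
  have hff : pol Q f f = 0 := by rw [pol_self hQ, hQf, mul_zero]
  refine ⟨D.add_mem he hf, D.smul_mem _ (D.sub_mem he hf), ?_, ?_, ?_, ?_⟩
  · rw [Q_add (Q := Q), hQe, hQf, hef]
    ring
  · rw [Q_smul hQ, Q_sub hQ, hQe, hQf, hef]
    linear_combination (-1 : F) * h5
  · rw [pol_smul_right hQ, pol_sub_right hQ, pol_add_left hQ, pol_add_left hQ, hee, hfe, hef, hff]
    ring
  · intro v hv hQv
    obtain ⟨a, b, rfl⟩ := hspan v hv
    have hab : a * b = 1 := by
      have : Q (a • e + b • f) = a * b := by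
        rw [Q_add (Q := Q), Q_smul hQ, Q_smul hQ, hQe, hQf, pol_smul_left hQ, pol_smul_right hQ,
          hef]
        ring
      rw [this] at hQv
      exact hQv
    rcases onm_five_cases hF a with rfl | rfl | rfl | rfl | rfl
    · simp at hab
    · left
      have hb : b = 1 := by linear_combination hab
      rw [hb]
      module
    · right; left
      have hb : b = -1 := by linear_combination -hab
      rw [hb]
      module
    · right; right; left
      have hb : b = -2 := by linear_combination 3 * hab + (1 - b) * h5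
      rw [hb]
      module
    · right; right; right; left
      have hb : b = 2 := by linear_combination (-3) * hab - (b + 1) * h5
      rw [hb]
      module

theorem onm_case_five [Fintype F] (hF : Fintype.card F = 5) (hQ : IsNondegenerateQuadraticForm Q)
    {t : ℕ} (D : Fin t → Submodule F (ι → F)) (hD : IsOrthogonalMDecomposition Q 2 D)
    (hplus : ∀ i, IsPlusTypeOn Q (D i)) :
    ∃ K : Subgroup (GL ι F), decompositionStabilizer D ⊓ omegaGL Q < K ∧ K < omegaGL Q := by
  have ht : 2 ≤ t := hD.decomp.decomp.two_le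
  have h5 := onm_five_eq_zero hF
  have h2 : (2 : F) ≠ 0 := by
    intro h
    have : (1 : F) = 0 := by linear_combination h5 - 2 * h
    exact one_ne_zero this
  obtain ⟨e, f, hef⟩ := onm_hyp_pairs hQ D hD hplus
  obtain ⟨he, hf, hQe, hQf, hpol, hspan⟩ := hef ⟨0, by omega⟩
  exact onm_frame_not_max h2 hQ D hD ⟨0, by omega⟩ ⟨1, by omega⟩ (by simp [Fin.ext_iff]) 1
    one_ne_zero _ _ (onm_frame_five hF hQ (D ⟨0, by omega⟩) _ _ he hf hQe hQf hpol hspan)

/-! ### `q = 3`, plus-type planes -/

theorem onm_case_three_hyp [Fintype F] (hF : Fintype.card F = 3)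
    (hQ : IsNondegenerateQuadraticForm Q) {t : ℕ} (D : Fin t → Submodule F (ι → F))
    (hD : IsOrthogonalMDecomposition Q 2 D) (hplus : ∀ i, IsPlusTypeOn Q (D i))
    (i1 i2 i3 : Fin t) (h12 : i1 ≠ i2) (h13 : i1 ≠ i3) (h23 : i2 ≠ i3) :
    ∃ K : Subgroup (GL ι F), decompositionStabilizer D ⊓ omegaGL Q < K ∧ K < omegaGL Q := by
  have h3 := three_eq_zero hF
  have h2 := two_ne_zero_of_card_three hF
  have horth : ∀ i j, i ≠ j → ∀ u ∈ D i, ∀ v ∈ D j, pol Q u v = 0 := hD.decomp.orthogonal
  obtain ⟨e, f, hef⟩ := onm_hyp_pairs hQ D hD hplus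
  obtain ⟨hee, hff, hef', hfe⟩ := onm_hyp_table hQ D horth e f hef
  have hQe : ∀ i, Q (e i) = 0 := fun i => (hef i).2.2.1
  have hQf : ∀ i, Q (f i) = 0 := fun i => (hef i).2.2.2.1
  have he : ∀ i, e i ∈ D i := fun i => (hef i).1
  have hf : ∀ i, f i ∈ D i := fun i => (hef i).2.1
  have h21 := h12.symm
  have h31 := h13.symm
  have h32 := h23.symm
  have hSq : ∀ v, (∃ i, v ∈ D i ∧ Q v = 1) → ∀ j, pol Q v (e j - f j) = 0 := by
    rintro v ⟨i, hvi, hQv⟩ j
    obtain ⟨a, b, rfl⟩ := (hef i).2.2.2.2.2 v hvi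
    have hab : a * b = 1 := by
      have : Q (a • e i + b • f i) = a * b := by
        rw [Q_add (Q := Q), Q_smul hQ, Q_smul hQ, hQe, hQf, pol_smul_left hQ, pol_smul_right hQ,
          hef', if_pos rfl]
        ring
      rw [this] at hQv
      exact hQv
    have ha : a ≠ 0 := by
      rintro rfl
      simp at hab
    have hba : b = a := by
      rcases eq_one_or_neg_one hF a ha with rfl | rfl
      · linear_combination hab
      · linear_combination -hab
    subst hba
    simp only [pol_add_left hQ, pol_sub_right hQ, pol_smul_left hQ, hee, hff, hef', hfe]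
    ring
  have hQp : ∀ i, Q (e i + f i) = 1 := by
    intro i
    rw [Q_add (Q := Q), hQe, hQf, hef', if_pos rfl]
    ring
  have hpm : ∀ i, e i + f i ∈ D i := fun i => D i |>.add_mem (he i) (hf i)
  have hqm : ∀ i, e i - f i ∈ D i := fun i => D i |>.sub_mem (he i) (hf i)
  refine onm_notmax_of_set D {v | ∃ i, v ∈ D i ∧ Q v = 1}
    (fun g hg v hv => onm_norm_set_stable D 1 g hg v hv) ?_ ?_
  · obtain ⟨x, hx⟩ : ∃ x : ι → F, x = e i1 - f i1 - (e i2 - f i2) := ⟨_, rfl⟩
    obtain ⟨y, hy⟩ : ∃ y : ι → F, y = e i2 - f i2 - (e i3 - f i3) := ⟨_, rfl⟩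
    have hQx : Q x = 1 := by
      rw [hx]
      simp only [Q_sub hQ, pol_sub_left hQ, pol_sub_right hQ, hQe, hQf, hee, hff, hef', hfe,
        eq_self_iff_true, if_true, if_neg h12, if_neg h21]
      linear_combination (-1 : F) * h3
    have hQy : Q y = 1 := by
      rw [hy]
      simp only [Q_sub hQ, pol_sub_left hQ, pol_sub_right hQ, hQe, hQf, hee, hff, hef', hfe,
        eq_self_iff_true, if_true, if_neg h23, if_neg h32]
      linear_combination (-1 : F) * h3
    have hxy : pol Q x y = -1 := by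
      rw [hx, hy]
      simp only [pol_sub_left hQ, pol_sub_right hQ, hee, hff, hef', hfe,
        eq_self_iff_true, if_true, if_neg h12, if_neg h21, if_neg h13, if_neg h31, if_neg h23,
        if_neg h32]
      linear_combination h3
    obtain ⟨g, hgΩ, hg⟩ := onm_comm_refl_one hQ x y hQx hQy hxy
    have hfix : ∀ v, (∃ i, v ∈ D i ∧ Q v = 1) → (g : Matrix ι ι F) *ᵥ v = v := by
      intro v hv
      have e1 : pol Q v x = 0 := by rw [hx, pol_sub_right hQ, hSq v hv, hSq v hv, sub_zero]
      have e2 : pol Q v y = 0 := by rw [hy, pol_sub_right hQ, hSq v hv, hSq v hv, sub_zero]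
      rw [hg, e1, e2]
      simp
    refine ⟨g, hgΩ, fun v hv => by rw [hfix v hv]; exact hv, ?_⟩
    have c1 : pol Q (e i1 - f i1) x = 1 := by
      rw [hx]
      simp only [pol_sub_left hQ, pol_sub_right hQ, hee, hff, hef', hfe,
        eq_self_iff_true, if_true, if_neg h12, if_neg h21]
      linear_combination (-1 : F) * h3
    have c2 : pol Q (e i1 - f i1) y = 0 := by
      rw [hy]
      simp only [pol_sub_left hQ, pol_sub_right hQ, hee, hff, hef', hfe,
        eq_self_iff_true, if_true, if_neg h12, if_neg h21, if_neg h13, if_neg h31]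
      ring
    have hgq : (g : Matrix ι ι F) *ᵥ (e i1 - f i1) = e i3 - f i3 := by
      rw [hg, c1, c2, hx, hy]
      module
    refine onm_not_stab_of_fix_move D horth g i1 i3 h13 (e i1 + f i1) (e i1 + f i1)
      (e i1 - f i1) (e i3 - f i3) (e i3 - f i3) (hpm i1) (hpm i1) ?_ (hqm i1) (hqm i3) ?_
      (hfix _ ⟨i1, hpm i1, hQp i1⟩) hgq
    · have : pol Q (e i1 + f i1) (e i1 + f i1) = 2 := by
        simp only [pol_add_left hQ, pol_add_right hQ, hee, hff, hef', hfe,
          eq_self_iff_true, if_true]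
        ring
      rw [this]
      exact h2
    · have : pol Q (e i3 - f i3) (e i3 - f i3) = -2 := by
        simp only [pol_sub_left hQ, pol_sub_right hQ, hee, hff, hef', hfe,
          eq_self_iff_true, if_true]
        ring
      rw [this]
      exact neg_ne_zero.mpr h2
  · obtain ⟨x, hx⟩ : ∃ x : ι → F, x = e i1 + f i1 + (e i2 + f i2) + (e i1 - f i1) := ⟨_, rfl⟩
    obtain ⟨y, hy⟩ : ∃ y : ι → F, y = e i1 + f i1 := ⟨_, rfl⟩
    have hQx : Q x = 1 := by
      rw [hx]
      simp only [Q_add (Q := Q), Q_sub hQ, pol_add_left hQ, pol_add_right hQ, pol_sub_left hQ,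
        pol_sub_right hQ, hQe, hQf, hee, hff, hef', hfe,
        eq_self_iff_true, if_true, if_neg h12, if_neg h21]
      ring
    have hQy : Q y = 1 := by rw [hy]; exact hQp i1
    have hxy : pol Q x y = -1 := by
      rw [hx, hy]
      simp only [pol_add_left hQ, pol_add_right hQ, pol_sub_left hQ,
        pol_sub_right hQ, hee, hff, hef', hfe,
        eq_self_iff_true, if_true, if_neg h12, if_neg h21]
      linear_combination h3
    obtain ⟨g, hgΩ, hg⟩ := onm_comm_refl_one hQ x y hQx hQy hxy
    have c1 : pol Q (e i2 + f i2) x = -1 := by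
      rw [hx]
      simp only [pol_add_left hQ, pol_add_right hQ, pol_sub_left hQ,
        pol_sub_right hQ, hee, hff, hef', hfe,
        eq_self_iff_true, if_true, if_neg h12, if_neg h21]
      linear_combination h3
    have c2 : pol Q (e i2 + f i2) y = 0 := by
      rw [hy]
      simp only [pol_add_left hQ, pol_add_right hQ, hee, hff, hef', hfe, if_neg h21]
      ring
    have hgp : (g : Matrix ι ι F) *ᵥ (e i2 + f i2) = e i2 + f i2 + x + y := by
      rw [hg, c1, c2]
      module
    refine ⟨g, hgΩ, e i2 + f i2, ⟨i2, hpm i2, hQp i2⟩, ?_⟩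
    rintro ⟨j, hj, -⟩
    rw [hgp] at hj
    refine onm_not_mem_block D horth h12 (hpm i1) (hpm i2) ?_ ?_ j hj
    · have : pol Q (e i2 + f i2 + x + y) (e i1 + f i1) = 1 := by
        rw [hx, hy]
        simp only [pol_add_left hQ, pol_add_right hQ, pol_sub_left hQ,
          pol_sub_right hQ, hee, hff, hef', hfe,
          eq_self_iff_true, if_true, if_neg h12, if_neg h21]
        linear_combination h3
      rw [this]
      exact one_ne_zero
    · have : pol Q (e i2 + f i2 + x + y) (e i2 + f i2) = 1 := by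
        rw [hx, hy]
        simp only [pol_add_left hQ, pol_add_right hQ, pol_sub_left hQ,
          pol_sub_right hQ, hee, hff, hef', hfe,
          eq_self_iff_true, if_true, if_neg h12, if_neg h21]
        linear_combination h3
      rw [this]
      exact one_ne_zero

end Cfsg.Agent.Lib.Helper99
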