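import Cfsg.Agent.Lib.Helper99.OrthNMHyp
import Cfsg.Agent.Lib.Helper94.PlaneTwo

set_option autoImplicit false
set_option linter.unusedSectionVars false
set_option linter.unnecessarySeqFocus false
set_option linter.unusedSimpArgs false

namespace Cfsg.Agent.Lib.Helper99

open Cfsg Cfsg.Geo Cfsg.Agent.Lib.Helper94
open scoped MatrixGroups Matrix commutatorElement

variable {ι : Type} [Fintype ι] [DecidableEq ι] {F : Type*} [Field F]
variable {Q : (ι → F) → F}

lemma onm_pol_sum_left (hQ : IsNondegenerateQuadraticForm Q) {α : Type*} (s : Finset α)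
    (w : α → ι → F) (x : ι → F) : pol Q (∑ i ∈ s, w i) x = ∑ i ∈ s, pol Q (w i) x :=
  map_sum (polL hQ x) w s

/-! ### `q = 2`, plus-type planes -/

theorem onm_case_two [Fintype F] (hF : Fintype.card F = 2)
    (hQ : IsNondegenerateQuadraticForm Q) {t : ℕ} (D : Fin t → Submodule F (ι → F))
    (hD : IsOrthogonalMDecomposition Q 2 D) (hplus : ∀ i, IsPlusTypeOn Q (D i))
    (i1 i2 i3 : Fin t) (h12 : i1 ≠ i2) (h13 : i1 ≠ i3) (h23 : i2 ≠ i3) :
    ∃ K : Subgroup (GL ι F), decompositionStabilizer D ⊓ omegaGL Q < K ∧ K < omegaGL Q := by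
  have h2 := two_eq_zero_of_card hF
  have h01 := eq_zero_or_one_of_card hF
  have h11 : (1 : F) + 1 = 0 := by linear_combination h2
  have horth : ∀ i j, i ≠ j → ∀ u ∈ D i, ∀ v ∈ D j, pol Q u v = 0 := hD.decomp.orthogonal
  obtain ⟨e, f, hef⟩ := onm_hyp_pairs hQ D hD hplus
  obtain ⟨hee, hff, hef', hfe⟩ := onm_hyp_table hQ D horth e f hef
  have hQe : ∀ i, Q (e i) = 0 := fun i => (hef i).2.2.1
  have hQf : ∀ i, Q (f i) = 0 := fun i => (hef i).2.2.2.1
  have he : ∀ i, e i ∈ D i := fun i => (hef i).1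
  have hf : ∀ i, f i ∈ D i := fun i => (hef i).2.1
  have h21 := h12.symm
  have h31 := h13.symm
  have h32 := h23.symm
  have hQp : ∀ i, Q (e i + f i) = 1 := by
    intro i
    rw [Q_add (Q := Q), hQe, hQf, hef', if_pos rfl]
    ring
  have hpm : ∀ i, e i + f i ∈ D i := fun i => D i |>.add_mem (he i) (hf i)
  have huniq : ∀ i, ∀ v ∈ D i, Q v = 1 → v = e i + f i := by
    intro i v hvi hQv
    obtain ⟨a, b, rfl⟩ := (hef i).2.2.2.2.2 v hvi
    have hab : a * b = 1 := by
      have : Q (a • e i + b • f i) = a * b := by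
        rw [Q_add (Q := Q), Q_smul hQ, Q_smul hQ, hQe, hQf, pol_smul_left hQ, pol_smul_right hQ,
          hef', if_pos rfl]
        ring
      rw [this] at hQv
      exact hQv
    rcases h01 a with rfl | rfl
    · simp at hab
    · rcases h01 b with rfl | rfl
      · simp at hab
      · simp
  obtain ⟨u, hu⟩ : ∃ u : ι → F, u = ∑ i, (e i + f i) := ⟨_, rfl⟩
  have hue : ∀ j, pol Q u (e j) = 1 := by
    intro j
    rw [hu, onm_pol_sum_left hQ]
    simp only [pol_add_left hQ, hee, hfe, zero_add]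
    rw [Finset.sum_ite_eq']
    simp
  have huf : ∀ j, pol Q u (f j) = 1 := by
    intro j
    rw [hu, onm_pol_sum_left hQ]
    simp only [pol_add_left hQ, hff, hef', add_zero]
    rw [Finset.sum_ite_eq']
    simp
  refine onm_notmax_of_set D {u} ?_ ?_ ?_
  · intro g hg v hv
    rw [Set.mem_singleton_iff] at hv ⊢
    obtain ⟨⟨σ, hσ⟩, hgQ, -⟩ := onm_stab_data D g hg
    rw [hv, hu, Matrix.mulVec_sum]
    have hgs : ∀ i, (g : Matrix ι ι F) *ᵥ (e i + f i) = e (σ i) + f (σ i) := fun i =>
      huniq (σ i) _ (hσ i _ (hpm i)) (by rw [hgQ, hQp i])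
    simp only [hgs]
    exact Equiv.sum_comp σ (fun i => e i + f i)
  · obtain ⟨x, hx⟩ : ∃ x : ι → F, x = e i1 + f i1 + e i2 + e i3 := ⟨_, rfl⟩
    obtain ⟨y, hy⟩ : ∃ y : ι → F, y = e i1 + f i1 + f i2 + e i3 := ⟨_, rfl⟩
    have hQx : Q x = 1 := by
      rw [hx]
      simp only [Q_add (Q := Q), pol_add_left hQ, pol_add_right hQ, hQe, hQf, hee, hff, hef',
        hfe, eq_self_iff_true, if_true, if_neg h12, if_neg h21, if_neg h13, if_neg h31,
        if_neg h23, if_neg h32]
      ring
    have hQy : Q y = 1 := by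
      rw [hy]
      simp only [Q_add (Q := Q), pol_add_left hQ, pol_add_right hQ, hQe, hQf, hee, hff, hef',
        hfe, eq_self_iff_true, if_true, if_neg h12, if_neg h21, if_neg h13, if_neg h31,
        if_neg h23, if_neg h32]
      ring
    have hxy : pol Q x y = -1 := by
      rw [hx, hy]
      simp only [pol_add_left hQ, pol_add_right hQ, hee, hff, hef',
        hfe, eq_self_iff_true, if_true, if_neg h12, if_neg h21, if_neg h13, if_neg h31,
        if_neg h23, if_neg h32]
      linear_combination 2 * h2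
    obtain ⟨g, hgΩ, hg⟩ := onm_comm_refl_one hQ x y hQx hQy hxy
    have e1 : pol Q u x = 0 := by
      rw [hx]
      simp only [pol_add_right hQ, hue, huf]
      linear_combination 2 * h2
    have e2 : pol Q u y = 0 := by
      rw [hy]
      simp only [pol_add_right hQ, hue, huf]
      linear_combination 2 * h2
    have hgu : (g : Matrix ι ι F) *ᵥ u = u := by
      rw [hg, e1, e2]
      simp
    have c1 : pol Q (e i2) x = 0 := by
      rw [hx]
      simp only [pol_add_right hQ, hee, hff, hef',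
        hfe, eq_self_iff_true, if_true, if_neg h12, if_neg h21, if_neg h13, if_neg h31,
        if_neg h23, if_neg h32]
      ring
    have c2 : pol Q (e i2) y = 1 := by
      rw [hy]
      simp only [pol_add_right hQ, hee, hff, hef',
        hfe, eq_self_iff_true, if_true, if_neg h12, if_neg h21, if_neg h13, if_neg h31,
        if_neg h23, if_neg h32]
      ring
    have hge : (g : Matrix ι ι F) *ᵥ e i2 = e i2 - y := by
      rw [hg, c1, c2]
      module
    refine ⟨g, hgΩ, fun v hv => ?_, onm_not_stab_of_mem D g i2 (e i2) (he i2) (fun j => ?_)⟩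
    · rw [Set.mem_singleton_iff] at hv ⊢
      rw [hv, hgu]
    · rw [hge]
      refine onm_not_mem_block D horth h32 (hf i3) (he i2) ?_ ?_ j
      · have : pol Q (e i2 - y) (f i3) = -1 := by
          rw [hy]
          simp only [pol_add_left hQ, pol_sub_left hQ, hee, hff, hef',
            hfe, eq_self_iff_true, if_true, if_neg h12, if_neg h21, if_neg h13, if_neg h31,
            if_neg h23, if_neg h32]
          ring
        rw [this]
        exact neg_ne_zero.mpr one_ne_zero
      · have : pol Q (e i2 - y) (e i2) = -1 := by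
          rw [hy]
          simp only [pol_add_left hQ, pol_sub_left hQ, hee, hff, hef',
            hfe, eq_self_iff_true, if_true, if_neg h12, if_neg h21, if_neg h13, if_neg h31,
            if_neg h23, if_neg h32]
          ring
        rw [this]
        exact neg_ne_zero.mpr one_ne_zero
  · obtain ⟨x, hx⟩ : ∃ x : ι → F, x = e i1 + f i1 + e i2 := ⟨_, rfl⟩
    obtain ⟨y, hy⟩ : ∃ y : ι → F, y = e i1 + f i1 + f i2 := ⟨_, rfl⟩
    have hQx : Q x = 1 := by
      rw [hx]
      simp only [Q_add (Q := Q), pol_add_left hQ, pol_add_right hQ, hQe, hQf, hee, hff, hef',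
        hfe, eq_self_iff_true, if_true, if_neg h12, if_neg h21]
      ring
    have hQy : Q y = 1 := by
      rw [hy]
      simp only [Q_add (Q := Q), pol_add_left hQ, pol_add_right hQ, hQe, hQf, hee, hff, hef',
        hfe, eq_self_iff_true, if_true, if_neg h12, if_neg h21]
      ring
    have hxy : pol Q x y = -1 := by
      rw [hx, hy]
      simp only [pol_add_left hQ, pol_add_right hQ, hee, hff, hef',
        hfe, eq_self_iff_true, if_true, if_neg h12, if_neg h21]
      linear_combination 2 * h2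
    obtain ⟨g, hgΩ, hg⟩ := onm_comm_refl_one hQ x y hQx hQy hxy
    have c1 : pol Q u x = 1 := by
      rw [hx]
      simp only [pol_add_right hQ, hue, huf]
      linear_combination h2
    have c2 : pol Q u y = 1 := by
      rw [hy]
      simp only [pol_add_right hQ, hue, huf]
      linear_combination h2
    refine ⟨g, hgΩ, u, rfl, ?_⟩
    intro hmem
    rw [Set.mem_singleton_iff, hg, c1, c2, h11] at hmem
    have hx0 : x = 0 := by simpa using hmem
    rw [hx0, Q_zero hQ] at hQx
    exact zero_ne_one hQx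

/-! ### `q = 4`, plus-type planes -/

lemma onm_four_two [Fintype F] (hF : Fintype.card F = 4) : (2 : F) = 0 := by
  have h := FiniteField.cast_card_eq_zero F
  rw [hF] at h
  have h4 : (2 : F) * 2 = 0 := by
    have : ((4 : ℕ) : F) = 2 * 2 := by norm_num
    rw [← this]
    exact h
  exact mul_self_eq_zero.mp h4

lemma onm_four_cube [Fintype F] (hF : Fintype.card F = 4) (a : F) (ha : a ≠ 0) : a ^ 3 = 1 := by
  have h := FiniteField.pow_card_sub_one_eq_one a ha
  rw [hF] at h
  exact h

lemma onm_four_lambda [Fintype F] (hF : Fintype.card F = 4) : ∃ l : F, l ^ 2 + l + 1 = 0 := by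
  have hcard : 2 < Fintype.card F := by omega
  obtain ⟨a, b, c, hab, hac, hbc⟩ := Fintype.two_lt_card_iff.mp hcard
  have key : ∃ l : F, l ≠ 0 ∧ l ≠ 1 := by
    by_contra hcon
    have h01 : ∀ z : F, z = 0 ∨ z = 1 := fun z => by
      by_cases hz : z = 0
      · exact Or.inl hz
      · right
        by_contra hz1
        exact hcon ⟨z, hz, hz1⟩
    rcases h01 a with rfl | rfl <;> rcases h01 b with rfl | rfl <;>
      rcases h01 c with rfl | rfl <;> simp_all
  obtain ⟨l, hl0, hl1⟩ := key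
  have h3 := onm_four_cube hF l hl0
  have : (l - 1) * (l ^ 2 + l + 1) = 0 := by linear_combination h3
  rcases mul_eq_zero.mp this with h | h
  · exact absurd (sub_eq_zero.mp h) hl1
  · exact ⟨l, h⟩

lemma onm_f2_add (h2 : (2 : F) = 0) {a b : F} (ha : a ^ 2 = a) (hb : b ^ 2 = b) :
    (a + b) ^ 2 = a + b := by
  linear_combination ha + hb + a * b * h2

lemma onm_f2_sub (h2 : (2 : F) = 0) {a b : F} (ha : a ^ 2 = a) (hb : b ^ 2 = b) :
    (a - b) ^ 2 = a - b := by
  linear_combination ha + hb + (b - a * b) * h2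

lemma onm_f2_mul {a b : F} (ha : a ^ 2 = a) (hb : b ^ 2 = b) : (a * b) ^ 2 = a * b := by
  linear_combination b ^ 2 * ha + a * hb

theorem onm_case_four [Fintype F] (hF : Fintype.card F = 4)
    (hQ : IsNondegenerateQuadraticForm Q) {t : ℕ} (D : Fin t → Submodule F (ι → F))
    (hD : IsOrthogonalMDecomposition Q 2 D) (hplus : ∀ i, IsPlusTypeOn Q (D i))
    (i1 i2 i3 : Fin t) (h12 : i1 ≠ i2) (h13 : i1 ≠ i3) (h23 : i2 ≠ i3) :
    ∃ K : Subgroup (GL ι F), decompositionStabilizer D ⊓ omegaGL Q < K ∧ K < omegaGL Q := by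
  have h2 := onm_four_two hF
  have h11 : (1 : F) + 1 = 0 := by linear_combination h2
  obtain ⟨l, hl⟩ := onm_four_lambda hF
  have horth : ∀ i j, i ≠ j → ∀ u ∈ D i, ∀ v ∈ D j, pol Q u v = 0 := hD.decomp.orthogonal
  obtain ⟨e, f, hef⟩ := onm_hyp_pairs hQ D hD hplus
  obtain ⟨hee, hff, hef', hfe⟩ := onm_hyp_table hQ D horth e f hef
  have hQe : ∀ i, Q (e i) = 0 := fun i => (hef i).2.2.1
  have hQf : ∀ i, Q (f i) = 0 := fun i => (hef i).2.2.2.1
  have he : ∀ i, e i ∈ D i := fun i => (hef i).1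
  have hf : ∀ i, f i ∈ D i := fun i => (hef i).2.1
  have h21 := h12.symm
  have h31 := h13.symm
  have h32 := h23.symm
  have hQab : ∀ i (a b : F), Q (a • e i + b • f i) = a * b := by
    intro i a b
    rw [Q_add (Q := Q), Q_smul hQ, Q_smul hQ, hQe, hQf, pol_smul_left hQ, pol_smul_right hQ,
      hef', if_pos rfl]
    ring
  have hQp : ∀ i, Q (e i + f i) = 1 := by
    intro i
    rw [Q_add (Q := Q), hQe, hQf, hef', if_pos rfl]
    ring
  have hpm : ∀ i, e i + f i ∈ D i := fun i => D i |>.add_mem (he i) (hf i)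
  have hQw : ∀ i, Q (l • e i + (l + 1) • f i) = 1 := by
    intro i
    rw [hQab]
    linear_combination hl - h2
  have hwm : ∀ i, l • e i + (l + 1) • f i ∈ D i := fun i =>
    (D i).add_mem ((D i).smul_mem _ (he i)) ((D i).smul_mem _ (hf i))
  have hSV : ∀ s s' : ι → F, (∃ i, s ∈ D i ∧ Q s = 1) → (∃ i, s' ∈ D i ∧ Q s' = 1) →
      pol Q s s' ^ 2 = pol Q s s' := by
    rintro s s' ⟨i, hsi, hQs⟩ ⟨j, hsj, hQs'⟩
    by_cases hij : i = j
    · subst hij
      obtain ⟨a, b, rfl⟩ := (hef i).2.2.2.2.2 s hsi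
      obtain ⟨a', b', rfl⟩ := (hef i).2.2.2.2.2 s' hsj
      rw [hQab] at hQs hQs'
      have ha : a ≠ 0 := by
        rintro rfl
        simp at hQs
      have ha' : a' ≠ 0 := by
        rintro rfl
        simp at hQs'
      have ha3 := onm_four_cube hF a ha
      have ha'3 := onm_four_cube hF a' ha'
      have hb : b = a ^ 2 := by linear_combination (-b) * ha3 + a ^ 2 * hQs
      have hb' : b' = a' ^ 2 := by linear_combination (-b') * ha'3 + a' ^ 2 * hQs'
      have : pol Q (a • e i + b • f i) (a' • e i + b' • f i) = a * a' ^ 2 + a ^ 2 * a' := by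
        rw [hb, hb']
        simp only [pol_add_left hQ, pol_add_right hQ, pol_smul_left hQ, pol_smul_right hQ, hee,
          hff, hef', hfe, eq_self_iff_true, if_true]
        ring
      rw [this]
      linear_combination (a ^ 2 * a') * ha'3 + (a * a' ^ 2) * ha3 + (a ^ 3 * a' ^ 3) * h2
    · rw [horth i j hij s hsi s' hsj]
      ring
  obtain ⟨V, hV⟩ : ∃ V : Set (ι → F),
      V = {v | ∀ s, (∃ i, s ∈ D i ∧ Q s = 1) → pol Q v s ^ 2 = pol Q v s} := ⟨_, rfl⟩
  have hVmem : ∀ v, v ∈ V ↔ ∀ s, (∃ i, s ∈ D i ∧ Q s = 1) → pol Q v s ^ 2 = pol Q v s := by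
    intro v
    rw [hV]
    rfl
  have hSsubV : ∀ s, (∃ i, s ∈ D i ∧ Q s = 1) → s ∈ V := fun s hs =>
    (hVmem s).mpr (fun s' hs' => hSV s s' hs hs')
  have hpres : ∀ x y : ι → F, x ∈ V → y ∈ V → (∀ v ∈ V, pol Q v x ^ 2 = pol Q v x) →
      (∀ v ∈ V, pol Q v y ^ 2 = pol Q v y) →
      ∀ v ∈ V, v - pol Q v x • x - (pol Q v y + pol Q v x) • y ∈ V := by
    intro x y hxV hyV hx' hy' v hv
    rw [hVmem]
    intro s hs
    rw [pol_sub_left hQ, pol_sub_left hQ, pol_smul_left hQ, pol_smul_left hQ]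
    exact onm_f2_sub h2 (onm_f2_sub h2 ((hVmem v).mp hv s hs)
      (onm_f2_mul (hx' v hv) ((hVmem x).mp hxV s hs)))
      (onm_f2_mul (onm_f2_add h2 (hy' v hv) (hx' v hv)) ((hVmem y).mp hyV s hs))
  have hsum3 : ∀ s1 s2 s3 : ι → F, (∃ i, s1 ∈ D i ∧ Q s1 = 1) → (∃ i, s2 ∈ D i ∧ Q s2 = 1) →
      (∃ i, s3 ∈ D i ∧ Q s3 = 1) →
      s1 + s2 + s3 ∈ V ∧ ∀ v ∈ V, pol Q v (s1 + s2 + s3) ^ 2 = pol Q v (s1 + s2 + s3) := by
    intro s1 s2 s3 hs1 hs2 hs3
    constructor
    · rw [hVmem]
      intro s hs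
      rw [pol_add_left hQ, pol_add_left hQ]
      exact onm_f2_add h2 (onm_f2_add h2 (hSV _ _ hs1 hs) (hSV _ _ hs2 hs)) (hSV _ _ hs3 hs)
    · intro v hv
      rw [pol_add_right hQ, pol_add_right hQ]
      exact onm_f2_add h2 (onm_f2_add h2 ((hVmem v).mp hv _ hs1) ((hVmem v).mp hv _ hs2))
        ((hVmem v).mp hv _ hs3)
  refine onm_notmax_of_set D V ?_ ?_ ?_
  · intro g hg v hv
    rw [hVmem]
    intro s hs
    have hginv : g⁻¹ ∈ decompositionStabilizer D ⊓ omegaGL Q := inv_mem hg
    have hs' := onm_norm_set_stable D 1 g⁻¹ hginv s hs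
    obtain ⟨-, -, hgpol⟩ := onm_stab_data D g hg
    have hss : (g : Matrix ι ι F) *ᵥ (((g⁻¹ : GL ι F) : Matrix ι ι F) *ᵥ s) = s := by
      rw [Matrix.mulVec_mulVec, ← Units.val_mul, mul_inv_cancel, Units.val_one,
        Matrix.one_mulVec]
    have h := (hVmem v).mp hv _ hs'
    rw [← hgpol, hss] at h
    exact h
  · obtain ⟨x, hx⟩ : ∃ x : ι → F, x = e i1 + f i1 + (e i2 + f i2) + (e i3 + f i3) := ⟨_, rfl⟩
    obtain ⟨y, hy⟩ : ∃ y : ι → F,
        y = l • e i1 + (l + 1) • f i1 + (e i2 + f i2) + (e i3 + f i3) := ⟨_, rfl⟩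
    have hxV := hsum3 _ _ _ ⟨i1, hpm i1, hQp i1⟩ ⟨i2, hpm i2, hQp i2⟩ ⟨i3, hpm i3, hQp i3⟩
    have hyV := hsum3 _ _ _ ⟨i1, hwm i1, hQw i1⟩ ⟨i2, hpm i2, hQp i2⟩ ⟨i3, hpm i3, hQp i3⟩
    rw [← hx] at hxV
    rw [← hy] at hyV
    have hQx : Q x = 1 := by
      rw [hx]
      simp only [Q_add (Q := Q), pol_add_left hQ, pol_add_right hQ, hQe, hQf, hee, hff, hef',
        hfe, eq_self_iff_true, if_true, if_neg h12, if_neg h21, if_neg h13, if_neg h31,
        if_neg h23, if_neg h32]
      linear_combination h2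
    have hQy : Q y = 1 := by
      rw [hy]
      simp only [Q_add (Q := Q), Q_smul hQ, pol_add_left hQ, pol_add_right hQ,
        pol_smul_left hQ, pol_smul_right hQ, hQe, hQf, hee, hff, hef',
        hfe, eq_self_iff_true, if_true, if_neg h12, if_neg h21, if_neg h13, if_neg h31,
        if_neg h23, if_neg h32]
      linear_combination hl
    have hxy : pol Q x y = -1 := by
      rw [hx, hy]
      simp only [pol_add_left hQ, pol_add_right hQ,
        pol_smul_left hQ, pol_smul_right hQ, hee, hff, hef',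
        hfe, eq_self_iff_true, if_true, if_neg h12, if_neg h21, if_neg h13, if_neg h31,
        if_neg h23, if_neg h32]
      linear_combination (l + 3) * h2
    obtain ⟨g, hgΩ, hg⟩ := onm_comm_refl_one hQ x y hQx hQy hxy
    have c1 : pol Q (e i2) x = 1 := by
      rw [hx]
      simp only [pol_add_right hQ, hee, hff, hef',
        hfe, eq_self_iff_true, if_true, if_neg h12, if_neg h21, if_neg h13, if_neg h31,
        if_neg h23, if_neg h32]
      ring
    have c2 : pol Q (e i2) y = 1 := by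
      rw [hy]
      simp only [pol_add_right hQ, pol_smul_right hQ, hee, hff, hef',
        hfe, eq_self_iff_true, if_true, if_neg h12, if_neg h21, if_neg h13, if_neg h31,
        if_neg h23, if_neg h32]
      ring
    have hge : (g : Matrix ι ι F) *ᵥ e i2 = e i2 - x := by
      rw [hg, c1, c2, h11]
      module
    refine ⟨g, hgΩ, fun v hv => ?_, onm_not_stab_of_mem D g i2 (e i2) (he i2) (fun j => ?_)⟩
    · rw [hg]
      exact hpres x y hxV.1 hyV.1 hxV.2 hyV.2 v hv
    · rw [hge]
      refine onm_not_mem_block D horth h31 (hf i3) (hf i1) ?_ ?_ j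
      · have : pol Q (e i2 - x) (f i3) = -1 := by
          rw [hx]
          simp only [pol_add_left hQ, pol_sub_left hQ, hee, hff, hef',
            hfe, eq_self_iff_true, if_true, if_neg h12, if_neg h21, if_neg h13, if_neg h31,
        if_neg h23, if_neg h32]
          ring
        rw [this]
        exact neg_ne_zero.mpr one_ne_zero
      · have : pol Q (e i2 - x) (f i1) = -1 := by
          rw [hx]
          simp only [pol_add_left hQ, pol_sub_left hQ, hee, hff, hef',
            hfe, eq_self_iff_true, if_true, if_neg h12, if_neg h21, if_neg h13, if_neg h31,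
        if_neg h23, if_neg h32]
          ring
        rw [this]
        exact neg_ne_zero.mpr one_ne_zero
  · obtain ⟨x, hx⟩ : ∃ x : ι → F, x = e i1 + f i1 + e i2 := ⟨_, rfl⟩
    obtain ⟨y, hy⟩ : ∃ y : ι → F, y = e i2 + f i2 := ⟨_, rfl⟩
    have hQx : Q x = 1 := by
      rw [hx]
      simp only [Q_add (Q := Q), pol_add_left hQ, pol_add_right hQ, hQe, hQf, hee, hff, hef',
        hfe, eq_self_iff_true, if_true, if_neg h12, if_neg h21, if_neg h13, if_neg h31,
        if_neg h23, if_neg h32]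
      ring
    have hQy : Q y = 1 := by
      rw [hy]
      exact hQp i2
    have hxy : pol Q x y = -1 := by
      rw [hx, hy]
      simp only [pol_add_left hQ, pol_add_right hQ, hee, hff, hef',
        hfe, eq_self_iff_true, if_true, if_neg h12, if_neg h21, if_neg h13, if_neg h31,
        if_neg h23, if_neg h32]
      linear_combination h2
    obtain ⟨g, hgΩ, hg⟩ := onm_comm_refl_one hQ x y hQx hQy hxy
    refine ⟨g, hgΩ, l • e i2 + (l + 1) • f i2, hSsubV _ ⟨i2, hwm i2, hQw i2⟩, ?_⟩
    intro hmem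
    have h := (hVmem _).mp hmem (l • e i1 + (l + 1) • f i1) ⟨i1, hwm i1, hQw i1⟩
    have hval : pol Q ((g : Matrix ι ι F) *ᵥ (l • e i2 + (l + 1) • f i2))
        (l • e i1 + (l + 1) • f i1) = l + 1 := by
      rw [hg, hx, hy]
      simp only [pol_add_left hQ, pol_add_right hQ, pol_sub_left hQ, pol_smul_left hQ,
        pol_smul_right hQ, hee, hff, hef', hfe, eq_self_iff_true, if_true, if_neg h12, if_neg h21, if_neg h13, if_neg h31,
        if_neg h23, if_neg h32]
      linear_combination (-(l + 1) ^ 2) * h2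
    rw [hval] at h
    exact one_ne_zero (by linear_combination hl - h : (1 : F) = 0)

end Cfsg.Agent.Lib.Helper99
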