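import Cfsg.Agent.Lib.Helper99.OrthNMHyp2

set_option autoImplicit false
set_option linter.unusedSectionVars false
set_option linter.unnecessarySeqFocus false
set_option linter.unusedSimpArgs false

namespace Cfsg.Agent.Lib.Helper99

open Cfsg Cfsg.Geo Cfsg.Agent.Lib.Helper94
open scoped MatrixGroups Matrix commutatorElement

variable {ι : Type} [Fintype ι] [DecidableEq ι] {F : Type*} [Field F]
variable {Q : (ι → F) → F}

/-- A singular partner of a singular vector `u`, built from a vector `x` not orthogonal to `u`. -/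
lemma onm_partner (hQ : IsNondegenerateQuadraticForm Q) (W : Submodule F (ι → F)) (u x : ι → F)
    (hu : u ∈ W) (hx : x ∈ W) (hQu : Q u = 0) (hxu : pol Q x u ≠ 0) :
    ∃ w ∈ W, Q w = 0 ∧ pol Q u w = 1 ∧ ∀ z, pol Q x z = 0 → pol Q u z = 0 → pol Q w z = 0 := by
  have hux : pol Q u x ≠ 0 := by rwa [pol_comm]
  refine ⟨(pol Q u x)⁻¹ • (x - (Q x / pol Q x u) • u),
    W.smul_mem _ (W.sub_mem hx (W.smul_mem _ hu)), ?_, ?_, ?_⟩
  · rw [Q_smul hQ, Q_sub hQ, Q_smul hQ, pol_smul_right hQ, hQu]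
    field_simp
    ring
  · rw [pol_smul_right hQ, pol_sub_right hQ, pol_smul_right hQ, pol_self hQ, hQu]
    field_simp
    ring
  · intro z h1 h2
    rw [pol_smul_left hQ, pol_sub_left hQ, pol_smul_left hQ, h1, h2]
    ring

/-- A hyperbolic basis of a non-degenerate plus-type subspace of dimension four. -/
lemma onm_witt_four (hQ : IsNondegenerateQuadraticForm Q) (W : Submodule F (ι → F))
    (hdimW : Module.finrank F W = 4) (hW : IsNondegenerateOn (QuadraticMap.polar Q) W)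
    (hplus : IsPlusTypeOn Q W) :
    ∃ e1 f1 e2 f2 : ι → F, e1 ∈ W ∧ f1 ∈ W ∧ e2 ∈ W ∧ f2 ∈ W ∧ Q e1 = 0 ∧ Q f1 = 0 ∧ Q e2 = 0 ∧
      Q f2 = 0 ∧ pol Q e1 f1 = 1 ∧ pol Q e2 f2 = 1 ∧ pol Q e1 e2 = 0 ∧ pol Q e1 f2 = 0 ∧
      pol Q f1 e2 = 0 ∧ pol Q f1 f2 = 0 ∧
      ∀ v ∈ W, ∃ x1 y1 x2 y2 : F, v = x1 • e1 + y1 • f1 + x2 • e2 + y2 • f2 := by
  obtain ⟨U, hUW, hU, hdimU⟩ := hplus
  have hU2 : Module.finrank F U = 2 := by omega
  have hUpol : ∀ u ∈ U, ∀ u' ∈ U, pol Q u u' = 0 := by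
    intro u hu u' hu'
    show Q (u + u') - Q u - Q u' = 0
    rw [hU _ (U.add_mem hu hu'), hU u hu, hU u' hu']
    ring
  have hUne : U ≠ ⊥ := by
    intro h
    rw [h] at hU2
    simp at hU2
  obtain ⟨e1, he1U, he1ne⟩ := Submodule.exists_mem_ne_zero_of_ne_bot hUne
  have hQe1 : Q e1 = 0 := hU e1 he1U
  have he1W : e1 ∈ W := hUW he1U
  obtain ⟨⟨x, hxW, hx⟩, -⟩ := hW e1 he1W he1ne
  obtain ⟨f1, hf1W, hQf1, he1f1, -⟩ := onm_partner hQ W e1 x he1W hxW hQe1 hx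
  have hf1e1 : pol Q f1 e1 = 1 := by rw [pol_comm, he1f1]
  have hex : ∃ v ∈ U, v ∉ Submodule.span F {e1} := by
    by_contra hcon
    have hle : U ≤ Submodule.span F {e1} := fun v hv => by
      by_contra hv'
      exact hcon ⟨v, hv, hv'⟩
    have := Submodule.finrank_mono hle
    rw [hU2, finrank_span_singleton he1ne] at this
    omega
  obtain ⟨e2', he2'U, he2'⟩ := hex
  obtain ⟨e2, he2def⟩ : ∃ e2 : ι → F, e2 = e2' - pol Q e2' f1 • e1 := ⟨_, rfl⟩
  have he2U : e2 ∈ U := by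
    rw [he2def]
    exact U.sub_mem he2'U (U.smul_mem _ he1U)
  have he2W : e2 ∈ W := hUW he2U
  have hQe2 : Q e2 = 0 := hU e2 he2U
  have he1e2 : pol Q e1 e2 = 0 := hUpol e1 he1U e2 he2U
  have he2e1 : pol Q e2 e1 = 0 := hUpol e2 he2U e1 he1U
  have hf1e2 : pol Q f1 e2 = 0 := by
    rw [he2def, pol_sub_right hQ, pol_smul_right hQ, hf1e1, pol_comm f1 e2']
    ring
  have he2f1 : pol Q e2 f1 = 0 := by rw [pol_comm, hf1e2]
  have he2ne : e2 ≠ 0 := by
    intro h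
    apply he2'
    rw [Submodule.mem_span_singleton]
    refine ⟨pol Q e2' f1, ?_⟩
    rw [he2def, sub_eq_zero] at h
    exact h.symm
  obtain ⟨⟨y, hyW, hy⟩, -⟩ := hW e2 he2W he2ne
  obtain ⟨hp1, hp2, -, hp4⟩ := proj_perp hQ e1 f1 hQe1 hQf1 he1f1 y
  obtain ⟨y', hy'def⟩ : ∃ y' : ι → F, y' = y - pol Q y f1 • e1 - pol Q y e1 • f1 := ⟨_, rfl⟩
  rw [← hy'def] at hp1 hp2 hp4
  have hy'W : y' ∈ W := by
    rw [hy'def]
    exact W.sub_mem (W.sub_mem hyW (W.smul_mem _ he1W)) (W.smul_mem _ hf1W)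
  have hy'e2 : pol Q y' e2 ≠ 0 := by
    rw [hp4 e2 he1e2 hf1e2]
    exact hy
  obtain ⟨f2, hf2W, hQf2, he2f2, hperp⟩ := onm_partner hQ W e2 y' he2W hy'W hQe2 hy'e2
  have hf2e1 : pol Q f2 e1 = 0 := hperp e1 hp1 he2e1
  have hf2f1 : pol Q f2 f1 = 0 := hperp f1 hp2 he2f1
  have he1f2 : pol Q e1 f2 = 0 := by rw [pol_comm, hf2e1]
  have hf1f2 : pol Q f1 f2 = 0 := by rw [pol_comm, hf2f1]
  have hf2e2 : pol Q f2 e2 = 1 := by rw [pol_comm, he2f2]
  refine ⟨e1, f1, e2, f2, he1W, hf1W, he2W, hf2W, hQe1, hQf1, hQe2, hQf2, he1f1, he2f2, he1e2,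
    he1f2, hf1e2, hf1f2, ?_⟩
  have hli : LinearIndependent F ![e1, f1, e2, f2] := by
    rw [Fintype.linearIndependent_iff]
    intro c hc
    have hc' : c 0 • e1 + c 1 • f1 + c 2 • e2 + c 3 • f2 = 0 := by
      simpa [Fin.sum_univ_four] using hc
    have k0 : pol Q (c 0 • e1 + c 1 • f1 + c 2 • e2 + c 3 • f2) f1 = 0 := by
      rw [hc', pol_zero_left hQ]
    have k1 : pol Q (c 0 • e1 + c 1 • f1 + c 2 • e2 + c 3 • f2) e1 = 0 := by
      rw [hc', pol_zero_left hQ]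
    have k2 : pol Q (c 0 • e1 + c 1 • f1 + c 2 • e2 + c 3 • f2) f2 = 0 := by
      rw [hc', pol_zero_left hQ]
    have k3 : pol Q (c 0 • e1 + c 1 • f1 + c 2 • e2 + c 3 • f2) e2 = 0 := by
      rw [hc', pol_zero_left hQ]
    simp only [pol_add_left hQ, pol_smul_left hQ, pol_self hQ, hQe1, hQf1, hQe2, hQf2, he1f1,
      hf1e1, he2f2, hf2e2, he1e2, he2e1, he1f2, hf2e1, hf1e2, he2f1, hf2f1, hf1f2] at k0 k1 k2 k3
    intro i
    fin_cases i
    · simpa using k0
    · simpa using k1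
    · simpa using k2
    · simpa using k3
  have hspan_le : Submodule.span F (Set.range ![e1, f1, e2, f2]) ≤ W := by
    rw [Submodule.span_le]
    rintro v ⟨i, rfl⟩
    fin_cases i
    · exact he1W
    · exact hf1W
    · exact he2W
    · exact hf2W
  have hfr : Module.finrank F (Submodule.span F (Set.range ![e1, f1, e2, f2])) = 4 := by
    rw [finrank_span_eq_card hli]
    simp
  have heq : Submodule.span F (Set.range ![e1, f1, e2, f2]) = W :=
    Submodule.eq_of_le_of_finrank_eq hspan_le (by rw [hfr, hdimW])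
  intro v hv
  rw [← heq, Submodule.mem_span_range_iff_exists_fun] at hv
  obtain ⟨c, hc⟩ := hv
  refine ⟨c 0, c 1, c 2, c 3, ?_⟩
  rw [← hc]
  simp [Fin.sum_univ_four]

/-- Over the field with two elements: an anisotropic plane `{a, a', a + a'}` of non-singular
vectors in a plus-type block of dimension four, all other non-singular vectors of the block being
orthogonal to it. -/
lemma onm_quad_block [Fintype F] (hF : Fintype.card F = 2) (hQ : IsNondegenerateQuadraticForm Q)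
    (W : Submodule F (ι → F)) (hdimW : Module.finrank F W = 4)
    (hW : IsNondegenerateOn (QuadraticMap.polar Q) W) (hplus : IsPlusTypeOn Q W) :
    ∃ a a' b b' : ι → F, a ∈ W ∧ a' ∈ W ∧ b ∈ W ∧ b' ∈ W ∧ Q a = 1 ∧ Q a' = 1 ∧
      pol Q a a' = 1 ∧ pol Q b a = 0 ∧ pol Q b a' = 0 ∧ pol Q b b' = 1 ∧
      ∀ v ∈ W, Q v = 1 → v = a ∨ v = a' ∨ v = a + a' ∨ (pol Q v a = 0 ∧ pol Q v a' = 0) := by
  have h2 := two_eq_zero_of_card hF
  have h01 := eq_zero_or_one_of_card hF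
  have h11 : (1 : F) + 1 = 0 := by linear_combination h2
  obtain ⟨e1, f1, e2, f2, he1, hf1, he2, hf2, hQe1, hQf1, hQe2, hQf2, he1f1, he2f2, he1e2, he1f2,
    hf1e2, hf1f2, hspan⟩ := onm_witt_four hQ W hdimW hW hplus
  have hf1e1 : pol Q f1 e1 = 1 := by rw [pol_comm, he1f1]
  have hf2e2 : pol Q f2 e2 = 1 := by rw [pol_comm, he2f2]
  have he2e1 : pol Q e2 e1 = 0 := by rw [pol_comm, he1e2]
  have hf2e1 : pol Q f2 e1 = 0 := by rw [pol_comm, he1f2]
  have he2f1 : pol Q e2 f1 = 0 := by rw [pol_comm, hf1e2]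
  have hf2f1 : pol Q f2 f1 = 0 := by rw [pol_comm, hf1f2]
  have he1e1 : pol Q e1 e1 = 0 := by rw [pol_self hQ, hQe1, mul_zero]
  have hf1f1 : pol Q f1 f1 = 0 := by rw [pol_self hQ, hQf1, mul_zero]
  have he2e2 : pol Q e2 e2 = 0 := by rw [pol_self hQ, hQe2, mul_zero]
  have hf2f2 : pol Q f2 f2 = 0 := by rw [pol_self hQ, hQf2, mul_zero]
  refine ⟨e1 + f1 + e2, e1 + f1 + f2, e2 + f2 + e1, e2 + f2 + f1,
    W.add_mem (W.add_mem he1 hf1) he2, W.add_mem (W.add_mem he1 hf1) hf2,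
    W.add_mem (W.add_mem he2 hf2) he1, W.add_mem (W.add_mem he2 hf2) hf1, ?_, ?_, ?_, ?_, ?_, ?_,
    ?_⟩
  · simp only [Q_add (Q := Q), pol_add_left hQ, pol_add_right hQ, hQe1, hQf1, hQe2, hQf2, he1f1,
      hf1e1, he2f2, hf2e2, he1e2, he2e1, he1f2, hf2e1, hf1e2, he2f1, hf2f1, hf1f2, he1e1, hf1f1,
      he2e2, hf2f2]
    ring
  · simp only [Q_add (Q := Q), pol_add_left hQ, pol_add_right hQ, hQe1, hQf1, hQe2, hQf2, he1f1,
      hf1e1, he2f2, hf2e2, he1e2, he2e1, he1f2, hf2e1, hf1e2, he2f1, hf2f1, hf1f2, he1e1, hf1f1,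
      he2e2, hf2f2]
    ring
  · simp only [pol_add_left hQ, pol_add_right hQ, he1f1,
      hf1e1, he2f2, hf2e2, he1e2, he2e1, he1f2, hf2e1, hf1e2, he2f1, hf2f1, hf1f2, he1e1, hf1f1,
      he2e2, hf2f2]
    linear_combination h2
  · simp only [pol_add_left hQ, pol_add_right hQ, he1f1,
      hf1e1, he2f2, hf2e2, he1e2, he2e1, he1f2, hf2e1, hf1e2, he2f1, hf2f1, hf1f2, he1e1, hf1f1,
      he2e2, hf2f2]
    linear_combination h2
  · simp only [pol_add_left hQ, pol_add_right hQ, he1f1,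
      hf1e1, he2f2, hf2e2, he1e2, he2e1, he1f2, hf2e1, hf1e2, he2f1, hf2f1, hf1f2, he1e1, hf1f1,
      he2e2, hf2f2]
    linear_combination h2
  · simp only [pol_add_left hQ, pol_add_right hQ, he1f1,
      hf1e1, he2f2, hf2e2, he1e2, he2e1, he1f2, hf2e1, hf1e2, he2f1, hf2f1, hf1f2, he1e1, hf1f1,
      he2e2, hf2f2]
    linear_combination h2
  · intro v hv hQv
    obtain ⟨x1, y1, x2, y2, rfl⟩ := hspan v hv
    have hQv' : x1 * y1 + x2 * y2 = 1 := by
      have : Q (x1 • e1 + y1 • f1 + x2 • e2 + y2 • f2) = x1 * y1 + x2 * y2 := by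
        simp only [Q_add (Q := Q), Q_smul hQ, pol_add_left hQ, pol_smul_left hQ,
          pol_smul_right hQ, hQe1, hQf1, hQe2, hQf2, he1f1,
          hf1e1, he2f2, hf2e2, he1e2, he2e1, he1f2, hf2e1, hf1e2, he2f1, hf2f1, hf1f2]
        ring
      rw [this] at hQv
      exact hQv
    have hva : pol Q (x1 • e1 + y1 • f1 + x2 • e2 + y2 • f2) (e1 + f1 + e2) = x1 + y1 + y2 := by
      simp only [pol_add_left hQ, pol_add_right hQ, pol_smul_left hQ, he1f1,
        hf1e1, he2f2, hf2e2, he1e2, he2e1, he1f2, hf2e1, hf1e2, he2f1, hf2f1, hf1f2, he1e1, hf1f1,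
        he2e2, hf2f2]
      ring
    have hva' : pol Q (x1 • e1 + y1 • f1 + x2 • e2 + y2 • f2) (e1 + f1 + f2) = x1 + y1 + x2 := by
      simp only [pol_add_left hQ, pol_add_right hQ, pol_smul_left hQ, he1f1,
        hf1e1, he2f2, hf2e2, he1e2, he2e1, he1f2, hf2e1, hf1e2, he2f1, hf2f1, hf1f2, he1e1, hf1f1,
        he2e2, hf2f2]
      ring
    have hcases : (x1 = 1 ∧ y1 = 1 ∧ x2 = 1 ∧ y2 = 0) ∨ (x1 = 1 ∧ y1 = 1 ∧ x2 = 0 ∧ y2 = 1) ∨
        (x1 = 0 ∧ y1 = 0 ∧ x2 = 1 ∧ y2 = 1) ∨ (x1 + y1 + y2 = 0 ∧ x1 + y1 + x2 = 0) := by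
      rcases h01 x1 with rfl | rfl <;> rcases h01 y1 with rfl | rfl <;>
        rcases h01 x2 with rfl | rfl <;> rcases h01 y2 with rfl | rfl <;>
        simp [h11, h2] at hQv' ⊢
    rcases hcases with ⟨rfl, rfl, rfl, rfl⟩ | ⟨rfl, rfl, rfl, rfl⟩ | ⟨rfl, rfl, rfl, rfl⟩ |
      ⟨hc1, hc2⟩
    · left
      module
    · right; left
      module
    · right; right; left
      have : e1 + f1 + e2 + (e1 + f1 + f2) = e2 + f2 + (2 : F) • (e1 + f1) := by module
      rw [this, h2]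
      module
    · right; right; right
      exact ⟨by rw [hva, hc1], by rw [hva', hc2]⟩

/-- In characteristic two: the involution `v ↦ v + B(v, z₂) z₁ + B(v, z₁) z₂` attached to two
mutually orthogonal singular vectors is an isometry. -/
lemma onm_tau_exists (hQ : IsNondegenerateQuadraticForm Q) (h2 : (2 : F) = 0) (z1 z2 : ι → F)
    (hz1 : Q z1 = 0) (hz2 : Q z2 = 0) (hz : pol Q z1 z2 = 0) :
    ∃ g : GL ι F, g ∈ isometryGroup F Q ∧
      (∀ v, (g : Matrix ι ι F) *ᵥ v = v + pol Q v z2 • z1 + pol Q v z1 • z2) ∧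
      (∀ v, ((g⁻¹ : GL ι F) : Matrix ι ι F) *ᵥ v = v + pol Q v z2 • z1 + pol Q v z1 • z2) := by
  obtain ⟨φ, hφ⟩ : ∃ φ : (ι → F) →ₗ[F] (ι → F),
      φ = LinearMap.id + (polL hQ z2).smulRight z1 + (polL hQ z1).smulRight z2 := ⟨_, rfl⟩
  have happ : ∀ v, φ v = v + pol Q v z2 • z1 + pol Q v z1 • z2 := by
    intro v
    rw [hφ]
    simp [polL]
  have hinv : ∀ v, φ (φ v) = v := by
    intro v
    have p2 : pol Q (v + pol Q v z2 • z1 + pol Q v z1 • z2) z2 = pol Q v z2 := by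
      rw [pol_add_left hQ, pol_add_left hQ, pol_smul_left hQ, pol_smul_left hQ, hz, pol_self hQ,
        hz2]
      ring
    have p1 : pol Q (v + pol Q v z2 • z1 + pol Q v z1 • z2) z1 = pol Q v z1 := by
      rw [pol_add_left hQ, pol_add_left hQ, pol_smul_left hQ, pol_smul_left hQ, pol_self hQ, hz1,
        pol_comm z2 z1, hz]
      ring
    rw [happ (φ v), happ v, p2, p1]
    have e : v + pol Q v z2 • z1 + pol Q v z1 • z2 + pol Q v z2 • z1 + pol Q v z1 • z2 =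
        v + (2 : F) • (pol Q v z2 • z1 + pol Q v z1 • z2) := by module
    rw [e, h2, zero_smul, add_zero]
  have hcomp : φ ∘ₗ φ = LinearMap.id := LinearMap.ext fun v => by simpa using hinv v
  refine ⟨glOfLin φ φ hcomp hcomp, ?_, fun v => ?_, fun v => ?_⟩
  · intro u v
    show Q (((glOfLin φ φ hcomp hcomp : GL ι F) : Matrix ι ι F) *ᵥ u) = Q u
    rw [glOfLin_mulVec, happ]
    simp only [Q_add (Q := Q), Q_smul hQ, pol_add_left hQ, pol_add_right hQ, pol_smul_left hQ,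
      pol_smul_right hQ, hz1, hz2, hz]
    linear_combination (pol Q u z2 * pol Q u z1) * h2
  · rw [glOfLin_mulVec, happ]
  · show ((glOfLin φ φ hcomp hcomp : GL ι F) : Matrix ι ι F) *ᵥ v = _
    rw [glOfLin_mulVec, happ]

/-- Over the field with two elements: the isometry swapping the anisotropic planes `{a, a'}` and
`{c, c'}` of two different blocks preserves the set of non-singular vectors of the blocks. -/
lemma onm_swap [Fintype F] (hF : Fintype.card F = 2) (hQ : IsNondegenerateQuadraticForm Q)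
    {t : ℕ} (D : Fin t → Submodule F (ι → F))
    (horth : ∀ i j, i ≠ j → ∀ u ∈ D i, ∀ v ∈ D j, pol Q u v = 0) (i j : Fin t) (hij : i ≠ j)
    (a a' c c' : ι → F) (ha : a ∈ D i) (ha' : a' ∈ D i) (hc : c ∈ D j) (hc' : c' ∈ D j)
    (hQa : Q a = 1) (hQa' : Q a' = 1) (hQc : Q c = 1) (hQc' : Q c' = 1)
    (haa' : pol Q a a' = 1) (hcc' : pol Q c c' = 1)
    (hchi : ∀ v ∈ D i, Q v = 1 →
      v = a ∨ v = a' ∨ v = a + a' ∨ (pol Q v a = 0 ∧ pol Q v a' = 0))
    (hchj : ∀ v ∈ D j, Q v = 1 →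
      v = c ∨ v = c' ∨ v = c + c' ∨ (pol Q v c = 0 ∧ pol Q v c' = 0)) :
    ∃ g : GL ι F, g ∈ isometryGroup F Q ∧
      (∀ v, ((g⁻¹ : GL ι F) : Matrix ι ι F) *ᵥ v = (g : Matrix ι ι F) *ᵥ v) ∧
      (∀ v, pol Q v a = 0 → pol Q v a' = 0 → pol Q v c = 0 → pol Q v c' = 0 →
        (g : Matrix ι ι F) *ᵥ v = v) ∧
      (g : Matrix ι ι F) *ᵥ a = c ∧
      (∀ v, (∃ m, v ∈ D m ∧ Q v = 1) → ∃ m, (g : Matrix ι ι F) *ᵥ v ∈ D m ∧
        Q ((g : Matrix ι ι F) *ᵥ v) = 1) := by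
  have h2 := two_eq_zero_of_card hF
  have hji : j ≠ i := hij.symm
  have hac : pol Q a c = 0 := horth i j hij a ha c hc
  have hac' : pol Q a c' = 0 := horth i j hij a ha c' hc'
  have ha'c : pol Q a' c = 0 := horth i j hij a' ha' c hc
  have ha'c' : pol Q a' c' = 0 := horth i j hij a' ha' c' hc'
  have hca : pol Q c a = 0 := horth j i hji c hc a ha
  have hca' : pol Q c a' = 0 := horth j i hji c hc a' ha'
  have hc'a : pol Q c' a = 0 := horth j i hji c' hc' a ha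
  have hc'a' : pol Q c' a' = 0 := horth j i hji c' hc' a' ha'
  have haa : pol Q a a = 0 := by rw [pol_self hQ, hQa, mul_one]; exact h2
  have ha'a'' : pol Q a' a' = 0 := by rw [pol_self hQ, hQa', mul_one]; exact h2
  have hcc : pol Q c c = 0 := by rw [pol_self hQ, hQc, mul_one]; exact h2
  have hc'c'' : pol Q c' c' = 0 := by rw [pol_self hQ, hQc', mul_one]; exact h2
  have ha'a : pol Q a' a = 1 := by rw [pol_comm, haa']
  have hc'c : pol Q c' c = 1 := by rw [pol_comm, hcc']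
  have hQz1 : Q (a + c) = 0 := by
    rw [Q_add (Q := Q), hQa, hQc, hac]
    linear_combination h2
  have hQz2 : Q (a' + c') = 0 := by
    rw [Q_add (Q := Q), hQa', hQc', ha'c']
    linear_combination h2
  have hz : pol Q (a + c) (a' + c') = 0 := by
    rw [pol_add_left hQ, pol_add_right hQ, pol_add_right hQ, haa', hac', hca', hcc']
    linear_combination h2
  obtain ⟨g, hgI, hg, hginv⟩ := onm_tau_exists hQ h2 (a + c) (a' + c') hQz1 hQz2 hz
  have hfix : ∀ v, pol Q v a = 0 → pol Q v a' = 0 → pol Q v c = 0 → pol Q v c' = 0 →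
      (g : Matrix ι ι F) *ᵥ v = v := by
    intro v h1 h2' h3 h4
    rw [hg, pol_add_right hQ, pol_add_right hQ, h1, h2', h3, h4]
    simp
  have hga : (g : Matrix ι ι F) *ᵥ a = c := by
    have p1 : pol Q a (a' + c') = 1 := by rw [pol_add_right hQ, haa', hac']; ring
    have p2 : pol Q a (a + c) = 0 := by rw [pol_add_right hQ, haa, hac]; ring
    rw [hg, p1, p2]
    have : a + (1 : F) • (a + c) + (0 : F) • (a' + c') = c + (2 : F) • a := by module
    rw [this, h2, zero_smul, add_zero]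
  have hga' : (g : Matrix ι ι F) *ᵥ a' = c' := by
    have p1 : pol Q a' (a' + c') = 0 := by rw [pol_add_right hQ, ha'a'', ha'c']; ring
    have p2 : pol Q a' (a + c) = 1 := by rw [pol_add_right hQ, ha'a, ha'c]; ring
    rw [hg, p1, p2]
    have : a' + (0 : F) • (a + c) + (1 : F) • (a' + c') = c' + (2 : F) • a' := by module
    rw [this, h2, zero_smul, add_zero]
  have hgc : (g : Matrix ι ι F) *ᵥ c = a := by
    have p1 : pol Q c (a' + c') = 1 := by rw [pol_add_right hQ, hca', hcc']; ring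
    have p2 : pol Q c (a + c) = 0 := by rw [pol_add_right hQ, hca, hcc]; ring
    rw [hg, p1, p2]
    have : c + (1 : F) • (a + c) + (0 : F) • (a' + c') = a + (2 : F) • c := by module
    rw [this, h2, zero_smul, add_zero]
  have hgc' : (g : Matrix ι ι F) *ᵥ c' = a' := by
    have p1 : pol Q c' (a' + c') = 0 := by rw [pol_add_right hQ, hc'a', hc'c'']; ring
    have p2 : pol Q c' (a + c) = 1 := by rw [pol_add_right hQ, hc'a, hc'c]; ring
    rw [hg, p1, p2]
    have : c' + (0 : F) • (a + c) + (1 : F) • (a' + c') = a' + (2 : F) • c' := by module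
    rw [this, h2, zero_smul, add_zero]
  refine ⟨g, hgI, fun v => by rw [hg, hginv], hfix, hga, ?_⟩
  rintro v ⟨m, hvm, hQv⟩
  have hQg : Q ((g : Matrix ι ι F) *ᵥ v) = 1 := by rw [isometry_apply g hgI v, hQv]
  by_cases hmi : m = i
  · subst hmi
    rcases hchi v hvm hQv with rfl | rfl | rfl | ⟨h1, h2'⟩
    · exact ⟨j, by rw [hga]; exact hc, hQg⟩
    · exact ⟨j, by rw [hga']; exact hc', hQg⟩
    · exact ⟨j, by rw [Matrix.mulVec_add, hga, hga']; exact (D j).add_mem hc hc', hQg⟩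
    · rw [hfix v h1 h2' (horth m j hij v hvm c hc) (horth m j hij v hvm c' hc')]
      exact ⟨m, hvm, hQv⟩
  · by_cases hmj : m = j
    · subst hmj
      rcases hchj v hvm hQv with rfl | rfl | rfl | ⟨h1, h2'⟩
      · exact ⟨i, by rw [hgc]; exact ha, hQg⟩
      · exact ⟨i, by rw [hgc']; exact ha', hQg⟩
      · exact ⟨i, by rw [Matrix.mulVec_add, hgc, hgc']; exact (D i).add_mem ha ha', hQg⟩
      · rw [hfix v (horth m i hmi v hvm a ha) (horth m i hmi v hvm a' ha') h1 h2']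
        exact ⟨m, hvm, hQv⟩
    · rw [hfix v (horth m i hmi v hvm a ha) (horth m i hmi v hvm a' ha')
        (horth m j hmj v hvm c hc) (horth m j hmj v hvm c' hc')]
      exact ⟨m, hvm, hQv⟩

/-! ### `q = 2`, plus-type blocks of dimension four -/

theorem onm_case_quad [Fintype F] (hF : Fintype.card F = 2)
    (hQ : IsNondegenerateQuadraticForm Q) {t : ℕ} (D : Fin t → Submodule F (ι → F))
    (hD : IsOrthogonalMDecomposition Q 4 D) (hplus : ∀ i, IsPlusTypeOn Q (D i))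
    (i1 i2 i3 : Fin t) (h12 : i1 ≠ i2) (h13 : i1 ≠ i3) (h23 : i2 ≠ i3) :
    ∃ K : Subgroup (GL ι F), decompositionStabilizer D ⊓ omegaGL Q < K ∧ K < omegaGL Q := by
  have h2 := two_eq_zero_of_card hF
  have horth : ∀ i j, i ≠ j → ∀ u ∈ D i, ∀ v ∈ D j, pol Q u v = 0 := hD.decomp.orthogonal
  have h21 := h12.symm
  have h31 := h13.symm
  have h32 := h23.symm
  have hblock := fun i => onm_quad_block hF hQ (D i) (hD.decomp.decomp.finrank_eq i)
    (hD.decomp.nondegenerate i) (hplus i)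
  choose a a' b b' hab using hblock
  have ha : ∀ i, a i ∈ D i := fun i => (hab i).1
  have ha' : ∀ i, a' i ∈ D i := fun i => (hab i).2.1
  have hb : ∀ i, b i ∈ D i := fun i => (hab i).2.2.1
  have hb' : ∀ i, b' i ∈ D i := fun i => (hab i).2.2.2.1
  have hQa : ∀ i, Q (a i) = 1 := fun i => (hab i).2.2.2.2.1
  have hQa' : ∀ i, Q (a' i) = 1 := fun i => (hab i).2.2.2.2.2.1
  have haa'i : ∀ i, pol Q (a i) (a' i) = 1 := fun i => (hab i).2.2.2.2.2.2.1
  have hba : ∀ i, pol Q (b i) (a i) = 0 := fun i => (hab i).2.2.2.2.2.2.2.1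
  have hba' : ∀ i, pol Q (b i) (a' i) = 0 := fun i => (hab i).2.2.2.2.2.2.2.2.1
  have hbb' : ∀ i, pol Q (b i) (b' i) = 1 := fun i => (hab i).2.2.2.2.2.2.2.2.2.1
  have hch : ∀ i, ∀ v ∈ D i, Q v = 1 →
      v = a i ∨ v = a' i ∨ v = a i + a' i ∨ (pol Q v (a i) = 0 ∧ pol Q v (a' i) = 0) :=
    fun i => (hab i).2.2.2.2.2.2.2.2.2.2
  have haa : ∀ i j, pol Q (a i) (a j) = 0 := by
    intro i j
    by_cases hij : i = j
    · subst hij
      rw [pol_self hQ, hQa, mul_one]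
      exact h2
    · exact horth i j hij _ (ha i) _ (ha j)
  have ha'a' : ∀ i j, pol Q (a' i) (a' j) = 0 := by
    intro i j
    by_cases hij : i = j
    · subst hij
      rw [pol_self hQ, hQa', mul_one]
      exact h2
    · exact horth i j hij _ (ha' i) _ (ha' j)
  have haa' : ∀ i j, pol Q (a i) (a' j) = if i = j then 1 else 0 := by
    intro i j
    by_cases hij : i = j
    · subst hij
      rw [if_pos rfl]
      exact haa'i i
    · rw [if_neg hij]
      exact horth i j hij _ (ha i) _ (ha' j)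
  have ha'a : ∀ i j, pol Q (a' i) (a j) = if i = j then 1 else 0 := by
    intro i j
    by_cases hij : i = j
    · subst hij
      rw [if_pos rfl, pol_comm]
      exact haa'i i
    · rw [if_neg hij]
      exact horth i j hij _ (ha' i) _ (ha j)
  obtain ⟨τ1, hτ1I, hτ1inv, hτ1fix, hτ1a, hτ1S⟩ := onm_swap hF hQ D horth i1 i2 h12 (a i1)
    (a' i1) (a i2) (a' i2) (ha i1) (ha' i1) (ha i2) (ha' i2) (hQa i1) (hQa' i1) (hQa i2)
    (hQa' i2) (haa'i i1) (haa'i i2) (hch i1) (hch i2)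
  obtain ⟨τ2, hτ2I, hτ2inv, hτ2fix, hτ2a, hτ2S⟩ := onm_swap hF hQ D horth i2 i3 h23 (a i2)
    (a' i2) (a i3) (a' i3) (ha i2) (ha' i2) (ha i3) (ha' i3) (hQa i2) (hQa' i2) (hQa i3)
    (hQa' i3) (haa'i i2) (haa'i i3) (hch i2) (hch i3)
  have hgΩ : τ1 * τ2 * τ1⁻¹ * τ2⁻¹ ∈ omegaGL Q := comm_mem_omegaGL τ1 τ2 hτ1I hτ2I
  have hg : ∀ v, ((τ1 * τ2 * τ1⁻¹ * τ2⁻¹ : GL ι F) : Matrix ι ι F) *ᵥ v =
      (τ1 : Matrix ι ι F) *ᵥ ((τ2 : Matrix ι ι F) *ᵥ ((τ1 : Matrix ι ι F) *ᵥ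
        ((τ2 : Matrix ι ι F) *ᵥ v))) := by
    intro v
    simp only [Units.val_mul, ← Matrix.mulVec_mulVec]
    rw [hτ2inv, hτ1inv]
  refine onm_notmax_of_set D {v | ∃ i, v ∈ D i ∧ Q v = 1}
    (fun g hg v hv => onm_norm_set_stable D 1 g hg v hv) ?_ ?_
  · refine ⟨τ1 * τ2 * τ1⁻¹ * τ2⁻¹, hgΩ, fun v hv => ?_, ?_⟩
    · rw [hg]
      exact hτ1S _ (hτ2S _ (hτ1S _ (hτ2S _ hv)))
    · have hga : ((τ1 * τ2 * τ1⁻¹ * τ2⁻¹ : GL ι F) : Matrix ι ι F) *ᵥ a i1 = a i3 := by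
        rw [hg, hτ2fix (a i1) (haa _ _) (by rw [haa', if_neg h12]) (haa _ _)
          (by rw [haa', if_neg h13]), hτ1a, hτ2a,
          hτ1fix (a i3) (haa _ _) (by rw [haa', if_neg h31]) (haa _ _)
          (by rw [haa', if_neg h32])]
      have f1 : (τ1 : Matrix ι ι F) *ᵥ b i1 = b i1 :=
        hτ1fix (b i1) (hba i1) (hba' i1) (horth i1 i2 h12 _ (hb i1) _ (ha i2))
          (horth i1 i2 h12 _ (hb i1) _ (ha' i2))
      have f2 : (τ2 : Matrix ι ι F) *ᵥ b i1 = b i1 :=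
        hτ2fix (b i1) (horth i1 i2 h12 _ (hb i1) _ (ha i2))
          (horth i1 i2 h12 _ (hb i1) _ (ha' i2)) (horth i1 i3 h13 _ (hb i1) _ (ha i3))
          (horth i1 i3 h13 _ (hb i1) _ (ha' i3))
      have hgb : ((τ1 * τ2 * τ1⁻¹ * τ2⁻¹ : GL ι F) : Matrix ι ι F) *ᵥ b i1 = b i1 := by
        rw [hg, f2, f1, f2, f1]
      exact onm_not_stab_of_fix_move D horth _ i1 i3 h13 (b i1) (b' i1) (a i1) (a i3) (a' i3)
        (hb i1) (hb' i1) (by rw [hbb']; exact one_ne_zero) (ha i1) (ha' i3)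
        (by rw [haa'i]; exact one_ne_zero) hgb hga
  · obtain ⟨x, hx⟩ : ∃ x : ι → F, x = a i1 + a i2 + a i3 := ⟨_, rfl⟩
    obtain ⟨y, hy⟩ : ∃ y : ι → F, y = a' i1 := ⟨_, rfl⟩
    have hQx : Q x = 1 := by
      rw [hx]
      simp only [Q_add (Q := Q), pol_add_left hQ, hQa, haa]
      linear_combination h2
    have hQy : Q y = 1 := by
      rw [hy]
      exact hQa' i1
    have hxy : pol Q x y = -1 := by
      rw [hx, hy]
      simp only [pol_add_left hQ, haa', eq_self_iff_true, if_true, if_neg h21, if_neg h31]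
      linear_combination h2
    obtain ⟨g, hgΩ', hg'⟩ := onm_comm_refl_one hQ x y hQx hQy hxy
    have c1 : pol Q (a' i2) x = 1 := by
      rw [hx]
      simp only [pol_add_right hQ, ha'a, eq_self_iff_true, if_true, if_neg h21, if_neg h23]
      ring
    have c2 : pol Q (a' i2) y = 0 := by
      rw [hy]
      exact ha'a' _ _
    have hgv : (g : Matrix ι ι F) *ᵥ a' i2 = a' i2 - x - y := by
      rw [hg', c1, c2]
      module
    refine ⟨g, hgΩ', a' i2, ⟨i2, ha' i2, hQa' i2⟩, ?_⟩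
    rintro ⟨j, hj, -⟩
    rw [hgv] at hj
    refine onm_not_mem_block D horth h31 (ha' i3) (ha i1) ?_ ?_ j hj
    · have : pol Q (a' i2 - x - y) (a' i3) = -1 := by
        rw [hx, hy]
        simp only [pol_sub_left hQ, pol_add_left hQ, ha'a', haa', eq_self_iff_true, if_true,
          if_neg h13, if_neg h23]
        ring
      rw [this]
      exact neg_ne_zero.mpr one_ne_zero
    · have : pol Q (a' i2 - x - y) (a i1) = -1 := by
        rw [hx, hy]
        simp only [pol_sub_left hQ, pol_add_left hQ, haa, ha'a, eq_self_iff_true, if_true,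
          if_neg h21]
        ring
      rw [this]
      exact neg_ne_zero.mpr one_ne_zero

end Cfsg.Agent.Lib.Helper99
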