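import Mathlib
import Cfsg.Agent.Lib.Helper99.PCount
import Cfsg.Agent.Lib.Helper44.SiegelOmega
import Cfsg.Agent.Lib.Helper46.OHyp.Qnd

/-!
# `p` does not divide the number of totally singular `m`-spaces of `quadFormOdd`
-/

set_option autoImplicit false
open scoped MatrixGroups
open Matrix

namespace Cfsg.Agent.Lib.Helper99.PCount

universe u

/-- The number of totally singular `m`-spaces of `x₀² + Σ xᵢ yᵢ` (odd characteristic `p`,
`m ≤ d`) is `≡ 1 (mod p)`. -/
theorem pcount_odd_modEq {F : Type u} [Field F] [Fintype F] {p : ℕ} [Fact p.Prime] [CharP F p]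
    (h2 : (2 : F) ≠ 0) (d m : ℕ) (hmd : m ≤ d) :
    Nat.card {W : Submodule F (Unit ⊕ (Fin d ⊕ Fin d) → F) // Module.finrank F ↥W = m ∧
      (∀ w ∈ W, Cfsg.quadFormOdd d F w = 0)} ≡ 1 [MOD p] := by
  classical
  obtain ⟨Q, hQe, hQnd⟩ := Cfsg.Agent.Lib.Helper44.exists_quadraticForm_of_geo
    (Cfsg.Agent.Lib.Helper46.OHyp.pkgQnd F h2 d)
  let f : Fin m → Unit ⊕ (Fin d ⊕ Fin d) := fun k => Sum.inr (Sum.inl (Fin.castLE hmd k))
  have hf : Function.Injective f := by
    intro k l h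
    have h1 : Fin.castLE hmd k = Fin.castLE hmd l := Sum.inl_injective (Sum.inr_injective h)
    exact Fin.castLE_injective hmd h1
  let b : Fin m → (Unit ⊕ (Fin d ⊕ Fin d) → F) := fun k => Pi.single (f k) 1
  have hb : LinearIndependent F b := by
    have h := ((Pi.basisFun F (Unit ⊕ (Fin d ⊕ Fin d))).linearIndependent).comp f hf
    have e : b = ⇑(Pi.basisFun F (Unit ⊕ (Fin d ⊕ Fin d))) ∘ f := by
      funext k
      simp [b, Pi.basisFun_apply]
    rw [e]
    exact h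
  let K : Submodule F (Unit ⊕ (Fin d ⊕ Fin d) → F) :=
    { carrier := {w | w (Sum.inl ()) = 0 ∧ ∀ i, w (Sum.inr (Sum.inr i)) = 0}
      add_mem' := by
        rintro x y ⟨hx1, hx2⟩ ⟨hy1, hy2⟩
        exact ⟨by simp [hx1, hy1], fun i => by simp [hx2 i, hy2 i]⟩
      zero_mem' := ⟨rfl, fun _ => rfl⟩
      smul_mem' := by
        rintro c x ⟨hx1, hx2⟩
        exact ⟨by simp [hx1], fun i => by simp [hx2 i]⟩ }
  let W₀ : Submodule F (Unit ⊕ (Fin d ⊕ Fin d) → F) := Submodule.span F (Set.range b)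
  have hW₀K : W₀ ≤ K := by
    apply Submodule.span_le.mpr
    rintro _ ⟨k, rfl⟩
    refine ⟨?_, fun i => ?_⟩
    · simp [b, f]
    · simp [b, f]
  have hW₀ : Module.finrank F W₀ = m := by
    have := finrank_span_eq_card hb
    simpa using this
  have hts : ∀ w ∈ W₀, Q w = 0 := by
    intro w hw
    obtain ⟨h1, h3⟩ := hW₀K hw
    rw [hQe]
    unfold Cfsg.quadFormOdd
    rw [h1]
    simp [h3]
  let a : Unit ⊕ (Fin d ⊕ Fin d) → F := Pi.single (Sum.inl ()) 1
  have haQ : Q a = 1 := by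
    rw [hQe]
    unfold Cfsg.quadFormOdd
    simp [a]
  have ha : ∀ w ∈ W₀, QuadraticMap.polar Q w a = 0 := by
    intro w hw
    obtain ⟨h1, h3⟩ := hW₀K hw
    unfold QuadraticMap.polar
    rw [hts w hw, haQ]
    rw [hQe]
    unfold Cfsg.quadFormOdd
    simp [a, h1, h3]
  have key := pcount_generic Q hQnd m W₀ hW₀ hts a ha (by rw [haQ]; exact one_ne_zero) (p := p)
  simp only [hQe] at key
  exact key

/-- `p` does not divide the number of totally singular `m`-spaces of `quadFormOdd`. -/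
theorem pcount_odd {F : Type u} [Field F] [Fintype F] {p : ℕ} [Fact p.Prime] [CharP F p]
    (h2 : (2 : F) ≠ 0) (d m : ℕ) (hmd : m ≤ d) :
    ¬ p ∣ Nat.card {W : Submodule F (Unit ⊕ (Fin d ⊕ Fin d) → F) // Module.finrank F ↥W = m ∧
      (∀ w ∈ W, Cfsg.quadFormOdd d F w = 0)} := by
  intro hdvd
  have key := pcount_odd_modEq (p := p) h2 d m hmd
  have h1 : 1 ≡ 0 [MOD p] := key.symm.trans (Nat.modEq_zero_iff_dvd.mpr hdvd)
  have h3 : p ∣ 1 := (Nat.modEq_zero_iff_dvd.mp h1)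
  exact (Fact.out : p.Prime).one_lt.ne' (Nat.dvd_one.mp h3)

end Cfsg.Agent.Lib.Helper99.PCount
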