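import Mathlib
import Cfsg.Agent.Lib.Helper45.HermCount

/-!
# Facts on the quadratic extension `F[ω]`, `ω² = -b + aω`, of a finite field
-/

set_option autoImplicit false

namespace Cfsg.Agent.Lib.Helper99

open QuadraticAlgebra Cfsg.Agent.Lib.Helper45

section QAlg0

variable {F : Type*} [Field F] (a b : F)

theorem qa_omega_add_star : (ω : QuadraticAlgebra F (-b) a) + star ω = algebraMap F _ a := by
  ext <;> simp

theorem qa_omega_mul_star : (ω : QuadraticAlgebra F (-b) a) * star ω = algebraMap F _ b := by
  ext <;> simp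

theorem qa_star_algebraMap (r : F) :
    star (algebraMap F (QuadraticAlgebra F (-b) a) r) = algebraMap F _ r := by
  ext <;> simp

theorem qa_eq_add_mul_omega (x : QuadraticAlgebra F (-b) a) :
    x = algebraMap F _ x.re + algebraMap F _ x.im * ω := by
  ext <;> simp

end QAlg0

section QAlg

variable {F : Type*} [Field F] [Fintype F] (a b : F) [Fact (∀ r : F, r ^ 2 ≠ -b + a * r)]
  [Fintype (QuadraticAlgebra F (-b) a)]

/-- The `q`-th power map is the conjugation. -/
theorem qa_pow_card (hL : Fintype.card (QuadraticAlgebra F (-b) a) = Fintype.card F ^ 2)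
    (x : QuadraticAlgebra F (-b) a) : x ^ Fintype.card F = star x := by
  classical
  have hσ : ∀ y : QuadraticAlgebra F (-b) a, sigmaQ hL y = y ^ Fintype.card F := fun y => rfl
  have hfix : ∀ r : F, sigmaQ hL (algebraMap F (QuadraticAlgebra F (-b) a) r)
      = algebraMap F _ r := by
    intro r
    rw [hσ, ← map_pow, FiniteField.pow_card]
  have h4 := qa_omega_add_star a b
  have h5 := qa_omega_mul_star a b
  have hω : sigmaQ hL (ω : QuadraticAlgebra F (-b) a) = ω
      ∨ sigmaQ hL (ω : QuadraticAlgebra F (-b) a) = star ω := by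
    have h2 : (ω : QuadraticAlgebra F (-b) a) * ω = algebraMap F _ (-b) + algebraMap F _ a * ω :=
      omega_mul_omega_eq_algebraMap
    have h3 := congrArg (sigmaQ hL) h2
    rw [map_mul, map_add, map_mul, hfix, hfix, map_neg] at h3
    have h1 : (sigmaQ hL (ω : QuadraticAlgebra F (-b) a) - ω)
        * (sigmaQ hL (ω : QuadraticAlgebra F (-b) a) - star ω) = 0 := by
      linear_combination h3 - (sigmaQ hL (ω : QuadraticAlgebra F (-b) a)) * h4 + h5
    rcases mul_eq_zero.mp h1 with h | h
    · exact Or.inl (sub_eq_zero.mp h)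
    · exact Or.inr (sub_eq_zero.mp h)
  have hx := qa_eq_add_mul_omega a b x
  rcases hω with h | h
  · exfalso
    have hall : ∀ y : QuadraticAlgebra F (-b) a, y ^ Fintype.card F = y := by
      intro y
      rw [← hσ]
      conv_lhs => rw [qa_eq_add_mul_omega a b y]
      rw [map_add, map_mul, hfix, hfix, h]
      exact (qa_eq_add_mul_omega a b y).symm
    have hcard := norm_fiber_card hL (1 : QuadraticAlgebra F (-b) a) one_ne_zero (one_pow _)
    let f : {y : QuadraticAlgebra F (-b) a // y ^ (Fintype.card F + 1) = 1} →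
        ↥({1, -1} : Set (QuadraticAlgebra F (-b) a)) := fun y =>
      ⟨y.1, by
        have h1 := y.2
        rw [pow_succ, hall] at h1
        have h2 : (y.1 - 1) * (y.1 + 1) = 0 := by linear_combination h1
        rcases mul_eq_zero.mp h2 with h' | h'
        · exact Or.inl (sub_eq_zero.mp h')
        · exact Or.inr (by
            rw [Set.mem_singleton_iff]
            linear_combination h')⟩
    have hf : Function.Injective f := by
      intro y y' hyy
      apply Subtype.ext
      have h1 : (f y).1 = (f y').1 := congrArg Subtype.val hyy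
      exact h1
    have hle : Nat.card {y : QuadraticAlgebra F (-b) a // y ^ (Fintype.card F + 1) = 1} ≤ 2 :=
      calc Nat.card {y : QuadraticAlgebra F (-b) a // y ^ (Fintype.card F + 1) = 1}
          ≤ Nat.card ↥({1, -1} : Set (QuadraticAlgebra F (-b) a)) :=
            Nat.card_le_card_of_injective f hf
        _ = ({1, -1} : Set (QuadraticAlgebra F (-b) a)).ncard := rfl
        _ ≤ 2 := (Set.ncard_insert_le _ _).trans (by rw [Set.ncard_singleton])
    have hq : 2 ≤ Fintype.card F := Fintype.one_lt_card
    omega
  · rw [← hσ]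
    conv_lhs => rw [hx]
    rw [map_add, map_mul, hfix, hfix, h]
    conv_rhs => rw [hx]
    rw [star_add, star_mul', qa_star_algebraMap, qa_star_algebraMap]

/-- An element of norm `-1`. -/
theorem qa_exists_norm_neg_one
    (hL : Fintype.card (QuadraticAlgebra F (-b) a) = Fintype.card F ^ 2) :
    ∃ u : QuadraticAlgebra F (-b) a, u * star u = -1 := by
  classical
  have h1 : (-1 : QuadraticAlgebra F (-b) a) ^ Fintype.card F = -1 := by
    rw [qa_pow_card a b hL, star_neg, star_one]
  have hcard := norm_fiber_card hL (-1 : QuadraticAlgebra F (-b) a)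
    (neg_ne_zero.mpr one_ne_zero) h1
  have hne : Nonempty {y : QuadraticAlgebra F (-b) a // y ^ (Fintype.card F + 1) = -1} := by
    by_contra hemp
    rw [not_nonempty_iff] at hemp
    rw [Nat.card_of_isEmpty] at hcard
    omega
  obtain ⟨u, hu⟩ := hne
  refine ⟨u, ?_⟩
  rw [← qa_pow_card a b hL, ← hu, pow_succ, mul_comm]

end QAlg

end Cfsg.Agent.Lib.Helper99
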