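import Mathlib
import Cfsg.Prelude.Def_Classical
import Cfsg.Agent.Lib.Helper99.QAlg
import Cfsg.Agent.Lib.Helper43.POmega4m

/-!
# The `F`-form of the exterior square of `F[ω]⁴` (towards `PΩ⁻₆(q) ≅ PSU₄(q)`)
-/

set_option autoImplicit false

namespace Cfsg.Agent.Lib.Helper99

open QuadraticAlgebra Matrix Cfsg.Agent.Lib.Helper43

section Lin

variable {F : Type*} [Field F] (a b : F)

/-- `w = (z, z̄)`. -/
def po6Wv (z : Fin 3 → QuadraticAlgebra F (-b) a) : Fin 3 ⊕ Fin 3 → QuadraticAlgebra F (-b) a :=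
  Sum.elim z (fun i => star (z i))

/-- First element of the trace-dual basis of `1, ω` (`i` is the inverse discriminant). -/
def po6Eta1 (i : F) : QuadraticAlgebra F (-b) a := ⟨2 * b * i, -a * i⟩

/-- Second element of the trace-dual basis of `1, ω`. -/
def po6Eta2 (i : F) : QuadraticAlgebra F (-b) a := ⟨-a * i, 2 * i⟩

/-- The images of the standard basis vectors. -/
def po6Col (i : F) (u : QuadraticAlgebra F (-b) a) :
    (Fin 2 ⊕ Fin 2) ⊕ Fin 2 → Fin 3 → QuadraticAlgebra F (-b) a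
  | .inl (.inl 0) => ![po6Eta1 a b i, -(u * star (po6Eta1 a b i)), 0]
  | .inl (.inl 1) => ![po6Eta1 a b i * ω, -(u * star (po6Eta1 a b i) * ω), 0]
  | .inl (.inr 0) => ![po6Eta1 a b i, u * po6Eta1 a b i, 0]
  | .inl (.inr 1) => ![po6Eta2 a b i, u * po6Eta2 a b i, 0]
  | .inr 0 => ![0, 0, 1]
  | .inr 1 => ![0, 0, ω]

/-- The `F`-linear parametrisation of `F[ω]³`. -/
noncomputable def po6Z (i : F) (u : QuadraticAlgebra F (-b) a) :
    ((Fin 2 ⊕ Fin 2) ⊕ Fin 2 → F) →ₗ[F] (Fin 3 → QuadraticAlgebra F (-b) a) :=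
  Fintype.linearCombination F (po6Col a b i u)

theorem po6_pair (y d c u : QuadraticAlgebra F (-b) a) (hc : c + star c = 1)
    (hu : u * star u = -1) :
    (y + c * d) * star (y + c * d) + (u * (y - star c * d)) * star (u * (y - star c * d))
      = y * star d + star y * d := by
  simp only [star_add, star_mul', star_sub, star_star]
  linear_combination (y * star d + star y * d) * hc
    + ((y - star c * d) * (star y - c * star d)) * hu

theorem po6_eta1_tr (i : F) (hi : (4 * b - a * a) * i = 1) :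
    po6Eta1 a b i + star (po6Eta1 a b i) = 1 := by
  ext
  · simp [po6Eta1]
    linear_combination hi
  · simp [po6Eta1]

theorem po6_trace (i : F) (hi : (4 * b - a * a) * i = 1) (x0 x1 y0 y1 : F) :
    (algebraMap F (QuadraticAlgebra F (-b) a) y0 * po6Eta1 a b i
        + algebraMap F (QuadraticAlgebra F (-b) a) y1 * po6Eta2 a b i)
      * star (algebraMap F (QuadraticAlgebra F (-b) a) x0
        + algebraMap F (QuadraticAlgebra F (-b) a) x1 * ω)
    + star (algebraMap F (QuadraticAlgebra F (-b) a) y0 * po6Eta1 a b i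
        + algebraMap F (QuadraticAlgebra F (-b) a) y1 * po6Eta2 a b i)
      * (algebraMap F (QuadraticAlgebra F (-b) a) x0
        + algebraMap F (QuadraticAlgebra F (-b) a) x1 * ω)
    = algebraMap F (QuadraticAlgebra F (-b) a) (x0 * y0 + x1 * y1) := by
  ext
  · simp [po6Eta1, po6Eta2]
    linear_combination (x0 * y0 + x1 * y1) * hi
  · simp [po6Eta1, po6Eta2]
    ring

theorem po6_norm2 (v0 v1 : F) :
    (algebraMap F (QuadraticAlgebra F (-b) a) v0
        + algebraMap F (QuadraticAlgebra F (-b) a) v1 * ω)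
      * star (algebraMap F (QuadraticAlgebra F (-b) a) v0
        + algebraMap F (QuadraticAlgebra F (-b) a) v1 * ω)
    = algebraMap F (QuadraticAlgebra F (-b) a) (v0 * v0 + a * v0 * v1 + b * (v1 * v1)) := by
  ext
  · simp
    ring
  · simp
    ring

theorem po6Z_zero (i : F) (u : QuadraticAlgebra F (-b) a) (v : (Fin 2 ⊕ Fin 2) ⊕ Fin 2 → F) :
    po6Z a b i u v 0
      = (algebraMap F (QuadraticAlgebra F (-b) a) (v (.inl (.inr 0))) * po6Eta1 a b i
        + algebraMap F (QuadraticAlgebra F (-b) a) (v (.inl (.inr 1))) * po6Eta2 a b i)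
      + po6Eta1 a b i * (algebraMap F (QuadraticAlgebra F (-b) a) (v (.inl (.inl 0)))
        + algebraMap F (QuadraticAlgebra F (-b) a) (v (.inl (.inl 1))) * ω) := by
  simp only [po6Z, Fintype.linearCombination_apply, Finset.sum_apply, Fintype.sum_sum_type,
    Fin.sum_univ_two, Pi.smul_apply, po6Col, Matrix.cons_val_zero]
  simp only [Algebra.smul_def]
  ring

theorem po6Z_one (i : F) (u : QuadraticAlgebra F (-b) a) (v : (Fin 2 ⊕ Fin 2) ⊕ Fin 2 → F) :
    po6Z a b i u v 1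
      = u * ((algebraMap F (QuadraticAlgebra F (-b) a) (v (.inl (.inr 0))) * po6Eta1 a b i
        + algebraMap F (QuadraticAlgebra F (-b) a) (v (.inl (.inr 1))) * po6Eta2 a b i)
      - star (po6Eta1 a b i) * (algebraMap F (QuadraticAlgebra F (-b) a) (v (.inl (.inl 0)))
        + algebraMap F (QuadraticAlgebra F (-b) a) (v (.inl (.inl 1))) * ω)) := by
  simp only [po6Z, Fintype.linearCombination_apply, Finset.sum_apply, Fintype.sum_sum_type,
    Fin.sum_univ_two, Pi.smul_apply, po6Col, Matrix.cons_val_one, Matrix.cons_val_zero]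
  simp only [Algebra.smul_def]
  ring

theorem po6Z_two (i : F) (u : QuadraticAlgebra F (-b) a) (v : (Fin 2 ⊕ Fin 2) ⊕ Fin 2 → F) :
    po6Z a b i u v 2 = algebraMap F (QuadraticAlgebra F (-b) a) (v (.inr 0))
        + algebraMap F (QuadraticAlgebra F (-b) a) (v (.inr 1)) * ω := by
  simp only [po6Z, Fintype.linearCombination_apply, Finset.sum_apply, Fintype.sum_sum_type,
    Fin.sum_univ_two, Pi.smul_apply, po6Col, Matrix.cons_val_two, Matrix.tail_cons,
    Matrix.head_cons]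
  simp only [Algebra.smul_def]
  ring

/-- The Pfaffian form on the `F`-form is the minus-type form. -/
theorem po6_norm [Fact (∀ r : F, r ^ 2 ≠ -b + a * r)] (i : F) (hi : (4 * b - a * a) * i = 1)
    (u : QuadraticAlgebra F (-b) a) (hu : u * star u = -1) (v : (Fin 2 ⊕ Fin 2) ⊕ Fin 2 → F) :
    Cfsg.quadFormPlus 3 (QuadraticAlgebra F (-b) a) (po6Wv a b (po6Z a b i u v))
      = algebraMap F (QuadraticAlgebra F (-b) a) (Cfsg.quadFormMinus 2 F a b v) := by
  have h1 : Cfsg.quadFormPlus 3 (QuadraticAlgebra F (-b) a) (po6Wv a b (po6Z a b i u v))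
      = po6Z a b i u v 0 * star (po6Z a b i u v 0) + po6Z a b i u v 1 * star (po6Z a b i u v 1)
        + po6Z a b i u v 2 * star (po6Z a b i u v 2) := by
    simp only [Cfsg.quadFormPlus, po6Wv, Fin.sum_univ_three, Sum.elim_inl, Sum.elim_inr]
  have h2 : Cfsg.quadFormMinus 2 F a b v = (v (.inl (.inl 0)) * v (.inl (.inr 0))
      + v (.inl (.inl 1)) * v (.inl (.inr 1)))
      + (v (.inr 0) * v (.inr 0) + a * v (.inr 0) * v (.inr 1) + b * (v (.inr 1) * v (.inr 1))) := by
    simp only [Cfsg.quadFormMinus, Fin.sum_univ_two]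
    ring
  have e1 := po6_pair a b
    (algebraMap F (QuadraticAlgebra F (-b) a) (v (.inl (.inr 0))) * po6Eta1 a b i
        + algebraMap F (QuadraticAlgebra F (-b) a) (v (.inl (.inr 1))) * po6Eta2 a b i)
    (algebraMap F (QuadraticAlgebra F (-b) a) (v (.inl (.inl 0)))
        + algebraMap F (QuadraticAlgebra F (-b) a) (v (.inl (.inl 1))) * ω)
    (po6Eta1 a b i) u (po6_eta1_tr a b i hi) hu
  have e2 := po6_trace a b i hi (v (.inl (.inl 0))) (v (.inl (.inl 1))) (v (.inl (.inr 0)))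
    (v (.inl (.inr 1)))
  have e3 := po6_norm2 a b (v (.inr 0)) (v (.inr 1))
  rw [h1, h2, po6Z_zero, po6Z_one, po6Z_two, map_add]
  linear_combination e1 + e2 + e3

theorem po6_star_smul (c : F) (x : QuadraticAlgebra F (-b) a) : star (c • x) = c • star x := by
  ext
  · simp
    ring
  · simp

theorem po6Wv_star (z : Fin 3 → QuadraticAlgebra F (-b) a) (r : Fin 3 ⊕ Fin 3) :
    star (po6Wv a b z r) = po6Wv a b z r.swap := by
  rcases r with r | r <;> simp [po6Wv]

theorem po6Wv_add (z z' : Fin 3 → QuadraticAlgebra F (-b) a) :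
    po6Wv a b (z + z') = po6Wv a b z + po6Wv a b z' := by
  funext p
  rcases p with p | p <;> simp [po6Wv]

theorem po6Wv_smul (c : F) (z : Fin 3 → QuadraticAlgebra F (-b) a) :
    po6Wv a b (c • z) = c • po6Wv a b z := by
  funext p
  rcases p with p | p
  · simp [po6Wv]
  · simp [po6Wv, po6_star_smul]

/-- The action of a matrix on the first half of `w = (z, z̄)`. -/
def po6Mid (M : Matrix (Fin 3 ⊕ Fin 3) (Fin 3 ⊕ Fin 3) (QuadraticAlgebra F (-b) a)) :
    (Fin 3 → QuadraticAlgebra F (-b) a) →ₗ[F] (Fin 3 → QuadraticAlgebra F (-b) a) where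
  toFun z := fun j => (M *ᵥ po6Wv a b z) (Sum.inl j)
  map_add' z z' := by
    funext j
    simp only [po6Wv_add, Matrix.mulVec_add, Pi.add_apply]
  map_smul' c z := by
    funext j
    simp only [po6Wv_smul, Matrix.mulVec_smul, Pi.smul_apply, RingHom.id_apply]

theorem po6Mid_apply (M : Matrix (Fin 3 ⊕ Fin 3) (Fin 3 ⊕ Fin 3) (QuadraticAlgebra F (-b) a))
    (z : Fin 3 → QuadraticAlgebra F (-b) a) (j : Fin 3) :
    po6Mid a b M z j = (M *ᵥ po6Wv a b z) (Sum.inl j) := rfl

/-- The matrices commuting with the semilinear involution `(z, z') ↦ (z̄', z̄)`. -/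
def po6Real (M : Matrix (Fin 3 ⊕ Fin 3) (Fin 3 ⊕ Fin 3) (QuadraticAlgebra F (-b) a)) : Prop :=
  ∀ p r, star (M p r) = M p.swap r.swap

theorem po6_real_mulVec {M : Matrix (Fin 3 ⊕ Fin 3) (Fin 3 ⊕ Fin 3) (QuadraticAlgebra F (-b) a)}
    (hM : po6Real a b M) (z : Fin 3 → QuadraticAlgebra F (-b) a) :
    M *ᵥ po6Wv a b z = po6Wv a b (po6Mid a b M z) := by
  funext p
  rcases p with j | j
  · rfl
  · show (M *ᵥ po6Wv a b z) (Sum.inr j) = star ((M *ᵥ po6Wv a b z) (Sum.inl j))
    simp only [Matrix.mulVec, dotProduct, star_sum, star_mul']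
    rw [← Equiv.sum_comp (Equiv.sumComm (Fin 3) (Fin 3))]
    apply Finset.sum_congr rfl
    intro r _
    rw [hM, po6Wv_star]
    rfl

theorem po6Mid_one :
    po6Mid a b (1 : Matrix (Fin 3 ⊕ Fin 3) (Fin 3 ⊕ Fin 3) (QuadraticAlgebra F (-b) a))
      = LinearMap.id := by
  apply LinearMap.ext
  intro z
  funext j
  rw [po6Mid_apply, Matrix.one_mulVec]
  rfl

theorem po6Mid_mul (M₁ M₂ : Matrix (Fin 3 ⊕ Fin 3) (Fin 3 ⊕ Fin 3) (QuadraticAlgebra F (-b) a))
    (hM₂ : po6Real a b M₂) : po6Mid a b (M₁ * M₂) = po6Mid a b M₁ ∘ₗ po6Mid a b M₂ := by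
  apply LinearMap.ext
  intro z
  funext j
  rw [LinearMap.comp_apply, po6Mid_apply, po6Mid_apply, ← po6_real_mulVec a b hM₂,
    Matrix.mulVec_mulVec]

theorem po6_omega_sub_star_ne (i : F) (hi : (4 * b - a * a) * i = 1) :
    (ω : QuadraticAlgebra F (-b) a) - star ω ≠ 0 := by
  intro h0
  have h1 := congrArg QuadraticAlgebra.re h0
  have h2 := congrArg QuadraticAlgebra.im h0
  simp at h1 h2
  have h3 : (0 : F) = 1 := by
    rw [← hi]
    linear_combination (-(2 * b * i)) * h2 + (a * i) * h1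
  exact zero_ne_one h3

theorem po6Mid_eq_id {M : Matrix (Fin 3 ⊕ Fin 3) (Fin 3 ⊕ Fin 3) (QuadraticAlgebra F (-b) a)}
    [Fact (∀ r : F, r ^ 2 ≠ -b + a * r)] (i : F) (hi : (4 * b - a * a) * i = 1)
    (hM : po6Real a b M) (h : po6Mid a b M = LinearMap.id) : M = 1 := by
  have hfix : ∀ z, M *ᵥ po6Wv a b z = po6Wv a b z := by
    intro z
    rw [po6_real_mulVec a b hM, h]
    rfl
  have hne := po6_omega_sub_star_ne a b i hi
  have hl : ∀ j : Fin 3,
      M *ᵥ (Pi.single (Sum.inl j) (1 : QuadraticAlgebra F (-b) a)) = Pi.single (Sum.inl j) 1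
      ∧ M *ᵥ (Pi.single (Sum.inr j) (1 : QuadraticAlgebra F (-b) a)) = Pi.single (Sum.inr j) 1 := by
    intro j
    have h1 := hfix (Pi.single j 1)
    have h2 := hfix (Pi.single j ω)
    have e1 : po6Wv a b (Pi.single j 1) = Pi.single (Sum.inl j) 1 + Pi.single (Sum.inr j) 1 := by
      funext p
      rcases p with p | p
      · by_cases hp : p = j
        · subst hp
          simp [po6Wv]
        · simp [po6Wv, hp]
      · by_cases hp : p = j
        · subst hp
          simp [po6Wv]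
        · simp [po6Wv, hp]
    have e2 : po6Wv a b (Pi.single j ω)
        = (ω : QuadraticAlgebra F (-b) a) • Pi.single (Sum.inl j) (1 : QuadraticAlgebra F (-b) a)
          + star (ω : QuadraticAlgebra F (-b) a)
            • Pi.single (Sum.inr j) (1 : QuadraticAlgebra F (-b) a) := by
      funext p
      rcases p with p | p
      · by_cases hp : p = j
        · subst hp
          simp [po6Wv]
        · simp [po6Wv, hp]
      · by_cases hp : p = j
        · subst hp
          simp [po6Wv]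
        · simp [po6Wv, hp]
    rw [e1, Matrix.mulVec_add] at h1
    rw [e2, Matrix.mulVec_add, Matrix.mulVec_smul, Matrix.mulVec_smul] at h2
    have hX : ∀ p, (M *ᵥ (Pi.single (Sum.inl j) (1 : QuadraticAlgebra F (-b) a))) p
        = (Pi.single (Sum.inl j) (1 : QuadraticAlgebra F (-b) a) : Fin 3 ⊕ Fin 3 → _) p := by
      intro p
      have a1 := congrFun h1 p
      have a2 := congrFun h2 p
      simp only [Pi.add_apply, Pi.smul_apply, smul_eq_mul] at a1 a2
      have h3 : ((ω : QuadraticAlgebra F (-b) a) - star ω)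
          * ((M *ᵥ (Pi.single (Sum.inl j) (1 : QuadraticAlgebra F (-b) a))) p
            - (Pi.single (Sum.inl j) (1 : QuadraticAlgebra F (-b) a) : Fin 3 ⊕ Fin 3 → _) p)
          = 0 := by
        linear_combination a2 - star (ω : QuadraticAlgebra F (-b) a) * a1
      exact sub_eq_zero.mp ((mul_eq_zero.mp h3).resolve_left hne)
    refine ⟨funext hX, ?_⟩
    funext p
    have a1 := congrFun h1 p
    simp only [Pi.add_apply] at a1
    linear_combination a1 - hX p
  apply Matrix.ext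
  intro p r
  rcases r with r | r
  · have := congrFun (hl r).1 p
    rw [Matrix.mulVec_single_one] at this
    rw [Matrix.one_apply, ← Pi.single_apply]
    exact this
  · have := congrFun (hl r).2 p
    rw [Matrix.mulVec_single_one] at this
    rw [Matrix.one_apply, ← Pi.single_apply]
    exact this

/-- The action on the `F`-form, in coordinates. -/
noncomputable def po6T
    (e : ((Fin 2 ⊕ Fin 2) ⊕ Fin 2 → F) ≃ₗ[F] (Fin 3 → QuadraticAlgebra F (-b) a))
    (M : Matrix (Fin 3 ⊕ Fin 3) (Fin 3 ⊕ Fin 3) (QuadraticAlgebra F (-b) a)) :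
    ((Fin 2 ⊕ Fin 2) ⊕ Fin 2 → F) →ₗ[F] ((Fin 2 ⊕ Fin 2) ⊕ Fin 2 → F) :=
  e.symm.toLinearMap ∘ₗ po6Mid a b M ∘ₗ e.toLinearMap

theorem po6T_apply
    (e : ((Fin 2 ⊕ Fin 2) ⊕ Fin 2 → F) ≃ₗ[F] (Fin 3 → QuadraticAlgebra F (-b) a))
    (M : Matrix (Fin 3 ⊕ Fin 3) (Fin 3 ⊕ Fin 3) (QuadraticAlgebra F (-b) a))
    (v : (Fin 2 ⊕ Fin 2) ⊕ Fin 2 → F) :
    po6T a b e M v = e.symm (po6Mid a b M (e v)) := rfl

theorem po6T_one
    (e : ((Fin 2 ⊕ Fin 2) ⊕ Fin 2 → F) ≃ₗ[F] (Fin 3 → QuadraticAlgebra F (-b) a)) :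
    po6T a b e 1 = LinearMap.id := by
  apply LinearMap.ext
  intro v
  rw [po6T_apply, po6Mid_one]
  exact e.symm_apply_apply v

theorem po6T_mul
    (e : ((Fin 2 ⊕ Fin 2) ⊕ Fin 2 → F) ≃ₗ[F] (Fin 3 → QuadraticAlgebra F (-b) a))
    (M₁ M₂ : Matrix (Fin 3 ⊕ Fin 3) (Fin 3 ⊕ Fin 3) (QuadraticAlgebra F (-b) a))
    (hM₂ : po6Real a b M₂) : po6T a b e (M₁ * M₂) = po6T a b e M₁ ∘ₗ po6T a b e M₂ := by
  apply LinearMap.ext
  intro v
  rw [LinearMap.comp_apply, po6T_apply, po6T_apply, po6T_apply, po6Mid_mul a b M₁ M₂ hM₂,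
    LinearMap.comp_apply, e.apply_symm_apply]

theorem po6T_eq_id [Fact (∀ r : F, r ^ 2 ≠ -b + a * r)]
    (e : ((Fin 2 ⊕ Fin 2) ⊕ Fin 2 → F) ≃ₗ[F] (Fin 3 → QuadraticAlgebra F (-b) a))
    {M : Matrix (Fin 3 ⊕ Fin 3) (Fin 3 ⊕ Fin 3) (QuadraticAlgebra F (-b) a)}
    (i : F) (hi : (4 * b - a * a) * i = 1) (hM : po6Real a b M)
    (h : po6T a b e M = LinearMap.id) : M = 1 := by
  apply po6Mid_eq_id a b i hi hM
  apply LinearMap.ext
  intro z
  have h1 := congrArg (fun f => e (f (e.symm z))) h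
  simp only [po6T_apply, e.apply_symm_apply, LinearMap.id_apply] at h1
  exact h1

end Lin

section Lin2

variable {F : Type*} [Field F] [Fintype F] (a b : F) [Fact (∀ r : F, r ^ 2 ≠ -b + a * r)]

theorem po6Z_injective
    (hab : ∀ z₁ z₂ : F, z₁ ^ 2 + a * z₁ * z₂ + b * z₂ ^ 2 = 0 → z₁ = 0 ∧ z₂ = 0)
    (i : F) (hi : (4 * b - a * a) * i = 1) (u : QuadraticAlgebra F (-b) a)
    (hu : u * star u = -1) : Function.Injective (po6Z a b i u) := by
  rw [injective_iff_map_eq_zero]
  intro v hv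
  have hnd := nondeg_qMinus a b hab 2
  apply hnd.1 v
  intro v'
  have key : ∀ w, qMinus a b 2 (v + w) = qMinus a b 2 w := by
    intro w
    rw [qMinus_apply, qMinus_apply]
    apply QuadraticAlgebra.algebraMap_injective (a := -b) (b := a)
    rw [← po6_norm a b i hi u hu, ← po6_norm a b i hi u hu, map_add, hv, zero_add]
  have h0 := key 0
  rw [add_zero, map_zero] at h0
  rw [QuadraticMap.polarBilin_apply_apply, QuadraticMap.polar, key, h0]
  ring

theorem po6Z_bijective [Fintype (QuadraticAlgebra F (-b) a)]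
    (hL : Fintype.card (QuadraticAlgebra F (-b) a) = Fintype.card F ^ 2)
    (hab : ∀ z₁ z₂ : F, z₁ ^ 2 + a * z₁ * z₂ + b * z₂ ^ 2 = 0 → z₁ = 0 ∧ z₂ = 0)
    (i : F) (hi : (4 * b - a * a) * i = 1) (u : QuadraticAlgebra F (-b) a)
    (hu : u * star u = -1) : Function.Bijective (po6Z a b i u) := by
  classical
  apply (po6Z_injective a b hab i hi u hu).bijective_of_nat_card_le
  rw [Nat.card_eq_fintype_card, Nat.card_eq_fintype_card, Fintype.card_fun, Fintype.card_fun, hL]
  simp only [Fintype.card_sum, Fintype.card_fin]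
  rw [← pow_mul]

omit [Fintype F] in
theorem po6T_quad (i : F) (hi : (4 * b - a * a) * i = 1) (u : QuadraticAlgebra F (-b) a)
    (hu : u * star u = -1) (hbij : Function.Bijective (po6Z a b i u))
    {M : Matrix (Fin 3 ⊕ Fin 3) (Fin 3 ⊕ Fin 3) (QuadraticAlgebra F (-b) a)}
    (hM : po6Real a b M)
    (hQ : ∀ w, Cfsg.quadFormPlus 3 (QuadraticAlgebra F (-b) a) (M *ᵥ w)
      = Cfsg.quadFormPlus 3 (QuadraticAlgebra F (-b) a) w)
    (v : (Fin 2 ⊕ Fin 2) ⊕ Fin 2 → F) :
    Cfsg.quadFormMinus 2 F a b (po6T a b (LinearEquiv.ofBijective (po6Z a b i u) hbij) M v)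
      = Cfsg.quadFormMinus 2 F a b v := by
  apply QuadraticAlgebra.algebraMap_injective (a := -b) (b := a)
  rw [← po6_norm a b i hi u hu, ← po6_norm a b i hi u hu]
  have h1 : po6Z a b i u (po6T a b (LinearEquiv.ofBijective (po6Z a b i u) hbij) M v)
      = po6Mid a b M (po6Z a b i u v) := by
    rw [po6T_apply]
    exact (LinearEquiv.ofBijective (po6Z a b i u) hbij).apply_symm_apply _
  rw [h1, ← po6_real_mulVec a b hM, hQ]

end Lin2

end Cfsg.Agent.Lib.Helper99
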