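import Mathlib
import Cfsg.Prelude.Def_Classical
import Cfsg.Agent.Lib.Helper99.PO6mLin
import Cfsg.Agent.Lib.Helper43.POmega6
import Cfsg.Agent.Lib.Helper45.HermSU
import Cfsg.Agent.Lib.Helper13.PSUSimple

/-!
# `PΩ⁻₆(q) ≅ PSU₄(q)`: the exterior square of the unitary group
-/

set_option autoImplicit false

namespace Cfsg.Agent.Lib.Helper99

open QuadraticAlgebra Matrix Cfsg.Agent.Lib.Helper43 Cfsg.Agent.Lib.Helper45

section Generic

/-- Centrality lifting: for a perfect group, elements central modulo a central kernel are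
central. -/
theorem mem_center_of_comm_ker {S O : Type*} [Group S] [Group O] (φ : S →* O)
    (hker : φ.ker ≤ Subgroup.center S) (hperf : commutator S = ⊤) (s : S)
    (hs : ∀ t, φ (s * t) = φ (t * s)) : s ∈ Subgroup.center S := by
  have hmem : ∀ t, s⁻¹ * t⁻¹ * s * t ∈ Subgroup.center S := by
    intro t
    apply hker
    rw [MonoidHom.mem_ker]
    have h1 : s⁻¹ * t⁻¹ * s * t = (t * s)⁻¹ * (s * t) := by
      simp only [_root_.mul_inv_rev, mul_assoc]
    rw [h1, map_mul, map_inv, hs, inv_mul_cancel]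
  have hmul : ∀ t₁ t₂ : S, (⟨s⁻¹ * (t₁ * t₂)⁻¹ * s * (t₁ * t₂), hmem (t₁ * t₂)⟩ :
      ↥(Subgroup.center S)) = ⟨s⁻¹ * t₁⁻¹ * s * t₁, hmem t₁⟩ * ⟨s⁻¹ * t₂⁻¹ * s * t₂, hmem t₂⟩ := by
    intro t₁ t₂
    apply Subtype.ext
    show s⁻¹ * (t₁ * t₂)⁻¹ * s * (t₁ * t₂) = (s⁻¹ * t₁⁻¹ * s * t₁) * (s⁻¹ * t₂⁻¹ * s * t₂)
    have hz : ∀ g, g * (s⁻¹ * t₁⁻¹ * s * t₁) = (s⁻¹ * t₁⁻¹ * s * t₁) * g :=
      fun g => Subgroup.mem_center_iff.mp (hmem t₁) g
    have h1 : s⁻¹ * (t₁ * t₂)⁻¹ * s * (t₁ * t₂)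
        = s⁻¹ * t₂⁻¹ * s * ((s⁻¹ * t₁⁻¹ * s * t₁) * t₂) := by
      simp only [_root_.mul_inv_rev, mul_assoc, mul_inv_cancel_left]
    rw [h1, ← hz t₂, ← mul_assoc, hz]
  obtain ⟨c, hcdef⟩ : ∃ c : S →* ↥(Subgroup.center S),
      ∀ t, (c t : S) = s⁻¹ * t⁻¹ * s * t :=
    ⟨MonoidHom.mk' (fun t => ⟨s⁻¹ * t⁻¹ * s * t, hmem t⟩) hmul, fun t => rfl⟩
  have hc : ∀ t, c t = 1 := by
    intro t
    have hcomm : ∀ x y : ↥(Subgroup.center S), x * y = y * x :=
      fun x y => Subtype.ext (Subgroup.mem_center_iff.mp y.2 x.1)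
    have h1 : commutator S ≤ c.ker := by
      rw [commutator_eq_closure, Subgroup.closure_le]
      rintro x ⟨p, q, rfl⟩
      rw [SetLike.mem_coe, MonoidHom.mem_ker, commutatorElement_def, map_mul, map_mul, map_mul,
        map_inv, map_inv, hcomm (c p) (c q), mul_inv_cancel_right, mul_inv_cancel]
    rw [hperf] at h1
    exact MonoidHom.mem_ker.mp (h1 (Subgroup.mem_top t))
  rw [Subgroup.mem_center_iff]
  intro t
  have h1 : s⁻¹ * t⁻¹ * s * t = 1 := by
    rw [← hcdef, hc]
    rfl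
  have h2 : s * t = t * s * (s⁻¹ * t⁻¹ * s * t) := by
    simp only [mul_assoc, mul_inv_cancel_left]
  rw [h2, h1, mul_one]

/-- Transport of the special unitary group along a field isomorphism. -/
theorem su_map_mem {L K : Type*} [Field L] [Field K] (e : L ≃+* K) (n q : ℕ)
    (A : Matrix.SpecialLinearGroup (Fin n) L) (hA : A ∈ Cfsg.SU n L q) :
    Matrix.SpecialLinearGroup.map (e : L →+* K) A ∈ Cfsg.SU n K q := by
  intro u v
  have hA' : ∀ u v : Fin n → L, Cfsg.hermForm n L q (A.1 *ᵥ u) (A.1 *ᵥ v)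
      = Cfsg.hermForm n L q u v := hA
  have hmv : ∀ x : Fin n → K, (A.1.map (e : L →+* K)) *ᵥ x
      = fun i => e ((A.1 *ᵥ (fun j => e.symm (x j))) i) := by
    intro x
    funext i
    have hx : (⇑(e : L →+* K) ∘ fun j => e.symm (x j)) = x := by
      funext j
      simp
    have h1 := RingHom.map_mulVec (e : L →+* K) A.1 (fun j => e.symm (x j)) i
    rw [hx] at h1
    exact h1.symm
  have hform : ∀ x y : Fin n → L, Cfsg.hermForm n K q (fun i => e (x i)) (fun i => e (y i))
      = e (Cfsg.hermForm n L q x y) := by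
    intro x y
    simp only [Cfsg.hermForm, map_sum, map_mul, map_pow]
  show Cfsg.hermForm n K q ((A.1.map (e : L →+* K)) *ᵥ u) ((A.1.map (e : L →+* K)) *ᵥ v)
    = Cfsg.hermForm n K q u v
  rw [hmv, hmv, hform, hA', ← hform]
  simp only [RingEquiv.apply_symm_apply]

/-- The induced homomorphism of special unitary groups. -/
def suMap {L K : Type*} [Field L] [Field K] (e : L ≃+* K) (n q : ℕ) :
    ↥(Cfsg.SU n L q) →* ↥(Cfsg.SU n K q) :=
  ((Matrix.SpecialLinearGroup.map (e : L →+* K)).comp (Cfsg.SU n L q).subtype).codRestrict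
    (Cfsg.SU n K q) (fun A => su_map_mem e n q A.1 A.2)

theorem suMap_coe {L K : Type*} [Field L] [Field K] (e : L ≃+* K) (n q : ℕ)
    (A : ↥(Cfsg.SU n L q)) (i j : Fin n) : (suMap e n q A).1.1 i j = e (A.1.1 i j) := rfl

theorem suMap_injective {L K : Type*} [Field L] [Field K] (e : L ≃+* K) (n q : ℕ) :
    Function.Injective (suMap e n q) := by
  intro A B hAB
  apply Subtype.ext
  apply Subtype.ext
  apply Matrix.ext
  intro i j
  have h1 := congrArg (fun X : ↥(Cfsg.SU n K q) => X.1.1 i j) hAB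
  exact e.injective h1

theorem suMap_surjective {L K : Type*} [Field L] [Field K] (e : L ≃+* K) (n q : ℕ) :
    Function.Surjective (suMap e n q) := by
  intro B
  refine ⟨suMap e.symm n q B, ?_⟩
  apply Subtype.ext
  apply Subtype.ext
  apply Matrix.ext
  intro i j
  rw [suMap_coe, suMap_coe]
  exact e.apply_symm_apply _

end Generic

section Ext2

variable {K : Type*} [Field K]

theorem ext2_polar_aux (w w' : Fin 3 ⊕ Fin 3 → K) :
    ∑ s, w s * w' s.swap = Cfsg.quadFormPlus 3 K (w + w') - Cfsg.quadFormPlus 3 K w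
      - Cfsg.quadFormPlus 3 K w' := by
  simp only [Cfsg.quadFormPlus, Fintype.sum_sum_type, Pi.add_apply, Sum.swap_inl, Sum.swap_inr,
    ← Finset.sum_add_distrib, ← Finset.sum_sub_distrib]
  apply Finset.sum_congr rfl
  intro i _
  ring

/-- The exterior square preserves the polar form of the Pfaffian up to the determinant. -/
theorem ext2_polar (A : Matrix (Fin 4) (Fin 4) K) (p r : Fin 3 ⊕ Fin 3) :
    ∑ s, ext2 A s p * ext2 A s.swap r.swap = if p = r then A.det else 0 := by
  classical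
  have h1 := ext2_polar_aux ((ext2 A) *ᵥ (Pi.single p 1)) ((ext2 A) *ᵥ (Pi.single r.swap 1))
  rw [← Matrix.mulVec_add, quadFormPlus_ext2, quadFormPlus_ext2, quadFormPlus_ext2,
    ← mul_sub, ← mul_sub, ← ext2_polar_aux] at h1
  simp only [Matrix.mulVec_single_one, Matrix.col_apply] at h1
  rw [h1]
  by_cases hpr : p = r
  · subst hpr
    rw [if_pos rfl, Finset.sum_eq_single p]
    · simp
    · intro s _ hs
      simp [hs]
    · intro h
      exact absurd (Finset.mem_univ p) h
  · rw [if_neg hpr, Finset.sum_eq_zero, mul_zero]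
    intro s _
    by_cases hs : s = p
    · subst hs
      have : s.swap ≠ r.swap := fun h => hpr (Sum.swap_leftInverse.injective h)
      simp [this]
    · simp [hs]

end Ext2

section Real

variable {F : Type*} [Field F] (a b : F) [Fact (∀ r : F, r ^ 2 ≠ -b + a * r)]

theorem ext2_conjTranspose (A : Matrix (Fin 4) (Fin 4) (QuadraticAlgebra F (-b) a)) :
    ext2 Aᴴ = (ext2 A)ᴴ := by
  apply Matrix.ext
  intro p r
  simp only [ext2, Matrix.of_apply, minor2, Matrix.conjTranspose_apply, star_sub, star_mul']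
  ring

theorem su_conjTranspose_mul {q : ℕ}
    (hpow : ∀ x : QuadraticAlgebra F (-b) a, x ^ q = star x)
    (A : Matrix (Fin 4) (Fin 4) (QuadraticAlgebra F (-b) a))
    (hA : ∀ u v, Cfsg.hermForm 4 (QuadraticAlgebra F (-b) a) q (A *ᵥ u) (A *ᵥ v)
      = Cfsg.hermForm 4 (QuadraticAlgebra F (-b) a) q u v) : Aᴴ * A = 1 := by
  classical
  apply Matrix.ext
  intro j i
  have h := hA (Pi.single i 1) (Pi.single j 1)
  rw [Matrix.mulVec_single_one, Matrix.mulVec_single_one] at h
  simp only [Cfsg.hermForm, Matrix.col_apply, hpow] at h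
  rw [Matrix.mul_apply]
  simp only [Matrix.conjTranspose_apply]
  rw [Matrix.one_apply]
  calc ∑ k, star (A k j) * A k i = ∑ k, A k i * star (A k j) :=
        Finset.sum_congr rfl (fun k _ => mul_comm _ _)
    _ = _ := h
    _ = if j = i then 1 else 0 := by
        by_cases hji : j = i
        · subst hji
          rw [if_pos rfl, Finset.sum_eq_single j]
          · simp
          · intro k _ hk
            simp [hk]
          · intro h'
            exact absurd (Finset.mem_univ j) h'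
        · rw [if_neg hji]
          apply Finset.sum_eq_zero
          intro k _
          by_cases hk : k = i
          · subst hk
            simp [Ne.symm hji]
          · simp [hk]

theorem ext2_real_of_su {q : ℕ}
    (hpow : ∀ x : QuadraticAlgebra F (-b) a, x ^ q = star x)
    (A : Matrix (Fin 4) (Fin 4) (QuadraticAlgebra F (-b) a)) (hdet : A.det = 1)
    (hA : ∀ u v, Cfsg.hermForm 4 (QuadraticAlgebra F (-b) a) q (A *ᵥ u) (A *ᵥ v)
      = Cfsg.hermForm 4 (QuadraticAlgebra F (-b) a) q u v) : po6Real a b (ext2 A) := by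
  classical
  have h1 : (ext2 A)ᴴ * ext2 A = 1 := by
    rw [← ext2_conjTranspose, ← ext2_mul, su_conjTranspose_mul a b hpow A hA, ext2_one]
  have hX : (ext2 A)ᵀ * (ext2 A).map star = 1 := by
    apply Matrix.ext
    intro p r
    have h2 := congrFun (congrFun h1 r) p
    rw [Matrix.mul_apply] at h2 ⊢
    simp only [Matrix.conjTranspose_apply, Matrix.transpose_apply, Matrix.map_apply] at h2 ⊢
    rw [Matrix.one_apply] at h2 ⊢
    rw [show (∑ s, ext2 A s p * star (ext2 A s r)) = ∑ s, star (ext2 A s r) * ext2 A s p from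
      Finset.sum_congr rfl (fun s _ => mul_comm _ _), h2]
    by_cases h : p = r
    · rw [if_pos h, if_pos h.symm]
    · rw [if_neg h, if_neg (Ne.symm h)]
  have hM' : (ext2 A)ᵀ * (Matrix.of fun p r => ext2 A p.swap r.swap) = 1 := by
    apply Matrix.ext
    intro p r
    rw [Matrix.mul_apply]
    simp only [Matrix.transpose_apply, Matrix.of_apply]
    rw [ext2_polar, hdet, Matrix.one_apply]
  have h2 : (Matrix.of fun p r => ext2 A p.swap r.swap) * (ext2 A)ᵀ = 1 :=
    _root_.mul_eq_one_comm.mp hM'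
  have h3 : (ext2 A).map star = Matrix.of fun p r => ext2 A p.swap r.swap := by
    calc (ext2 A).map star
        = ((Matrix.of fun p r => ext2 A p.swap r.swap) * (ext2 A)ᵀ) * (ext2 A).map star := by
          rw [h2, Matrix.one_mul]
      _ = _ := by rw [Matrix.mul_assoc, hX, Matrix.mul_one]
  intro p r
  have h4 := congrFun (congrFun h3 p) r
  exact h4

end Real

section Hom

variable {F : Type*} [Field F] (a b : F) [Fact (∀ r : F, r ^ 2 ≠ -b + a * r)]

/-- `SU₄(F[ω]) → O⁻₆(F)`: the action on the `F`-form of the exterior square. -/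
noncomputable def po6Hom {q : ℕ}
    (hpow : ∀ x : QuadraticAlgebra F (-b) a, x ^ q = star x) (i : F)
    (hi : (4 * b - a * a) * i = 1) (u : QuadraticAlgebra F (-b) a) (hu : u * star u = -1)
    (hbij : Function.Bijective (po6Z a b i u)) :
    ↥(Cfsg.SU 4 (QuadraticAlgebra F (-b) a) q) →*
      ↥(Cfsg.isometryGroup F (Cfsg.quadFormMinus 2 F a b)) :=
  (MonoidHom.toHomUnits
    { toFun := fun A => LinearMap.toMatrix'
        (po6T a b (LinearEquiv.ofBijective (po6Z a b i u) hbij) (ext2 A.1.1))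
      map_one' := by
        show LinearMap.toMatrix' (po6T a b (LinearEquiv.ofBijective (po6Z a b i u) hbij)
          (ext2 (1 : Matrix (Fin 4) (Fin 4) (QuadraticAlgebra F (-b) a)))) = 1
        rw [ext2_one, po6T_one, LinearMap.toMatrix'_id]
      map_mul' := fun A B => by
        show LinearMap.toMatrix' (po6T a b (LinearEquiv.ofBijective (po6Z a b i u) hbij)
          (ext2 (A.1.1 * B.1.1))) = _
        rw [ext2_mul, po6T_mul a b _ _ _ (ext2_real_of_su a b hpow B.1.1 B.1.2 B.2),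
          LinearMap.toMatrix'_comp] }).codRestrict _ (by
    intro A v _
    show Cfsg.quadFormMinus 2 F a b ((LinearMap.toMatrix'
      (po6T a b (LinearEquiv.ofBijective (po6Z a b i u) hbij) (ext2 A.1.1))).mulVec v)
      = Cfsg.quadFormMinus 2 F a b v
    rw [LinearMap.toMatrix'_mulVec]
    exact po6T_quad a b i hi u hu hbij (ext2_real_of_su a b hpow A.1.1 A.1.2 A.2)
      (fun w => by rw [quadFormPlus_ext2, A.1.2, one_mul]) v)

theorem po6Hom_coe {q : ℕ}
    (hpow : ∀ x : QuadraticAlgebra F (-b) a, x ^ q = star x) (i : F)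
    (hi : (4 * b - a * a) * i = 1) (u : QuadraticAlgebra F (-b) a) (hu : u * star u = -1)
    (hbij : Function.Bijective (po6Z a b i u))
    (A : ↥(Cfsg.SU 4 (QuadraticAlgebra F (-b) a) q)) :
    (((po6Hom a b hpow i hi u hu hbij A :
      ↥(Cfsg.isometryGroup F (Cfsg.quadFormMinus 2 F a b))) :
      Matrix.GeneralLinearGroup ((Fin 2 ⊕ Fin 2) ⊕ Fin 2) F) :
        Matrix ((Fin 2 ⊕ Fin 2) ⊕ Fin 2) ((Fin 2 ⊕ Fin 2) ⊕ Fin 2) F)
      = LinearMap.toMatrix'
        (po6T a b (LinearEquiv.ofBijective (po6Z a b i u) hbij) (ext2 A.1.1)) := rfl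

theorem po6Hom_ker {q : ℕ}
    (hpow : ∀ x : QuadraticAlgebra F (-b) a, x ^ q = star x) (i : F)
    (hi : (4 * b - a * a) * i = 1) (u : QuadraticAlgebra F (-b) a) (hu : u * star u = -1)
    (hbij : Function.Bijective (po6Z a b i u))
    (A : ↥(Cfsg.SU 4 (QuadraticAlgebra F (-b) a) q))
    (h : po6Hom a b hpow i hi u hu hbij A = 1) : A.1.1 = 1 ∨ A.1.1 = -1 := by
  apply eq_one_or_neg_one_of_ext2
  apply po6T_eq_id a b (LinearEquiv.ofBijective (po6Z a b i u) hbij) i hi
    (ext2_real_of_su a b hpow A.1.1 A.1.2 A.2)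
  apply LinearMap.toMatrix'.injective
  rw [LinearMap.toMatrix'_id, ← po6Hom_coe a b hpow i hi u hu hbij, h]
  rfl

theorem po6Hom_ker_le {q : ℕ}
    (hpow : ∀ x : QuadraticAlgebra F (-b) a, x ^ q = star x) (i : F)
    (hi : (4 * b - a * a) * i = 1) (u : QuadraticAlgebra F (-b) a) (hu : u * star u = -1)
    (hbij : Function.Bijective (po6Z a b i u)) :
    (po6Hom a b hpow i hi u hu hbij).ker
      ≤ Subgroup.center ↥(Cfsg.SU 4 (QuadraticAlgebra F (-b) a) q) := by
  intro A hA
  rw [Subgroup.mem_center_iff]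
  intro B
  apply Subtype.ext
  apply Subtype.ext
  show B.1.1 * A.1.1 = A.1.1 * B.1.1
  rcases po6Hom_ker a b hpow i hi u hu hbij A (MonoidHom.mem_ker.mp hA) with h | h
  · rw [h, Matrix.mul_one, Matrix.one_mul]
  · rw [h, Matrix.mul_neg, Matrix.neg_mul, Matrix.mul_one, Matrix.one_mul]

theorem card_ker_po6Hom_le {q : ℕ}
    (hpow : ∀ x : QuadraticAlgebra F (-b) a, x ^ q = star x) (i : F)
    (hi : (4 * b - a * a) * i = 1) (u : QuadraticAlgebra F (-b) a) (hu : u * star u = -1)
    (hbij : Function.Bijective (po6Z a b i u)) :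
    Nat.card ↥(po6Hom a b hpow i hi u hu hbij).ker ≤ 2 := by
  classical
  let f : ↥(po6Hom a b hpow i hi u hu hbij).ker →
      ↥({1, -1} : Set (Matrix (Fin 4) (Fin 4) (QuadraticAlgebra F (-b) a))) := fun A =>
    ⟨A.1.1.1, by
      rcases po6Hom_ker a b hpow i hi u hu hbij A.1 A.2 with h | h
      · exact Or.inl h
      · exact Or.inr h⟩
  have hf : Function.Injective f := by
    intro A B hAB
    apply Subtype.ext
    apply Subtype.ext
    apply Subtype.ext
    have h1 : (f A).1 = (f B).1 := congrArg Subtype.val hAB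
    exact h1
  calc Nat.card ↥(po6Hom a b hpow i hi u hu hbij).ker
      ≤ Nat.card ↥({1, -1} : Set (Matrix (Fin 4) (Fin 4) (QuadraticAlgebra F (-b) a))) :=
        Nat.card_le_card_of_injective f hf
    _ = ({1, -1} : Set (Matrix (Fin 4) (Fin 4) (QuadraticAlgebra F (-b) a))).ncard := rfl
    _ ≤ 2 := (Set.ncard_insert_le _ _).trans (by rw [Set.ncard_singleton])

theorem card_ker_po6Hom_of_two_eq_zero {q : ℕ}
    (hpow : ∀ x : QuadraticAlgebra F (-b) a, x ^ q = star x) (i : F)
    (hi : (4 * b - a * a) * i = 1) (u : QuadraticAlgebra F (-b) a) (hu : u * star u = -1)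
    (hbij : Function.Bijective (po6Z a b i u)) (h2 : (2 : F) = 0) :
    Nat.card ↥(po6Hom a b hpow i hi u hu hbij).ker = 1 := by
  rw [Nat.card_eq_one_iff_unique]
  refine ⟨⟨fun x y => ?_⟩, ⟨1⟩⟩
  have h2' : (2 : QuadraticAlgebra F (-b) a) = 0 := by
    have : (2 : QuadraticAlgebra F (-b) a) = algebraMap F _ (2 : F) := (map_ofNat _ 2).symm
    rw [this, h2, map_zero]
  have key : ∀ s : ↥(po6Hom a b hpow i hi u hu hbij).ker, s = 1 := by
    intro s
    apply Subtype.ext
    apply Subtype.ext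
    apply Subtype.ext
    rcases po6Hom_ker a b hpow i hi u hu hbij s.1 s.2 with h | h
    · exact h
    · rw [h]
      apply Matrix.ext
      intro k l
      rw [Matrix.neg_apply]
      show -(1 : Matrix (Fin 4) (Fin 4) (QuadraticAlgebra F (-b) a)) k l
        = (1 : Matrix (Fin 4) (Fin 4) (QuadraticAlgebra F (-b) a)) k l
      linear_combination
        (-((1 : Matrix (Fin 4) (Fin 4) (QuadraticAlgebra F (-b) a)) k l)) * h2'
  rw [key x, key y]

end Hom

section Final

variable {F K : Type*} [Field F] [Fintype F] [Field K] [Fintype K]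

/-- `PΩ⁻₆(q) ≅ PSU₄(q)`. -/
theorem pomega6m_equiv {q : ℕ} (hF : Fintype.card F = q) (hK : Fintype.card K = q ^ 2) (a b : F)
    (hab : ∀ z₁ z₂ : F, z₁ ^ 2 + a * z₁ * z₂ + b * z₂ ^ 2 = 0 → z₁ = 0 ∧ z₂ = 0) :
    Nonempty (Cfsg.POmega F (Cfsg.quadFormMinus 2 F a b) ≃* Cfsg.PSU 4 K (Fintype.card F)) := by
  classical
  subst hF
  have hq : 2 ≤ Fintype.card F := Fintype.one_lt_card
  have hfact : Fact (∀ r : F, r ^ 2 ≠ -b + a * r) := ⟨fun r hr => by
    have := (hab r (-1) (by linear_combination hr)).2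
    have h1 : (1 : F) = 0 := by linear_combination -this
    exact one_ne_zero h1⟩
  letI : Fintype (QuadraticAlgebra F (-b) a) :=
    Fintype.ofEquiv (F × F) (QuadraticAlgebra.equivProd (-b) a).symm
  have hcardQA : Fintype.card (QuadraticAlgebra F (-b) a) = Fintype.card F ^ 2 := by
    rw [Fintype.card_congr (QuadraticAlgebra.equivProd (-b) a), Fintype.card_prod, sq]
  let e : QuadraticAlgebra F (-b) a ≃+* K := FiniteField.ringEquivOfCardEq (by rw [hcardQA, hK])
  have hpow := qa_pow_card a b hcardQA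
  obtain ⟨u, hu⟩ := qa_exists_norm_neg_one a b hcardQA
  have hΔ := disc_ne_zero a b hab
  obtain ⟨i, hi⟩ : ∃ i : F, (4 * b - a * a) * i = 1 := ⟨_, mul_inv_cancel₀ hΔ⟩
  have hbij := po6Z_bijective a b hcardQA hab i hi u hu
  obtain ⟨φ, hφ⟩ : ∃ φ : ↥(Cfsg.SU 4 (QuadraticAlgebra F (-b) a) (Fintype.card F)) →*
      ↥(Cfsg.isometryGroup F (Cfsg.quadFormMinus 2 F a b)),
      φ = po6Hom a b hpow i hi u hu hbij := ⟨_, rfl⟩
  have hQfun : (⇑(qMinus a b 2) : ((Fin 2 ⊕ Fin 2) ⊕ Fin 2 → F) → F)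
      = Cfsg.quadFormMinus 2 F a b := funext (qMinus_apply a b 2)
  -- orders
  obtain ⟨N, hN⟩ : ∃ N : ℕ, N = Fintype.card F ^ 6 * ((Fintype.card F ^ 3 + 1)
      * ((Fintype.card F ^ 2 - 1) * (Fintype.card F ^ 4 - 1))) := ⟨_, rfl⟩
  have hO : Nat.card ↥(Cfsg.isometryGroup F (Cfsg.quadFormMinus 2 F a b)) = 2 * N := by
    rw [card_isometryGroup_eq _ (qMinus a b 2) (qMinus_apply a b 2), isoCard_qMinus,
      isoCard_minusTower a b hab 2, hN]
    simp only [Finset.prod_range_succ, Finset.prod_range_zero, one_mul]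
    ring
  have hS : Nat.card ↥(Cfsg.SU 4 (QuadraticAlgebra F (-b) a) (Fintype.card F)) = N := by
    have h1 := Cfsg.Agent.Lib.Helper45.card_SU hcardQA 4 (by norm_num)
    simp only [Finset.prod_range_succ, Finset.prod_range_zero, one_mul] at h1
    rw [if_pos (by decide : Even 0), if_neg (by decide : ¬ Even 1), if_pos (by decide : Even 2),
      if_neg (by decide : ¬ Even 3)] at h1
    have hsq : (Fintype.card F + 1) * (Fintype.card F - 1) = Fintype.card F ^ 2 - 1 := by
      have h2 : Fintype.card F ^ 2 = (Fintype.card F + 1) * (Fintype.card F - 1) + 1 := by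
        obtain ⟨k, hk⟩ : ∃ k, Fintype.card F = k + 1 := ⟨Fintype.card F - 1, by omega⟩
        rw [hk]
        simp only [Nat.add_sub_cancel]
        ring
      omega
    have hpos : 0 < Fintype.card F + 1 := by omega
    apply Nat.eq_of_mul_eq_mul_left hpos
    rw [h1, hN]
    norm_num
    rw [← hsq]
    ring
  have hNpos : 0 < N := by
    have e2 : 2 ^ 2 ≤ Fintype.card F ^ 2 := Nat.pow_le_pow_left hq 2
    have e4 : 2 ^ 4 ≤ Fintype.card F ^ 4 := Nat.pow_le_pow_left hq 4
    have e6 : 2 ^ 6 ≤ Fintype.card F ^ 6 := Nat.pow_le_pow_left hq 6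
    rw [hN]
    apply Nat.mul_pos (by omega)
    apply Nat.mul_pos (by omega)
    exact Nat.mul_pos (by omega) (by omega)
  have : Finite ↥(Cfsg.isometryGroup F (Cfsg.quadFormMinus 2 F a b)) :=
    Nat.finite_of_card_ne_zero (by rw [hO]; omega)
  have : Finite ↥(Cfsg.SU 4 (QuadraticAlgebra F (-b) a) (Fintype.card F)) :=
    Nat.finite_of_card_ne_zero (by rw [hS]; omega)
  have hC := Subgroup.card_mul_index
    (commutator ↥(Cfsg.isometryGroup F (Cfsg.quadFormMinus 2 F a b)))
  rw [hO] at hC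
  have hperf : commutator ↥(Cfsg.SU 4 (QuadraticAlgebra F (-b) a) (Fintype.card F)) = ⊤ :=
    Cfsg.Agent.Lib.Helper13.su_commutator_eq_top hcardQA (by norm_num) (by omega)
  have himg : ∀ s, φ s ∈ commutator ↥(Cfsg.isometryGroup F (Cfsg.quadFormMinus 2 F a b)) :=
    map_mem_commutator_of_perfect φ hperf
  have hkerle : φ.ker ≤ Subgroup.center ↥(Cfsg.SU 4 (QuadraticAlgebra F (-b) a)
      (Fintype.card F)) := by
    rw [hφ]
    exact po6Hom_ker_le a b hpow i hi u hu hbij
  have hcen : ∀ s : ↥(Cfsg.SU 4 (QuadraticAlgebra F (-b) a) (Fintype.card F)),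
      (∀ t, φ (s * t) = φ (t * s)) →
      s ∈ Subgroup.center ↥(Cfsg.SU 4 (QuadraticAlgebra F (-b) a) (Fintype.card F)) :=
    fun s hs => mem_center_of_comm_ker φ hkerle hperf s hs
  -- the quotient map onto `PSU₄(K)`
  obtain ⟨μ, hμinj, hμsurj⟩ : ∃ μ : ↥(Cfsg.SU 4 (QuadraticAlgebra F (-b) a) (Fintype.card F)) →*
      ↥(Cfsg.SU 4 K (Fintype.card F)), Function.Injective μ ∧ Function.Surjective μ :=
    ⟨suMap e 4 (Fintype.card F), suMap_injective e 4 _, suMap_surjective e 4 _⟩
  obtain ⟨π, hπdef⟩ : ∃ π : ↥(Cfsg.SU 4 (QuadraticAlgebra F (-b) a) (Fintype.card F)) →*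
      Cfsg.PSU 4 K (Fintype.card F),
      π = (QuotientGroup.mk' (Subgroup.center ↥(Cfsg.SU 4 K (Fintype.card F)))).comp μ :=
    ⟨_, rfl⟩
  have hπ : Function.Surjective π := by
    rw [hπdef]
    exact (QuotientGroup.mk'_surjective _).comp hμsurj
  have hker : ∀ s, π s = 1 ↔ ∀ t, φ (s * t) = φ (t * s) := by
    intro s
    have h1 : π s = 1 ↔ μ s ∈ Subgroup.center ↥(Cfsg.SU 4 K (Fintype.card F)) := by
      rw [hπdef]
      exact QuotientGroup.eq_one_iff _
    rw [h1, Subgroup.mem_center_iff]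
    constructor
    · intro h t
      have h3 : μ (s * t) = μ (t * s) := by
        rw [map_mul, map_mul, h (μ t)]
      rw [hμinj h3]
    · intro h B
      obtain ⟨t, rfl⟩ := hμsurj B
      have h3 := Subgroup.mem_center_iff.mp (hcen s h) t
      rw [← map_mul, ← map_mul, h3]
  refine commutator_quotient_center_equiv' φ himg ?_ π hπ hker
  rw [hS]
  by_cases h2 : (2 : F) = 0
  · have hidx : (commutator ↥(Cfsg.isometryGroup F (Cfsg.quadFormMinus 2 F a b))).index = 2 := by
      have := Cfsg.Agent.Lib.Helper44.index_commutator_char2 h2 (qMinus a b 2)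
        (nondeg_qMinus a b hab 2) (Or.inr (by simp)) ⟨Pi.single (Sum.inr 0) 1, by
          rw [qMinus_apply]
          simp [Cfsg.quadFormMinus]⟩
      rw [hQfun] at this
      exact this
    rw [hidx] at hC
    rw [hφ, card_ker_po6Hom_of_two_eq_zero a b hpow i hi u hu hbij h2]
    omega
  · have hidx : (commutator ↥(Cfsg.isometryGroup F (Cfsg.quadFormMinus 2 F a b))).index = 4 := by
      have := Cfsg.Agent.Lib.Helper14.index_commutator_eq_four h2 (qMinus a b 2)
        (nondeg_qMinus a b hab 2) (by simp)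
      rw [hQfun] at this
      exact this
    rw [hidx] at hC
    have hk := card_ker_po6Hom_le a b hpow i hi u hu hbij
    rw [← hφ] at hk
    calc Nat.card ↥(commutator ↥(Cfsg.isometryGroup F (Cfsg.quadFormMinus 2 F a b)))
          * Nat.card ↥φ.ker
        ≤ Nat.card ↥(commutator ↥(Cfsg.isometryGroup F (Cfsg.quadFormMinus 2 F a b))) * 2 :=
          Nat.mul_le_mul_left _ hk
      _ = N := by omega

end Final

end Cfsg.Agent.Lib.Helper99
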