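import Mathlib

set_option autoImplicit false

namespace Cfsg.Agent.Lib.Helper99

section SelfDual

variable {F : Type*} [Field F] {G : Type*} [Group G] {V : Type*} [AddCommGroup V] [Module F V]

/-- Projections attached to two disjoint subspaces. -/
theorem sd_proj2 (X Y : Submodule F V) (hXY : X ⊓ Y = ⊥) :
    ∃ p₁ p₂ : V →ₗ[F] V, (∀ v, p₁ v ∈ X) ∧ (∀ v, p₂ v ∈ Y) ∧
      (∀ x ∈ X, p₁ x = x ∧ p₂ x = 0) ∧ (∀ y ∈ Y, p₁ y = 0 ∧ p₂ y = y) := by
  have hker : LinearMap.ker (X.subtype.coprod Y.subtype) = ⊥ := by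
    rw [LinearMap.ker_eq_bot']
    rintro ⟨a, b⟩ h
    simp only [LinearMap.coprod_apply, Submodule.subtype_apply] at h
    have ha : (a : V) ∈ X ⊓ Y :=
      ⟨a.2, by rw [eq_neg_of_add_eq_zero_left h]; exact Y.neg_mem b.2⟩
    rw [hXY, Submodule.mem_bot] at ha
    have hb : (b : V) = 0 := by rw [ha, zero_add] at h; exact h
    refine Prod.ext ?_ ?_
    · exact Subtype.ext ha
    · exact Subtype.ext hb
  obtain ⟨L, hL⟩ := LinearMap.exists_leftInverse_of_injective _ hker
  have hL' : ∀ z, L (X.subtype.coprod Y.subtype z) = z := fun z => by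
    have := congrArg (fun f => f z) hL
    simpa using this
  refine ⟨X.subtype ∘ₗ LinearMap.fst F X Y ∘ₗ L, Y.subtype ∘ₗ LinearMap.snd F X Y ∘ₗ L,
    fun v => by simp, fun v => by simp, ?_, ?_⟩
  · intro x hx
    have h := hL' (⟨x, hx⟩, 0)
    simp only [LinearMap.coprod_apply, Submodule.subtype_apply, map_zero, add_zero] at h
    simp [h]
  · intro y hy
    have h := hL' (0, ⟨y, hy⟩)
    simp only [LinearMap.coprod_apply, Submodule.subtype_apply, map_zero, zero_add] at h
    simp [h]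

/-- A subspace is invariant. -/
def SdInv (ρ : Representation F G V) (H : Submodule F V) : Prop :=
  ∀ g, ∀ x ∈ H, ρ g x ∈ H

/-- A form is invariant and nondegenerate on a subspace. -/
def SdCarries (ρ : Representation F G V) (T : LinearMap.BilinForm F V) (H : Submodule F V) :
    Prop :=
  (∀ g, ∀ x ∈ H, ∀ y ∈ H, T (ρ g x) (ρ g y) = T x y) ∧
    (∀ x ∈ H, (∀ y ∈ H, T x y = 0) → x = 0)

theorem sdInv_sup (ρ : Representation F G V) {H₁ H₂ : Submodule F V} (h₁ : SdInv ρ H₁)
    (h₂ : SdInv ρ H₂) : SdInv ρ (H₁ ⊔ H₂) := by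
  intro g x hx
  obtain ⟨a, ha, b, hb, rfl⟩ := Submodule.mem_sup.mp hx
  rw [map_add]
  exact Submodule.add_mem _ (Submodule.mem_sup_left (h₁ g a ha))
    (Submodule.mem_sup_right (h₂ g b hb))

theorem sdInv_inf (ρ : Representation F G V) {H₁ H₂ : Submodule F V} (h₁ : SdInv ρ H₁)
    (h₂ : SdInv ρ H₂) : SdInv ρ (H₁ ⊓ H₂) := by
  intro g x hx
  exact ⟨h₁ g x hx.1, h₂ g x hx.2⟩

/-- Orthogonal sum of two forms carried by disjoint invariant subspaces. -/
theorem sd_sum (ρ : Representation F G V) (H₁ H₂ : Submodule F V) (hd : H₁ ⊓ H₂ = ⊥)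
    (hi₁ : SdInv ρ H₁) (hi₂ : SdInv ρ H₂) (T₁ T₂ : LinearMap.BilinForm F V)
    (h₁ : SdCarries ρ T₁ H₁) (h₂ : SdCarries ρ T₂ H₂) :
    ∃ T : LinearMap.BilinForm F V, SdCarries ρ T (H₁ ⊔ H₂) ∧
      ((∀ x, T₁ x x = 0) → (∀ x, T₂ x x = 0) → ∀ x, T x x = 0) ∧
      ((∀ x y, T₁ x y = T₁ y x) → (∀ x y, T₂ x y = T₂ y x) → ∀ x y, T x y = T y x) := by
  obtain ⟨p₁, p₂, hp₁, hp₂, hX, hY⟩ := sd_proj2 H₁ H₂ hd
  have hT : ∀ a ∈ H₁, ∀ b ∈ H₂, ∀ c ∈ H₁, ∀ d ∈ H₂,
      (T₁.compl₁₂ p₁ p₁ + T₂.compl₁₂ p₂ p₂) (a + b) (c + d) = T₁ a c + T₂ b d := by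
    intro a ha b hb c hc d hd'
    simp only [LinearMap.add_apply, LinearMap.compl₁₂_apply, map_add, (hX a ha).1, (hX a ha).2,
      (hY b hb).1, (hY b hb).2, (hX c hc).1, (hX c hc).2, (hY d hd').1, (hY d hd').2, add_zero,
      zero_add, map_zero, LinearMap.zero_apply]
  refine ⟨T₁.compl₁₂ p₁ p₁ + T₂.compl₁₂ p₂ p₂, ⟨?_, ?_⟩, ?_, ?_⟩
  · intro g x hx y hy
    obtain ⟨a, ha, b, hb, rfl⟩ := Submodule.mem_sup.mp hx
    obtain ⟨c, hc, d, hd', rfl⟩ := Submodule.mem_sup.mp hy
    have e1 : ρ g (a + b) = ρ g a + ρ g b := map_add _ _ _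
    have e2 : ρ g (c + d) = ρ g c + ρ g d := map_add _ _ _
    rw [e1, e2, hT _ (hi₁ g a ha) _ (hi₂ g b hb) _ (hi₁ g c hc) _ (hi₂ g d hd'),
      hT a ha b hb c hc d hd', h₁.1 g a ha c hc, h₂.1 g b hb d hd']
  · intro x hx h
    obtain ⟨a, ha, b, hb, rfl⟩ := Submodule.mem_sup.mp hx
    have ha0 : a = 0 := h₁.2 a ha (fun y hy => by
      have := h y (Submodule.mem_sup_left hy)
      have h' := hT a ha b hb y hy 0 H₂.zero_mem
      rw [add_zero] at h'
      rw [h'] at this
      simpa using this)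
    have hb0 : b = 0 := h₂.2 b hb (fun y hy => by
      have := h y (Submodule.mem_sup_right hy)
      have h' := hT a ha b hb 0 H₁.zero_mem y hy
      rw [zero_add] at h'
      rw [h'] at this
      simpa using this)
    rw [ha0, hb0, add_zero]
  · intro k₁ k₂ x
    simp only [LinearMap.add_apply, LinearMap.compl₁₂_apply, k₁, k₂, add_zero]
  · intro k₁ k₂ x y
    simp only [LinearMap.add_apply, LinearMap.compl₁₂_apply]
    rw [k₁ (p₁ x) (p₁ y), k₂ (p₂ x) (p₂ y)]

/-- The decomposition property proved by induction. -/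
def SdGood (p : ℕ) (ρ : Representation F G V) (M : Submodule F V) : Prop :=
  ∃ U W : Submodule F V, U ⊓ W = ⊥ ∧ U ⊔ W = M ∧ SdInv ρ U ∧ SdInv ρ W ∧
    (∃ A : LinearMap.BilinForm F V, (∀ x, A x x = 0) ∧ SdCarries ρ A U) ∧
    (∃ S : LinearMap.BilinForm F V, (∀ x y, S x y = S y x) ∧ SdCarries ρ S W) ∧
    (p = 2 → U = ⊥)

theorem sd_disj_aux {U W N H : Submodule F V} (hUW : U ⊓ W = ⊥) (hN : U ⊔ W = N)
    (hNH : N ⊓ H = ⊥) : U ⊓ (W ⊔ H) = ⊥ := by
  rw [eq_bot_iff]
  rintro x ⟨hxU, hx⟩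
  obtain ⟨w, hw, h, hh, rfl⟩ := Submodule.mem_sup.mp hx
  have hUN : U ≤ N := hN ▸ le_sup_left
  have hWN : W ≤ N := hN ▸ le_sup_right
  have hh0 : h ∈ N ⊓ H := by
    refine ⟨?_, hh⟩
    have : h = (w + h) - w := by abel
    rw [this]
    exact N.sub_mem (hUN hxU) (hWN hw)
  rw [hNH, Submodule.mem_bot] at hh0
  rw [hh0, add_zero] at hxU ⊢
  have : w ∈ U ⊓ W := ⟨hxU, hw⟩
  rw [hUW] at this
  exact this

theorem sd_ext_symm (p : ℕ) (ρ : Representation F G V) {N H : Submodule F V}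
    (hN : SdGood p ρ N) (hH : SdInv ρ H) (hNH : N ⊓ H = ⊥) (s : LinearMap.BilinForm F V)
    (hs : ∀ x y, s x y = s y x) (hc : SdCarries ρ s H) : SdGood p ρ (N ⊔ H) := by
  obtain ⟨U, W, hUW, hsup, hU, hW, ⟨A, hA, hAc⟩, ⟨S, hS, hSc⟩, h2⟩ := hN
  have hWN : W ≤ N := hsup ▸ le_sup_right
  have hWH : W ⊓ H = ⊥ := by
    rw [eq_bot_iff, ← hNH]
    exact inf_le_inf_right H hWN
  obtain ⟨T, hT, -, hTs⟩ := sd_sum ρ W H hWH hW hH S s hSc hc
  refine ⟨U, W ⊔ H, sd_disj_aux hUW hsup hNH, ?_, hU, sdInv_sup ρ hW hH, ⟨A, hA, hAc⟩,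
    ⟨T, hTs hS hs, hT⟩, h2⟩
  rw [← sup_assoc, hsup]

theorem sd_ext_alt (p : ℕ) (hp : p ≠ 2) (ρ : Representation F G V) {N H : Submodule F V}
    (hN : SdGood p ρ N) (hH : SdInv ρ H) (hNH : N ⊓ H = ⊥) (a : LinearMap.BilinForm F V)
    (ha : ∀ x, a x x = 0) (hc : SdCarries ρ a H) : SdGood p ρ (N ⊔ H) := by
  obtain ⟨U, W, hUW, hsup, hU, hW, ⟨A, hA, hAc⟩, ⟨S, hS, hSc⟩, h2⟩ := hN
  have hUN : U ≤ N := hsup ▸ le_sup_left
  have hUH : U ⊓ H = ⊥ := by
    rw [eq_bot_iff, ← hNH]
    exact inf_le_inf_right H hUN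
  obtain ⟨T, hT, hTa, -⟩ := sd_sum ρ U H hUH hU hH A a hAc hc
  have hsup' : W ⊔ U = N := by rw [sup_comm]; exact hsup
  have hWU : W ⊓ U = ⊥ := by rw [inf_comm]; exact hUW
  refine ⟨U ⊔ H, W, ?_, ?_, sdInv_sup ρ hU hH, hW, ⟨T, hTa hA ha, hT⟩, ⟨S, hS, hSc⟩,
    fun h => absurd h hp⟩
  · rw [inf_comm]
    exact sd_disj_aux hWU hsup' hNH
  · rw [sup_right_comm, hsup]


/-- Representing functionals through a perfect pairing of two subspaces. -/
theorem sd_dual [FiniteDimensional F V] (T : LinearMap.BilinForm F V) (X Y : Submodule F V)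
    (hl : ∀ x ∈ X, (∀ y ∈ Y, T x y = 0) → x = 0) (hr : ∀ y ∈ Y, (∀ x ∈ X, T x y = 0) → y = 0)
    (f : V →ₗ[F] F) : ∃ x ∈ X, ∀ y ∈ Y, T x y = f y := by
  let φ : X →ₗ[F] Module.Dual F Y := T.domRestrict₁₂ X Y
  let φ' : Y →ₗ[F] Module.Dual F X := T.flip.domRestrict₁₂ Y X
  have hφ : Function.Injective φ := by
    rw [injective_iff_map_eq_zero]
    intro x hx
    exact Subtype.ext (hl x x.2 (fun y hy => by
      have := LinearMap.congr_fun hx ⟨y, hy⟩
      simpa [φ, LinearMap.domRestrict₁₂_apply] using this))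
  have hφ' : Function.Injective φ' := by
    rw [injective_iff_map_eq_zero]
    intro y hy
    exact Subtype.ext (hr y y.2 (fun x hx => by
      have := LinearMap.congr_fun hy ⟨x, hx⟩
      simpa [φ', LinearMap.domRestrict₁₂_apply] using this))
  have d1 : Module.finrank F X ≤ Module.finrank F (Module.Dual F Y) :=
    LinearMap.finrank_le_finrank_of_injective hφ
  have d2 : Module.finrank F Y ≤ Module.finrank F (Module.Dual F X) :=
    LinearMap.finrank_le_finrank_of_injective hφ'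
  rw [Subspace.dual_finrank_eq] at d1 d2
  have hsurj : Function.Surjective φ :=
    (LinearMap.injective_iff_surjective_of_finrank_eq_finrank
      (by rw [Subspace.dual_finrank_eq]; omega)).mp hφ
  obtain ⟨x, hx⟩ := hsurj (f.comp Y.subtype)
  refine ⟨x, x.2, fun y hy => ?_⟩
  have := LinearMap.congr_fun hx ⟨y, hy⟩
  simpa [φ, LinearMap.domRestrict₁₂_apply] using this

/-- Maschke: an invariant subspace has an invariant complement. -/
theorem sd_maschke [Fintype G] (ρ : Representation F G V) (hG : (Fintype.card G : F) ≠ 0)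
    (X : Submodule F V) (hX : SdInv ρ X) :
    ∃ C : Submodule F V, SdInv ρ C ∧ X ⊓ C = ⊥ ∧ X ⊔ C = ⊤ := by
  obtain ⟨π₀, π₁, hπ₀, _, hπ₀X, _⟩ := sd_proj2 X ⊥ (by simp)
  obtain ⟨π, hπ⟩ : ∃ π : V →ₗ[F] V, ∀ v, π v = ∑ g : G, ρ g (π₀ (ρ g⁻¹ v)) :=
    ⟨∑ g : G, (ρ g) ∘ₗ π₀ ∘ₗ (ρ g⁻¹), fun v => by simp [LinearMap.sum_apply]⟩
  have hπX : ∀ v, π v ∈ X := fun v => by
    rw [hπ]
    exact Submodule.sum_mem _ (fun g _ => hX g _ (hπ₀ _))
  have hπid : ∀ x ∈ X, π x = (Fintype.card G : F) • x := by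
    intro x hx
    rw [hπ]
    have : ∀ g : G, ρ g (π₀ (ρ g⁻¹ x)) = x := fun g => by
      rw [(hπ₀X _ (hX g⁻¹ x hx)).1]
      exact ρ.self_inv_apply g x
    simp [this, Nat.cast_smul_eq_nsmul]
  have hπeq : ∀ h v, π (ρ h v) = ρ h (π v) := by
    intro h v
    rw [hπ, hπ, map_sum, ← Equiv.sum_comp (Equiv.mulLeft h)]
    refine Finset.sum_congr rfl (fun g _ => ?_)
    simp only [Equiv.coe_mulLeft, mul_inv_rev, map_mul, Module.End.mul_apply]
    rw [ρ.inv_self_apply h v]
  refine ⟨LinearMap.ker π, ?_, ?_, ?_⟩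
  · intro g x hx
    rw [LinearMap.mem_ker] at hx ⊢
    rw [hπeq, hx, map_zero]
  · rw [eq_bot_iff]
    rintro x ⟨hxX, hxk⟩
    have hxk' : π x = 0 := hxk
    rw [hπid x hxX] at hxk'
    rcases smul_eq_zero.mp hxk' with h | h
    · exact absurd h hG
    · exact h
  · rw [eq_top_iff]
    intro v _
    have : v = (Fintype.card G : F)⁻¹ • π v + (v - (Fintype.card G : F)⁻¹ • π v) := by abel
    rw [this]
    refine Submodule.add_mem _ (Submodule.mem_sup_left (X.smul_mem _ (hπX v)))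
      (Submodule.mem_sup_right ?_)
    rw [LinearMap.mem_ker, map_sub, map_smul, hπid _ (hπX v), smul_smul, inv_mul_cancel₀ hG,
      one_smul, sub_self]

theorem sd_maschke_rel [Fintype G] (ρ : Representation F G V) (hG : (Fintype.card G : F) ≠ 0)
    {X M : Submodule F V} (hX : SdInv ρ X) (hM : SdInv ρ M) (hXM : X ≤ M) :
    ∃ N : Submodule F V, SdInv ρ N ∧ X ⊓ N = ⊥ ∧ X ⊔ N = M := by
  obtain ⟨C, hC, h1, h2⟩ := sd_maschke ρ hG X hX
  refine ⟨C ⊓ M, sdInv_inf ρ hC hM, ?_, ?_⟩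
  · rw [eq_bot_iff, ← h1]
    exact inf_le_inf_left X inf_le_left
  · rw [← sup_inf_assoc_of_le C hXM, h2, top_inf_eq]

/-- The part of `M` on which `B` is skew against `M`. -/
def sdSkew (B : LinearMap.BilinForm F V) (M : Submodule F V) : Submodule F V where
  carrier := {x | x ∈ M ∧ ∀ y ∈ M, B x y = - B y x}
  add_mem' := by
    rintro a b ⟨ha, ha'⟩ ⟨hb, hb'⟩
    refine ⟨M.add_mem ha hb, fun y hy => ?_⟩
    rw [map_add, LinearMap.add_apply, map_add, ha' y hy, hb' y hy, neg_add]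
  zero_mem' := ⟨M.zero_mem, fun y hy => by simp⟩
  smul_mem' := by
    rintro c a ⟨ha, ha'⟩
    refine ⟨M.smul_mem c ha, fun y hy => ?_⟩
    rw [map_smul, LinearMap.smul_apply, map_smul, ha' y hy, smul_neg]

/-- The right perp of `X` inside `M`. -/
def sdPerp (B : LinearMap.BilinForm F V) (X M : Submodule F V) : Submodule F V where
  carrier := {v | v ∈ M ∧ ∀ x ∈ X, B x v = 0}
  add_mem' := by
    rintro a b ⟨ha, ha'⟩ ⟨hb, hb'⟩
    refine ⟨M.add_mem ha hb, fun x hx => ?_⟩
    rw [map_add, ha' x hx, hb' x hx, add_zero]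
  zero_mem' := ⟨M.zero_mem, fun x hx => by simp⟩
  smul_mem' := by
    rintro c a ⟨ha, ha'⟩
    refine ⟨M.smul_mem c ha, fun x hx => ?_⟩
    rw [map_smul, ha' x hx, smul_zero]

theorem mem_sdSkew (B : LinearMap.BilinForm F V) (M : Submodule F V) (x : V) :
    x ∈ sdSkew B M ↔ x ∈ M ∧ ∀ y ∈ M, B x y = - B y x := Iff.rfl

theorem mem_sdPerp (B : LinearMap.BilinForm F V) (X M : Submodule F V) (v : V) :
    v ∈ sdPerp B X M ↔ v ∈ M ∧ ∀ x ∈ X, B x v = 0 := Iff.rfl

theorem sd_inv_left (ρ : Representation F G V) (B : LinearMap.BilinForm F V)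
    (hBinv : ∀ g x y, B (ρ g x) (ρ g y) = B x y) (g : G) (x y : V) :
    B (ρ g x) y = B x (ρ g⁻¹ y) := by
  rw [← hBinv g x (ρ g⁻¹ y), ρ.self_inv_apply g y]

theorem sd_inv_right (ρ : Representation F G V) (B : LinearMap.BilinForm F V)
    (hBinv : ∀ g x y, B (ρ g x) (ρ g y) = B x y) (g : G) (x y : V) :
    B x (ρ g y) = B (ρ g⁻¹ x) y := by
  rw [← hBinv g (ρ g⁻¹ x) y, ρ.self_inv_apply g x]

theorem sdSkew_inv (ρ : Representation F G V) (B : LinearMap.BilinForm F V)
    (hBinv : ∀ g x y, B (ρ g x) (ρ g y) = B x y) {M : Submodule F V} (hM : SdInv ρ M) :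
    SdInv ρ (sdSkew B M) := by
  rintro g x ⟨hx, hx'⟩
  refine ⟨hM g x hx, fun y hy => ?_⟩
  rw [sd_inv_left ρ B hBinv g x y, hx' _ (hM g⁻¹ y hy), sd_inv_left ρ B hBinv g⁻¹ y x, inv_inv]

theorem sdPerp_inv (ρ : Representation F G V) (B : LinearMap.BilinForm F V)
    (hBinv : ∀ g x y, B (ρ g x) (ρ g y) = B x y) {X M : Submodule F V} (hX : SdInv ρ X)
    (hM : SdInv ρ M) : SdInv ρ (sdPerp B X M) := by
  rintro g v ⟨hv, hv'⟩
  refine ⟨hM g v hv, fun x hx => ?_⟩
  rw [sd_inv_right ρ B hBinv, hv' _ (hX g⁻¹ x hx)]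


/-- Main induction: a subspace on which an invariant form is (left) nondegenerate splits. -/
theorem sd_good [Fintype G] [FiniteDimensional F V] (p : ℕ) (h2 : p = 2 → (2 : F) = 0)
    (h2' : p ≠ 2 → (2 : F) ≠ 0) (ρ : Representation F G V) (hG : (Fintype.card G : F) ≠ 0)
    (B : LinearMap.BilinForm F V) (hBinv : ∀ g x y, B (ρ g x) (ρ g y) = B x y) :
    ∀ n : ℕ, ∀ M : Submodule F V, Module.finrank F M = n → SdInv ρ M →
      (∀ x ∈ M, (∀ y ∈ M, B x y = 0) → x = 0) → SdGood p ρ M := by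
  intro n
  induction n using Nat.strong_induction_on with
  | _ n ih =>
  intro M hMn hMinv hMnd
  by_cases hR : sdSkew B M = ⊥
  · refine ⟨⊥, M, by simp, by simp, fun g x hx => ?_, hMinv,
      ⟨0, fun x => by simp, ⟨fun g x hx y hy => by simp, fun x hx _ => by simpa using hx⟩⟩,
      ⟨B + B.flip, fun x y => ?_, ⟨fun g x hx y hy => ?_, fun x hx h => ?_⟩⟩, fun _ => rfl⟩
    · rw [Submodule.mem_bot] at hx ⊢
      rw [hx, map_zero]
    · simp only [LinearMap.add_apply, LinearMap.BilinForm.flip_apply]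
      exact add_comm _ _
    · simp only [LinearMap.add_apply, LinearMap.BilinForm.flip_apply, hBinv]
    · have hx' : x ∈ sdSkew B M := ⟨hx, fun y hy => by
        have := h y hy
        simp only [LinearMap.add_apply, LinearMap.flip_apply, LinearMap.BilinForm.flip_apply] at this
        exact eq_neg_of_add_eq_zero_left this⟩
      rw [hR] at hx'
      exact hx'
  · obtain ⟨X, ⟨hXne, hXR, hXinv⟩, hXmin⟩ := wellFounded_lt.has_min
      {X : Submodule F V | X ≠ ⊥ ∧ X ≤ sdSkew B M ∧ SdInv ρ X}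
      ⟨sdSkew B M, hR, le_rfl, sdSkew_inv ρ B hBinv hMinv⟩
    have hmin : ∀ Y : Submodule F V, Y ≤ X → SdInv ρ Y → Y = ⊥ ∨ Y = X := by
      intro Y hYX hY
      by_cases hY0 : Y = ⊥
      · exact Or.inl hY0
      · right
        by_contra hne
        exact hXmin Y ⟨hY0, hYX.trans hXR, hY⟩ (lt_of_le_of_ne hYX hne)
    have hXM : X ≤ M := fun x hx => (hXR hx).1
    have hskew : ∀ x ∈ X, ∀ y ∈ M, B x y = - B y x := fun x hx => (hXR hx).2
    have hPinv : SdInv ρ (sdPerp B X M) := sdPerp_inv ρ B hBinv hXinv hMinv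
    have hPM : sdPerp B X M ≤ M := fun v hv => hv.1
    obtain ⟨π, π', hπ, _, hπX, _⟩ := sd_proj2 X ⊥ (by simp)
    rcases hmin (X ⊓ sdPerp B X M) inf_le_left (sdInv_inf ρ hXinv hPinv) with h0 | h1
    · -- the form is nonzero on `X`
      have hXnd : ∀ x ∈ X, (∀ y ∈ X, B y x = 0) → x = 0 := by
        intro x hx h
        have : x ∈ X ⊓ sdPerp B X M := ⟨hx, hXM hx, h⟩
        rw [h0] at this
        exact this
      have hXnd' : ∀ x ∈ X, (∀ y ∈ X, B x y = 0) → x = 0 := by
        intro x hx h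
        refine hXnd x hx (fun y hy => ?_)
        rw [hskew y hy x (hXM hx), h y hy, neg_zero]
      have hsup : sdPerp B X M ⊔ X = M := by
        refine le_antisymm (sup_le hPM hXM) ?_
        intro v hv
        obtain ⟨x, hx, hx'⟩ := sd_dual B.flip X X (fun x hx h => hXnd x hx (fun y hy => h y hy))
          (fun y hy h => hXnd' y hy (fun x hx => h x hx)) (B.flip v)
        have : v = (v - x) + x := by abel
        rw [this]
        refine Submodule.add_mem _
          (Submodule.mem_sup_left ⟨M.sub_mem hv (hXM hx), fun y hy => ?_⟩)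
          (Submodule.mem_sup_right hx)
        have := hx' y hy
        simp only [LinearMap.flip_apply, LinearMap.BilinForm.flip_apply] at this
        rw [map_sub, this, sub_self]
      have hPnd : ∀ v ∈ sdPerp B X M, (∀ w ∈ sdPerp B X M, B v w = 0) → v = 0 := by
        intro v hv h
        refine hMnd v hv.1 (fun y hy => ?_)
        rw [← hsup] at hy
        obtain ⟨w, hw, x, hx, rfl⟩ := Submodule.mem_sup.mp hy
        rw [map_add, h w hw, zero_add]
        have := hskew x hx v hv.1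
        rw [hv.2 x hx] at this
        exact neg_eq_zero.mp this.symm
      have hlt : Module.finrank F (sdPerp B X M) < n := by
        rw [← hMn]
        refine Submodule.finrank_lt_finrank_of_lt
          (lt_of_le_of_ne hPM (fun hPeq => hXne ?_))
        rw [← h0, hPeq]
        exact (inf_eq_left.mpr hXM).symm
      have hgood := ih _ hlt (sdPerp B X M) rfl hPinv hPnd
      have hdisj : sdPerp B X M ⊓ X = ⊥ := by rw [inf_comm]; exact h0
      have hTskew : ∀ u v, (B.compl₁₂ π π) u v = - (B.compl₁₂ π π) v u := fun u v => by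
        simp only [LinearMap.compl₁₂_apply]
        exact hskew _ (hπ u) _ (hXM (hπ v))
      have hTc : SdCarries ρ (B.compl₁₂ π π) X := by
        refine ⟨fun g x hx y hy => ?_, fun x hx h => hXnd' x hx (fun y hy => ?_)⟩
        · simp only [LinearMap.compl₁₂_apply]
          rw [(hπX _ (hXinv g x hx)).1, (hπX _ (hXinv g y hy)).1, (hπX x hx).1, (hπX y hy).1,
            hBinv]
        · have := h y hy
          simp only [LinearMap.compl₁₂_apply] at this
          rwa [(hπX x hx).1, (hπX y hy).1] at this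
      by_cases hp : p = 2
      · have key : SdGood p ρ (sdPerp B X M ⊔ X) := by
          refine sd_ext_symm p ρ hgood hXinv hdisj (B.compl₁₂ π π) (fun u v => ?_) hTc
          rw [hTskew u v]
          have : (2 : F) * (B.compl₁₂ π π) v u = 0 := by rw [h2 hp, zero_mul]
          linear_combination (-1 : F) * this
        rwa [hsup] at key
      · have key : SdGood p ρ (sdPerp B X M ⊔ X) := by
          refine sd_ext_alt p hp ρ hgood hXinv hdisj (B.compl₁₂ π π) (fun u => ?_) hTc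
          have := hTskew u u
          have h3 : (2 : F) * (B.compl₁₂ π π) u u = 0 := by linear_combination this
          rcases mul_eq_zero.mp h3 with h | h
          · exact absurd h (h2' hp)
          · exact h
        rwa [hsup] at key
    · -- `X` is totally isotropic
      have hXP : X ≤ sdPerp B X M := inf_eq_left.mp h1
      obtain ⟨N, hNinv, hXN, hXNsup⟩ := sd_maschke_rel ρ hG hXinv hPinv hXP
      obtain ⟨Y, hYinv, hPY, hPYsup⟩ := sd_maschke_rel ρ hG hPinv hMinv hPM
      have hNP : N ≤ sdPerp B X M := hXNsup ▸ le_sup_right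
      have hYM : Y ≤ M := hPYsup ▸ le_sup_right
      have hl : ∀ x ∈ X, (∀ y ∈ Y, B x y = 0) → x = 0 := by
        intro x hx h
        refine hMnd x (hXM hx) (fun v hv => ?_)
        rw [← hPYsup] at hv
        obtain ⟨w, hw, y, hy, rfl⟩ := Submodule.mem_sup.mp hv
        rw [map_add, hw.2 x hx, h y hy, add_zero]
      have hr : ∀ y ∈ Y, (∀ x ∈ X, B x y = 0) → y = 0 := by
        intro y hy h
        have : y ∈ sdPerp B X M ⊓ Y := ⟨⟨hYM hy, h⟩, hy⟩
        rw [hPY] at this
        exact this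
      have hNnd : ∀ v ∈ N, (∀ w ∈ N, B v w = 0) → v = 0 := by
        intro v hv h
        have hvP : ∀ w ∈ sdPerp B X M, B v w = 0 := by
          intro w hw
          rw [← hXNsup] at hw
          obtain ⟨x, hx, w', hw', rfl⟩ := Submodule.mem_sup.mp hw
          rw [map_add, h w' hw', add_zero]
          have := hskew x hx v (hNP hv).1
          rw [(hNP hv).2 x hx] at this
          exact neg_eq_zero.mp this.symm
        obtain ⟨x, hx, hx'⟩ := sd_dual B X Y hl hr (B v)
        have hz : v - x = 0 := by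
          refine hMnd (v - x) (M.sub_mem (hNP hv).1 (hXM hx)) (fun y hy => ?_)
          rw [← hPYsup] at hy
          obtain ⟨w, hw, y', hy', rfl⟩ := Submodule.mem_sup.mp hy
          rw [map_sub, LinearMap.sub_apply, map_add, map_add, hvP w hw, hw.2 x hx, hx' y' hy']
          ring
        have hvx : v = x := sub_eq_zero.mp hz
        have : v ∈ X ⊓ N := ⟨hvx ▸ hx, hv⟩
        rw [hXN] at this
        exact this
      have hlt : Module.finrank F N < n := by
        rw [← hMn]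
        refine Submodule.finrank_lt_finrank_of_lt
          (lt_of_le_of_ne (hNP.trans hPM) (fun hNeq => hXne ?_))
        rw [← hXN, hNeq]
        exact (inf_eq_left.mpr hXM).symm
      have hgood := ih _ hlt N rfl hNinv hNnd
      have hXY : X ⊓ Y = ⊥ := by
        rw [eq_bot_iff, ← hPY]
        exact inf_le_inf_right Y hXP
      obtain ⟨pX, pY, hpX, hpY, hpXX, hpYY⟩ := sd_proj2 X Y hXY
      have hs : ∀ x ∈ X, ∀ y ∈ Y, ∀ x' ∈ X, ∀ y' ∈ Y,
          (B.compl₁₂ pX pY + (B.compl₁₂ pX pY).flip) (x + y) (x' + y') = B x y' + B x' y := by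
        intro x hx y hy x' hx' y' hy'
        simp only [LinearMap.add_apply, LinearMap.flip_apply, LinearMap.BilinForm.flip_apply, LinearMap.compl₁₂_apply, map_add,
          (hpXX x hx).1, (hpXX x hx).2, (hpYY y hy).1, (hpYY y hy).2, (hpXX x' hx').1,
          (hpXX x' hx').2, (hpYY y' hy').1, (hpYY y' hy').2, add_zero, zero_add, map_zero,
          LinearMap.zero_apply]
        exact add_comm _ _
      have hNH : N ⊓ (X ⊔ Y) = ⊥ := by
        rw [eq_bot_iff]
        rintro v ⟨hvN, hv⟩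
        obtain ⟨x, hx, y, hy, rfl⟩ := Submodule.mem_sup.mp hv
        have hy0 : y ∈ sdPerp B X M ⊓ Y := by
          refine ⟨?_, hy⟩
          have : y = (x + y) - x := by abel
          rw [this]
          exact Submodule.sub_mem _ (hNP hvN) (hXP hx)
        rw [hPY, Submodule.mem_bot] at hy0
        rw [hy0, add_zero] at hvN ⊢
        have : x ∈ X ⊓ N := ⟨hx, hvN⟩
        rw [hXN] at this
        exact this
      have hsupM : N ⊔ (X ⊔ Y) = M := by
        rw [← sup_assoc, sup_comm N X, hXNsup, hPYsup]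
      have key : SdGood p ρ (N ⊔ (X ⊔ Y)) := by
        refine sd_ext_symm p ρ hgood (sdInv_sup ρ hXinv hYinv) hNH
          (B.compl₁₂ pX pY + (B.compl₁₂ pX pY).flip) (fun u v => ?_) ⟨?_, ?_⟩
        · simp only [LinearMap.add_apply, LinearMap.flip_apply, LinearMap.BilinForm.flip_apply]
          exact add_comm _ _
        · intro g u hu v hv
          obtain ⟨x, hx, y, hy, rfl⟩ := Submodule.mem_sup.mp hu
          obtain ⟨x', hx', y', hy', rfl⟩ := Submodule.mem_sup.mp hv
          have e1 : ρ g (x + y) = ρ g x + ρ g y := map_add _ _ _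
          have e2 : ρ g (x' + y') = ρ g x' + ρ g y' := map_add _ _ _
          rw [e1, e2, hs _ (hXinv g x hx) _ (hYinv g y hy) _ (hXinv g x' hx') _ (hYinv g y' hy'),
            hs x hx y hy x' hx' y' hy', hBinv, hBinv]
        · intro u hu h
          obtain ⟨x, hx, y, hy, rfl⟩ := Submodule.mem_sup.mp hu
          have hx0 : x = 0 := hl x hx (fun y' hy' => by
            have := h y' (Submodule.mem_sup_right hy')
            have h' := hs x hx y hy 0 X.zero_mem y' hy'
            rw [zero_add] at h'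
            rw [h'] at this
            simpa using this)
          have hy0 : y = 0 := hr y hy (fun x' hx' => by
            have := h x' (Submodule.mem_sup_left hx')
            have h' := hs x hx y hy x' hx' 0 Y.zero_mem
            rw [add_zero] at h'
            rw [h'] at this
            simpa using this)
          rw [hx0, hy0, add_zero]
      rwa [hsupM] at key

/-- The final step in characteristic two. -/
theorem sd_final_two [Fintype G] (h2 : (2 : F) = 0) (hodd : (Fintype.card G : F) = 1)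
    (ρ : Representation F G V) (S : LinearMap.BilinForm F V) (hS : ∀ x y, S x y = S y x)
    (hSinv : ∀ g x y, S (ρ g x) (ρ g y) = S x y) (hSnd : ∀ x, (∀ y, S x y = 0) → x = 0) :
    ∃ U W : Submodule F V, IsCompl U W ∧ SdInv ρ U ∧ SdInv ρ W ∧
      (∃ A : LinearMap.BilinForm F V, (∀ x, A x x = 0) ∧ SdCarries ρ A U) ∧
      SdCarries ρ S W ∧ (∀ g, ∀ w ∈ W, ρ g w = w) := by
  obtain ⟨e, he⟩ : ∃ e : V →ₗ[F] V, ∀ v, e v = ∑ g : G, ρ g v :=
    ⟨∑ g : G, ρ g, fun v => by simp [LinearMap.sum_apply]⟩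
  have hge : ∀ g v, ρ g (e v) = e v := by
    intro g v
    have := Equiv.sum_comp (Equiv.mulLeft g) (fun h => ρ h v)
    rw [he, map_sum, ← this]
    refine Finset.sum_congr rfl (fun h _ => ?_)
    simp only [Equiv.coe_mulLeft, map_mul, Module.End.mul_apply]
  have heg : ∀ g v, e (ρ g v) = e v := by
    intro g v
    have := Equiv.sum_comp (Equiv.mulRight g) (fun h => ρ h v)
    rw [he, he, ← this]
    refine Finset.sum_congr rfl (fun h _ => ?_)
    simp only [Equiv.coe_mulRight, map_mul, Module.End.mul_apply]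
  have hee : ∀ v, e (e v) = e v := by
    intro v
    rw [he (e v)]
    simp only [hge]
    rw [Finset.sum_const, Finset.card_univ, ← Nat.cast_smul_eq_nsmul F, hodd, one_smul]
  have hadj : ∀ x y, S (e x) y = S x (e y) := by
    intro x y
    have := Equiv.sum_comp (Equiv.inv G) (fun g => S x (ρ g y))
    rw [he, he]
    simp only [map_sum, LinearMap.sum_apply]
    rw [← this]
    refine Finset.sum_congr rfl (fun g _ => ?_)
    simp only [Equiv.inv_apply]
    exact sd_inv_left ρ S hSinv g x y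
  have hq : ∀ u, S (e u) (e u) = S u u := by
    intro u
    have hq' : ∀ s : Finset G,
        S (∑ g ∈ s, ρ g u) (∑ g ∈ s, ρ g u) = ∑ g ∈ s, S (ρ g u) (ρ g u) := by
      classical
      intro s
      induction s using Finset.induction_on with
      | empty => simp
      | insert a s ha ih =>
        rw [Finset.sum_insert ha, Finset.sum_insert ha]
        simp only [map_add, LinearMap.add_apply]
        rw [ih]
        have hsy := hS (∑ g ∈ s, ρ g u) (ρ a u)
        have : (2 : F) * S (ρ a u) (∑ g ∈ s, ρ g u) = 0 := by rw [h2, zero_mul]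
        linear_combination hsy + this
    rw [he, hq' Finset.univ]
    simp only [hSinv]
    rw [Finset.sum_const, Finset.card_univ, ← Nat.cast_smul_eq_nsmul F, hodd, one_smul]
  refine ⟨LinearMap.ker e, LinearMap.range e, ?_, ?_, ?_, ?_, ?_, ?_⟩
  · refine IsCompl.of_eq ?_ ?_
    · rw [eq_bot_iff]
      rintro x ⟨hx1, ⟨z, rfl⟩⟩
      have : e (e z) = 0 := hx1
      rw [hee] at this
      exact this
    · rw [eq_top_iff]
      intro v _
      have : v = (v - e v) + e v := by abel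
      rw [this]
      exact Submodule.add_mem _
        (Submodule.mem_sup_left (by rw [LinearMap.mem_ker, map_sub, hee, sub_self]))
        (Submodule.mem_sup_right ⟨v, rfl⟩)
  · intro g x hx
    rw [LinearMap.mem_ker] at hx ⊢
    rw [heg, hx]
  · rintro g x ⟨z, rfl⟩
    exact ⟨z, (hge g z).symm⟩
  · refine ⟨S.compl₁₂ (LinearMap.id - e) (LinearMap.id - e), fun x => ?_,
      ⟨fun g x hx y hy => ?_, fun x hx h => ?_⟩⟩
    · simp only [LinearMap.compl₁₂_apply, LinearMap.sub_apply, LinearMap.id_apply]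
      rw [← hq (x - e x), map_sub, hee, sub_self, map_zero]
    · rw [LinearMap.mem_ker] at hx hy
      simp only [LinearMap.compl₁₂_apply, LinearMap.sub_apply, LinearMap.id_apply, heg, hx, hy,
        sub_zero, hSinv]
    · rw [LinearMap.mem_ker] at hx
      refine hSnd x (fun v => ?_)
      have hk : e (v - e v) = 0 := by rw [map_sub, hee, sub_self]
      have h1 := h (v - e v) hk
      simp only [LinearMap.compl₁₂_apply, LinearMap.sub_apply, LinearMap.id_apply] at h1
      rw [hx, hk, sub_zero, sub_zero, map_sub] at h1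
      have h3 : S x (e v) = 0 := by rw [← hadj, hx, map_zero, LinearMap.zero_apply]
      rw [h3, sub_zero] at h1
      exact h1
  · refine ⟨fun g x _ y _ => hSinv g x y, ?_⟩
    rintro x ⟨z, rfl⟩ h
    refine hSnd _ (fun v => ?_)
    rw [← hee z, hadj]
    exact h _ ⟨v, rfl⟩
  · rintro g w ⟨z, rfl⟩
    exact hge g z

end SelfDual

end Cfsg.Agent.Lib.Helper99
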