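import Mathlib

/-!
# Normal forms of skew nilpotent maps for alternating forms (part 1)

`SNF K B N r S u`: the generators `u k a` (`k ≤ K`, `a < r k`) generate `V` under `N`, the
`k`-th generators are killed by `N ^ k`, and the only nonzero pairings
`B (u k a) (N ^ i (u k' a'))` are those with `k = k'`, `i + 1 = k`, where they are `S k a a'`.
This file: the pairing formula, uniqueness of coefficients, the basis, the dimension, the
isometry between two structures with the same data, and transport.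
-/

set_option autoImplicit false

namespace Cfsg.Agent.Lib.Helper99

open Finset Module Matrix

universe u v v'

section SNF1
variable {F : Type u} [Field F] {V : Type v} [AddCommGroup V] [Module F V]

/-- Powers of a skew map. -/
theorem sn_skew_pow (B : LinearMap.BilinForm F V) (N : V →ₗ[F] V)
    (hN : ∀ x y, B (N x) y = - B x (N y)) (i : ℕ) (x y : V) :
    B ((N ^ i) x) y = (-1) ^ i * B x ((N ^ i) y) := by
  induction i generalizing x y with
  | zero => simp
  | succ i ih =>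
    have e1 : (N ^ (i + 1)) x = (N ^ i) (N x) := by rw [pow_succ, Module.End.mul_apply]
    have e2 : (N ^ (i + 1)) y = N ((N ^ i) y) := by rw [pow_succ', Module.End.mul_apply]
    rw [e1, e2, ih, hN, pow_succ]
    ring

theorem sn_pow_add_apply (N : V →ₗ[F] V) (i j : ℕ) (x : V) :
    (N ^ i) ((N ^ j) x) = (N ^ (i + j)) x := by
  rw [pow_add, Module.End.mul_apply]

theorem sn_pow_zero_of_le (N : V →ₗ[F] V) {k i : ℕ} (hki : k ≤ i) (x : V)
    (hx : (N ^ k) x = 0) : (N ^ i) x = 0 := by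
  obtain ⟨j, rfl⟩ : ∃ j, i = j + k := ⟨i - k, by omega⟩
  rw [← sn_pow_add_apply, hx, map_zero]

/-- The linear combination attached to a coefficient family. -/
def snSum (K : ℕ) (N : V →ₗ[F] V) (r : ℕ → ℕ) (u : ℕ → ℕ → V) (c : ℕ → ℕ → ℕ → F) : V :=
  ∑ k ∈ range (K + 1), ∑ a ∈ range (r k), ∑ i ∈ range k, c k a i • (N ^ i) (u k a)

/-- Normal form structure. -/
def SNF (K : ℕ) (B : LinearMap.BilinForm F V) (N : V →ₗ[F] V) (r : ℕ → ℕ)
    (S : ℕ → ℕ → ℕ → F) (u : ℕ → ℕ → V) : Prop :=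
  (∀ k ≤ K, ∀ a < r k, (N ^ k) (u k a) = 0) ∧
  (∀ k ≤ K, ∀ a < r k, ∀ k' ≤ K, ∀ a' < r k', ∀ i : ℕ,
      B (u k a) ((N ^ i) (u k' a')) = if k = k' ∧ i + 1 = k then S k a a' else 0) ∧
  (∀ v : V, ∃ c : ℕ → ℕ → ℕ → F, v = snSum K N r u c)

/-- Nondegeneracy of the Gram data. -/
def SNd (K : ℕ) (r : ℕ → ℕ) (S : ℕ → ℕ → ℕ → F) : Prop :=
  ∀ k ≤ K, (Matrix.of fun a b : Fin (r k) => S k a b).det ≠ 0

theorem SNd.left_inj {K : ℕ} {r : ℕ → ℕ} {S : ℕ → ℕ → ℕ → F} (h : SNd K r S) {k : ℕ}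
    (hk : k ≤ K) (c : ℕ → F)
    (hc : ∀ a' < r k, ∑ a ∈ range (r k), c a * S k a a' = 0) : ∀ a < r k, c a = 0 := by
  intro a ha
  have h1 : (fun a : Fin (r k) => c a) ᵥ* (Matrix.of fun a b : Fin (r k) => S k a b) = 0 := by
    funext a'
    have := hc a' a'.2
    rw [Finset.sum_range] at this
    simpa [Matrix.vecMul, dotProduct] using this
  have h2 := Matrix.eq_zero_of_vecMul_eq_zero (h k hk) h1
  exact congrFun h2 ⟨a, ha⟩

variable {K : ℕ} {B : LinearMap.BilinForm F V} {N : V →ₗ[F] V} {r : ℕ → ℕ}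
  {S : ℕ → ℕ → ℕ → F} {u : ℕ → ℕ → V}

/-- The pairing of a linear combination with a basis vector. -/
theorem SNF.pair (h : SNF K B N r S u) (hN : ∀ x y, B (N x) y = - B x (N y))
    (c : ℕ → ℕ → ℕ → F) {k' : ℕ} (hk' : k' ≤ K) {a' : ℕ} (ha' : a' < r k') {m : ℕ}
    (hm : m < k') :
    B (snSum K N r u c) ((N ^ m) (u k' a'))
      = (-1) ^ (k' - 1 - m) * ∑ a ∈ range (r k'), c k' a (k' - 1 - m) * S k' a a' := by
  unfold snSum
  simp only [map_sum, LinearMap.sum_apply, map_smul, LinearMap.smul_apply, smul_eq_mul]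
  have hterm : ∀ k ∈ range (K + 1), ∀ a ∈ range (r k), ∀ i ∈ range k,
      c k a i * B ((N ^ i) (u k a)) ((N ^ m) (u k' a')) =
        if k = k' ∧ i = k' - 1 - m then
          (-1) ^ (k' - 1 - m) * (c k' a (k' - 1 - m) * S k' a a') else 0 := by
    intro k hk a ha i hi
    rw [Finset.mem_range] at hk ha hi
    rw [sn_skew_pow B N hN, sn_pow_add_apply, h.2.1 k (by omega) a ha k' hk' a' ha']
    by_cases h1 : k = k' ∧ i + m + 1 = k
    · obtain ⟨rfl, h2⟩ := h1
      have h3 : i = k - 1 - m := by omega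
      rw [if_pos ⟨rfl, h2⟩, if_pos ⟨rfl, h3⟩, ← h3]
      ring
    · rw [if_neg h1, if_neg (by
        rintro ⟨h3, h4⟩
        exact h1 ⟨h3, by omega⟩)]
      ring
  rw [Finset.sum_congr rfl (fun k hk => Finset.sum_congr rfl (fun a ha =>
    Finset.sum_congr rfl (fun i hi => hterm k hk a ha i hi)))]
  rw [Finset.sum_eq_single k']
  · rw [Finset.mul_sum]
    apply Finset.sum_congr rfl
    intro a _
    rw [Finset.sum_eq_single (k' - 1 - m)]
    · rw [if_pos ⟨rfl, rfl⟩]
    · intro i _ hi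
      rw [if_neg (by
        rintro ⟨_, h⟩
        exact hi h)]
    · intro hi
      exact absurd (Finset.mem_range.mpr (by omega)) hi
  · intro k _ hk
    apply Finset.sum_eq_zero
    intro a _
    apply Finset.sum_eq_zero
    intro i _
    rw [if_neg (by
      rintro ⟨h, _⟩
      exact hk h)]
  · intro hk
    exact absurd (Finset.mem_range.mpr (by omega)) hk

/-- Coefficients of a vector killed by `N ^ j` vanish in low degree. -/
theorem SNF.coef_zero (h : SNF K B N r S u) (hN : ∀ x y, B (N x) y = - B x (N y))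
    (hS : SNd K r S) (c : ℕ → ℕ → ℕ → F) (j : ℕ) (hv : (N ^ j) (snSum K N r u c) = 0) :
    ∀ k ≤ K, ∀ a < r k, ∀ i, i + j < k → c k a i = 0 := by
  intro k hk a ha i hi
  refine hS.left_inj hk (fun a => c k a i) ?_ a ha
  intro a' ha'
  have h1 := h.pair hN c hk ha' (m := k - 1 - i) (by omega)
  have h2 : k - 1 - (k - 1 - i) = i := by omega
  rw [h2] at h1
  have h3 : (N ^ (k - 1 - i)) (u k a') = (N ^ j) ((N ^ (k - 1 - i - j)) (u k a')) := by
    rw [sn_pow_add_apply]
    congr 2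
    omega
  have hne : ∀ e : ℕ, ((-1 : F)) ^ e ≠ 0 := fun e => pow_ne_zero _ (neg_ne_zero.mpr one_ne_zero)
  have h4 : B (snSum K N r u c) ((N ^ (k - 1 - i)) (u k a')) = 0 := by
    rw [h3]
    have h5 := sn_skew_pow B N hN j (snSum K N r u c) ((N ^ (k - 1 - i - j)) (u k a'))
    rw [hv, map_zero, LinearMap.zero_apply] at h5
    exact (mul_eq_zero.mp h5.symm).resolve_left (hne j)
  rw [h4] at h1
  exact (mul_eq_zero.mp h1.symm).resolve_left (hne i)

/-- The index set of the basis. -/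
def snIdx (K : ℕ) (r : ℕ → ℕ) : Finset (Σ _ : ℕ, ℕ × ℕ) :=
  (range (K + 1)).sigma (fun k => range (r k) ×ˢ range k)

theorem mem_snIdx (K : ℕ) (r : ℕ → ℕ) (x : Σ _ : ℕ, ℕ × ℕ) :
    x ∈ snIdx K r ↔ x.1 ≤ K ∧ x.2.1 < r x.1 ∧ x.2.2 < x.1 := by
  unfold snIdx
  rw [Finset.mem_sigma, Finset.mem_product, Finset.mem_range, Finset.mem_range,
    Finset.mem_range, Nat.lt_succ_iff]

theorem sn_sum_idx {M : Type*} [AddCommMonoid M] (K : ℕ) (r : ℕ → ℕ) (f : ℕ → ℕ → ℕ → M) :
    ∑ x : ↥(snIdx K r), f x.1.1 x.1.2.1 x.1.2.2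
      = ∑ k ∈ range (K + 1), ∑ a ∈ range (r k), ∑ i ∈ range k, f k a i := by
  rw [Finset.sum_coe_sort (snIdx K r) (fun x => f x.1 x.2.1 x.2.2)]
  unfold snIdx
  rw [Finset.sum_sigma]
  apply Finset.sum_congr rfl
  intro k _
  rw [Finset.sum_product]

theorem card_snIdx (K : ℕ) (r : ℕ → ℕ) : (snIdx K r).card = ∑ k ∈ range (K + 1), r k * k := by
  unfold snIdx
  rw [Finset.card_sigma]
  apply Finset.sum_congr rfl
  intro k _
  rw [Finset.card_product, Finset.card_range, Finset.card_range]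

/-- The basis attached to a normal form. -/
theorem SNF.basis (h : SNF K B N r S u) (hN : ∀ x y, B (N x) y = - B x (N y))
    (hS : SNd K r S) :
    ∃ b : Basis ↥(snIdx K r) F V, ∀ x, b x = (N ^ x.1.2.2) (u x.1.1 x.1.2.1) := by
  classical
  have hli : LinearIndependent F
      (fun x : ↥(snIdx K r) => (N ^ x.1.2.2) (u x.1.1 x.1.2.1)) := by
    rw [Fintype.linearIndependent_iff]
    intro g hg x
    let c : ℕ → ℕ → ℕ → F := fun k a i =>
      if hx : (⟨k, (a, i)⟩ : Σ _ : ℕ, ℕ × ℕ) ∈ snIdx K r then g ⟨_, hx⟩ else 0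
    have hc : ∀ y : ↥(snIdx K r), c y.1.1 y.1.2.1 y.1.2.2 = g y := by
      intro y
      simp only [c]
      rw [dif_pos y.2]
    have hsum : snSum K N r u c = 0 := by
      unfold snSum
      rw [← sn_sum_idx K r (fun k a i => c k a i • (N ^ i) (u k a)), ← hg]
      apply Finset.sum_congr rfl
      intro y _
      rw [hc]
    have h0 := h.coef_zero hN hS c 0 (by
      rw [pow_zero, Module.End.one_apply]
      exact hsum)
    have hx := (mem_snIdx K r x.1).mp x.2
    rw [← hc x]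
    exact h0 _ hx.1 _ hx.2.1 _ (by omega)
  have hsp : ⊤ ≤ Submodule.span F
      (Set.range (fun x : ↥(snIdx K r) => (N ^ x.1.2.2) (u x.1.1 x.1.2.1))) := by
    intro v _
    obtain ⟨c, rfl⟩ := h.2.2 v
    unfold snSum
    refine Submodule.sum_mem _ fun k hk => Submodule.sum_mem _ fun a ha =>
      Submodule.sum_mem _ fun i hi => Submodule.smul_mem _ _
        (Submodule.subset_span ⟨⟨⟨k, (a, i)⟩, ?_⟩, rfl⟩)
    rw [mem_snIdx]
    rw [Finset.mem_range] at hk ha hi
    exact ⟨Nat.lt_succ_iff.mp hk, ha, hi⟩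
  exact ⟨Basis.mk hli hsp, fun x => by rw [Basis.mk_apply]⟩

theorem SNF.finrank (h : SNF K B N r S u) (hN : ∀ x y, B (N x) y = - B x (N y))
    (hS : SNd K r S) : Module.finrank F V = ∑ k ∈ range (K + 1), r k * k := by
  obtain ⟨b, -⟩ := h.basis hN hS
  rw [Module.finrank_eq_card_basis b, Fintype.card_coe, card_snIdx]

/-- Two structures with the same data are isometric, compatibly with the maps. -/
theorem SNF.iso {V' : Type v'} [AddCommGroup V'] [Module F V'] {B' : LinearMap.BilinForm F V'}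
    {N' : V' →ₗ[F] V'} {u' : ℕ → ℕ → V'} (h : SNF K B N r S u) (h' : SNF K B' N' r S u')
    (hN : ∀ x y, B (N x) y = - B x (N y)) (hN' : ∀ x y, B' (N' x) y = - B' x (N' y))
    (hS : SNd K r S) :
    ∃ φ : V ≃ₗ[F] V', (∀ x y, B' (φ x) (φ y) = B x y) ∧ ∀ x, φ (N x) = N' (φ x) := by
  classical
  obtain ⟨b, hb⟩ := h.basis hN hS
  obtain ⟨b', hb'⟩ := h'.basis hN' hS
  have hφ : ∀ x, (b.equiv b' (Equiv.refl _)) (b x) = b' x := by
    intro x
    rw [Basis.equiv_apply, Equiv.refl_apply]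
  refine ⟨b.equiv b' (Equiv.refl _), ?_, ?_⟩
  · have key : (B'.comp (b.equiv b' (Equiv.refl _)).toLinearMap
        (b.equiv b' (Equiv.refl _)).toLinearMap) = B := by
      apply LinearMap.BilinForm.ext_basis b
      intro x y
      rw [LinearMap.BilinForm.comp_apply, LinearEquiv.coe_coe, hφ, hφ, hb, hb, hb', hb']
      have hx := (mem_snIdx K r x.1).mp x.2
      have hy := (mem_snIdx K r y.1).mp y.2
      rw [sn_skew_pow B' N' hN', sn_skew_pow B N hN, sn_pow_add_apply, sn_pow_add_apply,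
        h.2.1 _ hx.1 _ hx.2.1 _ hy.1 _ hy.2.1, h'.2.1 _ hx.1 _ hx.2.1 _ hy.1 _ hy.2.1]
    intro x y
    have := congrArg (fun T : LinearMap.BilinForm F V => T x y) key
    simpa [LinearMap.BilinForm.comp_apply] using this
  · have key : (b.equiv b' (Equiv.refl _)).toLinearMap ∘ₗ N
        = N' ∘ₗ (b.equiv b' (Equiv.refl _)).toLinearMap := by
      apply b.ext
      intro x
      rw [LinearMap.comp_apply, LinearMap.comp_apply, LinearEquiv.coe_coe, hφ, hb, hb']
      have hx := (mem_snIdx K r x.1).mp x.2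
      have e1 : N ((N ^ x.1.2.2) (u x.1.1 x.1.2.1)) = (N ^ (x.1.2.2 + 1)) (u x.1.1 x.1.2.1) := by
        rw [pow_succ', Module.End.mul_apply]
      have e2 : N' ((N' ^ x.1.2.2) (u' x.1.1 x.1.2.1))
          = (N' ^ (x.1.2.2 + 1)) (u' x.1.1 x.1.2.1) := by
        rw [pow_succ', Module.End.mul_apply]
      rw [e1, e2]
      by_cases hlt : x.1.2.2 + 1 < x.1.1
      · have hmem : (⟨x.1.1, (x.1.2.1, x.1.2.2 + 1)⟩ : Σ _ : ℕ, ℕ × ℕ) ∈ snIdx K r := by
          rw [mem_snIdx]
          exact ⟨hx.1, hx.2.1, hlt⟩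
        have e3 := hb ⟨_, hmem⟩
        have e4 := hb' ⟨_, hmem⟩
        simp only at e3 e4
        rw [← e3, ← e4, hφ]
      · have hk : x.1.1 ≤ x.1.2.2 + 1 := by omega
        rw [sn_pow_zero_of_le N hk _ (h.1 _ hx.1 _ hx.2.1),
          sn_pow_zero_of_le N' hk _ (h'.1 _ hx.1 _ hx.2.1), map_zero]
    intro x
    have := congrArg (fun T : V →ₗ[F] V' => T x) key
    simpa using this

theorem sn_iso_pow {V' : Type v'} [AddCommGroup V'] [Module F V'] (φ : V ≃ₗ[F] V')
    {N' : V' →ₗ[F] V'} (hφN : ∀ x, φ (N x) = N' (φ x)) (i : ℕ) (x : V) :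
    φ ((N ^ i) x) = (N' ^ i) (φ x) := by
  induction i generalizing x with
  | zero => simp
  | succ i ih =>
    rw [pow_succ, Module.End.mul_apply, ih, hφN, pow_succ, Module.End.mul_apply]

/-- Transport of a structure along an isometry. -/
theorem SNF.of_iso {V' : Type v'} [AddCommGroup V'] [Module F V'] (φ : V ≃ₗ[F] V')
    {B' : LinearMap.BilinForm F V'} {N' : V' →ₗ[F] V'}
    (hB : ∀ x y, B' (φ x) (φ y) = B x y) (hφN : ∀ x, φ (N x) = N' (φ x))
    (h : SNF K B N r S u) : SNF K B' N' r S (fun k a => φ (u k a)) := by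
  refine ⟨?_, ?_, ?_⟩
  · intro k hk a ha
    show (N' ^ k) (φ (u k a)) = 0
    rw [← sn_iso_pow φ hφN, h.1 k hk a ha, map_zero]
  · intro k hk a ha k' hk' a' ha' i
    show B' (φ (u k a)) ((N' ^ i) (φ (u k' a'))) = _
    rw [← sn_iso_pow φ hφN, hB, h.2.1 k hk a ha k' hk' a' ha']
  · intro v'
    obtain ⟨c, hc⟩ := h.2.2 (φ.symm v')
    refine ⟨c, ?_⟩
    have h1 : v' = φ (snSum K N r u c) := by rw [← hc, LinearEquiv.apply_symm_apply]
    rw [h1]
    unfold snSum
    simp only [map_sum, map_smul]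
    refine Finset.sum_congr rfl fun k _ => Finset.sum_congr rfl fun a _ =>
      Finset.sum_congr rfl fun i _ => ?_
    rw [sn_iso_pow φ hφN]

/-- Only the data in the relevant range matters. -/
theorem SNF.congr {r' : ℕ → ℕ} {S' : ℕ → ℕ → ℕ → F} (hr : ∀ k ≤ K, r' k = r k)
    (hS : ∀ k ≤ K, ∀ a < r k, ∀ a' < r k, S' k a a' = S k a a') (h : SNF K B N r S u) :
    SNF K B N r' S' u := by
  refine ⟨?_, ?_, ?_⟩
  · intro k hk a ha
    rw [hr k hk] at ha
    exact h.1 k hk a ha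
  · intro k hk a ha k' hk' a' ha' i
    rw [hr k hk] at ha
    rw [hr k' hk'] at ha'
    rw [h.2.1 k hk a ha k' hk' a' ha']
    by_cases hc : k = k' ∧ i + 1 = k
    · rw [if_pos hc, if_pos hc]
      obtain ⟨rfl, -⟩ := hc
      exact (hS k hk a ha a' ha').symm
    · rw [if_neg hc, if_neg hc]
  · intro v
    obtain ⟨c, hc⟩ := h.2.2 v
    refine ⟨c, ?_⟩
    rw [hc]
    unfold snSum
    refine Finset.sum_congr rfl fun k hk => ?_
    rw [Finset.mem_range] at hk
    rw [hr k (by omega)]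

end SNF1

end Cfsg.Agent.Lib.Helper99
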