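import Mathlib
import Cfsg.Agent.Lib.Helper99.SpNF1

/-!
# Normal forms of skew nilpotent maps (part 2): invariants

Two normal form structures on the same `(V, B, N)` have the same multiplicities, and their
Gram data at each level differ by a congruence (so the determinants differ by a square).
-/

set_option autoImplicit false

namespace Cfsg.Agent.Lib.Helper99

open Finset Module Matrix

universe u v

section SNF2
variable {F : Type u} [Field F] {V : Type v} [AddCommGroup V] [Module F V]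
variable {K : ℕ} {B : LinearMap.BilinForm F V} {N : V →ₗ[F] V} {r : ℕ → ℕ}
  {S : ℕ → ℕ → ℕ → F} {u : ℕ → ℕ → V}

/-- The top pairing at level `k` of two vectors killed by `N ^ k`, in coordinates. -/
theorem SNF.layer (h : SNF K B N r S u) (hN : ∀ x y, B (N x) y = - B x (N y))
    (hS : SNd K r S) {k : ℕ} (hk1 : 1 ≤ k) (hk : k ≤ K) (c e : ℕ → ℕ → ℕ → F)
    (hc : (N ^ k) (snSum K N r u c) = 0) (he : (N ^ k) (snSum K N r u e) = 0) :
    B (snSum K N r u c) ((N ^ (k - 1)) (snSum K N r u e))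
      = ∑ a' ∈ range (r k), e k a' 0 * ∑ a ∈ range (r k), c k a 0 * S k a a' := by
  have hc0 := h.coef_zero hN hS c k hc
  have he0 := h.coef_zero hN hS e k he
  have hexp : (N ^ (k - 1)) (snSum K N r u e) = ∑ k' ∈ range (K + 1), ∑ a' ∈ range (r k'),
      ∑ m ∈ range k', e k' a' m • (N ^ (k - 1 + m)) (u k' a') := by
    unfold snSum
    simp only [map_sum, map_smul, sn_pow_add_apply]
  rw [hexp]
  simp only [map_sum, map_smul, smul_eq_mul]
  have hterm : ∀ k' ∈ range (K + 1), ∀ a' ∈ range (r k'), ∀ m ∈ range k',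
      e k' a' m * B (snSum K N r u c) ((N ^ (k - 1 + m)) (u k' a')) =
        if k' = k ∧ m = 0 then e k a' 0 * ∑ a ∈ range (r k), c k a 0 * S k a a' else 0 := by
    intro k' hk' a' ha' m hm
    rw [Finset.mem_range] at hk' ha' hm
    by_cases hlt : k - 1 + m < k'
    · rw [h.pair hN c (by omega) ha' hlt]
      by_cases hm0 : m = 0
      · subst hm0
        by_cases hkk : k' = k
        · subst hkk
          rw [if_pos ⟨rfl, rfl⟩]
          have : k' - 1 - (k' - 1 + 0) = 0 := by omega
          rw [this, pow_zero, one_mul]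
        · rw [if_neg (by
            rintro ⟨h1, _⟩
            exact hkk h1)]
          rw [he0 k' (by omega) a' ha' 0 (by omega), zero_mul]
      · rw [if_neg (by
          rintro ⟨_, h1⟩
          exact hm0 h1)]
        have hz : ∀ a ∈ range (r k'), c k' a (k' - 1 - (k - 1 + m)) * S k' a a' = 0 := by
          intro a ha
          rw [Finset.mem_range] at ha
          rw [hc0 k' (by omega) a ha _ (by omega), zero_mul]
        rw [Finset.sum_eq_zero hz, mul_zero, mul_zero]
    · rw [sn_pow_zero_of_le N (by omega) _ (h.1 k' (by omega) a' ha'), map_zero, mul_zero]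
      rw [if_neg (by
        rintro ⟨h1, h2⟩
        omega)]
  rw [Finset.sum_congr rfl (fun k' hk' => Finset.sum_congr rfl (fun a' ha' =>
    Finset.sum_congr rfl (fun m hm => hterm k' hk' a' ha' m hm)))]
  rw [Finset.sum_eq_single k]
  · apply Finset.sum_congr rfl
    intro a' _
    rw [Finset.sum_eq_single 0]
    · rw [if_pos ⟨rfl, rfl⟩]
    · intro m _ hm
      rw [if_neg (by
        rintro ⟨_, h1⟩
        exact hm h1)]
    · intro h0
      exact absurd (Finset.mem_range.mpr (by omega)) h0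
  · intro k' _ hkk
    apply Finset.sum_eq_zero
    intro a' _
    apply Finset.sum_eq_zero
    intro m _
    rw [if_neg (by
      rintro ⟨h1, _⟩
      exact hkk h1)]
  · intro h0
    exact absurd (Finset.mem_range.mpr (by omega)) h0

/-- The Gram data of two structures at level `k` are congruent. -/
theorem SNF.layer_matrix (h : SNF K B N r S u) (hN : ∀ x y, B (N x) y = - B x (N y))
    (hS : SNd K r S) {r' : ℕ → ℕ} {S' : ℕ → ℕ → ℕ → F} {u' : ℕ → ℕ → V}
    (h' : SNF K B N r' S' u') {k : ℕ} (hk1 : 1 ≤ k) (hk : k ≤ K) :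
    ∃ P : Matrix (Fin (r' k)) (Fin (r k)) F,
      (Matrix.of fun a b : Fin (r' k) => S' k a b)
        = P * (Matrix.of fun a b : Fin (r k) => S k a b) * Pᵀ := by
  choose cc hcc using fun a : ℕ => h.2.2 (u' k a)
  refine ⟨Matrix.of fun a b => cc a k b 0, ?_⟩
  ext a b
  have hka : (N ^ k) (snSum K N r u (cc a)) = 0 := by
    rw [← hcc]
    exact h'.1 k hk a a.2
  have hkb : (N ^ k) (snSum K N r u (cc b)) = 0 := by
    rw [← hcc]
    exact h'.1 k hk b b.2
  have h1 := h'.2.1 k hk a a.2 k hk b b.2 (k - 1)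
  rw [if_pos ⟨rfl, by omega⟩] at h1
  rw [Matrix.of_apply, ← h1]
  conv_lhs => rw [hcc a, hcc b]
  rw [h.layer hN hS hk1 hk (cc a) (cc b) hka hkb, Matrix.mul_apply, Finset.sum_range]
  apply Finset.sum_congr rfl
  intro j _
  rw [Matrix.mul_apply, Matrix.transpose_apply, Matrix.of_apply, Finset.sum_range, mul_comm]
  rfl

theorem SNF.count_le (h : SNF K B N r S u) (hN : ∀ x y, B (N x) y = - B x (N y))
    (hS : SNd K r S) {r' : ℕ → ℕ} {S' : ℕ → ℕ → ℕ → F} {u' : ℕ → ℕ → V}
    (h' : SNF K B N r' S' u') (hS' : SNd K r' S') {k : ℕ} (hk1 : 1 ≤ k) (hk : k ≤ K) :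
    r' k ≤ r k := by
  obtain ⟨P, hP⟩ := h.layer_matrix hN hS h' hk1 hk
  have h1 : (Matrix.of fun a b : Fin (r' k) => S' k a b).rank = r' k := by
    rw [Matrix.rank_of_isUnit _
      ((Matrix.isUnit_iff_isUnit_det _).mpr (isUnit_iff_ne_zero.mpr (hS' k hk)))]
    simp
  rw [hP] at h1
  have h2 := Matrix.rank_mul_le_left (P * (Matrix.of fun a b : Fin (r k) => S k a b)) Pᵀ
  have h3 := Matrix.rank_mul_le_left P (Matrix.of fun a b : Fin (r k) => S k a b)
  have h4 := Matrix.rank_le_width P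
  omega

/-- The multiplicities are invariants. -/
theorem SNF.count_eq (h : SNF K B N r S u) (hN : ∀ x y, B (N x) y = - B x (N y))
    (hS : SNd K r S) {r' : ℕ → ℕ} {S' : ℕ → ℕ → ℕ → F} {u' : ℕ → ℕ → V}
    (h' : SNF K B N r' S' u') (hS' : SNd K r' S') {k : ℕ} (hk1 : 1 ≤ k) (hk : k ≤ K) :
    r' k = r k :=
  le_antisymm (h.count_le hN hS h' hS' hk1 hk) (h'.count_le hN hS' h hS hk1 hk)

theorem sn_det_aux (n n' : ℕ) (hn : n' = n) (T T' : ℕ → ℕ → F) (P : Matrix (Fin n') (Fin n) F)
    (hP : (Matrix.of fun a b : Fin n' => T' a b)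
      = P * (Matrix.of fun a b : Fin n => T a b) * Pᵀ) :
    ∃ t : F, (Matrix.of fun a b : Fin n => T' a b).det
      = t * t * (Matrix.of fun a b : Fin n => T a b).det := by
  subst hn
  exact ⟨P.det, by rw [hP, Matrix.det_mul, Matrix.det_mul, Matrix.det_transpose]; ring⟩

/-- The discriminants at each level agree up to squares. -/
theorem SNF.det_eq (h : SNF K B N r S u) (hN : ∀ x y, B (N x) y = - B x (N y))
    (hS : SNd K r S) {r' : ℕ → ℕ} {S' : ℕ → ℕ → ℕ → F} {u' : ℕ → ℕ → V}
    (h' : SNF K B N r' S' u') (hS' : SNd K r' S') {k : ℕ} (hk1 : 1 ≤ k) (hk : k ≤ K) :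
    ∃ t : F, (Matrix.of fun a b : Fin (r k) => S' k a b).det
      = t * t * (Matrix.of fun a b : Fin (r k) => S k a b).det := by
  obtain ⟨P, hP⟩ := h.layer_matrix hN hS h' hk1 hk
  exact sn_det_aux (r k) (r' k) (h.count_eq hN hS h' hS' hk1 hk) (S k) (S' k) P hP

end SNF2

end Cfsg.Agent.Lib.Helper99
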