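import Mathlib
import Cfsg.Agent.Lib.Helper99.SpNF2
import Cfsg.Agent.Lib.Helper99.AltBasis
import Cfsg.Agent.Lib.Helper99.JType7

/-!
# Normal forms of skew nilpotent maps (part 3): standard Gram data and top bases

`snStd1 k n d`: the standard Gram data at level `k` (diagonal `(1, …, 1, d)` for even `k`,
the standard alternating matrix for odd `k`).  `sn_top_basis`: generators of the top level
with standard Gram data.
-/

set_option autoImplicit false

namespace Cfsg.Agent.Lib.Helper99

open Finset Module Matrix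

universe u v

section SNF3
variable {F : Type u} [Field F]

/-- Standard alternating Gram entries. -/
def snAlt (F : Type u) [Field F] (n a b : ℕ) : F :=
  if a + n / 2 = b then 1 else if b + n / 2 = a then -1 else 0

/-- Standard Gram entries at level `k` with multiplicity `n` and discriminant `d`. -/
def snStd1 (k n : ℕ) (d : F) (a b : ℕ) : F :=
  if Even k then (if a = b then (if a + 1 = n then d else 1) else 0) else snAlt F n a b

/-- Standard Gram data attached to multiplicities and discriminants. -/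
def snStd (r : ℕ → ℕ) (d : ℕ → F) (k a b : ℕ) : F := snStd1 k (r k) (d k) a b

theorem snStd1_symm (k n : ℕ) (d : F) (hpar : Odd k → Even n) (a b : ℕ) (ha : a < n)
    (hb : b < n) : snStd1 k n d b a = (-1) ^ k * snStd1 k n d a b := by
  unfold snStd1
  by_cases hk : Even k
  · rw [if_pos hk, if_pos hk, hk.neg_one_pow, one_mul]
    by_cases hab : a = b
    · subst hab
      rfl
    · rw [if_neg hab, if_neg (fun h => hab h.symm)]
  · rw [if_neg hk, if_neg hk]
    have hodd := Nat.not_even_iff_odd.mp hk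
    obtain ⟨t, rfl⟩ := hpar hodd
    have ht : (t + t) / 2 = t := by omega
    rw [hodd.neg_one_pow]
    unfold snAlt
    rw [ht]
    by_cases h1 : b + t = a
    · rw [if_pos h1, if_neg (by omega), if_pos h1]
      ring
    · rw [if_neg h1]
      by_cases h3 : a + t = b
      · rw [if_pos h3, if_pos h3]
        ring
      · rw [if_neg h3, if_neg h3, if_neg h1]
        ring

theorem snAlt_sq (t : ℕ) :
    (Matrix.of fun a b : Fin (t + t) => snAlt F (t + t) a b)
      * (Matrix.of fun a b : Fin (t + t) => snAlt F (t + t) a b) = -1 := by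
  have ht : (t + t) / 2 = t := by omega
  ext a c
  rw [Matrix.mul_apply, Matrix.neg_apply, Matrix.one_apply]
  simp only [Matrix.of_apply, snAlt, ht]
  have hac : (a = c) ↔ ((a : ℕ) = c) := Fin.ext_iff
  by_cases ha : (a : ℕ) < t
  · rw [Finset.sum_eq_single (⟨a + t, by omega⟩ : Fin (t + t))]
    · dsimp only
      rw [if_pos rfl, one_mul]
      have h1 : ¬ ((a : ℕ) + t + t = c) := by have := c.2; omega
      rw [if_neg h1]
      by_cases h2 : (a : ℕ) = c
      · rw [if_pos (by omega), if_pos (hac.mpr h2)]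
      · rw [if_neg (by omega), if_neg (fun h => h2 (hac.mp h))]
        simp
    · intro b _ hb
      have hb' : ¬ ((a : ℕ) + t = b) := fun h => hb (Fin.ext h.symm)
      rw [if_neg hb', if_neg (by omega), zero_mul]
    · intro h
      exact absurd (Finset.mem_univ _) h
  · rw [Finset.sum_eq_single (⟨a - t, by have := a.2; omega⟩ : Fin (t + t))]
    · dsimp only
      have h0 : ¬ ((a : ℕ) + t = a - t) := by omega
      rw [if_neg h0, if_pos (by omega)]
      by_cases h2 : (a : ℕ) = c
      · rw [if_pos (by omega), if_pos (hac.mpr h2)]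
        ring
      · rw [if_neg (by omega), if_neg (by have := c.2; omega), if_neg (fun h => h2 (hac.mp h))]
        simp
    · intro b _ hb
      have hb' : ¬ ((b : ℕ) + t = a) := fun h => hb (Fin.ext (by simp; omega))
      rw [if_neg (by have := b.2; omega), if_neg hb', zero_mul]
    · intro h
      exact absurd (Finset.mem_univ _) h

theorem snStd1_det_ne (k n : ℕ) (d : F) (hd : d ≠ 0) (hpar : Odd k → Even n) :
    (Matrix.of fun a b : Fin n => snStd1 k n d a b).det ≠ 0 := by
  by_cases hk : Even k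
  · have e : (Matrix.of fun a b : Fin n => snStd1 k n d a b)
        = Matrix.diagonal (fun a : Fin n => if (a : ℕ) + 1 = n then d else 1) := by
      ext a b
      rw [Matrix.of_apply, Matrix.diagonal_apply]
      unfold snStd1
      rw [if_pos hk]
      by_cases hab : a = b
      · subst hab
        rw [if_pos rfl, if_pos rfl]
      · rw [if_neg hab, if_neg (fun h => hab (Fin.ext h))]
    rw [e, Matrix.det_diagonal]
    apply Finset.prod_ne_zero_iff.mpr
    intro a _
    split_ifs
    · exact hd
    · exact one_ne_zero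
  · obtain ⟨t, rfl⟩ := hpar (Nat.not_even_iff_odd.mp hk)
    have e : (Matrix.of fun a b : Fin (t + t) => snStd1 k (t + t) d a b)
        = (Matrix.of fun a b : Fin (t + t) => snAlt F (t + t) a b) := by
      ext a b
      rw [Matrix.of_apply, Matrix.of_apply]
      unfold snStd1
      rw [if_neg hk]
    rw [e]
    apply Matrix.det_ne_zero_of_right_inverse
      (B := -(Matrix.of fun a b : Fin (t + t) => snAlt F (t + t) a b))
    rw [Matrix.mul_neg, snAlt_sq, neg_neg]

theorem snStd1_det_even (k n : ℕ) (d : F) (hk : Even k) (hn : 1 ≤ n) :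
    (Matrix.of fun a b : Fin n => snStd1 k n d a b).det = d := by
  have e : (Matrix.of fun a b : Fin n => snStd1 k n d a b)
      = Matrix.diagonal (fun a : Fin n => if (a : ℕ) + 1 = n then d else 1) := by
    ext a b
    rw [Matrix.of_apply, Matrix.diagonal_apply]
    unfold snStd1
    rw [if_pos hk]
    by_cases hab : a = b
    · subst hab
      rw [if_pos rfl, if_pos rfl]
    · rw [if_neg hab, if_neg (fun h => hab (Fin.ext h))]
  rw [e, Matrix.det_diagonal, Finset.prod_eq_single (⟨n - 1, by omega⟩ : Fin n)]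
  · rw [if_pos (by
      show n - 1 + 1 = n
      omega)]
  · intro b _ hb
    rw [if_neg]
    intro h
    apply hb
    apply Fin.ext
    show (b : ℕ) = n - 1
    omega
  · intro h
    exact absurd (Finset.mem_univ _) h

theorem snStd_nd (K : ℕ) (r : ℕ → ℕ) (d : ℕ → F) (hd : ∀ k, d k ≠ 0)
    (hpar : ∀ k ≤ K, Odd k → Even (r k)) : SNd K r (snStd r d) := by
  intro k hk
  exact snStd1_det_ne k (r k) (d k) (hd k) (hpar k hk)

/-- Normalised orthogonal bases over a finite field of odd characteristic. -/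
theorem sn_sym_basis [Fintype F] (h2 : (2 : F) ≠ 0) (hF : Odd (Fintype.card F)) (ζ : F)
    (hζ : ¬ IsSquare ζ) {W : Type v} [AddCommGroup W] [Module F W] [FiniteDimensional F W]
    (γ : LinearMap.BilinForm F W) (hsymm : ∀ x y, γ x y = γ y x)
    (hnd : ∀ x, (∀ y, γ x y = 0) → x = 0) :
    ∃ (n : ℕ) (d : F) (w : Basis (Fin n) F W), (d = 1 ∨ d = ζ) ∧
      ∀ a b : Fin n, γ (w a) (w b)
        = if (a : ℕ) = b then (if (a : ℕ) + 1 = n then d else 1) else 0 := by
  classical
  have hinv : Invertible (2 : F) := invertibleOfNonzero h2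
  obtain ⟨v, hv⟩ := LinearMap.BilinForm.exists_orthogonal_basis
    (LinearMap.BilinForm.isSymm_iff.mp (LinearMap.BilinForm.isSymm_def.mpr hsymm))
  have hv' : ∀ i j, i ≠ j → γ (v i) (v j) = 0 := hv
  obtain ⟨n, hn⟩ : ∃ n, n = finrank F W := ⟨_, rfl⟩
  subst hn
  obtain ⟨c, hc⟩ : ∃ c : Fin (finrank F W) → F, c = fun i => γ (v i) (v i) := ⟨_, rfl⟩
  have hcne : ∀ i, c i ≠ 0 := by
    intro i h0
    apply v.ne_zero i
    apply hnd
    intro y
    rw [← v.sum_repr y]
    simp only [map_sum, map_smul, smul_eq_mul]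
    apply Finset.sum_eq_zero
    intro j _
    by_cases hij : i = j
    · subst hij
      have : γ (v i) (v i) = c i := by rw [hc]
      rw [this, h0, mul_zero]
    · rw [hv' i j hij, mul_zero]
  have hQc : ∀ x, Cfsg.Agent.Lib.Helper44.dQ c (v.equivFun x) = γ x x := by
    intro x
    have hx : x = ∑ i, v.repr x i • v i := (v.sum_repr x).symm
    conv_rhs => rw [hx]
    simp only [map_sum, LinearMap.sum_apply, map_smul, LinearMap.smul_apply, smul_eq_mul]
    unfold Cfsg.Agent.Lib.Helper44.dQ
    refine Finset.sum_congr rfl (fun i _ => ?_)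
    rw [Finset.sum_eq_single i]
    · rw [hc, Basis.equivFun_apply]
      ring
    · intro j _ hji
      rw [hv' j i hji]
      ring
    · intro h
      exact absurd (Finset.mem_univ _) h
  by_cases hn0 : finrank F W = 0
  · refine ⟨_, 1, v, Or.inl rfl, ?_⟩
    intro a
    exact absurd a.2 (by omega)
  · obtain ⟨d, hd, s, hs, hprod⟩ :
        ∃ d : F, (d = 1 ∨ d = ζ) ∧ ∃ s : F, s ≠ 0 ∧ ∏ i, c i = s ^ 2 * d := by
      have hp0 : ∏ i, c i ≠ 0 := Finset.prod_ne_zero_iff.mpr (fun i _ => hcne i)
      by_cases hsq : IsSquare (∏ i, c i)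
      · obtain ⟨s, hs⟩ := hsq
        refine ⟨1, Or.inl rfl, s, ?_, by rw [hs]; ring⟩
        rintro rfl
        rw [mul_zero] at hs
        exact hp0 hs
      · obtain ⟨t, ht0, ht⟩ := jt_nonsq_ratio _ ζ hsq hζ
        exact ⟨ζ, Or.inr rfl, t, ht0, ht⟩
    have hζ0 : ζ ≠ 0 := by
      rintro rfl
      exact hζ IsSquare.zero
    have hd0 : d ≠ 0 := by
      rcases hd with rfl | rfl
      · exact one_ne_zero
      · exact hζ0
    obtain ⟨c', hc'⟩ : ∃ c' : Fin (finrank F W) → F,
        c' = fun i : Fin (finrank F W) => if (i : ℕ) + 1 = finrank F W then d else 1 :=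
      ⟨_, rfl⟩
    have hc'ne : ∀ i, c' i ≠ 0 := by
      intro i
      rw [hc']
      show (if (i : ℕ) + 1 = finrank F W then d else 1) ≠ 0
      split_ifs
      · exact hd0
      · exact one_ne_zero
    have hprod' : ∏ i, c' i = d := by
      rw [Finset.prod_eq_single (⟨finrank F W - 1, by omega⟩ : Fin (finrank F W))]
      · rw [hc']
        show (if finrank F W - 1 + 1 = finrank F W then d else 1) = d
        rw [if_pos (by omega)]
      · intro b _ hb
        rw [hc']
        show (if (b : ℕ) + 1 = finrank F W then d else 1) = 1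
        rw [if_neg]
        intro h
        apply hb
        apply Fin.ext
        show (b : ℕ) = finrank F W - 1
        omega
      · intro h
        exact absurd (Finset.mem_univ _) h
    obtain ⟨e, he⟩ := Cfsg.Agent.Lib.Helper44.dQ_classify hF c c' hcne hc'ne rfl
      (by rw [Fintype.card_fin]; omega) s hs (by rw [hprod', hprod])
    obtain ⟨T, hT⟩ : ∃ T : W ≃ₗ[F] (Fin (finrank F W) → F), T = v.equivFun.trans e := ⟨_, rfl⟩
    have hq : ∀ x, γ x x = Cfsg.Agent.Lib.Helper44.dQ c' (T x) := by
      intro x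
      rw [← hQc, hT, LinearEquiv.trans_apply, he]
    have hpol : ∀ x y, γ x y = ∑ i, c' i * T x i * T y i := by
      intro x y
      have h1 := hq (x + y)
      have h2x := hq x
      have h2y := hq y
      simp only [map_add, LinearMap.add_apply, Cfsg.Agent.Lib.Helper44.dQ, Pi.add_apply]
        at h1 h2x h2y
      rw [hsymm y x] at h1
      have h3 : (2 : F) * γ x y = 2 * ∑ i, c' i * T x i * T y i := by
        rw [Finset.mul_sum]
        have h4 : ∑ i, c' i * (T x i + T y i) ^ 2 = ∑ i, c' i * T x i ^ 2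
            + ∑ i, c' i * T y i ^ 2 + ∑ i, 2 * (c' i * T x i * T y i) := by
          rw [← Finset.sum_add_distrib, ← Finset.sum_add_distrib]
          apply Finset.sum_congr rfl
          intro i _
          ring
        linear_combination h1 - h2x - h2y + h4
      exact mul_left_cancel₀ h2 h3
    refine ⟨_, d, Basis.ofEquivFun T, hd, ?_⟩
    intro a b
    rw [hpol, Basis.coe_ofEquivFun]
    simp only [LinearEquiv.apply_symm_apply]
    by_cases hab : a = b
    · subst hab
      rw [if_pos rfl, Finset.sum_eq_single a]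
      · rw [Pi.single_eq_same, hc']
        ring
      · intro j _ hj
        rw [Pi.single_eq_of_ne hj]
        ring
      · intro h
        exact absurd (Finset.mem_univ _) h
    · rw [if_neg (fun h => hab (Fin.ext h))]
      apply Finset.sum_eq_zero
      intro j _
      by_cases hj : j = a
      · subst hj
        rw [Pi.single_eq_of_ne hab]
        ring
      · rw [Pi.single_eq_of_ne hj]
        ring

/-- Symplectic bases indexed by `Fin (t + t)`. -/
theorem sn_alt_basis_fin {W : Type v} [AddCommGroup W] [Module F W] [FiniteDimensional F W]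
    (γ : LinearMap.BilinForm F W) (hA : ∀ x, γ x x = 0) (hnd : ∀ x, (∀ y, γ x y = 0) → x = 0) :
    ∃ (t : ℕ) (w : Basis (Fin (t + t)) F W),
      ∀ a b : Fin (t + t), γ (w a) (w b) = snAlt F (t + t) a b := by
  classical
  obtain ⟨m', k', b, hb1, hb2, hb3, hb4⟩ := alt_basis γ hA
  have hk' : k' = 0 := by
    by_contra hne
    have hpos : 0 < k' := Nat.pos_of_ne_zero hne
    exact b.ne_zero _ (hnd (b (Sum.inr ⟨0, hpos⟩)) (fun y => hb4 _ y))
  subst hk'
  have hneg : ∀ x y, γ x y = - γ y x := by
    intro x y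
    have h1 := hA (x + y)
    simp only [map_add, LinearMap.add_apply] at h1
    rw [hA x, hA y] at h1
    linear_combination h1
  obtain ⟨e, he⟩ : ∃ e : (Fin m' ⊕ Fin m') ⊕ Fin 0 ≃ Fin (m' + m'),
      e = (Equiv.sumEmpty _ _).trans finSumFinEquiv := ⟨_, rfl⟩
  refine ⟨m', b.reindex e, ?_⟩
  have ht : (m' + m') / 2 = m' := by omega
  have e1 : ∀ i : Fin m', e.symm (Fin.castAdd m' i) = Sum.inl (Sum.inl i) := by
    intro i
    rw [Equiv.symm_apply_eq, he]
    simp
  have e2 : ∀ i : Fin m', e.symm (Fin.natAdd m' i) = Sum.inl (Sum.inr i) := by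
    intro i
    rw [Equiv.symm_apply_eq, he]
    simp
  intro a b'
  rw [Basis.reindex_apply, Basis.reindex_apply]
  unfold snAlt
  rw [ht]
  refine Fin.addCases (fun i => ?_) (fun i => ?_) a <;>
    refine Fin.addCases (fun j => ?_) (fun j => ?_) b'
  · rw [e1, e1, hb2]
    simp only [Fin.val_castAdd]
    rw [if_neg (by omega), if_neg (by omega)]
  · rw [e1, e2, hb1]
    simp only [Fin.val_castAdd, Fin.val_natAdd]
    by_cases hij : i = j
    · subst hij
      rw [if_pos rfl, if_pos (by omega)]
    · rw [if_neg hij, if_neg (fun h => hij (Fin.ext (by omega))), if_neg (by omega)]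
  · rw [e2, e1, hneg, hb1]
    simp only [Fin.val_castAdd, Fin.val_natAdd]
    by_cases hij : j = i
    · subst hij
      rw [if_pos rfl, if_neg (by omega), if_pos (by omega)]
    · rw [if_neg hij, if_neg (by omega), if_neg (fun h => hij (Fin.ext (by omega)))]
      simp
  · rw [e2, e2, hb3]
    simp only [Fin.val_natAdd]
    rw [if_neg (by omega), if_neg (by omega)]

/-- Generators of the top level with standard Gram data. -/
theorem sn_top_basis [Fintype F] {V : Type v} [AddCommGroup V] [Module F V]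
    [FiniteDimensional F V] (h2 : (2 : F) ≠ 0) (hF : Odd (Fintype.card F)) (ζ : F)
    (hζ : ¬ IsSquare ζ) (B : LinearMap.BilinForm F V) (hA : ∀ x, B x x = 0)
    (hnd : ∀ x, (∀ y, B x y = 0) → x = 0) (N : V →ₗ[F] V)
    (hN : ∀ x y, B (N x) y = - B x (N y)) (K : ℕ) :
    ∃ (n : ℕ) (d : F) (u₀ : ℕ → V), (d = 1 ∨ d = ζ) ∧ (Odd (K + 1) → Even n) ∧
      (∀ a < n, ∀ b < n, B (u₀ a) ((N ^ K) (u₀ b)) = snStd1 (K + 1) n d a b) ∧
      (∀ v, ∃ c : ℕ → F, (N ^ K) v = ∑ a ∈ range n, c a • (N ^ K) (u₀ a)) := by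
  classical
  have hneg : ∀ x y, B x y = - B y x := by
    intro x y
    have h1 := hA (x + y)
    simp only [map_add, LinearMap.add_apply] at h1
    rw [hA x, hA y] at h1
    linear_combination h1
  obtain ⟨C, hC⟩ := Submodule.exists_isCompl (LinearMap.ker (N ^ K))
  obtain ⟨γ, hγ⟩ : ∃ γ : LinearMap.BilinForm F ↥C,
      ∀ x y : ↥C, γ x y = B (x : V) ((N ^ K) (y : V)) :=
    ⟨B.comp C.subtype ((N ^ K).comp C.subtype), fun x y => rfl⟩
  have hswap : ∀ x y : ↥C, γ y x = (-1) ^ (K + 1) * γ x y := by
    intro x y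
    rw [hγ, hγ, hneg (y : V), sn_skew_pow B N hN]
    ring
  have hdec : ∀ v : V, ∃ z ∈ LinearMap.ker (N ^ K), ∃ c ∈ C, z + c = v := by
    intro v
    have hv : v ∈ LinearMap.ker (N ^ K) ⊔ C := by
      rw [hC.sup_eq_top]
      trivial
    exact Submodule.mem_sup.mp hv
  have hγnd : ∀ x : ↥C, (∀ y : ↥C, γ x y = 0) → x = 0 := by
    intro x hx
    have h1 : (N ^ K) (x : V) = 0 := by
      apply hnd
      intro v
      rw [sn_skew_pow B N hN]
      obtain ⟨z, hz, c, hc, rfl⟩ := hdec v
      rw [map_add, LinearMap.mem_ker.mp hz, zero_add]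
      have h3 := hx ⟨c, hc⟩
      rw [hγ] at h3
      rw [h3, mul_zero]
    have h3 : (x : V) ∈ LinearMap.ker (N ^ K) ⊓ C := ⟨LinearMap.mem_ker.mpr h1, x.2⟩
    rw [hC.inf_eq_bot] at h3
    exact Subtype.ext ((Submodule.mem_bot F).mp h3)
  have hfin : ∀ (n : ℕ) (d : F) (w : Basis (Fin n) F ↥C), (d = 1 ∨ d = ζ) →
      (Odd (K + 1) → Even n) →
      (∀ a b : Fin n, γ (w a) (w b) = snStd1 (K + 1) n d a b) →
      ∃ (n : ℕ) (d : F) (u₀ : ℕ → V), (d = 1 ∨ d = ζ) ∧ (Odd (K + 1) → Even n) ∧
        (∀ a < n, ∀ b < n, B (u₀ a) ((N ^ K) (u₀ b)) = snStd1 (K + 1) n d a b) ∧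
        (∀ v, ∃ c : ℕ → F, (N ^ K) v = ∑ a ∈ range n, c a • (N ^ K) (u₀ a)) := by
    intro n d w hd hpar hw
    refine ⟨n, d, fun a => if h : a < n then (w ⟨a, h⟩ : V) else 0, hd, hpar, ?_, ?_⟩
    · intro a ha b hb
      beta_reduce
      rw [dif_pos ha, dif_pos hb, ← hγ, hw]
    · intro v
      obtain ⟨z, hz, c, hc, rfl⟩ := hdec v
      refine ⟨fun a => if h : a < n then w.repr ⟨c, hc⟩ ⟨a, h⟩ else 0, ?_⟩
      rw [map_add, LinearMap.mem_ker.mp hz, zero_add, Finset.sum_range]
      have h1 : c = ∑ j, w.repr ⟨c, hc⟩ j • (w j : V) := by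
        have h3 := congrArg (Subtype.val) (w.sum_repr ⟨c, hc⟩)
        simp only [Submodule.coe_sum, Submodule.coe_smul] at h3
        exact h3.symm
      conv_lhs => rw [h1]
      rw [map_sum]
      apply Finset.sum_congr rfl
      intro j _
      beta_reduce
      rw [map_smul, dif_pos j.2, dif_pos j.2]
  rcases Nat.even_or_odd (K + 1) with hev | hodd
  · have hsymm : ∀ x y : ↥C, γ x y = γ y x := by
      intro x y
      rw [hswap y x, hev.neg_one_pow, one_mul]
    obtain ⟨n, d, w, hd, hw⟩ := sn_sym_basis h2 hF ζ hζ γ hsymm hγnd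
    refine hfin n d w hd (fun ho => absurd hev (Nat.not_even_iff_odd.mpr ho)) ?_
    intro a b
    rw [hw]
    unfold snStd1
    rw [if_pos hev]
  · have hAγ : ∀ x : ↥C, γ x x = 0 := by
      intro x
      have h3 := hswap x x
      rw [hodd.neg_one_pow] at h3
      have h4 : (2 : F) * γ x x = 0 := by linear_combination h3
      exact (mul_eq_zero.mp h4).resolve_left h2
    obtain ⟨t, w, hw⟩ := sn_alt_basis_fin γ hAγ hγnd
    refine hfin (t + t) 1 w (Or.inl rfl) (fun _ => ⟨t, rfl⟩) ?_
    intro a b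
    rw [hw]
    unfold snStd1
    rw [if_neg (Nat.not_even_iff_odd.mpr hodd)]

end SNF3

end Cfsg.Agent.Lib.Helper99
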