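import Mathlib
import Cfsg.Agent.Lib.Helper99.SpNF3

/-!
# Normal forms of skew nilpotent maps (part 4): elimination, complements, glueing
-/

set_option autoImplicit false

namespace Cfsg.Agent.Lib.Helper99

open Finset Module Matrix

universe u v

section SNF4
variable {F : Type u} [Field F] {V : Type v} [AddCommGroup V] [Module F V]

/-- One elimination step: clean the next lower level of the Gram data. -/
theorem sn_elim_step (h2 : (2 : F) ≠ 0) (B : LinearMap.BilinForm F V)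
    (hneg : ∀ x y, B x y = - B y x) (N : V →ₗ[F] V)
    (hN : ∀ x y, B (N x) y = - B x (N y)) (K : ℕ) (hK : N ^ (K + 1) = 0) {n : ℕ}
    (Sm : Matrix (Fin n) (Fin n) F) (hSd : Sm.det ≠ 0)
    (hSs : ∀ a b, Sm b a = (-1) ^ (K + 1) * Sm a b)
    (u : Fin n → V) (htop : ∀ a b, B (u a) ((N ^ K) (u b)) = Sm a b)
    (j : ℕ) (hj : j < K)
    (hgood : ∀ a b, ∀ l, K - j ≤ l → l < K → B (u a) ((N ^ l) (u b)) = 0) :
    ∃ u' : Fin n → V, (∀ a b, B (u' a) ((N ^ K) (u' b)) = Sm a b) ∧
      (∀ a b, ∀ l, K - (j + 1) ≤ l → l < K → B (u' a) ((N ^ l) (u' b)) = 0) ∧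
      (∀ a, (N ^ K) (u' a) = (N ^ K) (u a)) := by
  classical
  obtain ⟨i₀, hi₀⟩ : ∃ i₀, i₀ = K - (j + 1) := ⟨_, rfl⟩
  obtain ⟨s, hs⟩ : ∃ s, s = j + 1 := ⟨_, rfl⟩
  have his : i₀ + s = K := by omega
  obtain ⟨t, ht⟩ : ∃ t : F, 2 * t = 1 := ⟨2⁻¹, mul_inv_cancel₀ h2⟩
  obtain ⟨G, hG⟩ : ∃ G : Matrix (Fin n) (Fin n) F,
      G = Matrix.of fun a b => B (u a) ((N ^ i₀) (u b)) := ⟨_, rfl⟩
  obtain ⟨X, hX⟩ : ∃ X : Matrix (Fin n) (Fin n) F, X = (-t * (-1) ^ s) • (G * Sm⁻¹) := ⟨_, rfl⟩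
  have hXS : ∀ a b, ∑ c, X a c * Sm c b = -t * (-1) ^ s * G a b := by
    intro a b
    have h1 : X * Sm = (-t * (-1) ^ s) • G := by
      rw [hX, Matrix.smul_mul, Matrix.nonsing_inv_mul_cancel_right _ _ (isUnit_iff_ne_zero.mpr hSd)]
    have h3 := congrFun (congrFun h1 a) b
    rw [Matrix.mul_apply, Matrix.smul_apply, smul_eq_mul] at h3
    exact h3
  have hGs : ∀ a b, G b a = -((-1) ^ i₀ * G a b) := by
    intro a b
    rw [hG, Matrix.of_apply, Matrix.of_apply, hneg, sn_skew_pow B N hN]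
  obtain ⟨y, hy⟩ : ∃ y : Fin n → V, y = fun a => ∑ c, X a c • u c := ⟨_, rfl⟩
  have hz : ∀ e, K < e → ∀ z, (N ^ e) z = 0 := by
    intro e he z
    exact sn_pow_zero_of_le N (show K + 1 ≤ e by omega) z (by rw [hK]; rfl)
  have hf : ∀ a b l, B (u a + (N ^ s) (y a)) ((N ^ l) (u b + (N ^ s) (y b)))
      = B (u a) ((N ^ l) (u b)) + B (u a) ((N ^ (l + s)) (y b))
        + (-1) ^ s * B (y a) ((N ^ (s + l)) (u b))
        + (-1) ^ s * B (y a) ((N ^ (s + (l + s))) (y b)) := by
    intro a b l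
    simp only [map_add, LinearMap.add_apply, sn_skew_pow B N hN s, sn_pow_add_apply]
    ring
  have hy1 : ∀ a b, B (u a) ((N ^ K) (y b)) = ∑ c, X b c * Sm a c := by
    intro a b
    rw [hy]
    simp only [map_sum, map_smul, smul_eq_mul, htop]
  have hy2 : ∀ a b, B (y a) ((N ^ K) (u b)) = ∑ c, X a c * Sm c b := by
    intro a b
    rw [hy]
    simp only [map_sum, map_smul, LinearMap.sum_apply, LinearMap.smul_apply, smul_eq_mul, htop]
  have hhigh : ∀ a b l, i₀ < l →
      B (u a + (N ^ s) (y a)) ((N ^ l) (u b + (N ^ s) (y b))) = B (u a) ((N ^ l) (u b)) := by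
    intro a b l hl
    rw [hf, hz (l + s) (by omega), hz (s + l) (by omega), hz (s + (l + s)) (by omega)]
    simp
  refine ⟨fun a => u a + (N ^ s) (y a), ?_, ?_, ?_⟩
  · intro a b
    beta_reduce
    rw [hhigh a b K (by omega), htop]
  · intro a b l hl1 hl2
    beta_reduce
    by_cases hl : i₀ < l
    · rw [hhigh a b l hl]
      exact hgood a b l (by omega) hl2
    · have hl0 : l = i₀ := by omega
      subst hl0
      rw [hf, hz (s + (l + s)) (by omega), map_zero, mul_zero, add_zero]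
      have e1 : l + s = K := his
      have e2 : s + l = K := by omega
      rw [e1, e2, hy1, hy2, hXS]
      have e3 : ∑ c, X b c * Sm a c = (-1) ^ (K + 1) * (-t * (-1) ^ s * G b a) := by
        rw [← hXS, Finset.mul_sum]
        apply Finset.sum_congr rfl
        intro c _
        rw [hSs c a]
        ring
      rw [e3, hGs a b]
      have e4 : B (u a) ((N ^ l) (u b)) = G a b := by rw [hG, Matrix.of_apply]
      rw [e4]
      have hsgn1 : ((-1 : F)) ^ (K + 1) * (-1) ^ s * (-1) ^ l = -1 := by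
        rw [← pow_add, ← pow_add]
        have : K + 1 + s + l = 2 * K + 1 := by omega
        rw [this, pow_succ, pow_mul]
        simp
      have hsgn2 : ((-1 : F)) ^ s * (-1) ^ s = 1 := by
        rw [← pow_add]
        have : s + s = 2 * s := by omega
        rw [this, pow_mul]
        simp
      linear_combination (t * G a b) * hsgn1 - (t * G a b) * hsgn2 - G a b * ht
  · intro a
    beta_reduce
    rw [map_add, sn_pow_add_apply, hz (K + s) (by omega), add_zero]

/-- Full elimination: generators whose Gram data is concentrated in the top degree. -/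
theorem sn_elim (h2 : (2 : F) ≠ 0) (B : LinearMap.BilinForm F V)
    (hneg : ∀ x y, B x y = - B y x) (N : V →ₗ[F] V)
    (hN : ∀ x y, B (N x) y = - B x (N y)) (K : ℕ) (hK : N ^ (K + 1) = 0) {n : ℕ}
    (Sm : Matrix (Fin n) (Fin n) F) (hSd : Sm.det ≠ 0)
    (hSs : ∀ a b, Sm b a = (-1) ^ (K + 1) * Sm a b)
    (u : Fin n → V) (htop : ∀ a b, B (u a) ((N ^ K) (u b)) = Sm a b) :
    ∃ u' : Fin n → V, (∀ a b l, B (u' a) ((N ^ l) (u' b)) = if l = K then Sm a b else 0) ∧
      (∀ a, (N ^ K) (u' a) = (N ^ K) (u a)) := by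
  have key : ∀ j, j ≤ K → ∃ u' : Fin n → V, (∀ a b, B (u' a) ((N ^ K) (u' b)) = Sm a b) ∧
      (∀ a b, ∀ l, K - j ≤ l → l < K → B (u' a) ((N ^ l) (u' b)) = 0) ∧
      (∀ a, (N ^ K) (u' a) = (N ^ K) (u a)) := by
    intro j
    induction j with
    | zero =>
      intro _
      exact ⟨u, htop, fun a b l h1 h2 => by omega, fun a => rfl⟩
    | succ j ih =>
      intro hj
      obtain ⟨u1, h1, h3, h4⟩ := ih (by omega)
      obtain ⟨u', h1', h3', h4'⟩ := sn_elim_step h2 B hneg N hN K hK Sm hSd hSs u1 h1 j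
        (by omega) h3
      exact ⟨u', h1', h3', fun a => by rw [h4', h4]⟩
  obtain ⟨u', h1, h3, h4⟩ := key K le_rfl
  refine ⟨u', ?_, h4⟩
  intro a b l
  by_cases hl : l = K
  · subst hl
    rw [if_pos rfl, h1]
  · rw [if_neg hl]
    by_cases hlt : l < K
    · exact h3 a b l (by omega) hlt
    · rw [sn_pow_zero_of_le N (show K + 1 ≤ l by omega) _ (by rw [hK]; rfl), map_zero]

/-- The orthogonal complement of the top block. -/
theorem sn_compl (B : LinearMap.BilinForm F V) (hneg : ∀ x y, B x y = - B y x)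
    (hnd : ∀ x, (∀ y, B x y = 0) → x = 0) (N : V →ₗ[F] V)
    (hN : ∀ x y, B (N x) y = - B x (N y)) (K : ℕ) (hK : N ^ (K + 1) = 0) {n : ℕ}
    (Sm : Matrix (Fin n) (Fin n) F) (hSd : Sm.det ≠ 0)
    (u : Fin n → V) (hΓ : ∀ a b l, B (u a) ((N ^ l) (u b)) = if l = K then Sm a b else 0)
    (hrange : ∀ v, ∃ c : Fin n → F, (N ^ K) v = ∑ a, c a • (N ^ K) (u a)) :
    ∃ W : Submodule F V, (∀ w ∈ W, N w ∈ W) ∧ (∀ w ∈ W, (N ^ K) w = 0) ∧
      (∀ w ∈ W, ∀ a i, B (u a) ((N ^ i) w) = 0 ∧ B w ((N ^ i) (u a)) = 0) ∧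
      (∀ w ∈ W, (∀ w' ∈ W, B w w' = 0) → w = 0) ∧
      (∀ v, ∃ (c : Fin n → ℕ → F), ∃ w ∈ W,
        v = ∑ a, ∑ i ∈ range (K + 1), c a i • (N ^ i) (u a) + w) := by
  classical
  obtain ⟨W, hW⟩ : ∃ W : Submodule F V, ∀ w, w ∈ W ↔ ∀ a i, B ((N ^ i) (u a)) w = 0 :=
    ⟨{ carrier := {w | ∀ a i, B ((N ^ i) (u a)) w = 0}
       add_mem' := fun {x y} hx hy a i => by
         rw [map_add, hx a i, hy a i, add_zero]
       zero_mem' := fun a i => by rw [map_zero]
       smul_mem' := fun c x hx a i => by rw [map_smul, hx a i, smul_zero] }, fun w => Iff.rfl⟩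
  have hWN : ∀ w ∈ W, N w ∈ W := by
    intro w hw
    rw [hW] at hw ⊢
    intro a i
    have h1 := hN ((N ^ i) (u a)) w
    have e1 : N ((N ^ i) (u a)) = (N ^ (i + 1)) (u a) := by
      rw [pow_succ', Module.End.mul_apply]
    rw [e1, hw a (i + 1)] at h1
    exact neg_eq_zero.mp h1.symm
  have hWNpow : ∀ i, ∀ w ∈ W, (N ^ i) w ∈ W := by
    intro i
    induction i with
    | zero =>
      intro w hw
      simpa using hw
    | succ i ih =>
      intro w hw
      rw [pow_succ', Module.End.mul_apply]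
      exact hWN _ (ih w hw)
  have hdec : ∀ v, ∃ (c : Fin n → ℕ → F), ∃ w ∈ W,
      v = ∑ a, ∑ i ∈ range (K + 1), c a i • (N ^ i) (u a) + w := by
    intro v
    obtain ⟨f, hf⟩ : ∃ f : ℕ → Fin n → F,
        f = fun i a' => (-1) ^ (K - i) * B ((N ^ (K - i)) (u a')) v := ⟨_, rfl⟩
    obtain ⟨cm, hcm⟩ : ∃ cm : ℕ → Fin n → F, cm = fun i => Sm⁻¹ *ᵥ f i := ⟨_, rfl⟩
    have hcm' : ∀ i a', ∑ a, Sm a' a * cm i a = f i a' := by
      intro i a'
      have h1 : Sm *ᵥ cm i = f i := by
        rw [hcm, Matrix.mulVec_mulVec, Matrix.mul_nonsing_inv _ (isUnit_iff_ne_zero.mpr hSd),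
          Matrix.one_mulVec]
      have h3 := congrFun h1 a'
      rw [Matrix.mulVec, dotProduct] at h3
      exact h3
    refine ⟨fun a i => cm i a, v - ∑ a, ∑ i ∈ range (K + 1), cm i a • (N ^ i) (u a), ?_, by abel⟩
    rw [hW]
    intro a' i'
    by_cases hi' : K < i'
    · rw [sn_pow_zero_of_le N (show K + 1 ≤ i' by omega) _ (by rw [hK]; rfl), map_zero,
        LinearMap.zero_apply]
    · rw [map_sub, sub_eq_zero]
      simp only [map_sum, map_smul, smul_eq_mul]
      have hterm : ∀ a, ∑ i ∈ range (K + 1), cm i a * B ((N ^ i') (u a')) ((N ^ i) (u a))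
          = cm (K - i') a * ((-1) ^ i' * Sm a' a) := by
        intro a
        rw [Finset.sum_eq_single (K - i')]
        · rw [sn_skew_pow B N hN, sn_pow_add_apply, hΓ, if_pos (by omega)]
        · intro i _ hi
          rw [sn_skew_pow B N hN, sn_pow_add_apply, hΓ, if_neg (by omega)]
          ring
        · intro h
          exact absurd (Finset.mem_range.mpr (by omega)) h
      rw [Finset.sum_congr rfl (fun a _ => hterm a)]
      have e1 : ∑ a, cm (K - i') a * ((-1) ^ i' * Sm a' a)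
          = (-1) ^ i' * ∑ a, Sm a' a * cm (K - i') a := by
        rw [Finset.mul_sum]
        apply Finset.sum_congr rfl
        intro a _
        ring
      rw [e1, hcm', hf]
      have e2 : K - (K - i') = i' := by omega
      beta_reduce
      rw [e2, ← mul_assoc, ← pow_add]
      have : i' + i' = 2 * i' := by omega
      rw [this, pow_mul]
      simp
  refine ⟨W, hWN, ?_, ?_, ?_, hdec⟩
  · intro w hw
    apply hnd
    intro v
    rw [sn_skew_pow B N hN]
    obtain ⟨c, hc⟩ := hrange v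
    rw [hc]
    simp only [map_sum, map_smul, smul_eq_mul]
    have hz : ∀ a, c a * B w ((N ^ K) (u a)) = 0 := by
      intro a
      rw [hneg, (hW w).mp hw a K]
      simp
    rw [Finset.sum_congr rfl (fun a _ => hz a)]
    simp
  · intro w hw a i
    constructor
    · have h1 := (hW _).mp (hWNpow i w hw) a 0
      simpa using h1
    · rw [hneg, (hW w).mp hw a i, neg_zero]
  · intro w hw hw0
    apply hnd
    intro v
    obtain ⟨c, w', hw', rfl⟩ := hdec v
    rw [map_add, hw0 w' hw', add_zero]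
    simp only [map_sum, map_smul, smul_eq_mul]
    apply Finset.sum_eq_zero
    intro a _
    apply Finset.sum_eq_zero
    intro i _
    rw [hneg, (hW w).mp hw a i]
    simp

variable {B : LinearMap.BilinForm F V} {N : V →ₗ[F] V}

/-- Glueing a top block to a normal form of lower level. -/
theorem SNF.glue {K n : ℕ} {S₀ : ℕ → ℕ → F} {u₀ : ℕ → V} {r' : ℕ → ℕ}
    {S' : ℕ → ℕ → ℕ → F} {u' : ℕ → ℕ → V}
    (h1 : ∀ a < n, (N ^ (K + 1)) (u₀ a) = 0)
    (h2 : ∀ a < n, ∀ b < n, ∀ i, B (u₀ a) ((N ^ i) (u₀ b)) = if i = K then S₀ a b else 0)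
    (h3 : ∀ k ≤ K, ∀ a < r' k, (N ^ k) (u' k a) = 0)
    (h4 : ∀ k ≤ K, ∀ a < r' k, ∀ k' ≤ K, ∀ a' < r' k', ∀ i,
      B (u' k a) ((N ^ i) (u' k' a')) = if k = k' ∧ i + 1 = k then S' k a a' else 0)
    (h5 : ∀ a < n, ∀ k ≤ K, ∀ a' < r' k, ∀ i,
      B (u₀ a) ((N ^ i) (u' k a')) = 0 ∧ B (u' k a') ((N ^ i) (u₀ a)) = 0)
    (h6 : ∀ v, ∃ (c₀ : ℕ → ℕ → F) (c : ℕ → ℕ → ℕ → F),
      v = ∑ a ∈ range n, ∑ i ∈ range (K + 1), c₀ a i • (N ^ i) (u₀ a) + snSum K N r' u' c) :
    SNF (K + 1) B N (fun k => if k = K + 1 then n else r' k)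
      (fun k => if k = K + 1 then S₀ else S' k) (fun k => if k = K + 1 then u₀ else u' k) := by
  refine ⟨?_, ?_, ?_⟩
  · intro k hk a ha
    beta_reduce at ha ⊢
    by_cases hkK : k = K + 1
    · subst hkK
      rw [if_pos rfl] at ha ⊢
      exact h1 a ha
    · rw [if_neg hkK] at ha ⊢
      exact h3 k (by omega) a ha
  · intro k hk a ha k' hk' a' ha' i
    beta_reduce at ha ha' ⊢
    by_cases hkK : k = K + 1
    · subst hkK
      rw [if_pos rfl] at ha
      simp only [eq_self_iff_true, if_true, true_and]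
      by_cases hkK' : k' = K + 1
      · subst hkK'
        rw [if_pos rfl] at ha'
        simp only [eq_self_iff_true, if_true, true_and]
        rw [h2 a ha a' ha']
        by_cases hi : i = K
        · rw [if_pos hi, if_pos (by omega)]
        · rw [if_neg hi, if_neg (by omega)]
      · rw [if_neg hkK'] at ha'
        simp only [if_neg hkK']
        rw [(h5 a ha k' (by omega) a' ha' i).1, if_neg (by
          rintro ⟨h, _⟩
          exact hkK' h.symm)]
    · rw [if_neg hkK] at ha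
      simp only [if_neg hkK]
      by_cases hkK' : k' = K + 1
      · subst hkK'
        rw [if_pos rfl] at ha'
        simp only [eq_self_iff_true, if_true, true_and]
        rw [(h5 a' ha' k (by omega) a ha i).2, if_neg (by
          rintro ⟨h, _⟩
          exact hkK h)]
      · rw [if_neg hkK'] at ha'
        simp only [if_neg hkK']
        exact h4 k (by omega) a ha k' (by omega) a' ha' i
  · intro v
    obtain ⟨c₀, c, hv⟩ := h6 v
    refine ⟨fun k => if k = K + 1 then c₀ else c k, ?_⟩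
    rw [hv]
    unfold snSum
    rw [Finset.sum_range_succ (n := K + 1), add_comm]
    congr 1
    · apply Finset.sum_congr rfl
      intro k hk
      rw [Finset.mem_range] at hk
      have hkK : k ≠ K + 1 := by omega
      simp only [if_neg hkK]
    · simp only [eq_self_iff_true, if_true, true_and]

end SNF4

end Cfsg.Agent.Lib.Helper99
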