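import Mathlib
import Cfsg.Agent.Lib.Helper99.SpNF4

/-!
# Normal forms of skew nilpotent maps (part 5): existence of the normal form
-/

set_option autoImplicit false

namespace Cfsg.Agent.Lib.Helper99

open Finset Module Matrix

universe u v

section SNF5
variable {F : Type u} [Field F]

theorem sn_restrict_pow {V : Type v} [AddCommGroup V] [Module F V] (N : V →ₗ[F] V)
    (W : Submodule F V) (hW : ∀ w ∈ W, N w ∈ W) (i : ℕ) (w : ↥W) :
    (((N.restrict hW) ^ i) w : V) = (N ^ i) (w : V) := by
  induction i generalizing w with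
  | zero => simp
  | succ i ih =>
    rw [pow_succ, Module.End.mul_apply, ih, pow_succ, Module.End.mul_apply]
    rfl

/-- Every skew nilpotent map for a nondegenerate alternating form over a finite field of odd
characteristic has a standard normal form. -/
theorem sn_exists [Fintype F] (h2 : (2 : F) ≠ 0) (hF : Odd (Fintype.card F)) (ζ : F)
    (hζ : ¬ IsSquare ζ) :
    ∀ (K : ℕ) (V : Type v) [AddCommGroup V] [Module F V] [FiniteDimensional F V]
      (B : LinearMap.BilinForm F V), (∀ x, B x x = 0) → (∀ x, (∀ y, B x y = 0) → x = 0) →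
      ∀ N : V →ₗ[F] V, (∀ x y, B (N x) y = - B x (N y)) → N ^ K = 0 →
      ∃ (r : ℕ → ℕ) (d : ℕ → F) (u : ℕ → ℕ → V), r 0 = 0 ∧ (∀ k, d k = 1 ∨ d k = ζ) ∧
        (∀ k ≤ K, Odd k → Even (r k)) ∧ SNF K B N r (snStd r d) u := by
  intro K
  induction K with
  | zero =>
    intro V _ _ _ B hA hnd N hN hK
    have hV : ∀ v : V, v = 0 := by
      intro v
      have := congrArg (fun T : V →ₗ[F] V => T v) hK
      simpa using this
    refine ⟨fun _ => 0, fun _ => 1, fun _ _ => 0, rfl, fun _ => Or.inl rfl,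
      fun k _ _ => ⟨0, rfl⟩, ?_, ?_, ?_⟩
    · intro k _ a ha
      exact absurd ha (Nat.not_lt_zero a)
    · intro k _ a ha
      exact absurd ha (Nat.not_lt_zero a)
    · intro v
      refine ⟨fun _ _ _ => 0, ?_⟩
      rw [hV v]
      unfold snSum
      simp
  | succ K ih =>
    intro V _ _ _ B hA hnd N hN hK
    classical
    have hneg : ∀ x y, B x y = - B y x := by
      intro x y
      have h1 := hA (x + y)
      simp only [map_add, LinearMap.add_apply] at h1
      rw [hA x, hA y] at h1
      linear_combination h1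
    obtain ⟨n, d₀, u₀, hd₀, hpar, htop, hrange⟩ := sn_top_basis h2 hF ζ hζ B hA hnd N hN K
    have hζ0 : ζ ≠ 0 := by
      rintro rfl
      exact hζ IsSquare.zero
    have hd₀0 : d₀ ≠ 0 := by
      rcases hd₀ with rfl | rfl
      · exact one_ne_zero
      · exact hζ0
    obtain ⟨Sm, hSm⟩ : ∃ Sm : Matrix (Fin n) (Fin n) F,
        Sm = Matrix.of fun a b : Fin n => snStd1 (K + 1) n d₀ a b := ⟨_, rfl⟩
    have hSd : Sm.det ≠ 0 := by
      rw [hSm]
      exact snStd1_det_ne (K + 1) n d₀ hd₀0 hpar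
    have hSs : ∀ a b, Sm b a = (-1) ^ (K + 1) * Sm a b := by
      intro a b
      rw [hSm]
      exact snStd1_symm (K + 1) n d₀ hpar a b a.2 b.2
    obtain ⟨ũ, hΓ, hsame⟩ := sn_elim h2 B hneg N hN K hK Sm hSd hSs (fun a => u₀ a)
      (fun a b => by
        rw [htop a a.2 b b.2, hSm]
        rfl)
    have hrange' : ∀ v, ∃ c : Fin n → F, (N ^ K) v = ∑ a, c a • (N ^ K) (ũ a) := by
      intro v
      obtain ⟨c, hc⟩ := hrange v
      refine ⟨fun a => c a, ?_⟩
      rw [hc, Finset.sum_range]
      apply Finset.sum_congr rfl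
      intro a _
      rw [hsame]
    obtain ⟨W, hWN, hWK, hWc, hWnd, hWdec⟩ :=
      sn_compl B hneg hnd N hN K hK Sm hSd ũ hΓ hrange'
    have hpowW : ∀ i (w : ↥W), (((N.restrict hWN) ^ i) w : V) = (N ^ i) (w : V) :=
      sn_restrict_pow N W hWN
    obtain ⟨r', d', uW, hr0, hd', hpar', hW'⟩ := ih ↥W (B.restrict W) (fun x => hA x)
      (fun x hx => Subtype.ext (hWnd x x.2 (fun w' hw' => hx ⟨w', hw'⟩))) (N.restrict hWN)
      (fun x y => hN x y) (by
        apply LinearMap.ext
        intro w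
        apply Subtype.ext
        rw [hpowW, hWK w w.2]
        rfl)
    obtain ⟨u₁, hu₁⟩ : ∃ u₁ : ℕ → V, u₁ = fun a => if h : a < n then ũ ⟨a, h⟩ else 0 :=
      ⟨_, rfl⟩
    have hu₁' : ∀ a (h : a < n), u₁ a = ũ ⟨a, h⟩ := by
      intro a h
      rw [hu₁]
      exact dif_pos h
    have g1 : ∀ a < n, (N ^ (K + 1)) (u₁ a) = 0 := by
      intro a _
      rw [hK]
      rfl
    have g2 : ∀ a < n, ∀ b < n, ∀ i,
        B (u₁ a) ((N ^ i) (u₁ b)) = if i = K then snStd1 (K + 1) n d₀ a b else 0 := by
      intro a ha b hb i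
      rw [hu₁' a ha, hu₁' b hb, hΓ, hSm]
      rfl
    have g3 : ∀ k ≤ K, ∀ a < r' k, (N ^ k) (uW k a : V) = 0 := by
      intro k hk a ha
      rw [← hpowW, hW'.1 k hk a ha]
      rfl
    have g4 : ∀ k ≤ K, ∀ a < r' k, ∀ k' ≤ K, ∀ a' < r' k', ∀ i,
        B (uW k a : V) ((N ^ i) (uW k' a' : V))
          = if k = k' ∧ i + 1 = k then snStd r' d' k a a' else 0 := by
      intro k hk a ha k' hk' a' ha' i
      rw [← hpowW]
      exact hW'.2.1 k hk a ha k' hk' a' ha' i
    have g5 : ∀ a < n, ∀ k ≤ K, ∀ a' < r' k, ∀ i,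
        B (u₁ a) ((N ^ i) (uW k a' : V)) = 0 ∧ B (uW k a' : V) ((N ^ i) (u₁ a)) = 0 := by
      intro a ha k _ a' _ i
      rw [hu₁' a ha]
      exact hWc (uW k a') (uW k a').2 ⟨a, ha⟩ i
    have g6 : ∀ v, ∃ (c₀ : ℕ → ℕ → F) (c : ℕ → ℕ → ℕ → F),
        v = ∑ a ∈ range n, ∑ i ∈ range (K + 1), c₀ a i • (N ^ i) (u₁ a)
          + snSum K N r' (fun k a => (uW k a : V)) c := by
      intro v
      obtain ⟨c, w, hw, hv⟩ := hWdec v
      obtain ⟨cW, hcW⟩ := hW'.2.2 ⟨w, hw⟩
      refine ⟨fun a i => if h : a < n then c ⟨a, h⟩ i else 0, cW, ?_⟩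
      rw [hv]
      congr 1
      · rw [Finset.sum_range]
        apply Finset.sum_congr rfl
        intro a _
        apply Finset.sum_congr rfl
        intro i _
        rw [hu₁' a a.2]
        beta_reduce
        rw [dif_pos a.2]
      · have h3 := congrArg Subtype.val hcW
        rw [show w = ((⟨w, hw⟩ : ↥W) : V) from rfl, h3]
        unfold snSum
        simp only [Submodule.coe_sum, Submodule.coe_smul, hpowW]
    have hglue := SNF.glue (B := B) (N := N) g1 g2 g3 g4 g5 g6
    refine ⟨fun k => if k = K + 1 then n else r' k, fun k => if k = K + 1 then d₀ else d' k,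
      fun k => if k = K + 1 then u₁ else fun a => (uW k a : V), ?_, ?_, ?_, ?_⟩
    · beta_reduce
      rw [if_neg (by omega)]
      exact hr0
    · intro k
      beta_reduce
      split_ifs
      · exact hd₀
      · exact hd' k
    · intro k hk hodd
      beta_reduce
      by_cases hkK : k = K + 1
      · rw [if_pos hkK]
        subst hkK
        exact hpar hodd
      · rw [if_neg hkK]
        exact hpar' k (by omega) hodd
    · have hS : (snStd (fun k => if k = K + 1 then n else r' k)
          (fun k => if k = K + 1 then d₀ else d' k))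
          = (fun k => if k = K + 1 then snStd1 (K + 1) n d₀ else snStd r' d' k) := by
        funext k
        unfold snStd
        by_cases hkK : k = K + 1
        · subst hkK
          simp
        · simp [hkK]
      rw [hS]
      exact hglue

end SNF5

end Cfsg.Agent.Lib.Helper99
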