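import Mathlib
import Cfsg.Agent.Lib.Helper99.SpNF5

/-!
# Normal forms of skew nilpotent maps (part 6): models

Every (suitably symmetric) Gram data is realised: `sn_model`.
-/

set_option autoImplicit false

namespace Cfsg.Agent.Lib.Helper99

open Finset Module Matrix

universe u v

section SNF6
variable {F : Type u} [Field F]

/-- Gram matrix of the block model. -/
def snBlockM (k n : ℕ) (S₀ : ℕ → ℕ → F) : Matrix (Fin n × Fin k) (Fin n × Fin k) F :=
  Matrix.of fun x y => if (x.2 : ℕ) + y.2 + 1 = k then (-1) ^ (x.2 : ℕ) * S₀ x.1 y.1 else 0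

/-- The shift of the block model. -/
noncomputable def snBlockN (k n : ℕ) (F : Type u) [Field F] :
    (Fin n × Fin k → F) →ₗ[F] (Fin n × Fin k → F) :=
  (Pi.basisFun F (Fin n × Fin k)).constr F
    (fun x => if h : (x.2 : ℕ) + 1 < k then Pi.single (x.1, ⟨x.2 + 1, h⟩) 1 else 0)

theorem snBlockN_single (k n : ℕ) (x : Fin n × Fin k) :
    snBlockN k n F (Pi.single x 1)
      = if h : (x.2 : ℕ) + 1 < k then Pi.single (x.1, ⟨x.2 + 1, h⟩) 1 else 0 := by
  unfold snBlockN
  have h1 := (Pi.basisFun F (Fin n × Fin k)).constr_basis F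
    (fun x => if h : (x.2 : ℕ) + 1 < k then
      (Pi.single (x.1, ⟨x.2 + 1, h⟩) 1 : Fin n × Fin k → F) else 0) x
  rw [Pi.basisFun_apply] at h1
  exact h1

theorem snBlockN_pow (k n : ℕ) (hk : 0 < k) (a : Fin n) (i : ℕ) :
    ((snBlockN k n F) ^ i) (Pi.single (a, ⟨0, hk⟩) 1)
      = if h : i < k then Pi.single (a, ⟨i, h⟩) 1 else 0 := by
  induction i with
  | zero =>
    rw [pow_zero, Module.End.one_apply, dif_pos hk]
  | succ i ih =>
    rw [pow_succ', Module.End.mul_apply, ih]
    by_cases h : i < k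
    · rw [dif_pos h, snBlockN_single]
    · rw [dif_neg h, map_zero, dif_neg (by omega)]

theorem snBlock_skew (k n : ℕ) (S₀ : ℕ → ℕ → F) (x y : Fin n × Fin k → F) :
    Matrix.toBilin' (snBlockM k n S₀) (snBlockN k n F x) y
      = - Matrix.toBilin' (snBlockM k n S₀) x (snBlockN k n F y) := by
  classical
  have key : (Matrix.toBilin' (snBlockM k n S₀)).comp (snBlockN k n F) LinearMap.id
      = -((Matrix.toBilin' (snBlockM k n S₀)).comp LinearMap.id (snBlockN k n F)) := by
    apply LinearMap.BilinForm.ext_basis (Pi.basisFun F (Fin n × Fin k))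
    intro x y
    simp only [LinearMap.BilinForm.comp_apply, LinearMap.id_apply, Pi.basisFun_apply,
      LinearMap.neg_apply, snBlockN_single]
    by_cases hx : (x.2 : ℕ) + 1 < k <;> by_cases hy : (y.2 : ℕ) + 1 < k
    · rw [dif_pos hx, dif_pos hy, Matrix.toBilin'_single, Matrix.toBilin'_single]
      simp only [snBlockM, Matrix.of_apply]
      by_cases hc : (x.2 : ℕ) + 1 + y.2 + 1 = k
      · rw [if_pos hc, if_pos (by omega), pow_succ]
        ring
      · rw [if_neg hc, if_neg (by omega)]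
        simp
    · rw [dif_pos hx, dif_neg hy, map_zero, Matrix.toBilin'_single]
      simp only [snBlockM, Matrix.of_apply]
      rw [if_neg (by omega)]
      simp
    · rw [dif_neg hx, dif_pos hy, map_zero, LinearMap.zero_apply, Matrix.toBilin'_single]
      simp only [snBlockM, Matrix.of_apply]
      rw [if_neg (by omega)]
      simp
    · rw [dif_neg hx, dif_neg hy]
      simp
  have h1 := congrArg (fun T : LinearMap.BilinForm F (Fin n × Fin k → F) => T x y) key
  simpa [LinearMap.BilinForm.comp_apply] using h1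

theorem snBlock_alt (h2 : (2 : F) ≠ 0) (k n : ℕ) (S₀ : ℕ → ℕ → F)
    (hS : ∀ a < n, ∀ b < n, S₀ b a = (-1) ^ k * S₀ a b) (x : Fin n × Fin k → F) :
    Matrix.toBilin' (snBlockM k n S₀) x x = 0 := by
  classical
  have key : Matrix.toBilin' (snBlockM k n S₀)
      = -(LinearMap.flip (Matrix.toBilin' (snBlockM k n S₀))) := by
    apply LinearMap.BilinForm.ext_basis (Pi.basisFun F (Fin n × Fin k))
    intro x y
    simp only [Pi.basisFun_apply, LinearMap.neg_apply, LinearMap.flip_apply,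
      Matrix.toBilin'_single, snBlockM, Matrix.of_apply]
    by_cases hc : (x.2 : ℕ) + y.2 + 1 = k
    · rw [if_pos hc, if_pos (by omega), hS x.1 x.1.2 y.1 y.1.2]
      have e : ((-1 : F)) ^ (y.2 : ℕ) * (-1) ^ k = -(-1) ^ (x.2 : ℕ) := by
        rw [← pow_add]
        have : (y.2 : ℕ) + k = 2 * (y.2 : ℕ) + ((x.2 : ℕ) + 1) := by omega
        rw [this, pow_add, pow_mul]
        simp [pow_succ]
      linear_combination (S₀ x.1 y.1) * e
    · rw [if_neg hc, if_neg (by omega)]
      simp
  have h1 := congrArg (fun T : LinearMap.BilinForm F (Fin n × Fin k → F) => T x x) key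
  simp only [LinearMap.neg_apply, LinearMap.flip_apply] at h1
  have h3 : (2 : F) * Matrix.toBilin' (snBlockM k n S₀) x x = 0 := by linear_combination h1
  exact (mul_eq_zero.mp h3).resolve_left h2

/-- The block model. -/
theorem sn_block_model (h2 : (2 : F) ≠ 0) (K n : ℕ) (S₀ : ℕ → ℕ → F)
    (hS : ∀ a < n, ∀ b < n, S₀ b a = (-1) ^ (K + 1) * S₀ a b) :
    ∃ (B : LinearMap.BilinForm F (Fin n × Fin (K + 1) → F))
      (N : (Fin n × Fin (K + 1) → F) →ₗ[F] (Fin n × Fin (K + 1) → F))
      (u₀ : ℕ → (Fin n × Fin (K + 1) → F)),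
      (∀ x, B x x = 0) ∧ (∀ x y, B (N x) y = - B x (N y)) ∧
      (∀ a < n, (N ^ (K + 1)) (u₀ a) = 0) ∧
      (∀ a < n, ∀ b < n, ∀ i, B (u₀ a) ((N ^ i) (u₀ b)) = if i = K then S₀ a b else 0) ∧
      (∀ v, ∃ c₀ : ℕ → ℕ → F,
        v = ∑ a ∈ range n, ∑ i ∈ range (K + 1), c₀ a i • (N ^ i) (u₀ a)) := by
  classical
  have hk : 0 < K + 1 := Nat.succ_pos K
  obtain ⟨u₀, hu₀⟩ : ∃ u₀ : ℕ → (Fin n × Fin (K + 1) → F),
      u₀ = fun a => if h : a < n then Pi.single (⟨a, h⟩, ⟨0, hk⟩) 1 else 0 := ⟨_, rfl⟩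
  have hu₀' : ∀ a (h : a < n), u₀ a = Pi.single (⟨a, h⟩, ⟨0, hk⟩) 1 := by
    intro a h
    rw [hu₀]
    exact dif_pos h
  refine ⟨Matrix.toBilin' (snBlockM (K + 1) n S₀), snBlockN (K + 1) n F, u₀,
    snBlock_alt h2 (K + 1) n S₀ hS, snBlock_skew (K + 1) n S₀, ?_, ?_, ?_⟩
  · intro a ha
    rw [hu₀' a ha, snBlockN_pow, dif_neg (by omega)]
  · intro a ha b hb i
    rw [hu₀' a ha, hu₀' b hb, snBlockN_pow]
    by_cases hi : i < K + 1
    · rw [dif_pos hi, Matrix.toBilin'_single]
      simp only [snBlockM, Matrix.of_apply]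
      by_cases hiK : i = K
      · rw [if_pos hiK, if_pos (by omega)]
        simp
      · rw [if_neg hiK, if_neg (by omega)]
    · rw [dif_neg hi, map_zero, if_neg (by omega)]
  · intro v
    refine ⟨fun a i => if h : a < n ∧ i < K + 1 then v (⟨a, h.1⟩, ⟨i, h.2⟩) else 0, ?_⟩
    have h1 := (Pi.basisFun F (Fin n × Fin (K + 1))).sum_repr v
    simp only [Pi.basisFun_repr, Pi.basisFun_apply] at h1
    rw [Fintype.sum_prod_type] at h1
    rw [Finset.sum_range]
    conv_lhs => rw [← h1]
    apply Finset.sum_congr rfl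
    intro a _
    rw [Finset.sum_range]
    apply Finset.sum_congr rfl
    intro i _
    rw [hu₀' a a.2, snBlockN_pow, dif_pos i.2]
    beta_reduce
    rw [dif_pos (⟨a.2, i.2⟩ : (a : ℕ) < n ∧ (i : ℕ) < K + 1)]

theorem sn_prod_pow {V₁ V₂ : Type u} [AddCommGroup V₁] [Module F V₁] [AddCommGroup V₂]
    [Module F V₂] (N₁ : V₁ →ₗ[F] V₁) (N₂ : V₂ →ₗ[F] V₂) (i : ℕ) (x : V₁ × V₂) :
    ((N₁.prodMap N₂) ^ i) x = ((N₁ ^ i) x.1, (N₂ ^ i) x.2) := by
  induction i generalizing x with
  | zero => simp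
  | succ i ih =>
    rw [pow_succ, Module.End.mul_apply, ih, LinearMap.prodMap_apply, pow_succ,
      Module.End.mul_apply, pow_succ, Module.End.mul_apply]

/-- Every symmetric Gram data has a model. -/
theorem sn_model (h2 : (2 : F) ≠ 0) (r : ℕ → ℕ) (S : ℕ → ℕ → ℕ → F) :
    ∀ K : ℕ, (∀ k ≤ K, ∀ a < r k, ∀ b < r k, S k b a = (-1) ^ k * S k a b) →
    ∃ (V : Type u) (_ : AddCommGroup V) (_ : Module F V) (_ : FiniteDimensional F V)
      (B : LinearMap.BilinForm F V) (N : V →ₗ[F] V) (u : ℕ → ℕ → V),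
      (∀ x, B x x = 0) ∧ (∀ x y, B (N x) y = - B x (N y)) ∧ SNF K B N r S u := by
  intro K
  induction K with
  | zero =>
    intro _
    refine ⟨Fin 0 → F, inferInstance, inferInstance, inferInstance, 0, 0, fun _ _ => 0,
      fun x => rfl, fun x y => by simp, ?_, ?_, ?_⟩
    · intro k _ a _
      exact Subsingleton.elim _ _
    · intro k hk a _ k' _ a' _ i
      rw [if_neg (by omega)]
      rfl
    · intro v
      exact ⟨fun _ _ _ => 0, Subsingleton.elim _ _⟩
  | succ K ih =>
    intro hS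
    obtain ⟨V₂, i1, i2, i3, B₂, N₂, u₂, hA₂, hN₂, h₂⟩ := ih (fun k hk => hS k (by omega))
    obtain ⟨B₁, N₁, u₁, hA₁, hN₁, g1, g2, g6⟩ :=
      sn_block_model h2 K (r (K + 1)) (S (K + 1)) (hS (K + 1) le_rfl)
    obtain ⟨B, hB⟩ : ∃ B : LinearMap.BilinForm F ((Fin (r (K + 1)) × Fin (K + 1) → F) × V₂),
        ∀ x y, B x y = B₁ x.1 y.1 + B₂ x.2 y.2 :=
      ⟨B₁.comp (LinearMap.fst F _ _) (LinearMap.fst F _ _)
        + B₂.comp (LinearMap.snd F _ _) (LinearMap.snd F _ _), fun x y => rfl⟩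
    have hpow := sn_prod_pow N₁ N₂
    have hglue := SNF.glue (B := B) (N := N₁.prodMap N₂) (K := K) (n := r (K + 1))
      (S₀ := S (K + 1)) (u₀ := fun a => (u₁ a, 0)) (r' := r) (S' := S)
      (u' := fun k a => (0, u₂ k a))
      (by
        intro a ha
        rw [hpow]
        simp [g1 a ha])
      (by
        intro a ha b hb i
        rw [hpow, hB]
        simp [g2 a ha b hb i])
      (by
        intro k hk a ha
        rw [hpow]
        simp [h₂.1 k hk a ha])
      (by
        intro k hk a ha k' hk' a' ha' i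
        rw [hpow, hB]
        simp [h₂.2.1 k hk a ha k' hk' a' ha' i])
      (by
        intro a ha k hk a' ha' i
        rw [hpow, hpow, hB, hB]
        simp)
      (by
        intro v
        obtain ⟨c₀, hc₀⟩ := g6 v.1
        obtain ⟨c, hc⟩ := h₂.2.2 v.2
        refine ⟨c₀, c, ?_⟩
        apply Prod.ext
        · unfold snSum
          simp only [hpow, Prod.fst_add, Prod.fst_sum, Prod.smul_fst, map_zero, smul_zero,
            Finset.sum_const_zero, add_zero]
          exact hc₀
        · unfold snSum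
          simp only [hpow, Prod.snd_add, Prod.snd_sum, Prod.smul_snd, map_zero, smul_zero,
            Finset.sum_const_zero, zero_add]
          exact hc)
    have hr : (fun k => if k = K + 1 then r (K + 1) else r k) = r := by
      funext k
      split_ifs with h
      · rw [h]
      · rfl
    have hSS : (fun k => if k = K + 1 then S (K + 1) else S k) = S := by
      funext k
      split_ifs with h
      · rw [h]
      · rfl
    rw [hr, hSS] at hglue
    refine ⟨_, inferInstance, inferInstance, inferInstance, B, N₁.prodMap N₂, _, ?_, ?_, hglue⟩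
    · intro x
      rw [hB, hA₁, hA₂, add_zero]
    · intro x y
      rw [hB, hB, LinearMap.prodMap_apply, LinearMap.prodMap_apply, hN₁, hN₂]
      ring

end SNF6

end Cfsg.Agent.Lib.Helper99
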