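import Mathlib
import Cfsg.Agent.Lib.Helper99.SpNF6
import Cfsg.Agent.Lib.Helper99.RegUnip2
import Cfsg.Agent.Lib.Helper13.Symp

/-!
# Normal forms of skew nilpotent maps (part 7): unipotent symplectic matrices

The Cayley transform relates unipotent elements of `Sp_{2m}(F)` (odd characteristic) to skew
nilpotent maps for the standard symplectic form; `snRel` is the resulting relation between
unipotent symplectic matrices and normal form data, with existence, uniqueness, completeness,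
invariance and realisation.
-/

set_option autoImplicit false

namespace Cfsg.Agent.Lib.Helper99

open Finset Module Matrix

universe u v

section SNF7
variable {F : Type u} [Field F]

theorem SNF.nilpotent {V : Type v} [AddCommGroup V] [Module F V] {K : ℕ}
    {B : LinearMap.BilinForm F V} {N : V →ₗ[F] V} {r : ℕ → ℕ} {S : ℕ → ℕ → ℕ → F}
    {u : ℕ → ℕ → V} (h : SNF K B N r S u) (v : V) : (N ^ K) v = 0 := by
  obtain ⟨c, rfl⟩ := h.2.2 v
  unfold snSum
  simp only [map_sum, map_smul, sn_pow_add_apply]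
  refine Finset.sum_eq_zero fun k hk => Finset.sum_eq_zero fun a ha =>
    Finset.sum_eq_zero fun i hi => ?_
  rw [Finset.mem_range] at hk ha hi
  rw [sn_pow_zero_of_le N (by omega) _ (h.1 k (by omega) a ha), smul_zero]

theorem SNF.nondeg {V : Type v} [AddCommGroup V] [Module F V] {K : ℕ}
    {B : LinearMap.BilinForm F V} {N : V →ₗ[F] V} {r : ℕ → ℕ} {S : ℕ → ℕ → ℕ → F}
    {u : ℕ → ℕ → V} (h : SNF K B N r S u) (hN : ∀ x y, B (N x) y = - B x (N y))
    (hS : SNd K r S) (x : V) (hx : ∀ y, B x y = 0) : x = 0 := by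
  obtain ⟨c, rfl⟩ := h.2.2 x
  have hc : ∀ k ≤ K, ∀ a < r k, ∀ i < k, c k a i = 0 := by
    intro k hk a ha i hi
    refine hS.left_inj hk (fun a => c k a i) ?_ a ha
    intro a' ha'
    have h1 := h.pair hN c hk ha' (m := k - 1 - i) (by omega)
    rw [hx, show k - 1 - (k - 1 - i) = i by omega] at h1
    exact (mul_eq_zero.mp h1.symm).resolve_left (pow_ne_zero _ (neg_ne_zero.mpr one_ne_zero))
  unfold snSum
  refine Finset.sum_eq_zero fun k hk => Finset.sum_eq_zero fun a ha =>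
    Finset.sum_eq_zero fun i hi => ?_
  rw [Finset.mem_range] at hk ha hi
  rw [hc k (by omega) a ha i hi, zero_smul]

/-- The standard symplectic form as a bilinear form. -/
noncomputable def snJ (m : ℕ) (F : Type u) [Field F] :
    LinearMap.BilinForm F (Fin m ⊕ Fin m → F) :=
  Matrix.toBilin' (Matrix.J (Fin m) F)

theorem snJ_comp (m : ℕ) (P Q : Matrix (Fin m ⊕ Fin m) (Fin m ⊕ Fin m) F)
    (x y : Fin m ⊕ Fin m → F) :
    snJ m F (P *ᵥ x) (Q *ᵥ y) = Matrix.toBilin' (Pᵀ * Matrix.J (Fin m) F * Q) x y := by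
  have h := Matrix.toBilin'_comp (Matrix.J (Fin m) F) P Q
  have h1 := congrArg (fun T : LinearMap.BilinForm F (Fin m ⊕ Fin m → F) => T x y) h
  simp only [LinearMap.BilinForm.comp_apply, Matrix.toLin'_apply] at h1
  exact h1

theorem snJ_skew_of_sadj (m : ℕ) (N : Matrix (Fin m ⊕ Fin m) (Fin m ⊕ Fin m) F)
    (hN : sadj N = -N) (x y : Fin m ⊕ Fin m → F) :
    snJ m F (N *ᵥ x) y = - snJ m F x (N *ᵥ y) := by
  have hJ := Matrix.J_squared (Fin m) F
  have h1 : Matrix.J (Fin m) F * Nᵀ * Matrix.J (Fin m) F = N := by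
    unfold sadj at hN
    exact neg_injective hN
  have hM : Nᵀ * Matrix.J (Fin m) F = -(Matrix.J (Fin m) F * N) := by
    have h3 : Matrix.J (Fin m) F * N = -(Nᵀ * Matrix.J (Fin m) F) := by
      conv_lhs => rw [← h1]
      rw [← Matrix.mul_assoc, ← Matrix.mul_assoc, hJ]
      simp
    rw [h3, neg_neg]
  have e1 := snJ_comp m N 1 x y
  have e2 := snJ_comp m 1 N x y
  rw [Matrix.one_mulVec] at e1 e2
  rw [e1, e2, mul_one, Matrix.transpose_one, one_mul, hM, map_neg]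
  rfl

theorem sn_sadj_of_skew (m : ℕ) (N : Matrix (Fin m ⊕ Fin m) (Fin m ⊕ Fin m) F)
    (h : ∀ x y : Fin m ⊕ Fin m → F, snJ m F (N *ᵥ x) y = - snJ m F x (N *ᵥ y)) :
    sadj N = -N := by
  have hJ := Matrix.J_squared (Fin m) F
  have hM : Nᵀ * Matrix.J (Fin m) F = -(Matrix.J (Fin m) F * N) := by
    apply (Matrix.toBilin' (R₁ := F)).injective
    apply LinearMap.ext
    intro x
    apply LinearMap.ext
    intro y
    have e1 := snJ_comp m N 1 x y
    have e2 := snJ_comp m 1 N x y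
    rw [Matrix.one_mulVec] at e1 e2
    rw [mul_one] at e1
    rw [Matrix.transpose_one, one_mul] at e2
    rw [← e1, h, e2, map_neg]
    rfl
  unfold sadj
  rw [Matrix.mul_assoc, hM, Matrix.mul_neg, ← Matrix.mul_assoc, hJ]
  simp

theorem snJ_alt (h2 : (2 : F) ≠ 0) (m : ℕ) (x : Fin m ⊕ Fin m → F) : snJ m F x x = 0 := by
  have hJ : ∀ i j, Matrix.J (Fin m) F j i = - Matrix.J (Fin m) F i j := by
    intro i j
    have h1 := congrFun (congrFun (Matrix.J_transpose (Fin m) F) i) j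
    rw [Matrix.transpose_apply, Matrix.neg_apply] at h1
    exact h1
  have h1 : snJ m F x x = - snJ m F x x := by
    unfold snJ
    rw [Matrix.toBilin'_apply]
    conv_lhs => rw [Finset.sum_comm]
    rw [← Finset.sum_neg_distrib]
    apply Finset.sum_congr rfl
    intro i _
    rw [← Finset.sum_neg_distrib]
    apply Finset.sum_congr rfl
    intro j _
    rw [hJ i j]
    ring
  have h3 : (2 : F) * snJ m F x x = 0 := by linear_combination h1
  exact (mul_eq_zero.mp h3).resolve_left h2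

theorem snJ_nondeg (m : ℕ) (x : Fin m ⊕ Fin m → F) (hx : ∀ y, snJ m F x y = 0) : x = 0 := by
  have hdet : (Matrix.J (Fin m) F).det ≠ 0 := by
    intro h0
    have h1 := Matrix.J_det_mul_J_det (Fin m) F
    rw [h0, mul_zero] at h1
    exact zero_ne_one h1
  have h1 : x ᵥ* Matrix.J (Fin m) F = 0 := by
    apply dotProduct_eq_zero
    intro y
    have h3 := hx y
    unfold snJ at h3
    rw [Matrix.toBilin'_apply', dotProduct_mulVec] at h3
    exact h3
  exact Matrix.eq_zero_of_vecMul_eq_zero hdet h1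

theorem snJ_isom {m : ℕ} {g : Matrix (Fin m ⊕ Fin m) (Fin m ⊕ Fin m) F}
    (hg : g ∈ Matrix.symplecticGroup (Fin m) F) (x y : Fin m ⊕ Fin m → F) :
    snJ m F (g *ᵥ x) (g *ᵥ y) = snJ m F x y := by
  rw [snJ_comp, SymplecticGroup.mem_iff'.mp hg]
  rfl

theorem sn_mem_symp_of_isom {m : ℕ} (φ : (Fin m ⊕ Fin m → F) ≃ₗ[F] (Fin m ⊕ Fin m → F))
    (h : ∀ x y, snJ m F (φ x) (φ y) = snJ m F x y) :
    LinearMap.toMatrix' φ.toLinearMap ∈ Matrix.symplecticGroup (Fin m) F := by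
  apply Cfsg.Agent.Lib.Helper13.mem_symplecticGroup_of_sympForm m
  intro u v
  rw [LinearMap.toMatrix'_mulVec, LinearMap.toMatrix'_mulVec]
  have h1 := h u v
  unfold snJ at h1
  rw [Matrix.toBilin'_apply', Matrix.toBilin'_apply'] at h1
  exact h1

/-- Conjugation of quotients. -/
theorem sn_conj_quot {ι : Type*} [Fintype ι] [DecidableEq ι] (h A B A' B' : Matrix ι ι F)
    (hA : h * A = A' * h) (hB : h * B = B' * h) (hBu : IsUnit B.det) (hB'u : IsUnit B'.det) :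
    h * (A * B⁻¹) = A' * B'⁻¹ * h := by
  have h1 : h * B⁻¹ = B'⁻¹ * h := by
    calc h * B⁻¹ = B'⁻¹ * (B' * h) * B⁻¹ := by
          rw [← Matrix.mul_assoc, Matrix.nonsing_inv_mul _ hB'u, one_mul]
      _ = B'⁻¹ * (h * B) * B⁻¹ := by rw [hB]
      _ = B'⁻¹ * h := by
          rw [Matrix.mul_assoc, Matrix.mul_assoc, Matrix.mul_nonsing_inv _ hBu, mul_one]
  rw [← Matrix.mul_assoc, hA, Matrix.mul_assoc, h1, ← Matrix.mul_assoc]

/-- Basic facts on the inverse Cayley transform of an element of order dividing `p`. -/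
theorem sn_unip_facts {p : ℕ} [Fact p.Prime] [CharP F p] (h2 : (2 : F) ≠ 0) {m : ℕ}
    (g : Matrix (Fin m ⊕ Fin m) (Fin m ⊕ Fin m) F) (hgp : g ^ p = 1) :
    IsUnit (g + 1).det ∧ (ruCayInv g) ^ p = 0 ∧ IsUnit (1 - ruCayInv g).det := by
  rcases isEmpty_or_nonempty (Fin m ⊕ Fin m) with hem | hne
  · refine ⟨?_, Subsingleton.elim _ _, ?_⟩
    · rw [Matrix.det_isEmpty]
      exact isUnit_one
    · rw [Matrix.det_isEmpty]
      exact isUnit_one
  · have hnil : (g - 1) ^ p = 0 := by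
      rw [sub_pow_char_of_commute p (Commute.one_right g), hgp, one_pow, sub_self]
    have hu : IsUnit (g + 1) := by
      have h1 : IsNilpotent (g - 1) := ⟨p, hnil⟩
      have h3 := h1.isUnit_add_left_of_commute (ru_smul_one_isUnit (ι := Fin m ⊕ Fin m) 2 h2)
        ((Commute.one_right _).smul_right 2)
      have e : (2 : F) • (1 : Matrix (Fin m ⊕ Fin m) (Fin m ⊕ Fin m) F) + (g - 1) = g + 1 := by
        rw [two_smul]
        abel
      rw [e] at h3
      exact h3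
    have hdet : IsUnit (g + 1).det := (Matrix.isUnit_iff_isUnit_det _).mp hu
    have hNp : (ruCayInv g) ^ p = 0 := by
      unfold ruCayInv
      have hc : Commute (g - 1) (g + 1)⁻¹ :=
        (ru_inv_comm (g + 1) (g - 1) hdet (by noncomm_ring)).symm
      rw [hc.mul_pow, hnil, zero_mul]
    have hnilN : IsNilpotent (ruCayInv g) := ⟨p, hNp⟩
    exact ⟨hdet, hNp, (Matrix.isUnit_iff_isUnit_det _).mp hnilN.isUnit_one_sub⟩

theorem sn_cayInv_sadj {m : ℕ} (g : Matrix (Fin m ⊕ Fin m) (Fin m ⊕ Fin m) F)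
    (hg : g ∈ Matrix.symplecticGroup (Fin m) F) (hdet : IsUnit (g + 1).det) :
    sadj (ruCayInv g) = -ruCayInv g := by
  have hhg : sadj g * g = 1 := (mem_symp_iff_sadj g).mp hg
  have hgh : g * sadj g = 1 := mul_eq_one_comm.mp hhg
  unfold ruCayInv
  rw [sadj_mul, sadj_inv _ hdet, sadj_sub, sadj_add, sadj_one]
  have e1 : sadj g + 1 = sadj g * (g + 1) := by
    rw [mul_add, hhg, mul_one]
    abel
  have e2 : sadj g - 1 = sadj g * (1 - g) := by
    rw [mul_sub, hhg, mul_one]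
  have e3 : (sadj g)⁻¹ = g := Matrix.inv_eq_right_inv hhg
  rw [e1, Matrix.mul_inv_rev, e3, e2]
  have e4 : (g + 1)⁻¹ * g * (sadj g * (1 - g)) = (g + 1)⁻¹ * (1 - g) := by
    rw [Matrix.mul_assoc, ← Matrix.mul_assoc g (sadj g), hgh, one_mul]
  rw [e4]
  have e5 := ru_inv_comm (g + 1) (g - 1) hdet (by noncomm_ring)
  have e6 : (1 - g : Matrix (Fin m ⊕ Fin m) (Fin m ⊕ Fin m) F) = -(g - 1) := by abel
  rw [e6, mul_neg, e5]

theorem sn_skew_of_unip {p : ℕ} [Fact p.Prime] [CharP F p] (h2 : (2 : F) ≠ 0) {m : ℕ}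
    (g : Matrix (Fin m ⊕ Fin m) (Fin m ⊕ Fin m) F)
    (hg : g ∈ Matrix.symplecticGroup (Fin m) F) (hgp : g ^ p = 1)
    (x y : Fin m ⊕ Fin m → F) :
    snJ m F (Matrix.toLin' (ruCayInv g) x) y = - snJ m F x (Matrix.toLin' (ruCayInv g) y) := by
  rw [Matrix.toLin'_apply, Matrix.toLin'_apply]
  exact snJ_skew_of_sadj m _ (sn_cayInv_sadj g hg (sn_unip_facts h2 g hgp).1) x y

/-- The relation between a unipotent symplectic matrix and normal form data. -/
def snRel (p m : ℕ) (g : Matrix (Fin m ⊕ Fin m) (Fin m ⊕ Fin m) F) (r : ℕ → ℕ) (d : ℕ → F) :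
    Prop :=
  ∃ u, SNF p (snJ m F) (Matrix.toLin' (ruCayInv g)) r (snStd r d) u

theorem sn_rel_exists [Fintype F] {p : ℕ} [Fact p.Prime] [CharP F p] (h2 : (2 : F) ≠ 0)
    (hF : Odd (Fintype.card F)) (ζ : F) (hζ : ¬ IsSquare ζ) {m : ℕ}
    (g : Matrix (Fin m ⊕ Fin m) (Fin m ⊕ Fin m) F)
    (hg : g ∈ Matrix.symplecticGroup (Fin m) F) (hgp : g ^ p = 1) :
    ∃ (r : ℕ → ℕ) (d : ℕ → F), r 0 = 0 ∧ (∀ k, d k = 1 ∨ d k = ζ) ∧
      (∀ k ≤ p, Odd k → Even (r k)) ∧ snRel p m g r d := by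
  obtain ⟨hdet, hNp, -⟩ := sn_unip_facts h2 g hgp
  obtain ⟨r, d, u, h0, hd, hpar, hS⟩ := sn_exists h2 hF ζ hζ p (Fin m ⊕ Fin m → F) (snJ m F)
    (snJ_alt h2 m) (snJ_nondeg m) (Matrix.toLin' (ruCayInv g)) (sn_skew_of_unip h2 g hg hgp)
    (by rw [← Matrix.toLin'_pow, hNp, map_zero])
  exact ⟨r, d, h0, hd, hpar, u, hS⟩

theorem sn_rel_unique {p : ℕ} [Fact p.Prime] [CharP F p] (h2 : (2 : F) ≠ 0) {m : ℕ}
    (g : Matrix (Fin m ⊕ Fin m) (Fin m ⊕ Fin m) F)
    (hg : g ∈ Matrix.symplecticGroup (Fin m) F) (hgp : g ^ p = 1) {r r' : ℕ → ℕ}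
    {d d' : ℕ → F} (hd : ∀ k, d k ≠ 0) (hd' : ∀ k, d' k ≠ 0)
    (hpar : ∀ k ≤ p, Odd k → Even (r k)) (hpar' : ∀ k ≤ p, Odd k → Even (r' k))
    (h : snRel p m g r d) (h' : snRel p m g r' d') {k : ℕ} (hk1 : 1 ≤ k) (hk : k ≤ p) :
    r' k = r k ∧ (Even k → 1 ≤ r k → ∃ t : F, d' k = t * t * d k) := by
  obtain ⟨u, hu⟩ := h
  obtain ⟨u', hu'⟩ := h'
  have hskew := sn_skew_of_unip h2 g hg hgp
  have hS := snStd_nd p r d hd hpar
  have hS' := snStd_nd p r' d' hd' hpar'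
  have hc := hu.count_eq hskew hS hu' hS' hk1 hk
  refine ⟨hc, fun hev hr => ?_⟩
  obtain ⟨t, ht⟩ := hu.det_eq hskew hS hu' hS' hk1 hk
  refine ⟨t, ?_⟩
  have e1 : (Matrix.of fun a b : Fin (r k) => snStd r' d' k a b)
      = Matrix.of fun a b : Fin (r k) => snStd1 k (r k) (d' k) a b := by
    unfold snStd
    rw [hc]
  have e2 : (Matrix.of fun a b : Fin (r k) => snStd r d k a b)
      = Matrix.of fun a b : Fin (r k) => snStd1 k (r k) (d k) a b := rfl
  rw [e1, e2, snStd1_det_even k (r k) (d' k) hev hr, snStd1_det_even k (r k) (d k) hev hr] at ht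
  exact ht

theorem sn_rel_conj {p : ℕ} [Fact p.Prime] [CharP F p] (h2 : (2 : F) ≠ 0) {m : ℕ}
    (g g' : Matrix (Fin m ⊕ Fin m) (Fin m ⊕ Fin m) F)
    (hg : g ∈ Matrix.symplecticGroup (Fin m) F) (hg' : g' ∈ Matrix.symplecticGroup (Fin m) F)
    (hgp : g ^ p = 1) (hgp' : g' ^ p = 1) {r : ℕ → ℕ} {d : ℕ → F} (hd : ∀ k, d k ≠ 0)
    (hpar : ∀ k ≤ p, Odd k → Even (r k)) (h : snRel p m g r d) (h' : snRel p m g' r d) :
    ∃ c : Matrix (Fin m ⊕ Fin m) (Fin m ⊕ Fin m) F,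
      c ∈ Matrix.symplecticGroup (Fin m) F ∧ c * g = g' * c := by
  obtain ⟨u, hu⟩ := h
  obtain ⟨u', hu'⟩ := h'
  obtain ⟨hdet, -, hu1⟩ := sn_unip_facts h2 g hgp
  obtain ⟨hdet', -, hu1'⟩ := sn_unip_facts h2 g' hgp'
  obtain ⟨φ, hφB, hφN⟩ := hu.iso hu' (sn_skew_of_unip h2 g hg hgp)
    (sn_skew_of_unip h2 g' hg' hgp') (snStd_nd p r d hd hpar)
  refine ⟨LinearMap.toMatrix' φ.toLinearMap, sn_mem_symp_of_isom φ hφB, ?_⟩
  have hcN : LinearMap.toMatrix' φ.toLinearMap * ruCayInv g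
      = ruCayInv g' * LinearMap.toMatrix' φ.toLinearMap := by
    have h1 : φ.toLinearMap ∘ₗ Matrix.toLin' (ruCayInv g)
        = Matrix.toLin' (ruCayInv g') ∘ₗ φ.toLinearMap := LinearMap.ext (fun x => hφN x)
    have h3 := congrArg LinearMap.toMatrix' h1
    rw [LinearMap.toMatrix'_comp, LinearMap.toMatrix'_comp, LinearMap.toMatrix'_toLin',
      LinearMap.toMatrix'_toLin'] at h3
    exact h3
  have e : LinearMap.toMatrix' φ.toLinearMap * ruCay (ruCayInv g)
      = ruCay (ruCayInv g') * LinearMap.toMatrix' φ.toLinearMap :=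
    sn_conj_quot _ (1 + ruCayInv g) (1 - ruCayInv g) (1 + ruCayInv g') (1 - ruCayInv g')
      (by rw [mul_add, add_mul, hcN, mul_one, one_mul])
      (by rw [mul_sub, sub_mul, hcN, mul_one, one_mul]) hu1 hu1'
  rw [ruCay_cayInv h2 g hdet, ruCay_cayInv h2 g' hdet'] at e
  exact e

theorem sn_rel_of_conj {p : ℕ} [Fact p.Prime] [CharP F p] (h2 : (2 : F) ≠ 0) {m : ℕ}
    (c g g' : Matrix (Fin m ⊕ Fin m) (Fin m ⊕ Fin m) F)
    (hc : c ∈ Matrix.symplecticGroup (Fin m) F) (hcg : c * g = g' * c)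
    (hgp : g ^ p = 1) (hgp' : g' ^ p = 1) {r : ℕ → ℕ} {d : ℕ → F} (h : snRel p m g r d) :
    snRel p m g' r d := by
  obtain ⟨u, hu⟩ := h
  have hcdet : IsUnit c.det := SymplecticGroup.symplectic_det hc
  obtain ⟨hdet, -, -⟩ := sn_unip_facts h2 g hgp
  obtain ⟨hdet', -, -⟩ := sn_unip_facts h2 g' hgp'
  obtain ⟨φ, hφ⟩ : ∃ φ : (Fin m ⊕ Fin m → F) ≃ₗ[F] (Fin m ⊕ Fin m → F), ∀ x, φ x = c *ᵥ x :=
    ⟨LinearEquiv.ofLinearMap (Matrix.toLin' c) (Matrix.toLin' c⁻¹)
      (by rw [← Matrix.toLin'_mul, Matrix.mul_nonsing_inv _ hcdet, Matrix.toLin'_one])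
      (by rw [← Matrix.toLin'_mul, Matrix.nonsing_inv_mul _ hcdet, Matrix.toLin'_one]),
      fun x => rfl⟩
  have hcN : c * ruCayInv g = ruCayInv g' * c :=
    sn_conj_quot c (g - 1) (g + 1) (g' - 1) (g' + 1)
      (by rw [mul_sub, sub_mul, hcg, mul_one, one_mul])
      (by rw [mul_add, add_mul, hcg, mul_one, one_mul]) hdet hdet'
  refine ⟨_, hu.of_iso φ (fun x y => by rw [hφ, hφ]; exact snJ_isom hc x y) (fun x => ?_)⟩
  rw [hφ, hφ, Matrix.toLin'_apply, Matrix.toLin'_apply, Matrix.mulVec_mulVec,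
    Matrix.mulVec_mulVec, hcN]

/-- A symplectic coordinate system for a nondegenerate alternating form. -/
theorem sn_symp_equiv {V : Type v} [AddCommGroup V] [Module F V] [FiniteDimensional F V]
    (B : LinearMap.BilinForm F V) (hA : ∀ x, B x x = 0) (hnd : ∀ x, (∀ y, B x y = 0) → x = 0)
    {m : ℕ} (hfin : finrank F V = 2 * m) :
    ∃ φ : V ≃ₗ[F] (Fin m ⊕ Fin m → F), ∀ x y, snJ m F (φ x) (φ y) = B x y := by
  classical
  obtain ⟨m', k', b, hb1, hb2, hb3, hb4⟩ := alt_basis B hA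
  have hk' : k' = 0 := by
    by_contra hne
    have hpos : 0 < k' := Nat.pos_of_ne_zero hne
    exact b.ne_zero _ (hnd (b (Sum.inr ⟨0, hpos⟩)) (fun y => hb4 _ y))
  subst hk'
  have hm' : m' = m := by
    have hc := Module.finrank_eq_card_basis b
    rw [hfin] at hc
    simp only [Fintype.card_sum, Fintype.card_fin] at hc
    omega
  subst hm'
  have hneg : ∀ x y, B x y = - B y x := by
    intro x y
    have h1 := hA (x + y)
    simp only [map_add, LinearMap.add_apply] at h1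
    rw [hA x, hA y] at h1
    linear_combination h1
  obtain ⟨b', hb'l, hb'r⟩ : ∃ b' : Basis (Fin m' ⊕ Fin m') F V,
      (∀ i, b' (Sum.inl i) = b (Sum.inl (Sum.inr i))) ∧
      (∀ i, b' (Sum.inr i) = b (Sum.inl (Sum.inl i))) :=
    ⟨b.reindex ((Equiv.sumEmpty _ _).trans (Equiv.sumComm _ _)),
      fun i => by rw [Basis.reindex_apply]; rfl, fun i => by rw [Basis.reindex_apply]; rfl⟩
  refine ⟨b'.equivFun, ?_⟩
  have key : (snJ m' F).comp b'.equivFun.toLinearMap b'.equivFun.toLinearMap = B := by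
    apply LinearMap.BilinForm.ext_basis b'
    intro i j
    have hsingle : ∀ i, b'.equivFun (b' i) = Pi.single i 1 := by
      intro i
      funext k
      rw [Basis.equivFun_self, Pi.single_apply]
      simp [eq_comm]
    rw [LinearMap.BilinForm.comp_apply, LinearEquiv.coe_coe, hsingle, hsingle]
    unfold snJ
    rw [Matrix.toBilin'_single]
    rcases i with i | i <;> rcases j with j | j
    · rw [hb'l, hb'l, hb3]
      simp [Matrix.J]
    · rw [hb'l, hb'r, hneg, hb1]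
      simp [Matrix.J, Matrix.one_apply, eq_comm]
    · rw [hb'r, hb'l, hb1]
      simp [Matrix.J, Matrix.one_apply]
    · rw [hb'r, hb'r, hb2]
      simp [Matrix.J]
  intro x y
  have h1 := congrArg (fun T : LinearMap.BilinForm F V => T x y) key
  simpa [LinearMap.BilinForm.comp_apply] using h1

theorem sn_rel_model {p : ℕ} [Fact p.Prime] [CharP F p] (h2 : (2 : F) ≠ 0) {m : ℕ}
    (r : ℕ → ℕ) (d : ℕ → F) (hd : ∀ k, d k ≠ 0) (hpar : ∀ k ≤ p, Odd k → Even (r k))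
    (hsum : ∑ k ∈ range (p + 1), r k * k = 2 * m) :
    ∃ g : Matrix (Fin m ⊕ Fin m) (Fin m ⊕ Fin m) F,
      g ∈ Matrix.symplecticGroup (Fin m) F ∧ g ^ p = 1 ∧ snRel p m g r d := by
  have hsym : ∀ k ≤ p, ∀ a < r k, ∀ b < r k,
      snStd r d k b a = (-1) ^ k * snStd r d k a b :=
    fun k hk a ha b hb => snStd1_symm k (r k) (d k) (hpar k hk) a b ha hb
  obtain ⟨V, i1, i2, i3, B, N₀, u₀, hA, hN₀, hS⟩ := sn_model h2 r (snStd r d) p hsym
  have hnd := snStd_nd p r d hd hpar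
  have hfin := hS.finrank hN₀ hnd
  have hBnd : ∀ x, (∀ y, B x y = 0) → x = 0 := hS.nondeg hN₀ hnd
  obtain ⟨φ, hφ⟩ := sn_symp_equiv B hA hBnd (m := m) (by rw [hfin, hsum])
  obtain ⟨N, hNdef⟩ : ∃ N : Matrix (Fin m ⊕ Fin m) (Fin m ⊕ Fin m) F,
      N = LinearMap.toMatrix' (φ.toLinearMap ∘ₗ N₀ ∘ₗ φ.symm.toLinearMap) := ⟨_, rfl⟩
  have hφN : ∀ x, φ (N₀ x) = Matrix.toLin' N (φ x) := by
    intro x
    rw [hNdef, Matrix.toLin'_toMatrix']
    simp
  have hS' := hS.of_iso φ hφ hφN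
  have hskew : ∀ x y : Fin m ⊕ Fin m → F, snJ m F (N *ᵥ x) y = - snJ m F x (N *ᵥ y) := by
    intro x y
    obtain ⟨x₀, rfl⟩ := φ.surjective x
    obtain ⟨y₀, rfl⟩ := φ.surjective y
    have e1 := hφN x₀
    have e2 := hφN y₀
    rw [Matrix.toLin'_apply] at e1 e2
    rw [← e1, ← e2, hφ, hφ, hN₀]
  have hsadj := sn_sadj_of_skew m N hskew
  have hNp : N ^ p = 0 := by
    have h1 : Matrix.toLin' (N ^ p) = 0 := by
      rw [Matrix.toLin'_pow]
      apply LinearMap.ext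
      intro v
      exact hS'.nilpotent v
    exact (LinearEquiv.map_eq_zero_iff _).mp h1
  have hnil : IsNilpotent N := ⟨p, hNp⟩
  have ha : IsUnit (1 - N).det := (Matrix.isUnit_iff_isUnit_det _).mp hnil.isUnit_one_sub
  have hb : IsUnit (1 + N).det := (Matrix.isUnit_iff_isUnit_det _).mp hnil.isUnit_one_add
  refine ⟨ruCay N, (mem_symp_iff_sadj _).mpr (cay_symp N hsadj ha hb), ?_, ?_⟩
  · rcases isEmpty_or_nonempty (Fin m ⊕ Fin m) with hem | hne
    · exact Subsingleton.elim _ _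
    · have hsub : (ruCay N - 1) ^ p = 0 := by
        rw [ruCay_sub_one _ ha]
        have hc : Commute ((2 : F) • N) ((1 - N)⁻¹) := by
          have h1 : (1 - N) * N = N * (1 - N) := by noncomm_ring
          have h2' := ru_inv_comm _ _ ha h1
          show (2 : F) • N * (1 - N)⁻¹ = (1 - N)⁻¹ * ((2 : F) • N)
          rw [Matrix.smul_mul, Matrix.mul_smul, h2']
        rw [hc.mul_pow, smul_pow, hNp, smul_zero, zero_mul]
      have e : ruCay N = (ruCay N - 1) + 1 := by abel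
      rw [e, add_pow_char_of_commute p (Commute.one_right _), hsub, one_pow, zero_add]
  · refine ⟨fun k a => φ (u₀ k a), ?_⟩
    rw [ruCayInv_cay h2 N ha]
    exact hS'

end SNF7

end Cfsg.Agent.Lib.Helper99
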