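import Mathlib
import Cfsg.Prelude.Def_RootSubgroups
import Cfsg.Agent.Lib.Helper8.SpGen
import Cfsg.Agent.Lib.Helper99.RootGrp2

set_option autoImplicit false

namespace Cfsg.Agent.Lib.Helper99

open Matrix
open Cfsg.Agent.Lib.Helper13 Cfsg.Agent.Lib.Helper8

section Emb

variable {ι : Type*} [Fintype ι] [DecidableEq ι] {k : Type*} [Field k]

/-- the matrix with columns `v, w` (general index type) -/
def colMat' (v w : ι → k) : Matrix ι (Fin 2) k :=
  Matrix.of fun i j => if j = 0 then v i else w i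

/-- the matrix with rows `φ, ψ` (general index type) -/
def rowMat' (φ ψ : ι → k) : Matrix (Fin 2) ι k :=
  Matrix.of fun i j => if i = 0 then φ j else ψ j

omit [DecidableEq ι] in
theorem rowMat'_mul_colMat' (φ ψ v w : ι → k) :
    rowMat' φ ψ * colMat' v w = !![φ ⬝ᵥ v, φ ⬝ᵥ w; ψ ⬝ᵥ v, ψ ⬝ᵥ w] := by
  ext i j
  fin_cases i <;> fin_cases j <;> simp [rowMat', colMat', Matrix.mul_apply, dotProduct]

omit [Fintype ι] [DecidableEq ι] in
theorem colMat'_mul_mul_rowMat' (v w φ ψ : ι → k) (X : Matrix (Fin 2) (Fin 2) k) :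
    colMat' v w * X * rowMat' φ ψ = X 0 0 • vecMulVec v φ + X 0 1 • vecMulVec v ψ +
      X 1 0 • vecMulVec w φ + X 1 1 • vecMulVec w ψ := by
  ext i j
  simp only [colMat', rowMat', Matrix.mul_apply, Fin.sum_univ_two, vecMulVec_apply, Matrix.of_apply,
    Matrix.add_apply, Matrix.smul_apply, smul_eq_mul]
  simp
  ring

/-- `1 + B (M - 1) B'` -/
def embMat (B : Matrix ι (Fin 2) k) (B' : Matrix (Fin 2) ι k) (M : Matrix (Fin 2) (Fin 2) k) :
    Matrix ι ι k := 1 + B * (M - 1) * B'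

omit [Fintype ι] in
theorem embMat_one (B : Matrix ι (Fin 2) k) (B' : Matrix (Fin 2) ι k) : embMat B B' 1 = 1 := by
  simp [embMat]

theorem embMat_mul (B : Matrix ι (Fin 2) k) (B' : Matrix (Fin 2) ι k) (h : B' * B = 1)
    (M M' : Matrix (Fin 2) (Fin 2) k) :
    embMat B B' (M * M') = embMat B B' M * embMat B B' M' := by
  unfold embMat
  have e : (B * (M - 1) * B') * (B * (M' - 1) * B') = B * ((M - 1) * (M' - 1)) * B' := by
    calc (B * (M - 1) * B') * (B * (M' - 1) * B')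
        = B * (M - 1) * (B' * B) * (M' - 1) * B' := by simp only [Matrix.mul_assoc]
      _ = _ := by
          rw [h, Matrix.mul_one]
          simp only [Matrix.mul_assoc]
  have e2 : M * M' - 1 = (M - 1) + (M' - 1) + (M - 1) * (M' - 1) := by noncomm_ring
  rw [e2, Matrix.mul_add, Matrix.mul_add, Matrix.add_mul, Matrix.add_mul, ← e]
  noncomm_ring

theorem embMat_inj (B : Matrix ι (Fin 2) k) (B' : Matrix (Fin 2) ι k) (h : B' * B = 1)
    {M M' : Matrix (Fin 2) (Fin 2) k} (hM : embMat B B' M = embMat B B' M') : M = M' := by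
  unfold embMat at hM
  have h2 : B * (M - 1) * B' = B * (M' - 1) * B' := add_left_cancel hM
  have e : ∀ X : Matrix (Fin 2) (Fin 2) k, B' * (B * X * B') * B = X := by
    intro X
    calc B' * (B * X * B') * B = (B' * B) * X * (B' * B) := by simp only [Matrix.mul_assoc]
      _ = X := by rw [h, Matrix.one_mul, Matrix.mul_one]
  have h3 : M - 1 = M' - 1 := by rw [← e (M - 1), h2, e]
  exact sub_left_injective h3

theorem embMat_mulVec (v w φ ψ : ι → k) (M : Matrix (Fin 2) (Fin 2) k) (x : ι → k) :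
    embMat (colMat' v w) (rowMat' φ ψ) M *ᵥ x =
      x + ((M 0 0 - 1) * (φ ⬝ᵥ x) + M 0 1 * (ψ ⬝ᵥ x)) • v +
        (M 1 0 * (φ ⬝ᵥ x) + (M 1 1 - 1) * (ψ ⬝ᵥ x)) • w := by
  rw [embMat, colMat'_mul_mul_rowMat']
  simp only [Matrix.add_mulVec, Matrix.one_mulVec, Matrix.smul_mulVec, Matrix.vecMulVec_mulVec,
    op_smul_eq_smul, Matrix.sub_apply, Matrix.one_apply_eq, Matrix.one_apply_ne, ne_eq,
    Fin.isValue, zero_ne_one, one_ne_zero, not_false_eq_true, sub_zero]
  module

end Emb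

section SpRoot

variable {F : Type*} [Field F] {m : ℕ}

/-- the symplectic root group `T(p)` -/
def spRoot (p : Fin m ⊕ Fin m → F) : Subgroup (Matrix.symplecticGroup (Fin m) F) :=
  Subgroup.closure {g | ∃ c : F, g = spT p c}

theorem mem_spRoot (p : Fin m ⊕ Fin m → F) (g : Matrix.symplecticGroup (Fin m) F) :
    g ∈ spRoot p ↔ ∃ c : F, g = spT p c := by
  constructor
  · intro hg
    induction hg using Subgroup.closure_induction with
    | mem x hx => exact hx
    | one => exact ⟨0, (spT_zero_right p).symm⟩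
    | mul x y _ _ hx hy =>
      obtain ⟨c, rfl⟩ := hx
      obtain ⟨d, rfl⟩ := hy
      exact ⟨c + d, spT_mul p c d⟩
    | inv x _ hx =>
      obtain ⟨c, rfl⟩ := hx
      exact ⟨-c, spT_inv p c⟩
  · exact fun h => Subgroup.subset_closure h

theorem spT_mem_spRoot (p : Fin m ⊕ Fin m → F) (c : F) : spT p c ∈ spRoot p :=
  Subgroup.subset_closure ⟨c, rfl⟩

theorem stmt_gen_eq (p : Fin m ⊕ Fin m → F) :
    {g : Matrix.symplecticGroup (Fin m) F | ∃ c : F, ∀ v : Fin m ⊕ Fin m → F,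
      (g : Matrix (Fin m ⊕ Fin m) (Fin m ⊕ Fin m) F) *ᵥ v =
        v + (c * (v ⬝ᵥ (Matrix.J (Fin m) F *ᵥ p))) • p} = {g | ∃ c : F, g = spT p c} := by
  ext g
  constructor
  · rintro ⟨c, hc⟩
    refine ⟨c, sp_ext fun x => ?_⟩
    rw [spAct_spT]
    exact hc x
  · rintro ⟨c, rfl⟩
    exact ⟨c, fun v => spAct_spT p c v⟩

theorem conjBy_spRoot (g : Matrix.symplecticGroup (Fin m) F) (p : Fin m ⊕ Fin m → F) :
    Cfsg.conjBy (spRoot p) g = spRoot (spAct g p) := by
  rw [Cfsg.conjBy, spRoot, MonoidHom.map_closure, spRoot]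
  congr 1
  ext t
  constructor
  · rintro ⟨s, ⟨c, rfl⟩, rfl⟩
    exact ⟨c, conj_spT g p c⟩
  · rintro ⟨c, rfl⟩
    exact ⟨spT p c, ⟨c, rfl⟩, conj_spT g p c⟩

theorem spRoot_smul (a : F) (ha : a ≠ 0) (p : Fin m ⊕ Fin m → F) :
    spRoot (a • p) = spRoot p := by
  rw [spRoot, spRoot]
  congr 1
  ext t
  constructor
  · rintro ⟨c, rfl⟩
    exact ⟨a * a * c, spT_smul a p c⟩
  · rintro ⟨c, rfl⟩
    refine ⟨c / (a * a), ?_⟩
    rw [spT_smul]
    congr 1
    field_simp

theorem spT_comm {p q : Fin m ⊕ Fin m → F} (h : Cfsg.sympForm m F p q = 0) (c d : F) :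
    spT p c * spT q d = spT q d * spT p c := by
  apply sp_ext
  intro x
  have h' : Cfsg.sympForm m F q p = 0 := by rw [sympForm_swap, h, neg_zero]
  simp only [spAct_mul, spAct_spT, sympForm_add_left, sympForm_smul_left, h, h', mul_zero,
    add_zero]
  abel

theorem spRoot_commute {p q : Fin m ⊕ Fin m → F} (h : Cfsg.sympForm m F p q = 0)
    {a b : Matrix.symplecticGroup (Fin m) F} (ha : a ∈ spRoot p) (hb : b ∈ spRoot q) :
    a * b = b * a := by
  obtain ⟨c, rfl⟩ := (mem_spRoot p a).1 ha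
  obtain ⟨d, rfl⟩ := (mem_spRoot q b).1 hb
  exact spT_comm h c d

theorem spT_ne_one {p : Fin m ⊕ Fin m → F} (hp : p ≠ 0) {c : F} (hc : c ≠ 0) : spT p c ≠ 1 := by
  intro h
  obtain ⟨z, hz⟩ := exists_sympForm_ne_zero hp
  have h1 := congrArg (fun g => spAct g z) h
  simp only [spAct_spT, spAct_one] at h1
  have h2 : (c * Cfsg.sympForm m F z p) • p = 0 := by
    have : z + (c * Cfsg.sympForm m F z p) • p = z + 0 := by rw [add_zero]; exact h1
    exact add_left_cancel this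
  rcases smul_eq_zero.1 h2 with h3 | h3
  · rcases mul_eq_zero.1 h3 with h4 | h4
    · exact hc h4
    · apply hz
      rw [sympForm_swap, h4, neg_zero]
  · exact hp h3

theorem spRoot_eq_imp {p q : Fin m ⊕ Fin m → F} (hp : p ≠ 0) (h : spRoot p = spRoot q) :
    Cfsg.sympForm m F p q = 0 := by
  have h1 : spT p 1 ∈ spRoot q := by rw [← h]; exact spT_mem_spRoot p 1
  obtain ⟨c, hc⟩ := (mem_spRoot q _).1 h1
  obtain ⟨z, hz⟩ := exists_sympForm_ne_zero hp
  have h2 := congrArg (fun g => spAct g z) hc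
  simp only [spAct_spT, one_mul] at h2
  have h3 : (Cfsg.sympForm m F z p) • p = (c * Cfsg.sympForm m F z q) • q := add_left_cancel h2
  have h4 := congrArg (fun u => Cfsg.sympForm m F u q) h3
  simp only [sympForm_smul_left, sympForm_self, mul_zero] at h4
  rcases mul_eq_zero.1 h4 with h5 | h5
  · exfalso
    apply hz
    rw [sympForm_swap, h5, neg_zero]
  · exact h5

theorem sp_rankOneCond {p q : Fin m ⊕ Fin m → F} (hq : q ≠ 0) (h : Cfsg.sympForm m F p q ≠ 0) :
    Cfsg.RankOneCondition (spRoot p) (spRoot q) := by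
  intro a ha ha1
  obtain ⟨s, rfl⟩ := (mem_spRoot p a).1 ha
  have hs0 : s ≠ 0 := by
    rintro rfl
    exact ha1 (spT_zero_right p)
  have hqp : Cfsg.sympForm m F q p = -Cfsg.sympForm m F p q := sympForm_swap m q p
  have ht0 : -(s * Cfsg.sympForm m F p q * Cfsg.sympForm m F p q)⁻¹ ≠ 0 :=
    neg_ne_zero.2 (inv_ne_zero (mul_ne_zero (mul_ne_zero hs0 h) h))
  refine ⟨spT q (-(s * Cfsg.sympForm m F p q * Cfsg.sympForm m F p q)⁻¹), spT_mem_spRoot q _,
    spT_ne_one hq ht0, ?_⟩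
  rw [conjBy_spRoot, conjBy_spRoot, spT_inv, spT_inv, spAct_spT, spAct_spT, hqp]
  generalize ht : -(s * Cfsg.sympForm m F p q * Cfsg.sympForm m F p q)⁻¹ = t at ht0
  have h1 : (-t * Cfsg.sympForm m F p q) * (-s * -Cfsg.sympForm m F p q) = 1 := by
    rw [← ht]
    field_simp
  have e : p + (-t * Cfsg.sympForm m F p q) • q =
      (-t * Cfsg.sympForm m F p q) • (q + (-s * -Cfsg.sympForm m F p q) • p) := by
    have : (-t * Cfsg.sympForm m F p q) • (q + (-s * -Cfsg.sympForm m F p q) • p) =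
        p + (-t * Cfsg.sympForm m F p q) • q +
          ((-t * Cfsg.sympForm m F p q) * (-s * -Cfsg.sympForm m F p q) - 1) • p := by module
    rw [this, h1, sub_self, zero_smul, add_zero]
  rw [e, spRoot_smul _ (mul_ne_zero (neg_ne_zero.2 ht0) h)]

theorem spRoot_isNilpotent (p : Fin m ⊕ Fin m → F) : Group.IsNilpotent (spRoot p) := by
  let _ : CommGroup (spRoot p) :=
    { (inferInstance : Group (spRoot p)) with
      mul_comm := fun a b => Subtype.ext (spRoot_commute (sympForm_self m p) a.2 b.2) }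
  exact CommGroup.isNilpotent

theorem spRoot_isMulCommutative (p : Fin m ⊕ Fin m → F) : IsMulCommutative (spRoot p) :=
  ⟨⟨fun a b => Subtype.ext (spRoot_commute (sympForm_self m p) a.2 b.2)⟩⟩

theorem spRoot_rankOne {p q : Fin m ⊕ Fin m → F} (hp : p ≠ 0) (hq : q ≠ 0)
    (h : Cfsg.sympForm m F p q ≠ 0) : Cfsg.IsRankOnePair (spRoot p) (spRoot q) :=
  ⟨fun e => h (spRoot_eq_imp hp e), spRoot_isNilpotent p, spRoot_isNilpotent q,
    sp_rankOneCond hq h, sp_rankOneCond hp (by rw [sympForm_swap]; exact neg_ne_zero.2 h)⟩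

theorem sp_rankOne_imp {p q : Fin m ⊕ Fin m → F} (hp : p ≠ 0)
    (h : Cfsg.IsRankOnePair (spRoot p) (spRoot q)) : Cfsg.sympForm m F p q ≠ 0 := by
  intro h0
  have h0' : Cfsg.sympForm m F q p = 0 := by rw [sympForm_swap, h0, neg_zero]
  obtain ⟨b, hb, hb1, hconj⟩ := h.cond_left (spT p 1) (spT_mem_spRoot p 1)
    (spT_ne_one hp one_ne_zero)
  obtain ⟨t, rfl⟩ := (mem_spRoot q b).1 hb
  rw [conjBy_spRoot, conjBy_spRoot, spT_inv, spT_inv, spAct_spT, spAct_spT, h0, h0', mul_zero,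
    zero_smul, add_zero, mul_zero, zero_smul, add_zero] at hconj
  exact h.ne hconj

end SpRoot

section SpPSL2

variable {F : Type*} [Field F] {m : ℕ}

theorem spEmb_aux {p q : Fin m ⊕ Fin m → F} (h : Cfsg.sympForm m F p q ≠ 0) :
    rowMat' ((Cfsg.sympForm m F p q)⁻¹ • (Matrix.J (Fin m) F *ᵥ q))
      (-(Cfsg.sympForm m F p q)⁻¹ • (Matrix.J (Fin m) F *ᵥ p)) * colMat' p q = 1 := by
  rw [rowMat'_mul_colMat']
  have e1 : (Matrix.J (Fin m) F *ᵥ q) ⬝ᵥ p = Cfsg.sympForm m F p q := dotProduct_comm _ _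
  have e2 : (Matrix.J (Fin m) F *ᵥ q) ⬝ᵥ q = 0 := by
    rw [dotProduct_comm]; exact sympForm_self m q
  have e3 : (Matrix.J (Fin m) F *ᵥ p) ⬝ᵥ p = 0 := by
    rw [dotProduct_comm]; exact sympForm_self m p
  have e4 : (Matrix.J (Fin m) F *ᵥ p) ⬝ᵥ q = -Cfsg.sympForm m F p q := by
    rw [dotProduct_comm]; exact sympForm_swap m q p
  simp only [smul_dotProduct, e1, e2, e3, e4, smul_eq_mul, mul_zero, neg_mul, mul_neg, neg_neg,
    inv_mul_cancel₀ h]
  exact Matrix.one_fin_two.symm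

theorem spEmb_act (p q : Fin m ⊕ Fin m → F) (M : Matrix (Fin 2) (Fin 2) F)
    (x : Fin m ⊕ Fin m → F) :
    embMat (colMat' p q) (rowMat' ((Cfsg.sympForm m F p q)⁻¹ • (Matrix.J (Fin m) F *ᵥ q))
      (-(Cfsg.sympForm m F p q)⁻¹ • (Matrix.J (Fin m) F *ᵥ p))) M *ᵥ x =
      x + ((M 0 0 - 1) * ((Cfsg.sympForm m F p q)⁻¹ * Cfsg.sympForm m F x q) +
          M 0 1 * (-(Cfsg.sympForm m F p q)⁻¹ * Cfsg.sympForm m F x p)) • p +
        (M 1 0 * ((Cfsg.sympForm m F p q)⁻¹ * Cfsg.sympForm m F x q) +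
          (M 1 1 - 1) * (-(Cfsg.sympForm m F p q)⁻¹ * Cfsg.sympForm m F x p)) • q := by
  rw [embMat_mulVec]
  have e1 : ((Cfsg.sympForm m F p q)⁻¹ • (Matrix.J (Fin m) F *ᵥ q)) ⬝ᵥ x =
      (Cfsg.sympForm m F p q)⁻¹ * Cfsg.sympForm m F x q := by
    rw [smul_dotProduct, dotProduct_comm, smul_eq_mul]
    rfl
  have e2 : (-(Cfsg.sympForm m F p q)⁻¹ • (Matrix.J (Fin m) F *ᵥ p)) ⬝ᵥ x =
      -(Cfsg.sympForm m F p q)⁻¹ * Cfsg.sympForm m F x p := by
    rw [smul_dotProduct, dotProduct_comm, smul_eq_mul]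
    rfl
  rw [e1, e2]

theorem spEmb_mem {p q : Fin m ⊕ Fin m → F} (h : Cfsg.sympForm m F p q ≠ 0)
    (M : Matrix.SpecialLinearGroup (Fin 2) F) :
    embMat (colMat' p q) (rowMat' ((Cfsg.sympForm m F p q)⁻¹ • (Matrix.J (Fin m) F *ᵥ q))
      (-(Cfsg.sympForm m F p q)⁻¹ • (Matrix.J (Fin m) F *ᵥ p)))
      (M : Matrix (Fin 2) (Fin 2) F) ∈ Matrix.symplecticGroup (Fin m) F := by
  refine Cfsg.Agent.Lib.Helper5.transvection_induction
    (fun M : Matrix.SpecialLinearGroup (Fin 2) F =>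
      embMat (colMat' p q) (rowMat' ((Cfsg.sympForm m F p q)⁻¹ • (Matrix.J (Fin m) F *ᵥ q))
        (-(Cfsg.sympForm m F p q)⁻¹ • (Matrix.J (Fin m) F *ᵥ p)))
        (M : Matrix (Fin 2) (Fin 2) F) ∈ Matrix.symplecticGroup (Fin m) F) ?_ ?_ M
  · intro i j hij c
    fin_cases i <;> fin_cases j
    · exact absurd rfl hij
    · have : embMat (colMat' p q) (rowMat' ((Cfsg.sympForm m F p q)⁻¹ • (Matrix.J (Fin m) F *ᵥ q))
          (-(Cfsg.sympForm m F p q)⁻¹ • (Matrix.J (Fin m) F *ᵥ p)))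
          ((Matrix.SpecialLinearGroup.transvection hij c : Matrix.SpecialLinearGroup (Fin 2) F) :
            Matrix (Fin 2) (Fin 2) F) =
          Cfsg.sympTransvection m p (-(c * (Cfsg.sympForm m F p q)⁻¹)) := by
        apply Matrix.ext_iff_mulVec.2
        intro x
        rw [spEmb_act, sympTransvection_mulVec, Matrix.SpecialLinearGroup.transvection_coe]
        simp only [Fin.zero_eta, Fin.isValue, Fin.mk_one, Matrix.add_apply, Matrix.one_apply_eq,
          Matrix.single_apply, zero_ne_one, one_ne_zero, false_and, and_false, ↓reduceIte,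
          add_zero, sub_self, zero_mul, zero_add, and_self, Matrix.one_apply_ne, ne_eq,
          not_false_eq_true, zero_smul]
        congr 2
        ring
      rw [this]
      exact sympTransvection_mem m p _
    · have : embMat (colMat' p q) (rowMat' ((Cfsg.sympForm m F p q)⁻¹ • (Matrix.J (Fin m) F *ᵥ q))
          (-(Cfsg.sympForm m F p q)⁻¹ • (Matrix.J (Fin m) F *ᵥ p)))
          ((Matrix.SpecialLinearGroup.transvection hij c : Matrix.SpecialLinearGroup (Fin 2) F) :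
            Matrix (Fin 2) (Fin 2) F) =
          Cfsg.sympTransvection m q (c * (Cfsg.sympForm m F p q)⁻¹) := by
        apply Matrix.ext_iff_mulVec.2
        intro x
        rw [spEmb_act, sympTransvection_mulVec, Matrix.SpecialLinearGroup.transvection_coe]
        simp only [Fin.zero_eta, Fin.isValue, Fin.mk_one, Matrix.add_apply, Matrix.one_apply_eq,
          Matrix.single_apply, zero_ne_one, one_ne_zero, false_and, and_false, ↓reduceIte,
          add_zero, sub_self, zero_mul, zero_add, and_self, Matrix.one_apply_ne, ne_eq,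
          not_false_eq_true, zero_smul]
        congr 2
        ring
      rw [this]
      exact sympTransvection_mem m q _
    · exact absurd rfl hij
  · intro A B hA hB
    rw [Matrix.SpecialLinearGroup.coe_mul, embMat_mul _ _ (spEmb_aux h)]
    exact mul_mem hA hB

/-- the `SL₂` of a hyperbolic pair, as a homomorphism into the symplectic group -/
def spEmb {p q : Fin m ⊕ Fin m → F} (h : Cfsg.sympForm m F p q ≠ 0) :
    Matrix.SpecialLinearGroup (Fin 2) F →* Matrix.symplecticGroup (Fin m) F where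
  toFun M := ⟨embMat (colMat' p q) (rowMat' ((Cfsg.sympForm m F p q)⁻¹ • (Matrix.J (Fin m) F *ᵥ q))
      (-(Cfsg.sympForm m F p q)⁻¹ • (Matrix.J (Fin m) F *ᵥ p)))
      (M : Matrix (Fin 2) (Fin 2) F), spEmb_mem h M⟩
  map_one' := by
    apply Subtype.ext
    simp only [Matrix.SpecialLinearGroup.coe_one, embMat_one]
    rfl
  map_mul' M M' := by
    apply Subtype.ext
    simp only [Matrix.SpecialLinearGroup.coe_mul]
    exact embMat_mul _ _ (spEmb_aux h) _ _

theorem spEmb_spAct {p q : Fin m ⊕ Fin m → F} (h : Cfsg.sympForm m F p q ≠ 0)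
    (M : Matrix.SpecialLinearGroup (Fin 2) F) (x : Fin m ⊕ Fin m → F) :
    spAct (spEmb h M) x =
      x + (((M : Matrix (Fin 2) (Fin 2) F) 0 0 - 1) *
            ((Cfsg.sympForm m F p q)⁻¹ * Cfsg.sympForm m F x q) +
          (M : Matrix (Fin 2) (Fin 2) F) 0 1 *
            (-(Cfsg.sympForm m F p q)⁻¹ * Cfsg.sympForm m F x p)) • p +
        ((M : Matrix (Fin 2) (Fin 2) F) 1 0 *
            ((Cfsg.sympForm m F p q)⁻¹ * Cfsg.sympForm m F x q) +
          ((M : Matrix (Fin 2) (Fin 2) F) 1 1 - 1) *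
            (-(Cfsg.sympForm m F p q)⁻¹ * Cfsg.sympForm m F x p)) • q :=
  spEmb_act p q _ x

theorem spRoot_psl2 {p q : Fin m ⊕ Fin m → F} (h : Cfsg.sympForm m F p q ≠ 0) :
    Cfsg.IsPSL2PairOver F (spRoot p) (spRoot q) := by
  have hup : (Cfsg.upperUnipotentSL2 F).map (spEmb h) = spRoot p := by
    rw [Cfsg.upperUnipotentSL2, MonoidHom.map_closure, spRoot]
    congr 1
    ext t
    constructor
    · rintro ⟨g, ⟨h10, h00, h11⟩, rfl⟩
      refine ⟨-((g : Matrix (Fin 2) (Fin 2) F) 0 1 * (Cfsg.sympForm m F p q)⁻¹), sp_ext fun x => ?_⟩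
      rw [spEmb_spAct, spAct_spT, h10, h00, h11]
      simp only [sub_self, zero_mul, zero_add, add_zero, zero_smul]
      congr 2
      ring
    · rintro ⟨c, rfl⟩
      obtain ⟨x, hx⟩ : ∃ x : Matrix.SpecialLinearGroup (Fin 2) F,
          (x : Matrix (Fin 2) (Fin 2) F) = !![1, -(c * Cfsg.sympForm m F p q); 0, 1] :=
        ⟨⟨!![1, -(c * Cfsg.sympForm m F p q); 0, 1], by simp [Matrix.det_fin_two]⟩, rfl⟩
      refine ⟨x, ⟨by rw [hx]; simp, by rw [hx]; simp, by rw [hx]; simp⟩, sp_ext fun y => ?_⟩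
      rw [spEmb_spAct, spAct_spT, hx]
      simp only [Matrix.of_apply, Matrix.cons_val', Matrix.cons_val_zero, Matrix.cons_val_one,
        Matrix.cons_val_fin_one, sub_self, zero_mul, zero_add, add_zero, zero_smul]
      congr 2
      field_simp
  have hlow : (Cfsg.lowerUnipotentSL2 F).map (spEmb h) = spRoot q := by
    rw [Cfsg.lowerUnipotentSL2, MonoidHom.map_closure, spRoot]
    congr 1
    ext t
    constructor
    · rintro ⟨g, ⟨h01, h00, h11⟩, rfl⟩
      refine ⟨(g : Matrix (Fin 2) (Fin 2) F) 1 0 * (Cfsg.sympForm m F p q)⁻¹, sp_ext fun x => ?_⟩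
      rw [spEmb_spAct, spAct_spT, h01, h00, h11]
      simp only [sub_self, zero_mul, add_zero, zero_smul]
      congr 2
      ring
    · rintro ⟨c, rfl⟩
      obtain ⟨x, hx⟩ : ∃ x : Matrix.SpecialLinearGroup (Fin 2) F,
          (x : Matrix (Fin 2) (Fin 2) F) = !![1, 0; c * Cfsg.sympForm m F p q, 1] :=
        ⟨⟨!![1, 0; c * Cfsg.sympForm m F p q, 1], by simp [Matrix.det_fin_two]⟩, rfl⟩
      refine ⟨x, ⟨by rw [hx]; simp, by rw [hx]; simp, by rw [hx]; simp⟩, sp_ext fun y => ?_⟩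
      rw [spEmb_spAct, spAct_spT, hx]
      simp only [Matrix.of_apply, Matrix.cons_val', Matrix.cons_val_zero, Matrix.cons_val_one,
        Matrix.cons_val_fin_one, sub_self, zero_mul, add_zero, zero_smul]
      congr 2
      field_simp
  refine ⟨spEmb h, ?_, ?_, hup, hlow⟩
  · rw [MonoidHom.range_eq_map, ← sl2_top, Subgroup.map_sup, hup, hlow]
  · intro M hM
    rw [MonoidHom.mem_ker] at hM
    have : M = 1 := by
      apply Subtype.ext
      have h1 := congrArg Subtype.val hM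
      exact embMat_inj _ _ (spEmb_aux h) (h1.trans (embMat_one _ _).symm)
    rw [this]
    exact one_mem _

end SpPSL2

section SpClass

variable {F : Type*} [Field F] {m : ℕ}

/-- the class of symplectic root groups -/
def spClass (m : ℕ) (F : Type*) [Field F] : Set (Subgroup (Matrix.symplecticGroup (Fin m) F)) :=
  {A | ∃ p : Fin m ⊕ Fin m → F, p ≠ 0 ∧ A = spRoot p}

theorem sp_stmt_class_eq :
    {A : Subgroup (Matrix.symplecticGroup (Fin m) F) | ∃ p : Fin m ⊕ Fin m → F, p ≠ 0 ∧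
        A = Subgroup.closure {g : Matrix.symplecticGroup (Fin m) F | ∃ c : F,
          ∀ v : Fin m ⊕ Fin m → F,
          (g : Matrix (Fin m ⊕ Fin m) (Fin m ⊕ Fin m) F) *ᵥ v =
            v + (c * (v ⬝ᵥ (Matrix.J (Fin m) F *ᵥ p))) • p}} = spClass m F := by
  ext A
  constructor
  · rintro ⟨p, hp, rfl⟩
    exact ⟨p, hp, by rw [stmt_gen_eq]; rfl⟩
  · rintro ⟨p, hp, rfl⟩
    exact ⟨p, hp, by rw [stmt_gen_eq]; rfl⟩

theorem spAct_ne_zero (g : Matrix.symplecticGroup (Fin m) F) {p : Fin m ⊕ Fin m → F}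
    (hp : p ≠ 0) : spAct g p ≠ 0 := by
  intro h
  apply hp
  rw [← spAct_inv_act g p, h, spAct_zero]

theorem spT_comm_imp {p w : Fin m ⊕ Fin m → F} (hp : p ≠ 0)
    (h : spT p (1 : F) * spT w 1 = spT w 1 * spT p 1) : Cfsg.sympForm m F p w = 0 := by
  have h1 := congrArg (fun g => spAct g p) h
  simp only [spAct_mul, spAct_spT, one_mul, sympForm_add_left, sympForm_smul_left, sympForm_self,
    zero_smul, add_zero, zero_add] at h1
  have h2 : (Cfsg.sympForm m F p w * Cfsg.sympForm m F w p) • p = 0 := by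
    have : p + Cfsg.sympForm m F p w • w + (Cfsg.sympForm m F p w * Cfsg.sympForm m F w p) • p =
        p + Cfsg.sympForm m F p w • w + 0 := by rw [add_zero]; exact h1
    exact add_left_cancel this
  rcases smul_eq_zero.1 h2 with h3 | h3
  · rcases mul_eq_zero.1 h3 with h4 | h4
    · exact h4
    · rw [sympForm_swap, h4, neg_zero]
  · exact absurd h3 hp

theorem spClass_conj {A : Subgroup (Matrix.symplecticGroup (Fin m) F)} (hA : A ∈ spClass m F)
    (g : Matrix.symplecticGroup (Fin m) F) : Cfsg.conjBy A g ∈ spClass m F := by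
  obtain ⟨p, hp, rfl⟩ := hA
  exact ⟨spAct g p, spAct_ne_zero g hp, conjBy_spRoot g p⟩

theorem spRoot_comm_bot {p q : Fin m ⊕ Fin m → F} (h : Cfsg.sympForm m F p q = 0) :
    ⁅spRoot p, spRoot q⁆ = ⊥ := by
  rw [Subgroup.commutator_eq_bot_iff_le_centralizer]
  intro a ha
  rw [Subgroup.mem_centralizer_iff]
  intro b hb
  have h' : Cfsg.sympForm m F q p = 0 := by rw [sympForm_swap, h, neg_zero]
  exact spRoot_commute h' hb ha

theorem spClass_pair {A B : Subgroup (Matrix.symplecticGroup (Fin m) F)}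
    (hA : A ∈ spClass m F) (hB : B ∈ spClass m F) :
    ⁅A, B⁆ = ⊥ ∨ Cfsg.IsRankOnePair A B ∨ Cfsg.RootCommutatorCase (spClass m F) A B := by
  obtain ⟨p, hp, rfl⟩ := hA
  obtain ⟨q, hq, rfl⟩ := hB
  by_cases h : Cfsg.sympForm m F p q = 0
  · left
    exact spRoot_comm_bot h
  · right; left
    exact spRoot_rankOne hp hq h

theorem spClass_generates : (⨆ A ∈ spClass m F, A) = ⊤ := by
  rw [eq_top_iff, ← closure_spTSet, Subgroup.closure_le]
  rintro g ⟨w, c, hg⟩
  have hg' : g = spT w c := Subtype.ext hg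
  by_cases hw : w = 0
  · rw [hg', hw, spT_zero_left]
    exact one_mem _
  · have hle : spRoot w ≤ ⨆ A ∈ spClass m F, A :=
      le_iSup₂ (f := fun (A : Subgroup (Matrix.symplecticGroup (Fin m) F))
        (_ : A ∈ spClass m F) => A) _ ⟨w, hw, rfl⟩
    apply hle
    rw [hg']
    exact spT_mem_spRoot w c

theorem spClass_isRootSubgroupSet : Cfsg.IsRootSubgroupSet (spClass m F) := by
  refine ⟨?_, ?_, spClass_generates, fun A hA g => spClass_conj hA g,
    fun A hA B hB => spClass_pair hA hB⟩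
  · rintro A ⟨p, hp, rfl⟩
    exact spRoot_isMulCommutative p
  · rintro A ⟨p, hp, rfl⟩ h
    have h1 := spT_mem_spRoot p (1 : F)
    rw [h, Subgroup.mem_bot] at h1
    exact spT_ne_one hp one_ne_zero h1

theorem single_inl_ne_zero :
    (Pi.single (Sum.inl 0) (1 : F) : Fin (m + 1) ⊕ Fin (m + 1) → F) ≠ 0 := by
  intro h
  have := congrFun h (Sum.inl 0)
  simp at this

theorem spClass_isConjClass : Cfsg.IsConjClassOfSubgroups (spClass (m + 1) F) := by
  refine ⟨⟨_, _, single_inl_ne_zero, rfl⟩, ?_⟩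
  rintro A ⟨p, hp, rfl⟩ B ⟨q, hq, rfl⟩
  obtain ⟨g, -, hg⟩ := exists_spAct_eq hp hq
  exact ⟨g, by rw [conjBy_spRoot, hg]⟩

theorem spClass_degenerate : Cfsg.IsDegenerateRootSet (spClass m F) := by
  rintro A ⟨p, hp, rfl⟩ B ⟨q, hq, rfl⟩ ⟨hmem, hcent, -, -⟩
  by_cases h : Cfsg.sympForm m F p q = 0
  · rw [spRoot_comm_bot h] at hmem
    obtain ⟨p', hp', he⟩ := hmem
    have h1 := spT_mem_spRoot p' (1 : F)
    rw [← he, Subgroup.mem_bot] at h1
    exact spT_ne_one hp' one_ne_zero h1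
  · have hc : spT p (1 : F) * spT q (1 : F) * (spT p (1 : F))⁻¹ * (spT q (1 : F))⁻¹ ∈
        ⁅spRoot p, spRoot q⁆ := by
      rw [← commutatorElement_def]
      exact Subgroup.commutator_mem_commutator (spT_mem_spRoot p 1) (spT_mem_spRoot q 1)
    have hx : spT p (1 : F) ∈ spRoot p ⊔ spRoot q :=
      (le_sup_left : spRoot p ≤ spRoot p ⊔ spRoot q) (spT_mem_spRoot p 1)
    have h1 := hcent _ hc _ hx
    have h2 : spT p (1 : F) * (spT q (1 : F) * spT p 1 * (spT q (1 : F))⁻¹) =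
        (spT q (1 : F) * spT p 1 * (spT q (1 : F))⁻¹) * spT p 1 := by
      have e1 : spT q (1 : F) * spT p 1 * (spT q (1 : F))⁻¹ =
          (spT p (1 : F) * spT q (1 : F) * (spT p (1 : F))⁻¹ * (spT q (1 : F))⁻¹)⁻¹ * spT p 1 := by
        group
      rw [e1]
      generalize spT p (1 : F) * spT q (1 : F) * (spT p (1 : F))⁻¹ * (spT q (1 : F))⁻¹ = c at h1
      have h3 : c⁻¹ * spT p (1 : F) = spT p (1 : F) * c⁻¹ :=
        (show Commute c (spT p (1 : F)) from h1).inv_left.eq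
      rw [← mul_assoc, ← h3]
    rw [conj_spT] at h2
    have h4 := spT_comm_imp hp h2
    rw [spAct_spT, one_mul, sympForm_add_right, sympForm_self, zero_add,
      sympForm_smul_right] at h4
    exact h (mul_self_eq_zero.1 h4)

theorem spClass_kRoot : Cfsg.IsKRootSubgroupSet F (spClass m F) := by
  refine ⟨spClass_isRootSubgroupSet, ?_⟩
  rintro A ⟨p, hp, rfl⟩ B ⟨q, hq, rfl⟩ h
  exact spRoot_psl2 (sp_rankOne_imp hp h)

theorem spClass_connected :
    Cfsg.IsConnectedFamily (Cfsg.FAdj (spClass m F)) (spClass m F) := by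
  rintro A ⟨p, hp, rfl⟩ B ⟨q, hq, rfl⟩
  obtain ⟨z, hz1, hz2⟩ := exists_sympForm_both hp hq
  have hz : z ≠ 0 := by
    rintro rfl
    exact hz1 (sympForm_zero_right m p)
  have hz2' : Cfsg.sympForm m F z q ≠ 0 := by
    rw [sympForm_swap]; exact neg_ne_zero.2 hz2
  have mA : spRoot p ∈ spClass m F := ⟨p, hp, rfl⟩
  have mB : spRoot q ∈ spClass m F := ⟨q, hq, rfl⟩
  have mC : spRoot z ∈ spClass m F := ⟨z, hz, rfl⟩
  have s1 : Cfsg.FAdj (spClass m F) (spRoot p) (spRoot z) := ⟨mA, mC, spRoot_rankOne hp hz hz1⟩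
  have s2 : Cfsg.FAdj (spClass m F) (spRoot z) (spRoot q) := ⟨mC, mB, spRoot_rankOne hz hq hz2'⟩
  exact (Relation.ReflTransGen.single s1).tail s2

end SpClass

end Cfsg.Agent.Lib.Helper99
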