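import Mathlib
import Cfsg.Prelude.Def_RootSubgroups
import Cfsg.Prelude.Def_ClassicalGeometry
import Cfsg.Agent.Lib.Helper13.UTransvComm
import Cfsg.Agent.Lib.Helper13.SUGen1
import Cfsg.Agent.Lib.Helper45.HermSU2
import Cfsg.Agent.Lib.Helper45.FieldEmb
import Cfsg.Agent.Lib.Helper99.SpRoot
import Cfsg.Agent.Lib.Helper99.SubOf

set_option autoImplicit false

namespace Cfsg.Agent.Lib.Helper99

open Matrix
open Cfsg.Agent.Lib.Helper13 Cfsg.Agent.Lib.Helper45 Cfsg.Agent.Lib.Helper44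

section SuAct

variable {F : Type*} [Field F] [Fintype F] {q N : ℕ}

/-- the underlying matrix of an element of `SU` -/
def suMat (g : Cfsg.SU N F q) : Matrix (Fin N) (Fin N) F :=
  ((g : Matrix.SpecialLinearGroup (Fin N) F) : Matrix (Fin N) (Fin N) F)

/-- the action of `SU` on vectors -/
def suAct (g : Cfsg.SU N F q) (x : Fin N → F) : Fin N → F := suMat g *ᵥ x

theorem suMat_mul (g h : Cfsg.SU N F q) : suMat (g * h) = suMat g * suMat h := rfl

theorem suMat_one : suMat (1 : Cfsg.SU N F q) = 1 := rfl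

theorem suAct_mul (g h : Cfsg.SU N F q) (x : Fin N → F) :
    suAct (g * h) x = suAct g (suAct h x) := by
  unfold suAct
  rw [suMat_mul, mulVec_mulVec]

theorem suAct_one (x : Fin N → F) : suAct (1 : Cfsg.SU N F q) x = x := by
  unfold suAct
  rw [suMat_one]
  exact one_mulVec x

theorem suAct_inv_act (g : Cfsg.SU N F q) (x : Fin N → F) : suAct g⁻¹ (suAct g x) = x := by
  rw [← suAct_mul, inv_mul_cancel, suAct_one]

theorem suAct_act_inv (g : Cfsg.SU N F q) (x : Fin N → F) : suAct g (suAct g⁻¹ x) = x := by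
  rw [← suAct_mul, mul_inv_cancel, suAct_one]

theorem suAct_add (g : Cfsg.SU N F q) (x y : Fin N → F) :
    suAct g (x + y) = suAct g x + suAct g y := by
  unfold suAct; exact mulVec_add _ _ _

theorem suAct_sub (g : Cfsg.SU N F q) (x y : Fin N → F) :
    suAct g (x - y) = suAct g x - suAct g y := by
  unfold suAct; exact mulVec_sub _ _ _

theorem suAct_smul (g : Cfsg.SU N F q) (c : F) (x : Fin N → F) :
    suAct g (c • x) = c • suAct g x := by
  unfold suAct; exact mulVec_smul _ _ _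

theorem suAct_zero (g : Cfsg.SU N F q) : suAct g (0 : Fin N → F) = 0 := by
  unfold suAct; exact mulVec_zero _

theorem herm_suAct (g : Cfsg.SU N F q) (x y : Fin N → F) :
    Cfsg.hermForm N F q (suAct g x) (suAct g y) = Cfsg.hermForm N F q x y :=
  g.2 x y

theorem su_isHermIso (g : Cfsg.SU N F q) : IsHermIso N F q (suMat g) :=
  fun x y => herm_suAct g x y

theorem su_ext' {g h : Cfsg.SU N F q} (H : ∀ x, suAct g x = suAct h x) : g = h :=
  su_ext g h (Matrix.ext_iff_mulVec.2 H)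

theorem suAct_ne_zero (g : Cfsg.SU N F q) {p : Fin N → F} (hp : p ≠ 0) : suAct g p ≠ 0 := by
  intro h
  apply hp
  rw [← suAct_inv_act g p, h, suAct_zero]

theorem skew_zero (hF : Fintype.card F = q ^ 2) : (0 : F) ^ q = -0 := by
  rw [conj_zero hF, neg_zero]

theorem skew_add (hF : Fintype.card F = q ^ 2) {c d : F} (hc : c ^ q = -c) (hd : d ^ q = -d) :
    (c + d) ^ q = -(c + d) := by
  rw [conj_add hF, hc, hd]; ring

theorem skew_neg (hF : Fintype.card F = q ^ 2) {c : F} (hc : c ^ q = -c) : (-c) ^ q = -(-c) := by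
  rw [conj_neg hF, hc]

open Classical in
/-- the unitary transvection as an element of `SU` (identity if the data are not admissible) -/
noncomputable def suT (hF : Fintype.card F = q ^ 2) (p : Fin N → F) (c : F) : Cfsg.SU N F q :=
  if h : Cfsg.hermForm N F q p p = 0 ∧ c ^ q = -c then
    suMk (Cfsg.unitaryTransvection N q p c) (det_utransv p c h.1)
      (isHermIso_utransv hF p c h.1 h.2)
  else 1

theorem suAct_suT (hF : Fintype.card F = q ^ 2) {p : Fin N → F}
    (hp : Cfsg.hermForm N F q p p = 0) {c : F} (hc : c ^ q = -c) (x : Fin N → F) :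
    suAct (suT hF p c) x = x + (c * Cfsg.hermForm N F q x p) • p := by
  rw [suT, dif_pos ⟨hp, hc⟩]
  exact utransv_mulVec p c x

theorem suT_zero (hF : Fintype.card F = q ^ 2) {p : Fin N → F}
    (hp : Cfsg.hermForm N F q p p = 0) : suT hF p 0 = 1 := by
  apply su_ext'
  intro x
  rw [suAct_suT hF hp (skew_zero hF), suAct_one, zero_mul, zero_smul, add_zero]

theorem suT_mul (hF : Fintype.card F = q ^ 2) {p : Fin N → F}
    (hp : Cfsg.hermForm N F q p p = 0) {c d : F} (hc : c ^ q = -c) (hd : d ^ q = -d) :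
    suT hF p c * suT hF p d = suT hF p (c + d) := by
  apply su_ext'
  intro x
  rw [suAct_mul, suAct_suT hF hp hc, suAct_suT hF hp hd, suAct_suT hF hp (skew_add hF hc hd),
    herm_add_left, herm_smul_left, hp, mul_zero, add_zero, add_assoc, ← add_smul]
  congr 2
  ring

theorem suT_inv (hF : Fintype.card F = q ^ 2) {p : Fin N → F}
    (hp : Cfsg.hermForm N F q p p = 0) {c : F} (hc : c ^ q = -c) :
    (suT hF p c)⁻¹ = suT hF p (-c) := by
  apply inv_eq_of_mul_eq_one_left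
  rw [suT_mul hF hp (skew_neg hF hc) hc, neg_add_cancel, suT_zero hF hp]

theorem herm_suAct_self (g : Cfsg.SU N F q) {p : Fin N → F}
    (hp : Cfsg.hermForm N F q p p = 0) : Cfsg.hermForm N F q (suAct g p) (suAct g p) = 0 := by
  rw [herm_suAct, hp]

theorem conj_suT (hF : Fintype.card F = q ^ 2) (g : Cfsg.SU N F q) {p : Fin N → F}
    (hp : Cfsg.hermForm N F q p p = 0) {c : F} (hc : c ^ q = -c) :
    g * suT hF p c * g⁻¹ = suT hF (suAct g p) c := by
  apply su_ext'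
  intro x
  rw [suAct_mul, suAct_mul, suAct_suT hF hp hc, suAct_add, suAct_smul, suAct_act_inv,
    suAct_suT hF (herm_suAct_self g hp) hc]
  have h := herm_suAct g (suAct g⁻¹ x) p
  rw [suAct_act_inv] at h
  rw [h]

theorem suT_comm (hF : Fintype.card F = q ^ 2) {p p' : Fin N → F}
    (hp : Cfsg.hermForm N F q p p = 0) (hp' : Cfsg.hermForm N F q p' p' = 0)
    (h : Cfsg.hermForm N F q p p' = 0) {c d : F} (hc : c ^ q = -c) (hd : d ^ q = -d) :
    suT hF p c * suT hF p' d = suT hF p' d * suT hF p c := by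
  apply su_ext'
  intro x
  have h' : Cfsg.hermForm N F q p' p = 0 := by rw [← herm_conj hF, h, conj_zero hF]
  simp only [suAct_mul, suAct_suT hF hp hc, suAct_suT hF hp' hd, herm_add_left, herm_smul_left,
    h, h', mul_zero, add_zero]
  abel

theorem exists_herm_ne_zero (hF : Fintype.card F = q ^ 2) {p : Fin N → F} (hp : p ≠ 0) :
    ∃ z, Cfsg.hermForm N F q z p ≠ 0 := by
  obtain ⟨i, hi⟩ : ∃ i, p i ≠ 0 := by
    by_contra h; push Not at h; exact hp (funext h)
  exact ⟨Pi.single i 1, by rw [herm_single_left hF]; exact pow_ne_zero _ hi⟩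

theorem suT_ne_one (hF : Fintype.card F = q ^ 2) {p : Fin N → F} (hp0 : p ≠ 0)
    (hp : Cfsg.hermForm N F q p p = 0) {c : F} (hc : c ^ q = -c) (hc0 : c ≠ 0) :
    suT hF p c ≠ 1 := by
  intro h
  obtain ⟨z, hz⟩ := exists_herm_ne_zero hF hp0
  have h1 := congrArg (fun g => suAct g z) h
  simp only [suAct_suT hF hp hc, suAct_one] at h1
  have h2 : (c * Cfsg.hermForm N F q z p) • p = 0 := by
    have : z + (c * Cfsg.hermForm N F q z p) • p = z + 0 := by rw [add_zero]; exact h1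
    exact add_left_cancel this
  rcases smul_eq_zero.1 h2 with h3 | h3
  · exact (mul_ne_zero hc0 hz) h3
  · exact hp0 h3

theorem suT_comm_imp (hF : Fintype.card F = q ^ 2) {p w : Fin N → F} (hp0 : p ≠ 0)
    (hp : Cfsg.hermForm N F q p p = 0) (hw : Cfsg.hermForm N F q w w = 0) {c d : F}
    (hc : c ^ q = -c) (hd : d ^ q = -d) (hc0 : c ≠ 0) (hd0 : d ≠ 0)
    (h : suT hF p c * suT hF w d = suT hF w d * suT hF p c) : Cfsg.hermForm N F q p w = 0 := by
  have h1 := congrArg (fun g => suAct g p) h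
  simp only [suAct_mul, suAct_suT hF hp hc, suAct_suT hF hw hd, herm_add_left, herm_smul_left,
    hp, mul_zero, zero_smul, add_zero, zero_add] at h1
  have h2 : (c * (d * Cfsg.hermForm N F q p w * Cfsg.hermForm N F q w p)) • p = 0 := by
    have : p + (d * Cfsg.hermForm N F q p w) • w +
        (c * (d * Cfsg.hermForm N F q p w * Cfsg.hermForm N F q w p)) • p =
        p + (d * Cfsg.hermForm N F q p w) • w + 0 := by rw [add_zero]; exact h1
    exact add_left_cancel this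
  have hwp : Cfsg.hermForm N F q w p = Cfsg.hermForm N F q p w ^ q := (herm_conj hF N p w).symm
  rcases smul_eq_zero.1 h2 with h3 | h3
  · rcases mul_eq_zero.1 h3 with h4 | h4
    · exact absurd h4 hc0
    · rcases mul_eq_zero.1 h4 with h5 | h5
      · rcases mul_eq_zero.1 h5 with h6 | h6
        · exact absurd h6 hd0
        · exact h6
      · rw [hwp] at h5
        exact pow_eq_zero_iff (n := q) (by have := two_le_q hF; omega) |>.1 h5
  · exact absurd h3 hp0

end SuAct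

section SuRoot

variable {F : Type*} [Field F] [Fintype F] {q N : ℕ}

/-- the generating set of the unitary root group `T(p)` (as in the statement) -/
def suGen (q : ℕ) (p : Fin N → F) : Set (Cfsg.SU N F q) :=
  {g | (∀ v : Fin N → F, ∃ c : F,
      ((g : Matrix.SpecialLinearGroup (Fin N) F) : Matrix (Fin N) (Fin N) F) *ᵥ v = v + c • p) ∧
    ∀ v : Fin N → F, Cfsg.hermForm N F q v p = 0 →
      ((g : Matrix.SpecialLinearGroup (Fin N) F) : Matrix (Fin N) (Fin N) F) *ᵥ v = v}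

/-- the unitary root group `T(p)` -/
def suRoot (q : ℕ) (p : Fin N → F) : Subgroup (Cfsg.SU N F q) := Subgroup.closure (suGen q p)

theorem mem_suGen (p : Fin N → F) (g : Cfsg.SU N F q) :
    g ∈ suGen q p ↔ (∀ v : Fin N → F, ∃ c : F, suAct g v = v + c • p) ∧
      ∀ v : Fin N → F, Cfsg.hermForm N F q v p = 0 → suAct g v = v := Iff.rfl

theorem mem_suGen_iff (hF : Fintype.card F = q ^ 2) {p : Fin N → F} (hp0 : p ≠ 0)
    (hp : Cfsg.hermForm N F q p p = 0) (g : Cfsg.SU N F q) :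
    g ∈ suGen q p ↔ ∃ c : F, c ^ q = -c ∧ g = suT hF p c := by
  rw [mem_suGen]
  constructor
  · rintro ⟨h1, h2⟩
    obtain ⟨z, hz⟩ := exists_herm_ne_zero hF hp0
    obtain ⟨c, hc⟩ := h1 ((Cfsg.hermForm N F q z p)⁻¹ • z)
    have hact : ∀ x, suAct g x = x + (c * Cfsg.hermForm N F q x p) • p := by
      intro x
      have h3 : Cfsg.hermForm N F q
          (x - Cfsg.hermForm N F q x p • ((Cfsg.hermForm N F q z p)⁻¹ • z)) p = 0 := by
        rw [herm_sub_left, herm_smul_left, herm_smul_left, inv_mul_cancel₀ hz, mul_one, sub_self]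
      have h4 := h2 _ h3
      rw [suAct_sub, suAct_smul, hc] at h4
      have h5 : suAct g x = x - Cfsg.hermForm N F q x p • ((Cfsg.hermForm N F q z p)⁻¹ • z) +
          Cfsg.hermForm N F q x p • ((Cfsg.hermForm N F q z p)⁻¹ • z + c • p) := by
        rw [← h4]; abel
      rw [h5]
      module
    have hmat : suMat g = Cfsg.unitaryTransvection N q p c := by
      apply Matrix.ext_iff_mulVec.2
      intro x
      rw [utransv_mulVec]
      exact hact x
    have hiso : IsHermIso N F q (Cfsg.unitaryTransvection N q p c) := by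
      rw [← hmat]; exact su_isHermIso g
    have hskew := utransv_skew hF p c hp0 hp hiso
    refine ⟨c, hskew, su_ext' fun x => ?_⟩
    rw [hact, suAct_suT hF hp hskew]
  · rintro ⟨c, hc, rfl⟩
    refine ⟨fun v => ⟨c * Cfsg.hermForm N F q v p, suAct_suT hF hp hc v⟩, fun v hv => ?_⟩
    rw [suAct_suT hF hp hc, hv, mul_zero, zero_smul, add_zero]

theorem mem_suRoot (hF : Fintype.card F = q ^ 2) {p : Fin N → F} (hp0 : p ≠ 0)
    (hp : Cfsg.hermForm N F q p p = 0) (g : Cfsg.SU N F q) :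
    g ∈ suRoot q p ↔ ∃ c : F, c ^ q = -c ∧ g = suT hF p c := by
  constructor
  · intro hg
    induction hg using Subgroup.closure_induction with
    | mem x hx => exact (mem_suGen_iff hF hp0 hp x).1 hx
    | one => exact ⟨0, skew_zero hF, (suT_zero hF hp).symm⟩
    | mul x y _ _ hx hy =>
      obtain ⟨c, hc, rfl⟩ := hx
      obtain ⟨d, hd, rfl⟩ := hy
      exact ⟨c + d, skew_add hF hc hd, suT_mul hF hp hc hd⟩
    | inv x _ hx =>
      obtain ⟨c, hc, rfl⟩ := hx
      exact ⟨-c, skew_neg hF hc, suT_inv hF hp hc⟩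
  · intro h
    exact Subgroup.subset_closure ((mem_suGen_iff hF hp0 hp g).2 h)

theorem suT_mem_suRoot (hF : Fintype.card F = q ^ 2) {p : Fin N → F} (hp0 : p ≠ 0)
    (hp : Cfsg.hermForm N F q p p = 0) {c : F} (hc : c ^ q = -c) : suT hF p c ∈ suRoot q p :=
  (mem_suRoot hF hp0 hp _).2 ⟨c, hc, rfl⟩

theorem conj_mem_suGen (g : Cfsg.SU N F q) (p : Fin N → F) {t : Cfsg.SU N F q}
    (ht : t ∈ suGen q p) : g * t * g⁻¹ ∈ suGen q (suAct g p) := by
  rw [mem_suGen] at ht ⊢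
  obtain ⟨h1, h2⟩ := ht
  refine ⟨fun v => ?_, fun v hv => ?_⟩
  · obtain ⟨c, hc⟩ := h1 (suAct g⁻¹ v)
    refine ⟨c, ?_⟩
    rw [suAct_mul, suAct_mul, hc, suAct_add, suAct_smul, suAct_act_inv]
  · have h3 : Cfsg.hermForm N F q (suAct g⁻¹ v) p = 0 := by
      have h4 := herm_suAct g (suAct g⁻¹ v) p
      rw [suAct_act_inv] at h4
      rw [← h4]; exact hv
    rw [suAct_mul, suAct_mul, h2 _ h3, suAct_act_inv]

theorem conjBy_suRoot (g : Cfsg.SU N F q) (p : Fin N → F) :
    Cfsg.conjBy (suRoot q p) g = suRoot q (suAct g p) := by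
  rw [Cfsg.conjBy, suRoot, MonoidHom.map_closure, suRoot]
  congr 1
  ext t
  constructor
  · rintro ⟨s, hs, rfl⟩
    exact conj_mem_suGen g p hs
  · intro ht
    refine ⟨g⁻¹ * t * g, ?_, ?_⟩
    · have h1 := conj_mem_suGen g⁻¹ (suAct g p) ht
      rwa [suAct_inv_act, inv_inv] at h1
    · simp [mul_assoc]

theorem suRoot_smul {a : F} (ha : a ≠ 0) (p : Fin N → F) : suRoot q (a • p) = suRoot q p := by
  rw [suRoot, suRoot]
  congr 1
  ext g
  rw [mem_suGen, mem_suGen]
  constructor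
  · rintro ⟨h1, h2⟩
    refine ⟨fun v => ?_, fun v hv => h2 v ?_⟩
    · obtain ⟨c, hc⟩ := h1 v
      exact ⟨c * a, by rw [hc, smul_smul]⟩
    · rw [herm_smul_right, hv, mul_zero]
  · rintro ⟨h1, h2⟩
    refine ⟨fun v => ?_, fun v hv => h2 v ?_⟩
    · obtain ⟨c, hc⟩ := h1 v
      exact ⟨c / a, by rw [hc, smul_smul, div_mul_cancel₀ _ ha]⟩
    · rw [herm_smul_right] at hv
      exact (mul_eq_zero.1 hv).resolve_left (pow_ne_zero _ ha)

theorem suRoot_commute (hF : Fintype.card F = q ^ 2) {p p' : Fin N → F} (hp0 : p ≠ 0)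
    (hp : Cfsg.hermForm N F q p p = 0) (hp0' : p' ≠ 0) (hp' : Cfsg.hermForm N F q p' p' = 0)
    (h : Cfsg.hermForm N F q p p' = 0) {a b : Cfsg.SU N F q} (ha : a ∈ suRoot q p)
    (hb : b ∈ suRoot q p') : a * b = b * a := by
  obtain ⟨c, hc, rfl⟩ := (mem_suRoot hF hp0 hp a).1 ha
  obtain ⟨d, hd, rfl⟩ := (mem_suRoot hF hp0' hp' b).1 hb
  exact suT_comm hF hp hp' h hc hd

theorem suRoot_isMulCommutative (hF : Fintype.card F = q ^ 2) {p : Fin N → F} (hp0 : p ≠ 0)
    (hp : Cfsg.hermForm N F q p p = 0) : IsMulCommutative (suRoot q p) :=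
  ⟨⟨fun a b => Subtype.ext (suRoot_commute hF hp0 hp hp0 hp hp a.2 b.2)⟩⟩

theorem suRoot_ne_bot (hF : Fintype.card F = q ^ 2) {p : Fin N → F} (hp0 : p ≠ 0)
    (hp : Cfsg.hermForm N F q p p = 0) : suRoot q p ≠ ⊥ := by
  intro h
  obtain ⟨ε, hε0, hε⟩ := exists_skew hF
  have h1 := suT_mem_suRoot hF hp0 hp hε
  rw [h, Subgroup.mem_bot] at h1
  exact suT_ne_one hF hp0 hp hε hε0 h1

theorem suRoot_comm_bot (hF : Fintype.card F = q ^ 2) {p p' : Fin N → F} (hp0 : p ≠ 0)
    (hp : Cfsg.hermForm N F q p p = 0) (hp0' : p' ≠ 0) (hp' : Cfsg.hermForm N F q p' p' = 0)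
    (h : Cfsg.hermForm N F q p p' = 0) : ⁅suRoot q p, suRoot q p'⁆ = ⊥ := by
  rw [Subgroup.commutator_eq_bot_iff_le_centralizer]
  intro a ha
  rw [Subgroup.mem_centralizer_iff]
  intro b hb
  have h' : Cfsg.hermForm N F q p' p = 0 := by rw [← herm_conj hF, h, conj_zero hF]
  exact suRoot_commute hF hp0' hp' hp0 hp h' hb ha

theorem suRoot_eq_imp (hF : Fintype.card F = q ^ 2) {p p' : Fin N → F} (hp0 : p ≠ 0)
    (hp : Cfsg.hermForm N F q p p = 0) (hp0' : p' ≠ 0) (hp' : Cfsg.hermForm N F q p' p' = 0)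
    (h : suRoot q p = suRoot q p') : Cfsg.hermForm N F q p p' = 0 := by
  obtain ⟨ε, hε0, hε⟩ := exists_skew hF
  have h1 : suT hF p ε ∈ suRoot q p' := by rw [← h]; exact suT_mem_suRoot hF hp0 hp hε
  obtain ⟨c, hc, hcc⟩ := (mem_suRoot hF hp0' hp' _).1 h1
  obtain ⟨z, hz⟩ := exists_herm_ne_zero hF hp0
  have h2 := congrArg (fun g => suAct g z) hcc
  simp only [suAct_suT hF hp hε, suAct_suT hF hp' hc] at h2
  have h3 : (ε * Cfsg.hermForm N F q z p) • p = (c * Cfsg.hermForm N F q z p') • p' :=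
    add_left_cancel h2
  have h4 := congrArg (fun u => Cfsg.hermForm N F q u p') h3
  simp only [herm_smul_left, hp', mul_zero] at h4
  rcases mul_eq_zero.1 h4 with h5 | h5
  · exact absurd h5 (mul_ne_zero hε0 hz)
  · exact h5

theorem su_rankOneCond (hF : Fintype.card F = q ^ 2) {p p' : Fin N → F} (hp0 : p ≠ 0)
    (hp : Cfsg.hermForm N F q p p = 0) (hp0' : p' ≠ 0) (hp' : Cfsg.hermForm N F q p' p' = 0)
    (h : Cfsg.hermForm N F q p p' ≠ 0) : Cfsg.RankOneCondition (suRoot q p) (suRoot q p') := by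
  intro a ha ha1
  obtain ⟨s, hs, rfl⟩ := (mem_suRoot hF hp0 hp a).1 ha
  have hs0 : s ≠ 0 := by
    rintro rfl
    exact ha1 (suT_zero hF hp)
  obtain ⟨α, hα⟩ : ∃ α : F, Cfsg.hermForm N F q p p' = α := ⟨_, rfl⟩
  rw [hα] at h
  have hβ : Cfsg.hermForm N F q p' p = α ^ q := by
    rw [← hα]; exact (herm_conj hF N p p').symm
  have hαq : α ^ q ≠ 0 := pow_ne_zero _ h
  obtain ⟨t, ht_def⟩ : ∃ t : F, t = (s * α * α ^ q)⁻¹ := ⟨_, rfl⟩
  have ht0 : t ≠ 0 := by
    rw [ht_def]; exact inv_ne_zero (mul_ne_zero (mul_ne_zero hs0 h) hαq)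
  have ht : t ^ q = -t := by
    rw [ht_def, inv_pow, mul_pow, mul_pow, hs, conj_conj hF]
    field_simp
  refine ⟨suT hF p' t, suT_mem_suRoot hF hp0' hp' ht, suT_ne_one hF hp0' hp' ht ht0, ?_⟩
  rw [conjBy_suRoot, conjBy_suRoot, suT_inv hF hp' ht, suT_inv hF hp hs,
    suAct_suT hF hp' (skew_neg hF ht), suAct_suT hF hp (skew_neg hF hs), hβ, hα]
  have h1 : (-t * α) * (-s * α ^ q) = 1 := by
    rw [ht_def]; field_simp
  have e : p + (-t * α) • p' = (-t * α) • (p' + (-s * α ^ q) • p) := by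
    have : (-t * α) • (p' + (-s * α ^ q) • p) =
        p + (-t * α) • p' + ((-t * α) * (-s * α ^ q) - 1) • p := by module
    rw [this, h1, sub_self, zero_smul, add_zero]
  rw [e, suRoot_smul (mul_ne_zero (neg_ne_zero.2 ht0) h)]

theorem suRoot_rankOne (hF : Fintype.card F = q ^ 2) {p p' : Fin N → F} (hp0 : p ≠ 0)
    (hp : Cfsg.hermForm N F q p p = 0) (hp0' : p' ≠ 0) (hp' : Cfsg.hermForm N F q p' p' = 0)
    (h : Cfsg.hermForm N F q p p' ≠ 0) : Cfsg.IsRankOnePair (suRoot q p) (suRoot q p') := by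
  have h' : Cfsg.hermForm N F q p' p ≠ 0 := by
    rw [← herm_conj hF]; exact pow_ne_zero _ h
  exact ⟨fun e => h (suRoot_eq_imp hF hp0 hp hp0' hp' e),
    isNilpotent_of_isMulCommutative (suRoot_isMulCommutative hF hp0 hp),
    isNilpotent_of_isMulCommutative (suRoot_isMulCommutative hF hp0' hp'),
    su_rankOneCond hF hp0 hp hp0' hp' h, su_rankOneCond hF hp0' hp' hp0 hp h'⟩

theorem su_rankOne_imp (hF : Fintype.card F = q ^ 2) {p p' : Fin N → F} (hp0 : p ≠ 0)
    (hp : Cfsg.hermForm N F q p p = 0) (hp0' : p' ≠ 0) (hp' : Cfsg.hermForm N F q p' p' = 0)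
    (h : Cfsg.IsRankOnePair (suRoot q p) (suRoot q p')) : Cfsg.hermForm N F q p p' ≠ 0 := by
  intro h0
  have h0' : Cfsg.hermForm N F q p' p = 0 := by rw [← herm_conj hF, h0, conj_zero hF]
  obtain ⟨ε, hε0, hε⟩ := exists_skew hF
  obtain ⟨b, hb, hb1, hconj⟩ := h.cond_left (suT hF p ε) (suT_mem_suRoot hF hp0 hp hε)
    (suT_ne_one hF hp0 hp hε hε0)
  obtain ⟨t, ht, rfl⟩ := (mem_suRoot hF hp0' hp' b).1 hb
  rw [conjBy_suRoot, conjBy_suRoot, suT_inv hF hp' ht, suT_inv hF hp hε,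
    suAct_suT hF hp' (skew_neg hF ht), suAct_suT hF hp (skew_neg hF hε), h0, h0', mul_zero,
    zero_smul, add_zero, mul_zero, zero_smul, add_zero] at hconj
  exact h.ne hconj

end SuRoot

section SuPSL2

variable {F : Type*} [Field F] [Fintype F] {q N : ℕ}

/-- the vector of `q`-th powers -/
def conjVec (q : ℕ) (v : Fin N → F) : Fin N → F := fun j => v j ^ q

theorem conjVec_dot (v x : Fin N → F) : conjVec q v ⬝ᵥ x = Cfsg.hermForm N F q x v := by
  simp [conjVec, dotProduct, herm_def, mul_comm]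

theorem suEmb_aux (hF : Fintype.card F = q ^ 2) {p p' : Fin N → F} {ε : F} (hε0 : ε ≠ 0)
    (hε : ε ^ q = -ε) (hp : Cfsg.hermForm N F q p p = 0) (hp' : Cfsg.hermForm N F q p' p' = 0)
    (h : Cfsg.hermForm N F q p p' = ε) :
    rowMat' (ε⁻¹ • conjVec q p') ((-ε)⁻¹ • conjVec q p) * colMat' p p' = 1 := by
  rw [rowMat'_mul_colMat']
  have h' : Cfsg.hermForm N F q p' p = -ε := by rw [← herm_conj hF, h, hε]
  simp only [smul_dotProduct, conjVec_dot, hp, hp', h, h', smul_eq_mul, mul_zero]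
  rw [inv_mul_cancel₀ hε0, inv_mul_cancel₀ (neg_ne_zero.2 hε0)]
  exact Matrix.one_fin_two.symm

theorem suEmb_act (p p' : Fin N → F) (ε : F) (X : Matrix (Fin 2) (Fin 2) F) (x : Fin N → F) :
    embMat (colMat' p p') (rowMat' (ε⁻¹ • conjVec q p') ((-ε)⁻¹ • conjVec q p)) X *ᵥ x =
      x + ((X 0 0 - 1) * (ε⁻¹ * Cfsg.hermForm N F q x p') +
          X 0 1 * ((-ε)⁻¹ * Cfsg.hermForm N F q x p)) • p +
        (X 1 0 * (ε⁻¹ * Cfsg.hermForm N F q x p') +
          (X 1 1 - 1) * ((-ε)⁻¹ * Cfsg.hermForm N F q x p)) • p' := by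
  rw [embMat_mulVec, smul_dotProduct, smul_dotProduct, conjVec_dot, conjVec_dot, smul_eq_mul,
    smul_eq_mul]

theorem skew_up (hF : Fintype.card F = q ^ 2) {ε : F} (hε0 : ε ≠ 0) (hε : ε ^ q = -ε) {c : F}
    (hc : c ^ q = c) : (c * (-ε)⁻¹) ^ q = -(c * (-ε)⁻¹) := by
  rw [mul_pow, hc, inv_pow, conj_neg hF, hε]
  field_simp

theorem skew_low {ε : F} (hε0 : ε ≠ 0) (hε : ε ^ q = -ε) {c : F}
    (hc : c ^ q = c) : (c * ε⁻¹) ^ q = -(c * ε⁻¹) := by
  rw [mul_pow, hc, inv_pow, hε]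
  field_simp

theorem suEmb_mem (hF : Fintype.card F = q ^ 2) {L : Type*} [Field L] (φ₀ : L →+* F)
    (hfix : ∀ l, φ₀ l ^ q = φ₀ l) {p p' : Fin N → F} {ε : F} (hε0 : ε ≠ 0)
    (hε : ε ^ q = -ε) (hp : Cfsg.hermForm N F q p p = 0) (hp' : Cfsg.hermForm N F q p' p' = 0)
    (h : Cfsg.hermForm N F q p p' = ε) (M : Matrix.SpecialLinearGroup (Fin 2) L) :
    (embMat (colMat' p p') (rowMat' (ε⁻¹ • conjVec q p') ((-ε)⁻¹ • conjVec q p))
      ((M : Matrix (Fin 2) (Fin 2) L).map φ₀)).det = 1 ∧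
    IsHermIso N F q (embMat (colMat' p p') (rowMat' (ε⁻¹ • conjVec q p') ((-ε)⁻¹ • conjVec q p))
      ((M : Matrix (Fin 2) (Fin 2) L).map φ₀)) := by
  refine Cfsg.Agent.Lib.Helper5.transvection_induction
    (fun M : Matrix.SpecialLinearGroup (Fin 2) L =>
      (embMat (colMat' p p') (rowMat' (ε⁻¹ • conjVec q p') ((-ε)⁻¹ • conjVec q p))
        ((M : Matrix (Fin 2) (Fin 2) L).map φ₀)).det = 1 ∧
      IsHermIso N F q (embMat (colMat' p p') (rowMat' (ε⁻¹ • conjVec q p') ((-ε)⁻¹ • conjVec q p))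
        ((M : Matrix (Fin 2) (Fin 2) L).map φ₀))) ?_ ?_ M
  · intro i j hij c
    fin_cases i <;> fin_cases j
    · exact absurd rfl hij
    · have hsk := skew_up hF hε0 hε (hfix c)
      have : embMat (colMat' p p') (rowMat' (ε⁻¹ • conjVec q p') ((-ε)⁻¹ • conjVec q p))
          (((Matrix.SpecialLinearGroup.transvection hij c : Matrix.SpecialLinearGroup (Fin 2) L) :
            Matrix (Fin 2) (Fin 2) L).map φ₀) =
          Cfsg.unitaryTransvection N q p (φ₀ c * (-ε)⁻¹) := by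
        apply Matrix.ext_iff_mulVec.2
        intro x
        rw [suEmb_act, utransv_mulVec, Matrix.SpecialLinearGroup.transvection_coe]
        simp only [Fin.zero_eta, Fin.isValue, Fin.mk_one, Matrix.map_apply, Matrix.add_apply,
          Matrix.one_apply_eq, Matrix.single_apply, zero_ne_one, one_ne_zero, false_and, and_false,
          ↓reduceIte, add_zero, sub_self, zero_mul, zero_add, and_self, Matrix.one_apply_ne, ne_eq,
          not_false_eq_true, zero_smul, map_one, map_zero]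
        congr 2
        ring
      rw [this]
      exact ⟨det_utransv p _ hp, isHermIso_utransv hF p _ hp hsk⟩
    · have hsk := skew_low hε0 hε (hfix c)
      have : embMat (colMat' p p') (rowMat' (ε⁻¹ • conjVec q p') ((-ε)⁻¹ • conjVec q p))
          (((Matrix.SpecialLinearGroup.transvection hij c : Matrix.SpecialLinearGroup (Fin 2) L) :
            Matrix (Fin 2) (Fin 2) L).map φ₀) =
          Cfsg.unitaryTransvection N q p' (φ₀ c * ε⁻¹) := by
        apply Matrix.ext_iff_mulVec.2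
        intro x
        rw [suEmb_act, utransv_mulVec, Matrix.SpecialLinearGroup.transvection_coe]
        simp only [Fin.zero_eta, Fin.isValue, Fin.mk_one, Matrix.map_apply, Matrix.add_apply,
          Matrix.one_apply_eq, Matrix.single_apply, zero_ne_one, one_ne_zero, false_and, and_false,
          ↓reduceIte, add_zero, sub_self, zero_mul, zero_add, and_self, Matrix.one_apply_ne, ne_eq,
          not_false_eq_true, zero_smul, map_one, map_zero]
        congr 2
        ring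
      rw [this]
      exact ⟨det_utransv p' _ hp', isHermIso_utransv hF p' _ hp' hsk⟩
    · exact absurd rfl hij
  · intro A B hA hB
    have e : embMat (colMat' p p') (rowMat' (ε⁻¹ • conjVec q p') ((-ε)⁻¹ • conjVec q p))
        (((A * B : Matrix.SpecialLinearGroup (Fin 2) L) : Matrix (Fin 2) (Fin 2) L).map φ₀) =
        embMat (colMat' p p') (rowMat' (ε⁻¹ • conjVec q p') ((-ε)⁻¹ • conjVec q p))
          ((A : Matrix (Fin 2) (Fin 2) L).map φ₀) *
        embMat (colMat' p p') (rowMat' (ε⁻¹ • conjVec q p') ((-ε)⁻¹ • conjVec q p))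
          ((B : Matrix (Fin 2) (Fin 2) L).map φ₀) := by
      rw [Matrix.SpecialLinearGroup.coe_mul, Matrix.map_mul,
        embMat_mul _ _ (suEmb_aux hF hε0 hε hp hp' h)]
    rw [e]
    exact ⟨by rw [Matrix.det_mul, hA.1, hB.1, mul_one], isHermIso_mul hA.2 hB.2⟩

/-- the `SL₂(L)` of a hyperbolic pair with skew pairing, as a homomorphism into `SU` -/
def suEmb (hF : Fintype.card F = q ^ 2) {L : Type*} [Field L] (φ₀ : L →+* F)
    (hfix : ∀ l, φ₀ l ^ q = φ₀ l) {p p' : Fin N → F} {ε : F} (hε0 : ε ≠ 0)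
    (hε : ε ^ q = -ε) (hp : Cfsg.hermForm N F q p p = 0) (hp' : Cfsg.hermForm N F q p' p' = 0)
    (h : Cfsg.hermForm N F q p p' = ε) :
    Matrix.SpecialLinearGroup (Fin 2) L →* Cfsg.SU N F q where
  toFun M := suMk (embMat (colMat' p p') (rowMat' (ε⁻¹ • conjVec q p') ((-ε)⁻¹ • conjVec q p))
      ((M : Matrix (Fin 2) (Fin 2) L).map φ₀)) (suEmb_mem hF φ₀ hfix hε0 hε hp hp' h M).1
      (suEmb_mem hF φ₀ hfix hε0 hε hp hp' h M).2
  map_one' := by
    apply su_ext
    rw [suMk_val]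
    simp only [Matrix.SpecialLinearGroup.coe_one, Matrix.map_one, map_zero, map_one, embMat_one]
    rfl
  map_mul' M M' := by
    apply su_ext
    rw [suMk_val]
    rw [Matrix.SpecialLinearGroup.coe_mul, Matrix.map_mul,
      embMat_mul _ _ (suEmb_aux hF hε0 hε hp hp' h)]
    rfl

theorem suEmb_suAct (hF : Fintype.card F = q ^ 2) {L : Type*} [Field L] (φ₀ : L →+* F)
    (hfix : ∀ l, φ₀ l ^ q = φ₀ l) {p p' : Fin N → F} {ε : F} (hε0 : ε ≠ 0)
    (hε : ε ^ q = -ε) (hp : Cfsg.hermForm N F q p p = 0) (hp' : Cfsg.hermForm N F q p' p' = 0)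
    (h : Cfsg.hermForm N F q p p' = ε) (M : Matrix.SpecialLinearGroup (Fin 2) L)
    (x : Fin N → F) :
    suAct (suEmb hF φ₀ hfix hε0 hε hp hp' h M) x =
      x + ((φ₀ ((M : Matrix (Fin 2) (Fin 2) L) 0 0) - 1) * (ε⁻¹ * Cfsg.hermForm N F q x p') +
          φ₀ ((M : Matrix (Fin 2) (Fin 2) L) 0 1) * ((-ε)⁻¹ * Cfsg.hermForm N F q x p)) • p +
        (φ₀ ((M : Matrix (Fin 2) (Fin 2) L) 1 0) * (ε⁻¹ * Cfsg.hermForm N F q x p') +
          (φ₀ ((M : Matrix (Fin 2) (Fin 2) L) 1 1) - 1) *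
            ((-ε)⁻¹ * Cfsg.hermForm N F q x p)) • p' :=
  suEmb_act p p' ε _ x

theorem su_psl2_norm (hF : Fintype.card F = q ^ 2) {L : Type*} [Field L] (φ₀ : L →+* F)
    (hfix : ∀ l, φ₀ l ^ q = φ₀ l) (hsurj : ∀ x : F, x ^ q = x → ∃ l, φ₀ l = x)
    {p p' : Fin N → F} {ε : F} (hε0 : ε ≠ 0) (hε : ε ^ q = -ε) (hp0 : p ≠ 0)
    (hp : Cfsg.hermForm N F q p p = 0) (hp0' : p' ≠ 0) (hp' : Cfsg.hermForm N F q p' p' = 0)
    (h : Cfsg.hermForm N F q p p' = ε) :
    Cfsg.IsPSL2PairOver L (suRoot q p) (suRoot q p') := by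
  have hup : (Cfsg.upperUnipotentSL2 L).map (suEmb hF φ₀ hfix hε0 hε hp hp' h) = suRoot q p := by
    rw [Cfsg.upperUnipotentSL2, MonoidHom.map_closure, suRoot]
    congr 1
    ext t
    rw [mem_suGen_iff hF hp0 hp]
    constructor
    · rintro ⟨g, ⟨h10, h00, h11⟩, rfl⟩
      have hsk := skew_up hF hε0 hε (hfix ((g : Matrix (Fin 2) (Fin 2) L) 0 1))
      refine ⟨φ₀ ((g : Matrix (Fin 2) (Fin 2) L) 0 1) * (-ε)⁻¹, hsk, su_ext' fun x => ?_⟩
      rw [suEmb_suAct, suAct_suT hF hp hsk, h10, h00, h11]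
      simp only [map_one, map_zero, sub_self, zero_mul, zero_add, add_zero, zero_smul]
      congr 2
      ring
    · rintro ⟨c, hc, rfl⟩
      have hfx : (c * -ε) ^ q = c * -ε := by
        rw [mul_pow, hc, conj_neg hF, hε]; ring
      obtain ⟨l, hl⟩ := hsurj _ hfx
      obtain ⟨x, hx⟩ : ∃ x : Matrix.SpecialLinearGroup (Fin 2) L,
          (x : Matrix (Fin 2) (Fin 2) L) = !![1, l; 0, 1] :=
        ⟨⟨!![1, l; 0, 1], by simp [Matrix.det_fin_two]⟩, rfl⟩
      refine ⟨x, ⟨by rw [hx]; simp, by rw [hx]; simp, by rw [hx]; simp⟩, su_ext' fun y => ?_⟩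
      rw [suEmb_suAct, suAct_suT hF hp hc, hx]
      simp only [Matrix.of_apply, Matrix.cons_val', Matrix.cons_val_zero, Matrix.cons_val_one,
        Matrix.cons_val_fin_one, map_one, map_zero, sub_self, zero_mul, zero_add, add_zero,
        zero_smul, hl]
      congr 2
      field_simp
  have hlow : (Cfsg.lowerUnipotentSL2 L).map (suEmb hF φ₀ hfix hε0 hε hp hp' h) = suRoot q p' := by
    rw [Cfsg.lowerUnipotentSL2, MonoidHom.map_closure, suRoot]
    congr 1
    ext t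
    rw [mem_suGen_iff hF hp0' hp']
    constructor
    · rintro ⟨g, ⟨h01, h00, h11⟩, rfl⟩
      have hsk := skew_low hε0 hε (hfix ((g : Matrix (Fin 2) (Fin 2) L) 1 0))
      refine ⟨φ₀ ((g : Matrix (Fin 2) (Fin 2) L) 1 0) * ε⁻¹, hsk, su_ext' fun x => ?_⟩
      rw [suEmb_suAct, suAct_suT hF hp' hsk, h01, h00, h11]
      simp only [map_one, map_zero, sub_self, zero_mul, add_zero, zero_smul]
      congr 2
      ring
    · rintro ⟨c, hc, rfl⟩
      have hfx : (c * ε) ^ q = c * ε := by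
        rw [mul_pow, hc, hε]; ring
      obtain ⟨l, hl⟩ := hsurj _ hfx
      obtain ⟨x, hx⟩ : ∃ x : Matrix.SpecialLinearGroup (Fin 2) L,
          (x : Matrix (Fin 2) (Fin 2) L) = !![1, 0; l, 1] :=
        ⟨⟨!![1, 0; l, 1], by simp [Matrix.det_fin_two]⟩, rfl⟩
      refine ⟨x, ⟨by rw [hx]; simp, by rw [hx]; simp, by rw [hx]; simp⟩, su_ext' fun y => ?_⟩
      rw [suEmb_suAct, suAct_suT hF hp' hc, hx]
      simp only [Matrix.of_apply, Matrix.cons_val', Matrix.cons_val_zero, Matrix.cons_val_one,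
        Matrix.cons_val_fin_one, map_one, map_zero, sub_self, zero_mul, add_zero,
        zero_smul, hl]
      congr 2
      field_simp
  refine ⟨suEmb hF φ₀ hfix hε0 hε hp hp' h, ?_, ?_, hup, hlow⟩
  · rw [MonoidHom.range_eq_map, ← sl2_top, Subgroup.map_sup, hup, hlow]
  · intro M hM
    rw [MonoidHom.mem_ker] at hM
    have : M = 1 := by
      apply Subtype.ext
      have h1 : embMat (colMat' p p') (rowMat' (ε⁻¹ • conjVec q p') ((-ε)⁻¹ • conjVec q p))
          ((M : Matrix (Fin 2) (Fin 2) L).map φ₀) = 1 :=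
        congrArg suMat hM
      have h2 := embMat_inj _ _ (suEmb_aux hF hε0 hε hp hp' h) (h1.trans (embMat_one _ _).symm)
      have h3 : (M : Matrix (Fin 2) (Fin 2) L).map φ₀ = (1 : Matrix (Fin 2) (Fin 2) L).map φ₀ := by
        rw [h2, Matrix.map_one _ (map_zero φ₀) (map_one φ₀)]
      exact Matrix.map_injective φ₀.injective h3
    rw [this]
    exact one_mem _

theorem suRoot_psl2 (hF : Fintype.card F = q ^ 2) {L : Type*} [Field L] (φ₀ : L →+* F)
    (hfix : ∀ l, φ₀ l ^ q = φ₀ l) (hsurj : ∀ x : F, x ^ q = x → ∃ l, φ₀ l = x)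
    {p p' : Fin N → F} (hp0 : p ≠ 0) (hp : Cfsg.hermForm N F q p p = 0) (hp0' : p' ≠ 0)
    (hp' : Cfsg.hermForm N F q p' p' = 0) (h : Cfsg.hermForm N F q p p' ≠ 0) :
    Cfsg.IsPSL2PairOver L (suRoot q p) (suRoot q p') := by
  obtain ⟨ε, hε0, hε⟩ := exists_skew hF
  have ha0 : (ε / Cfsg.hermForm N F q p p') ^ q ≠ 0 := pow_ne_zero _ (div_ne_zero hε0 h)
  have ha : Cfsg.hermForm N F q p ((ε / Cfsg.hermForm N F q p p') ^ q • p') = ε := by
    rw [herm_smul_right, conj_conj hF]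
    field_simp
  have hiso : Cfsg.hermForm N F q ((ε / Cfsg.hermForm N F q p p') ^ q • p')
      ((ε / Cfsg.hermForm N F q p p') ^ q • p') = 0 := by
    rw [herm_smul_right, herm_smul_left, hp', mul_zero, mul_zero]
  have key := su_psl2_norm hF φ₀ hfix hsurj hε0 hε hp0 hp (smul_ne_zero ha0 hp0') hiso ha
  rwa [suRoot_smul ha0] at key

end SuPSL2

section SuClass

variable {F : Type*} [Field F] [Fintype F] {q N : ℕ}

/-- the class of unitary root groups (as in the statement) -/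
def suClass (q N : ℕ) (F : Type*) [Field F] : Set (Subgroup (Cfsg.SU N F q)) :=
  {A | ∃ p : Fin N → F, p ≠ 0 ∧ Cfsg.hermForm N F q p p = 0 ∧ A = suRoot q p}

/-- the subgroup generated by the unitary root groups -/
def suG0 (q N : ℕ) (F : Type*) [Field F] : Subgroup (Cfsg.SU N F q) := ⨆ B ∈ suClass q N F, B

/-- the class of unitary root groups inside the group they generate -/
def suClass0 (q N : ℕ) (F : Type*) [Field F] : Set (Subgroup (suG0 q N F)) :=
  (fun A : Subgroup (Cfsg.SU N F q) => A.subgroupOf (suG0 q N F)) '' suClass q N F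

theorem suRoot_le_G0 {p : Fin N → F} (hp0 : p ≠ 0) (hp : Cfsg.hermForm N F q p p = 0) :
    suRoot q p ≤ suG0 q N F :=
  le_biSup_mem ⟨p, hp0, hp, rfl⟩

theorem mem_suClass0 {p : Fin N → F} (hp0 : p ≠ 0) (hp : Cfsg.hermForm N F q p p = 0) :
    (suRoot q p).subgroupOf (suG0 q N F) ∈ suClass0 q N F :=
  ⟨_, ⟨p, hp0, hp, rfl⟩, rfl⟩

theorem exists_iso_both (hF : Fintype.card F = q ^ 2) {p p' : Fin N → F} (hp0 : p ≠ 0)
    (hp : Cfsg.hermForm N F q p p = 0) (hp0' : p' ≠ 0) (h : Cfsg.hermForm N F q p p' = 0) :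
    ∃ z : Fin N → F, z ≠ 0 ∧ Cfsg.hermForm N F q z z = 0 ∧ Cfsg.hermForm N F q p z ≠ 0 ∧
      Cfsg.hermForm N F q p' z ≠ 0 := by
  have h' : Cfsg.hermForm N F q p' p = 0 := by rw [← herm_conj hF, h, conj_zero hF]
  obtain ⟨w, hw1, hw2⟩ : ∃ w, Cfsg.hermForm N F q w p ≠ 0 ∧ Cfsg.hermForm N F q w p' ≠ 0 := by
    obtain ⟨z1, h1⟩ := exists_herm_ne_zero hF hp0
    obtain ⟨z2, h2⟩ := exists_herm_ne_zero hF hp0'
    by_cases h3 : Cfsg.hermForm N F q z1 p' = 0
    · by_cases h4 : Cfsg.hermForm N F q z2 p = 0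
      · refine ⟨z1 + z2, ?_, ?_⟩
        · rw [herm_add_left, h4, add_zero]; exact h1
        · rw [herm_add_left, h3, zero_add]; exact h2
      · exact ⟨z2, h4, h2⟩
    · exact ⟨z1, h1, h3⟩
  have hpw : Cfsg.hermForm N F q p w ≠ 0 := by rw [← herm_conj hF]; exact pow_ne_zero _ hw1
  have hpw' : Cfsg.hermForm N F q p' w ≠ 0 := by rw [← herm_conj hF]; exact pow_ne_zero _ hw2
  have hfix : (-Cfsg.hermForm N F q w w) ^ q = -Cfsg.hermForm N F q w w := by
    rw [conj_neg hF, herm_conj hF]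
  obtain ⟨τ, hτ⟩ := exists_trace_eq hF _ hfix
  have e1 : Cfsg.hermForm N F q w p = Cfsg.hermForm N F q p w ^ q := (herm_conj hF N p w).symm
  have h3 : Cfsg.hermForm N F q p (w + (τ / Cfsg.hermForm N F q p w) • p) ≠ 0 := by
    rw [herm_add_right hF, herm_smul_right, hp, mul_zero, add_zero]; exact hpw
  refine ⟨w + (τ / Cfsg.hermForm N F q p w) • p, ?_, ?_, h3, ?_⟩
  · intro hz
    rw [hz, herm_zero_right hF] at h3
    exact h3 rfl
  · have key : Cfsg.hermForm N F q (w + (τ / Cfsg.hermForm N F q p w) • p)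
        (w + (τ / Cfsg.hermForm N F q p w) • p) = Cfsg.hermForm N F q w w +
          ((τ / Cfsg.hermForm N F q p w * Cfsg.hermForm N F q p w) ^ q +
            τ / Cfsg.hermForm N F q p w * Cfsg.hermForm N F q p w) := by
      simp only [herm_add_left, herm_add_right hF, herm_smul_left, herm_smul_right, hp, mul_zero,
        add_zero, e1, mul_pow]
      ring
    rw [key, div_mul_cancel₀ _ hpw]
    linear_combination hτ
  · rw [herm_add_right hF, herm_smul_right, h', mul_zero, add_zero]; exact hpw'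

theorem exists_isotropic (hF : Fintype.card F = q ^ 2) (n : ℕ) :
    ∃ p : Fin (n + 2) → F, p ≠ 0 ∧ Cfsg.hermForm (n + 2) F q p p = 0 := by
  have hq : q ≠ 0 := by have := two_le_q hF; omega
  obtain ⟨b, hb⟩ := exists_norm_eq hF (-1 : F) (neg_ne_zero.2 one_ne_zero)
    (by rw [conj_neg hF, one_pow])
  have h10 : (1 : Fin (n + 2)) ≠ 0 := by
    intro h
    have h1 := congrArg Fin.val h
    rw [Fin.val_one, Fin.val_zero] at h1
    exact one_ne_zero h1
  refine ⟨Pi.single 0 1 + b • Pi.single 1 1, ?_, ?_⟩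
  · intro h
    have h1 := congrFun h 0
    simp [h10.symm] at h1
  · simp only [herm_add_right hF, herm_smul_right, herm_single_right hq]
    simp [h10, h10.symm]
    linear_combination hb

theorem exists_of_fixed {L : Type*} [Field L] [Fintype L] (hL : Fintype.card L = q)
    (hF : Fintype.card F = q ^ 2) (φ₀ : L →+* F) (x : F) (hx : x ^ q = x) : ∃ l, φ₀ l = x := by
  classical
  have hq : 1 < q := two_le_q hF
  have hne : (Polynomial.X ^ q - Polynomial.X : Polynomial F) ≠ 0 :=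
    FiniteField.X_pow_card_sub_X_ne_zero F hq
  have hdeg : (Polynomial.X ^ q - Polynomial.X : Polynomial F).natDegree = q :=
    FiniteField.X_pow_card_sub_X_natDegree_eq F hq
  have hZ : (Finset.univ.filter (fun y : F => y ^ q = y)).val ⊆
      (Polynomial.X ^ q - Polynomial.X : Polynomial F).roots := by
    intro y hy
    rw [Polynomial.mem_roots hne]
    have hy' : y ^ q = y := (Finset.mem_filter.1 hy).2
    simp [Polynomial.IsRoot, hy']
  have hcardZ : (Finset.univ.filter (fun y : F => y ^ q = y)).card ≤ q := by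
    have h1 := Polynomial.card_le_degree_of_subset_roots hZ
    rwa [hdeg] at h1
  have himg : Finset.univ.image φ₀ ⊆ Finset.univ.filter (fun y : F => y ^ q = y) := by
    intro y hy
    obtain ⟨l, -, rfl⟩ := Finset.mem_image.1 hy
    rw [Finset.mem_filter]
    refine ⟨Finset.mem_univ _, ?_⟩
    rw [← map_pow, ← hL, FiniteField.pow_card]
  have hcardI : (Finset.univ.image φ₀).card = q := by
    rw [Finset.card_image_of_injective _ φ₀.injective, Finset.card_univ, hL]
  have heq : Finset.univ.image φ₀ = Finset.univ.filter (fun y : F => y ^ q = y) :=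
    Finset.eq_of_subset_of_card_le himg (by rw [hcardI]; exact hcardZ)
  have hxZ : x ∈ Finset.univ.filter (fun y : F => y ^ q = y) :=
    Finset.mem_filter.2 ⟨Finset.mem_univ _, hx⟩
  rw [← heq] at hxZ
  obtain ⟨l, -, hl⟩ := Finset.mem_image.1 hxZ
  exact ⟨l, hl⟩

theorem exists_field_emb (hF : Fintype.card F = q ^ 2) :
    ∃ (L : Type) (_ : Field L) (_ : Fintype L) (φ₀ : L →+* F), Fintype.card L = q ∧
      (∀ l, φ₀ l ^ q = φ₀ l) ∧ (∀ x : F, x ^ q = x → ∃ l, φ₀ l = x) := by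
  obtain ⟨p₀, k, hp₀, hchar, hq⟩ := q_prime_pow hF
  have : Fact p₀.Prime := ⟨hp₀⟩
  have hk : k ≠ 0 := by
    rintro rfl
    have h2 := two_le_q hF
    rw [hq] at h2
    simp at h2
  let _ : Fintype (GaloisField p₀ k) := Fintype.ofFinite _
  have hL : Fintype.card (GaloisField p₀ k) = q := by
    rw [← Nat.card_eq_fintype_card, GaloisField.card p₀ k hk, hq]
  obtain ⟨φ₀⟩ := exists_ringHom_of_card_sq hL hF
  refine ⟨GaloisField p₀ k, inferInstance, inferInstance, φ₀, hL, ?_, ?_⟩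
  · intro l
    rw [← map_pow, ← hL, FiniteField.pow_card]
  · intro x hx
    exact exists_of_fixed hL hF φ₀ x hx

theorem suClass0_isRootSubgroupSet (hF : Fintype.card F = q ^ 2) :
    Cfsg.IsRootSubgroupSet (suClass0 q N F) := by
  refine ⟨?_, ?_, ?_, ?_, ?_⟩
  · rintro _ ⟨A, ⟨p, hp0, hp, rfl⟩, rfl⟩
    exact subgroupOf_isMulCommutative _ (suRoot_isMulCommutative hF hp0 hp)
  · rintro _ ⟨A, ⟨p, hp0, hp, rfl⟩, rfl⟩
    exact subgroupOf_ne_bot (suRoot_le_G0 hp0 hp) (suRoot_ne_bot hF hp0 hp)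
  · exact iSup_subgroupOf_eq_top (suClass q N F) (suG0 q N F) le_rfl
      (fun A hA => le_biSup_mem hA)
  · rintro _ ⟨A, ⟨p, hp0, hp, rfl⟩, rfl⟩ g
    show Cfsg.conjBy ((suRoot q p).subgroupOf (suG0 q N F)) g ∈ suClass0 q N F
    rw [conjBy_subgroupOf, conjBy_suRoot]
    exact mem_suClass0 (suAct_ne_zero g.1 hp0) (herm_suAct_self g.1 hp)
  · rintro _ ⟨A, ⟨p, hp0, hp, rfl⟩, rfl⟩ _ ⟨B, ⟨p', hp0', hp', rfl⟩, rfl⟩
    by_cases h : Cfsg.hermForm N F q p p' = 0
    · left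
      exact subgroupOf_commutator_eq_bot _ (suRoot_comm_bot hF hp0 hp hp0' hp' h)
    · right; left
      exact subgroupOf_rankOne (suRoot_le_G0 hp0 hp) (suRoot_le_G0 hp0' hp')
        (suRoot_isMulCommutative hF hp0 hp) (suRoot_isMulCommutative hF hp0' hp')
        (suRoot_rankOne hF hp0 hp hp0' hp' h)

theorem suClass0_connected (hF : Fintype.card F = q ^ 2) :
    Cfsg.IsConnectedFamily (Cfsg.FAdj (suClass0 q N F)) (suClass0 q N F) := by
  rintro _ ⟨A, ⟨p, hp0, hp, rfl⟩, rfl⟩ _ ⟨B, ⟨p', hp0', hp', rfl⟩, rfl⟩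
  have adj : ∀ {u v : Fin N → F} (hu0 : u ≠ 0) (hu : Cfsg.hermForm N F q u u = 0) (hv0 : v ≠ 0)
      (hv : Cfsg.hermForm N F q v v = 0), Cfsg.hermForm N F q u v ≠ 0 →
      Cfsg.FAdj (suClass0 q N F) ((suRoot q u).subgroupOf (suG0 q N F))
        ((suRoot q v).subgroupOf (suG0 q N F)) := by
    intro u v hu0 hu hv0 hv huv
    exact ⟨mem_suClass0 hu0 hu, mem_suClass0 hv0 hv,
      subgroupOf_rankOne (suRoot_le_G0 hu0 hu) (suRoot_le_G0 hv0 hv)
        (suRoot_isMulCommutative hF hu0 hu) (suRoot_isMulCommutative hF hv0 hv)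
        (suRoot_rankOne hF hu0 hu hv0 hv huv)⟩
  by_cases h : Cfsg.hermForm N F q p p' = 0
  · obtain ⟨z, hz0, hz, h1, h2⟩ := exists_iso_both hF hp0 hp hp0' h
    have h2' : Cfsg.hermForm N F q z p' ≠ 0 := by rw [← herm_conj hF]; exact pow_ne_zero _ h2
    exact (Relation.ReflTransGen.single (adj hp0 hp hz0 hz h1)).tail (adj hz0 hz hp0' hp' h2')
  · exact Relation.ReflTransGen.single (adj hp0 hp hp0' hp' h)

theorem suClass0_isConjClass (hF : Fintype.card F = q ^ 2) (n : ℕ) :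
    Cfsg.IsConjClassOfSubgroups (suClass0 q (n + 2) F) := by
  obtain ⟨p, hp0, hp⟩ := exists_isotropic hF n
  exact isConjClass_of_connected ⟨_, mem_suClass0 hp0 hp⟩
    (suClass0_isRootSubgroupSet hF).ne_bot (suClass0_connected hF)

theorem suClass0_degenerate (hF : Fintype.card F = q ^ 2) :
    Cfsg.IsDegenerateRootSet (suClass0 q N F) := by
  rintro _ ⟨A, ⟨p, hp0, hp, rfl⟩, rfl⟩ _ ⟨B, ⟨p', hp0', hp', rfl⟩, rfl⟩ ⟨hmem, hcent, -, -⟩
  by_cases h : Cfsg.hermForm N F q p p' = 0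
  · have hbot : ⁅(suRoot q p).subgroupOf (suG0 q N F), (suRoot q p').subgroupOf (suG0 q N F)⁆ = ⊥ :=
      subgroupOf_commutator_eq_bot _ (suRoot_comm_bot hF hp0 hp hp0' hp' h)
    exact (suClass0_isRootSubgroupSet hF).ne_bot _ hmem hbot
  · obtain ⟨ε, hε0, hε⟩ := exists_skew hF
    have h2 := comm_of_central_subgroupOf (suRoot_le_G0 hp0 hp) (suRoot_le_G0 hp0' hp') hcent
      (suT_mem_suRoot hF hp0 hp hε) (suT_mem_suRoot hF hp0' hp' hε)
    rw [conj_suT hF _ hp hε] at h2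
    have h4 := suT_comm_imp hF hp0 hp (herm_suAct_self _ hp) hε hε hε0 hε0 h2
    rw [suAct_suT hF hp' hε, herm_add_right hF, hp, zero_add, herm_smul_right] at h4
    rcases mul_eq_zero.1 h4 with h5 | h5
    · exact (mul_ne_zero hε0 h) (pow_eq_zero_iff (by have := two_le_q hF; omega) |>.1 h5)
    · exact h h5

theorem suClass0_kRoot (hF : Fintype.card F = q ^ 2) {L : Type*} [Field L] (φ₀ : L →+* F)
    (hfix : ∀ l, φ₀ l ^ q = φ₀ l) (hsurj : ∀ x : F, x ^ q = x → ∃ l, φ₀ l = x) :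
    Cfsg.IsKRootSubgroupSet L (suClass0 q N F) := by
  refine ⟨suClass0_isRootSubgroupSet hF, ?_⟩
  rintro _ ⟨A, ⟨p, hp0, hp, rfl⟩, rfl⟩ _ ⟨B, ⟨p', hp0', hp', rfl⟩, rfl⟩ hr
  have hr' := rankOne_of_subgroupOf (suRoot_le_G0 hp0 hp) (suRoot_le_G0 hp0' hp')
    (suRoot_isMulCommutative hF hp0 hp) (suRoot_isMulCommutative hF hp0' hp') hr
  exact psl2_subgroupOf (suRoot_le_G0 hp0 hp) (suRoot_le_G0 hp0' hp')
    (suRoot_psl2 hF φ₀ hfix hsurj hp0 hp hp0' hp' (su_rankOne_imp hF hp0 hp hp0' hp' hr'))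

end SuClass

end Cfsg.Agent.Lib.Helper99
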