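import Cfsg.Agent.Lib.Helper99.TensorNM
import Cfsg.Agent.Lib.Helper94.Refl

set_option autoImplicit false

namespace Cfsg.Agent.Lib.Helper99

open Matrix
open scoped Kronecker

section ConjInv

variable {G : Type*} [Group G]

/-- the elements conjugating `z` to `z` or to its inverse -/
def conjInvSubgroup (z : G) : Subgroup G where
  carrier := {k | k * z * k⁻¹ = z ∨ k * z * k⁻¹ = z⁻¹}
  one_mem' := Or.inl (by simp)
  mul_mem' := by
    intro a b ha hb
    have h : a * b * z * (a * b)⁻¹ = a * (b * z * b⁻¹) * a⁻¹ := by group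
    show a * b * z * (a * b)⁻¹ = z ∨ a * b * z * (a * b)⁻¹ = z⁻¹
    rw [h]
    rcases hb with hb | hb
    · rw [hb]
      exact ha
    · rw [hb]
      have h' : a * z⁻¹ * a⁻¹ = (a * z * a⁻¹)⁻¹ := by group
      rw [h']
      rcases ha with ha | ha
      · right
        rw [ha]
      · left
        rw [ha, inv_inv]
  inv_mem' := by
    intro a ha
    show a⁻¹ * z * a⁻¹⁻¹ = z ∨ a⁻¹ * z * a⁻¹⁻¹ = z⁻¹
    rw [inv_inv]
    rcases ha with ha | ha
    · left
      calc a⁻¹ * z * a = a⁻¹ * (a * z * a⁻¹) * a := by rw [ha]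
        _ = z := by group
    · right
      have h1 : a * z⁻¹ * a⁻¹ = z := by
        have h3 : a * z⁻¹ * a⁻¹ = (a * z * a⁻¹)⁻¹ := by group
        rw [h3, ha, inv_inv]
      calc a⁻¹ * z * a = a⁻¹ * (a * z⁻¹ * a⁻¹) * a := by rw [h1]
        _ = z⁻¹ := by group

theorem mem_conjInvSubgroup (z k : G) :
    k ∈ conjInvSubgroup z ↔ k * z * k⁻¹ = z ∨ k * z * k⁻¹ = z⁻¹ := Iff.rfl

end ConjInv

section F2

variable {F : Type*} [Field F] [Fintype F]

theorem f2_charP (hq : Fintype.card F = 2) : CharP F 2 := by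
  have : Fact (Nat.Prime 2) := ⟨Nat.prime_two⟩
  exact charP_of_card_eq_prime hq

theorem f2_cases (hq : Fintype.card F = 2) (x : F) : x = 0 ∨ x = 1 := by
  have h := FiniteField.pow_card x
  rw [hq] at h
  have h1 : x * (x - 1) = 0 := by linear_combination h
  rcases mul_eq_zero.1 h1 with h2 | h2
  · exact Or.inl h2
  · exact Or.inr (sub_eq_zero.1 h2)

theorem f2_two (hq : Fintype.card F = 2) : (2 : F) = 0 := by
  have := f2_charP hq
  exact CharTwo.two_eq_zero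

end F2

section Omega

variable (F : Type*) [Field F]

/-- an element of order three of `GL₂` over the field with two elements -/
def omegaMat : Matrix (Fin 2) (Fin 2) F := !![0, 1; 1, 1]

/-- the Gram matrix of the hyperbolic plane -/
def jMat : Matrix (Fin 2) (Fin 2) F := !![0, 1; 1, 0]

variable {F}

theorem omegaMat_cube (h2 : (2 : F) = 0) : omegaMat F * omegaMat F * omegaMat F = 1 := by
  rw [omegaMat, Matrix.mul_fin_two, Matrix.mul_fin_two, Matrix.one_fin_two]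
  simp
  linear_combination h2

theorem omega_J (h2 : (2 : F) = 0) : (omegaMat F)ᵀ * jMat F * omegaMat F = jMat F := by
  ext i j
  fin_cases i <;> fin_cases j <;>
    simp [omegaMat, jMat, Matrix.mul_apply, Fin.sum_univ_two]
  linear_combination h2

theorem f2_gl2_omega [Fintype F] (hq : Fintype.card F = 2) (a : Matrix (Fin 2) (Fin 2) F)
    (ha : a.det ≠ 0) :
    a * omegaMat F = omegaMat F * a ∨ a * omegaMat F = omegaMat F * omegaMat F * a := by
  have h2 := f2_two hq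
  have h1 : (1 : F) + 1 = 0 := by linear_combination h2
  have hη := Matrix.eta_fin_two a
  rw [Matrix.det_fin_two] at ha
  rcases f2_cases hq (a 0 0) with h00 | h00 <;> rcases f2_cases hq (a 0 1) with h01 | h01 <;>
  rcases f2_cases hq (a 1 0) with h10 | h10 <;> rcases f2_cases hq (a 1 1) with h11 | h11 <;>
  rw [h00, h01, h10, h11] at ha hη <;>
  first
  | (exfalso; apply ha; norm_num; done)
  | (exfalso; apply ha; linear_combination h1; done)
  | (left; rw [hη, omegaMat, Matrix.mul_fin_two, Matrix.mul_fin_two]; simp [h1]; done)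
  | (right; rw [hη, omegaMat, Matrix.mul_fin_two, Matrix.mul_fin_two, Matrix.mul_fin_two];
      simp [h1]; done)
  | (left; rw [hη, omegaMat]; done)

end Omega

section Pairs

variable {F : Type*} [Field F] {n₂ : ℕ}

/-- the vector of `F² ⊗ F^{n₂}` with components `a`, `b` -/
def pr2 (a b : Fin n₂ → F) : Fin 2 × Fin n₂ → F := fun p => if p.1 = 0 then a p.2 else b p.2

theorem pr2_zero_apply (a b : Fin n₂ → F) (s : Fin n₂) : pr2 a b (0, s) = a s := rfl

theorem pr2_one_apply (a b : Fin n₂ → F) (s : Fin n₂) : pr2 a b (1, s) = b s := rfl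

theorem exists_pr2 (x : Fin 2 × Fin n₂ → F) : ∃ a b, x = pr2 a b := by
  refine ⟨fun s => x (0, s), fun s => x (1, s), ?_⟩
  funext ⟨i, s⟩
  fin_cases i <;> rfl

theorem pr2_add (a b a' b' : Fin n₂ → F) : pr2 a b + pr2 a' b' = pr2 (a + a') (b + b') := by
  funext ⟨i, s⟩
  fin_cases i <;> rfl

theorem pr2_smul (c : F) (a b : Fin n₂ → F) : c • pr2 a b = pr2 (c • a) (c • b) := by
  funext ⟨i, s⟩
  fin_cases i <;> rfl

theorem pr2_eq_tens (a b : Fin n₂ → F) :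
    pr2 a b = tens (Pi.single 0 1) a + tens (Pi.single 1 1) b := by
  funext ⟨i, s⟩
  fin_cases i <;> simp [pr2, tens]

theorem tens_e0 (a : Fin n₂ → F) : tens (Pi.single (0 : Fin 2) (1 : F)) a = pr2 a 0 := by
  funext ⟨i, s⟩
  fin_cases i <;> simp [pr2, tens]

theorem tens_e1 (b : Fin n₂ → F) : tens (Pi.single (1 : Fin 2) (1 : F)) b = pr2 0 b := by
  funext ⟨i, s⟩
  fin_cases i <;> simp [pr2, tens]

theorem fog_add_right {κ : Type} [Fintype κ] (σ : F →+* F) (G : Matrix κ κ F) (x y y' : κ → F) :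
    Cfsg.Geo.formOfGram σ G x (y + y') =
      Cfsg.Geo.formOfGram σ G x y + Cfsg.Geo.formOfGram σ G x y' := by
  unfold Cfsg.Geo.formOfGram
  simp only [Pi.add_apply, map_add, mul_add, Finset.sum_add_distrib]

theorem fog_J_pr2 (G₂ : Matrix (Fin n₂) (Fin n₂) F) (a b a' b' : Fin n₂ → F) :
    Cfsg.Geo.formOfGram id (jMat F ⊗ₖ G₂) (pr2 a b) (pr2 a' b') =
      Cfsg.Geo.formOfGram id G₂ a b' + Cfsg.Geo.formOfGram id G₂ b a' := by
  have hid : (id : F → F) = ⇑(RingHom.id F) := rfl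
  rw [pr2_eq_tens, pr2_eq_tens, hid, fog_add_left, fog_add_right, fog_add_right, fog_tens,
    fog_tens, fog_tens, fog_tens, fog_single_single, fog_single_single, fog_single_single,
    fog_single_single]
  simp [jMat]

theorem omega_kron_pr2 (a b : Fin n₂ → F) :
    (omegaMat F ⊗ₖ (1 : Matrix (Fin n₂) (Fin n₂) F)) *ᵥ pr2 a b = pr2 b (a + b) := by
  rw [pr2_eq_tens, Matrix.mulVec_add, kron_mulVec_tens, kron_mulVec_tens, Matrix.one_mulVec,
    Matrix.one_mulVec, Matrix.mulVec_single_one, Matrix.mulVec_single_one]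
  funext ⟨i, s⟩
  fin_cases i <;> simp [tens, pr2, omegaMat]

end Pairs

section O2

open Cfsg.Agent.Lib.Helper94

variable {F : Type*} [Field F] [Fintype F]

/-- abstract core: a Kronecker-type subgroup `Sp_2 ⊗ Sp_{n₂}` of `Ω(Q)`, transported to the
model space `Fin 2 × Fin n₂`, is not maximal over the field with two elements -/
theorem o2_main {ι : Type} [Fintype ι] [DecidableEq ι] {n₂ : ℕ} (hq : Fintype.card F = 2)
    (Q : (ι → F) → F) (hQ : Cfsg.Geo.IsNondegenerateQuadraticForm Q)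
    (φ : Matrix.GeneralLinearGroup (Fin 2 × Fin n₂) F ≃* Matrix.GeneralLinearGroup ι F)
    (T : (Fin 2 × Fin n₂ → F) → (ι → F))
    (hTadd : ∀ x y, T (x + y) = T x + T y) (hTsmul : ∀ (c : F) x, T (c • x) = c • T x)
    (hTinj : Function.Injective T) (hTsurj : Function.Surjective T)
    (hφT : ∀ (k : Matrix.GeneralLinearGroup (Fin 2 × Fin n₂) F) (x : Fin 2 × Fin n₂ → F),
      ((φ k : Matrix.GeneralLinearGroup ι F) : Matrix ι ι F) *ᵥ T x =
        T ((k : Matrix (Fin 2 × Fin n₂) (Fin 2 × Fin n₂) F) *ᵥ x))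
    (G₂ : Matrix (Fin n₂) (Fin n₂) F)
    (hform : ∀ x y, QuadraticMap.polar Q (T x) (T y) =
      Cfsg.Geo.formOfGram id (jMat F ⊗ₖ G₂) x y)
    (hpure : ∀ (A : Fin 2 → F) (y : Fin n₂ → F), Q (T (tens A y)) = 0)
    (hψalt : ∀ y, Cfsg.Geo.formOfGram id G₂ y y = 0)
    (hψsymm : ∀ y y', Cfsg.Geo.formOfGram id G₂ y y' = Cfsg.Geo.formOfGram id G₂ y' y)
    (y₁ y₂ y₃ : Fin n₂ → F) (h12 : Cfsg.Geo.formOfGram id G₂ y₁ y₂ = 1)
    (h31 : Cfsg.Geo.formOfGram id G₂ y₃ y₁ = 0) (h32 : Cfsg.Geo.formOfGram id G₂ y₃ y₂ = 0)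
    (hy₃ : y₃ ≠ 0) :
    ∃ K' : Subgroup (Matrix.GeneralLinearGroup (Fin 2 × Fin n₂) F),
      Cfsg.Geo.kroneckerSubgroup 2 n₂ F ⊓ (Cfsg.Geo.omegaGL Q).comap φ.toMonoidHom < K' ∧
        K' < (Cfsg.Geo.omegaGL Q).comap φ.toMonoidHom := by
  classical
  have hchar : CharP F 2 := f2_charP hq
  have h2 := f2_two hq
  have h11 : (1 : F) + 1 = 0 := by linear_combination h2
  have hid : (id : F → F) = ⇑(RingHom.id F) := rfl
  set I' := (Cfsg.Geo.omegaGL Q).comap φ.toMonoidHom with hI'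
  -- the symplectic form of the second factor
  obtain ⟨ψ, hψ⟩ : ∃ ψ : (Fin n₂ → F) → (Fin n₂ → F) → F,
      ψ = fun y y' => Cfsg.Geo.formOfGram id G₂ y y' := ⟨_, rfl⟩
  have hψaddl : ∀ a a' b, ψ (a + a') b = ψ a b + ψ a' b := by
    intro a a' b
    rw [hψ]
    exact fog_add_left _ _ _ _ _
  have hψs : ∀ a b, ψ a b = ψ b a := by
    intro a b
    rw [hψ]
    exact hψsymm a b
  have hψaddr : ∀ a b b', ψ a (b + b') = ψ a b + ψ a b' := by
    intro a b b'
    rw [hψs a, hψaddl, hψs b, hψs b']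
  have hψ0l : ∀ b, ψ 0 b = 0 := by
    intro b
    have h := hψaddl 0 0 b
    rw [add_zero] at h
    linear_combination -h
  have hψ0r : ∀ a, ψ a 0 = 0 := fun a => by rw [hψs, hψ0l]
  have hψa : ∀ a, ψ a a = 0 := by
    intro a
    rw [hψ]
    exact hψalt a
  have e12 : ψ y₁ y₂ = 1 := by rw [hψ]; exact h12
  have e21 : ψ y₂ y₁ = 1 := by rw [hψs]; exact e12
  have e31 : ψ y₃ y₁ = 0 := by rw [hψ]; exact h31
  have e13 : ψ y₁ y₃ = 0 := by rw [hψs]; exact e31
  have e32 : ψ y₃ y₂ = 0 := by rw [hψ]; exact h32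
  have e23 : ψ y₂ y₃ = 0 := by rw [hψs]; exact e32
  have e11 : ψ y₁ y₁ = 0 := hψa y₁
  have e22 : ψ y₂ y₂ = 0 := hψa y₂
  have e33 : ψ y₃ y₃ = 0 := hψa y₃
  -- the polar form of the model
  obtain ⟨β, hβ⟩ : ∃ β : (Fin 2 × Fin n₂ → F) → (Fin 2 × Fin n₂ → F) → F,
      β = fun x y => Cfsg.Geo.formOfGram id (jMat F ⊗ₖ G₂) x y := ⟨_, rfl⟩
  have hβT : ∀ x y, QuadraticMap.polar Q (T x) (T y) = β x y := by
    intro x y
    rw [hβ]
    exact hform x y
  have hβaddl : ∀ x x' y, β (x + x') y = β x y + β x' y := by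
    intro x x' y
    rw [hβ]
    exact fog_add_left _ _ _ _ _
  have hβsmull : ∀ (c : F) x y, β (c • x) y = c * β x y := by
    intro c x y
    rw [hβ]
    exact fog_smul_left _ _ _ _ _
  have hβpr : ∀ a b a' b', β (pr2 a b) (pr2 a' b') = ψ a b' + ψ b a' := by
    intro a b a' b'
    rw [hβ, hψ]
    exact fog_J_pr2 G₂ a b a' b'
  have hQpr : ∀ a b, Q (T (pr2 a b)) = ψ a b := by
    intro a b
    rw [pr2_eq_tens, hTadd, Q_add (Q := Q), hpure, hpure, zero_add, zero_add]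
    show QuadraticMap.polar Q _ _ = _
    rw [hβT, tens_e0, tens_e1, hβpr, hψ0l, add_zero]
  have hs₃ : ∃ s, y₃ s ≠ 0 := by
    by_contra hcon
    push Not at hcon
    exact hy₃ (funext hcon)
  obtain ⟨s₃, hs₃⟩ := hs₃
  -- the element z = ω ⊗ 1 of order three
  have hω3 := omegaMat_cube h2
  obtain ⟨ωgl, hωgl⟩ : ∃ ωgl : Matrix.GeneralLinearGroup (Fin 2) F,
      (ωgl : Matrix (Fin 2) (Fin 2) F) = omegaMat F :=
    ⟨⟨omegaMat F, omegaMat F * omegaMat F, by rw [← Matrix.mul_assoc, hω3], hω3⟩, rfl⟩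
  obtain ⟨z, hz⟩ : ∃ z : Matrix.GeneralLinearGroup (Fin 2 × Fin n₂) F,
      z = kronGL ωgl (1 : Matrix.GeneralLinearGroup (Fin n₂) F) := ⟨_, rfl⟩
  have hzval : (z : Matrix (Fin 2 × Fin n₂) (Fin 2 × Fin n₂) F) =
      omegaMat F ⊗ₖ (1 : Matrix (Fin n₂) (Fin n₂) F) := by
    rw [hz, kronGL_val, hωgl]
    simp
  have hzpr : ∀ a b, (z : Matrix (Fin 2 × Fin n₂) (Fin 2 × Fin n₂) F) *ᵥ pr2 a b =
      pr2 b (a + b) := by
    intro a b
    rw [hzval]
    exact omega_kron_pr2 a b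
  have hziso : φ z ∈ Cfsg.isometryGroup F Q := by
    intro v w'
    obtain ⟨x, rfl⟩ := hTsurj v
    show Q (((φ z : Matrix.GeneralLinearGroup ι F) : Matrix ι ι F) *ᵥ T x) = Q (T x)
    obtain ⟨a, b, rfl⟩ := exists_pr2 x
    rw [hφT, hzpr, hQpr, hQpr, hψaddr, hψa, add_zero, hψs]
  have hzz21 : ∀ u : Fin 2 × Fin n₂ → F,
      (z : Matrix (Fin 2 × Fin n₂) (Fin 2 × Fin n₂) F) *ᵥ
        ((z : Matrix (Fin 2 × Fin n₂) (Fin 2 × Fin n₂) F) *ᵥ u) =
        -((z : Matrix (Fin 2 × Fin n₂) (Fin 2 × Fin n₂) F) *ᵥ u) - u := by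
    intro u
    obtain ⟨a, b, rfl⟩ := exists_pr2 u
    rw [hzpr, hzpr]
    funext ⟨i, s⟩
    fin_cases i
    · show a s + b s = -(b s) - a s
      linear_combination (a s + b s) * h2
    · show b s + (a s + b s) = -(a s + b s) - b s
      linear_combination (a s + 2 * b s) * h2
  -- reflections of the model space
  have hrefl : ∀ w : Fin 2 × Fin n₂ → F, Q (T w) = 1 →
      ∃ g : Matrix.GeneralLinearGroup (Fin 2 × Fin n₂) F,
        φ g ∈ Cfsg.isometryGroup F Q ∧ g⁻¹ = g ∧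
        ∀ x, (g : Matrix (Fin 2 × Fin n₂) (Fin 2 × Fin n₂) F) *ᵥ x = x + β x w • w := by
    intro w hw
    have hQw : Q (T w) ≠ 0 := by
      rw [hw]
      exact one_ne_zero
    refine ⟨φ.symm (reflGL hQ (T w) hQw), ?_, ?_, ?_⟩
    · rw [MulEquiv.apply_symm_apply]
      exact reflGL_mem hQ _ hQw
    · rw [← map_inv, reflGL_inv]
    · intro x
      apply hTinj
      rw [← hφT, MulEquiv.apply_symm_apply, reflGL_mulVec, reflLin_apply, hTadd, hTsmul, hw,
        inv_one, one_mul]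
      show T x - QuadraticMap.polar Q (T x) (T w) • T w = _
      rw [hβT, sub_eq_add_neg, ← neg_smul, CharTwo.neg_eq]
  have hcomm : ∀ g h : Matrix.GeneralLinearGroup (Fin 2 × Fin n₂) F,
      φ g ∈ Cfsg.isometryGroup F Q → φ h ∈ Cfsg.isometryGroup F Q →
      g * h * g⁻¹ * h⁻¹ ∈ I' := by
    intro g h hg hh
    show φ (g * h * g⁻¹ * h⁻¹) ∈ Cfsg.Geo.omegaGL Q
    rw [map_mul, map_mul, map_mul, map_inv, map_inv]
    exact comm_mem_omegaGL _ _ hg hh
  -- the Kronecker products normalise ⟨z⟩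
  have hzzz : z * z * z = 1 := by
    apply Units.ext
    rw [Units.val_mul, Units.val_mul, hzval, ← Matrix.mul_kronecker_mul,
      ← Matrix.mul_kronecker_mul, hω3]
    simp
  have hzinv : z⁻¹ = z * z := by
    apply inv_eq_of_mul_eq_one_right
    rw [← mul_assoc]
    exact hzzz
  have hA : Cfsg.Geo.kroneckerSubgroup 2 n₂ F ≤ conjInvSubgroup z := by
    rintro k ⟨a, b, hkab⟩
    have hdet : (a : Matrix (Fin 2) (Fin 2) F).det ≠ 0 := by
      rw [← Matrix.GeneralLinearGroup.val_det_apply]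
      exact Units.ne_zero _
    rcases f2_gl2_omega hq _ hdet with h | h
    · left
      rw [mul_inv_eq_iff_eq_mul]
      apply Units.ext
      rw [Units.val_mul, Units.val_mul, hkab, hzval, ← Matrix.mul_kronecker_mul,
        ← Matrix.mul_kronecker_mul, h, Matrix.mul_one, Matrix.one_mul]
    · right
      rw [mul_inv_eq_iff_eq_mul, hzinv]
      apply Units.ext
      rw [Units.val_mul, Units.val_mul, Units.val_mul, hkab, hzval, ← Matrix.mul_kronecker_mul,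
        ← Matrix.mul_kronecker_mul, ← Matrix.mul_kronecker_mul, h, Matrix.mul_one,
        Matrix.one_mul, Matrix.one_mul]
  -- a commutator normalising ⟨z⟩ that is not a Kronecker product
  obtain ⟨w, hw⟩ : ∃ w : Fin 2 × Fin n₂ → F, w = pr2 y₁ y₂ := ⟨_, rfl⟩
  have hQw : Q (T w) = 1 := by rw [hw, hQpr, e12]
  obtain ⟨g₁, hg₁iso, hg₁inv, hg₁⟩ := hrefl w hQw
  obtain ⟨k₁, hk₁def⟩ : ∃ k₁ : Matrix.GeneralLinearGroup (Fin 2 × Fin n₂) F,
      k₁ = g₁ * z * g₁⁻¹ * z⁻¹ := ⟨_, rfl⟩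
  have hk₁I : k₁ ∈ I' := by
    rw [hk₁def]
    exact hcomm g₁ z hg₁iso hziso
  have hk₁act : ∀ u, (k₁ : Matrix (Fin 2 × Fin n₂) (Fin 2 × Fin n₂) F) *ᵥ
        ((z : Matrix (Fin 2 × Fin n₂) (Fin 2 × Fin n₂) F) *ᵥ u) =
      (g₁ : Matrix (Fin 2 × Fin n₂) (Fin 2 × Fin n₂) F) *ᵥ
        ((z : Matrix (Fin 2 × Fin n₂) (Fin 2 × Fin n₂) F) *ᵥ
          ((g₁ : Matrix (Fin 2 × Fin n₂) (Fin 2 × Fin n₂) F) *ᵥ u)) := by
    intro u
    rw [hk₁def, hg₁inv]
    simp only [Units.val_mul, Matrix.mulVec_mulVec, Matrix.mul_assoc]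
    rw [Units.inv_mul, Matrix.mul_one]
  have hβzww : β ((z : Matrix (Fin 2 × Fin n₂) (Fin 2 × Fin n₂) F) *ᵥ w) w = 1 := by
    rw [hw, hzpr, hβpr, hψaddl, e22, e11, e21]
    ring
  have hk₁ : ∀ u, (k₁ : Matrix (Fin 2 × Fin n₂) (Fin 2 × Fin n₂) F) *ᵥ
        ((z : Matrix (Fin 2 × Fin n₂) (Fin 2 × Fin n₂) F) *ᵥ u) =
      (z : Matrix (Fin 2 × Fin n₂) (Fin 2 × Fin n₂) F) *ᵥ u +
        β u w • ((z : Matrix (Fin 2 × Fin n₂) (Fin 2 × Fin n₂) F) *ᵥ w) +
        (β ((z : Matrix (Fin 2 × Fin n₂) (Fin 2 × Fin n₂) F) *ᵥ u) w + β u w) • w := by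
    intro u
    rw [hk₁act, hg₁ u, Matrix.mulVec_add, Matrix.mulVec_smul, hg₁, hβaddl, hβsmull, hβzww,
      mul_one]
  have hk₁N : k₁ ∈ conjInvSubgroup z := by
    left
    rw [mul_inv_eq_iff_eq_mul]
    apply gl_ext
    intro v
    have hv := gl_mulVec_inv z v
    obtain ⟨u, hu⟩ : ∃ u : Fin 2 × Fin n₂ → F,
        u = ((z⁻¹ : Matrix.GeneralLinearGroup (Fin 2 × Fin n₂) F) :
          Matrix (Fin 2 × Fin n₂) (Fin 2 × Fin n₂) F) *ᵥ v := ⟨_, rfl⟩
    rw [← hu] at hv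
    rw [← hv, Units.val_mul, Units.val_mul, ← Matrix.mulVec_mulVec, ← Matrix.mulVec_mulVec,
      hk₁, hk₁, Matrix.mulVec_add, Matrix.mulVec_add, Matrix.mulVec_smul, Matrix.mulVec_smul,
      hzz21 w, hzz21 u]
    have h5 : -((z : Matrix (Fin 2 × Fin n₂) (Fin 2 × Fin n₂) F) *ᵥ u) - u =
        (-1 : F) • ((z : Matrix (Fin 2 × Fin n₂) (Fin 2 × Fin n₂) F) *ᵥ u) + (-1 : F) • u := by
      module
    have h6 : β (-((z : Matrix (Fin 2 × Fin n₂) (Fin 2 × Fin n₂) F) *ᵥ u) - u) w =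
        -β ((z : Matrix (Fin 2 × Fin n₂) (Fin 2 × Fin n₂) F) *ᵥ u) w - β u w := by
      rw [h5, hβaddl, hβsmull, hβsmull]
      ring
    rw [h6]
    module
  have hk₁kron : k₁ ∉ Cfsg.Geo.kroneckerSubgroup 2 n₂ F := by
    rintro ⟨a, b, habk⟩
    have hzy : ∀ y : Fin n₂ → F,
        (z : Matrix (Fin 2 × Fin n₂) (Fin 2 × Fin n₂) F) *ᵥ pr2 y 0 = pr2 0 y := by
      intro y
      rw [hzpr, add_zero]
    have hev : ∀ (y : Fin n₂ → F) (i : Fin 2) (s : Fin n₂),
        (a : Matrix (Fin 2) (Fin 2) F) i 1 * ((b : Matrix (Fin n₂) (Fin n₂) F) *ᵥ y) s =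
          ((k₁ : Matrix (Fin 2 × Fin n₂) (Fin 2 × Fin n₂) F) *ᵥ pr2 0 y) (i, s) := by
      intro y i s
      rw [habk, ← tens_e1, kron_mulVec_tens]
      simp only [tens, Matrix.mulVec_single_one, Matrix.col_apply]
    have f1 : (k₁ : Matrix (Fin 2 × Fin n₂) (Fin 2 × Fin n₂) F) *ᵥ pr2 0 y₁ =
          pr2 0 y₁ + (z : Matrix (Fin 2 × Fin n₂) (Fin 2 × Fin n₂) F) *ᵥ w + w := by
      have hA1 : β (pr2 y₁ 0) w = 1 := by rw [hw, hβpr, e12, hψ0l, add_zero]
      have hB1 : β (pr2 0 y₁) w = 0 := by rw [hw, hβpr, hψ0l, e11, add_zero]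
      rw [← hzy, hk₁, hzy, hA1, hB1, one_smul, zero_add, one_smul]
    have f3 : (k₁ : Matrix (Fin 2 × Fin n₂) (Fin 2 × Fin n₂) F) *ᵥ pr2 0 y₃ = pr2 0 y₃ := by
      have hA1 : β (pr2 y₃ 0) w = 0 := by rw [hw, hβpr, e32, hψ0l, add_zero]
      have hB1 : β (pr2 0 y₃) w = 0 := by rw [hw, hβpr, hψ0l, e31, add_zero]
      rw [← hzy, hk₁, hzy, hA1, hB1, zero_smul, add_zero, add_zero, zero_smul, add_zero]
    have e3 := hev y₃ 1 s₃
    rw [f3, pr2_one_apply] at e3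
    have ha11 : (a : Matrix (Fin 2) (Fin 2) F) 1 1 ≠ 0 := by
      intro h0
      rw [h0, zero_mul] at e3
      exact hs₃ e3.symm
    obtain ⟨s, hs⟩ : ∃ s, y₁ s + y₂ s ≠ 0 := by
      by_contra hcon
      push Not at hcon
      have h7 : y₁ + y₂ = 0 := funext hcon
      have h5 := hψaddr y₁ y₁ y₂
      rw [h7, hψ0r, e11, e12] at h5
      exact zero_ne_one (α := F) (by linear_combination h5)
    have e0 := hev y₁ 0 s
    have e1 := hev y₁ 1 s
    rw [f1, hw, hzpr] at e0 e1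
    simp only [Pi.add_apply, pr2_zero_apply, pr2_one_apply, Pi.zero_apply] at e0 e1
    have hb1 : ((b : Matrix (Fin n₂) (Fin n₂) F) *ᵥ y₁) s ≠ 0 := by
      intro h0
      rw [h0, mul_zero] at e0
      apply hs
      linear_combination -e0
    have h6 : (a : Matrix (Fin 2) (Fin 2) F) 1 1 *
        ((b : Matrix (Fin n₂) (Fin n₂) F) *ᵥ y₁) s = 0 := by
      rw [e1]
      linear_combination (y₁ s + y₂ s) * h2
    exact mul_ne_zero ha11 hb1 h6
  -- a commutator that does not normalise ⟨z⟩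
  obtain ⟨p, hp⟩ : ∃ p : Fin 2 × Fin n₂ → F, p = pr2 (y₂ + y₃) (y₁ + y₂) := ⟨_, rfl⟩
  have hQp : Q (T p) = 1 := by
    rw [hp, hQpr, hψaddl, hψaddr, hψaddr, e21, e22, e31, e32]
    ring
  obtain ⟨g₂, hg₂iso, hg₂inv, hg₂⟩ := hrefl p hQp
  obtain ⟨k₂, hk₂def⟩ : ∃ k₂ : Matrix.GeneralLinearGroup (Fin 2 × Fin n₂) F,
      k₂ = g₁ * g₂ * g₁⁻¹ * g₂⁻¹ := ⟨_, rfl⟩
  have hk₂I : k₂ ∈ I' := by
    rw [hk₂def]
    exact hcomm g₁ g₂ hg₁iso hg₂iso
  have hβwp : β w p = 1 := by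
    rw [hw, hp, hβpr, hψaddr, hψaddr, e11, e12, e22, e23]
    ring
  have hβpw : β p w = 1 := by
    rw [hw, hp, hβpr, hψaddl, hψaddl, e22, e32, e11, e21]
    ring
  have hβww : β w w = 0 := by
    rw [hw, hβpr, e12, e21]
    exact h11
  have hβpp : β p p = 0 := by
    rw [hp, hβpr, hψaddl, hψaddr, hψaddr, hψaddl, hψaddr, hψaddr, e21, e22, e31, e32, e12,
      e13, e23]
    linear_combination h2
  have hk₂ : ∀ v, (k₂ : Matrix (Fin 2 × Fin n₂) (Fin 2 × Fin n₂) F) *ᵥ v =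
        v + (β v w + β v p) • p + β v w • w := by
    intro v
    have s1 : (g₂ : Matrix (Fin 2 × Fin n₂) (Fin 2 × Fin n₂) F) *ᵥ v = v + β v p • p := hg₂ v
    have s2 : (g₁ : Matrix (Fin 2 × Fin n₂) (Fin 2 × Fin n₂) F) *ᵥ
        ((g₂ : Matrix (Fin 2 × Fin n₂) (Fin 2 × Fin n₂) F) *ᵥ v) =
          v + β v p • p + (β v w + β v p * 1) • w := by
      rw [s1, hg₁, hβaddl, hβsmull, hβpw]
    have s3 : (g₂ : Matrix (Fin 2 × Fin n₂) (Fin 2 × Fin n₂) F) *ᵥ
        ((g₁ : Matrix (Fin 2 × Fin n₂) (Fin 2 × Fin n₂) F) *ᵥ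
        ((g₂ : Matrix (Fin 2 × Fin n₂) (Fin 2 × Fin n₂) F) *ᵥ v)) =
          v + β v p • p + (β v w + β v p * 1) • w +
            (β v p + β v p * 0 + (β v w + β v p * 1) * 1) • p := by
      rw [s2, hg₂, hβaddl, hβaddl, hβsmull, hβsmull, hβpp, hβwp]
    have s4 : (g₁ : Matrix (Fin 2 × Fin n₂) (Fin 2 × Fin n₂) F) *ᵥ
        ((g₂ : Matrix (Fin 2 × Fin n₂) (Fin 2 × Fin n₂) F) *ᵥ
        ((g₁ : Matrix (Fin 2 × Fin n₂) (Fin 2 × Fin n₂) F) *ᵥ
        ((g₂ : Matrix (Fin 2 × Fin n₂) (Fin 2 × Fin n₂) F) *ᵥ v))) =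
          v + β v p • p + (β v w + β v p * 1) • w +
            (β v p + β v p * 0 + (β v w + β v p * 1) * 1) • p +
            (β v w + β v p * 1 + (β v w + β v p * 1) * 0 +
              (β v p + β v p * 0 + (β v w + β v p * 1) * 1) * 1) • w := by
      rw [s3, hg₁, hβaddl, hβaddl, hβaddl, hβsmull, hβsmull, hβsmull, hβpw, hβww]
    rw [hk₂def, hg₁inv, hg₂inv]
    simp only [Units.val_mul, ← Matrix.mulVec_mulVec]
    rw [s4]
    have h5 : v + β v p • p + (β v w + β v p * 1) • w +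
            (β v p + β v p * 0 + (β v w + β v p * 1) * 1) • p +
            (β v w + β v p * 1 + (β v w + β v p * 1) * 0 +
              (β v p + β v p * 0 + (β v w + β v p * 1) * 1) * 1) • w =
        v + (β v w + β v p) • p + β v w • w + ((2 : F) * β v p) • p +
          ((2 : F) * (β v w + 2 * β v p)) • w := by
      module
    rw [h5, h2, zero_mul, zero_mul, zero_smul, zero_smul, add_zero, add_zero]
  have hk₂N : k₂ ∉ conjInvSubgroup z := by
    rintro (hcz | hcz)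
    · rw [mul_inv_eq_iff_eq_mul] at hcz
      have h5 := congrArg (fun k : Matrix.GeneralLinearGroup (Fin 2 × Fin n₂) F =>
        (k : Matrix (Fin 2 × Fin n₂) (Fin 2 × Fin n₂) F) *ᵥ pr2 y₁ 0) hcz
      simp only [Units.val_mul, ← Matrix.mulVec_mulVec] at h5
      have hA1 : β (pr2 0 y₁) w = 0 := by rw [hw, hβpr, hψ0l, e11, add_zero]
      have hB1 : β (pr2 0 y₁) p = 1 := by
        rw [hp, hβpr, hψ0l, hψaddr, e12, e13]
        ring
      have hA2 : β (pr2 y₁ 0) w = 1 := by rw [hw, hβpr, e12, hψ0l, add_zero]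
      have hB2 : β (pr2 y₁ 0) p = 1 := by
        rw [hp, hβpr, hψ0l, hψaddr, e11, e12]
        ring
      rw [hzpr, add_zero, hk₂, hk₂, hA1, hB1, hA2, hB2, h11, zero_smul, add_zero, zero_add,
        one_smul, zero_smul, add_zero, one_smul, hw, hp, pr2_add, pr2_add, hzpr] at h5
      have h6 := congrFun h5 (0, s₃)
      simp only [pr2_zero_apply, Pi.add_apply, Pi.zero_apply] at h6
      apply hs₃
      linear_combination h6
    · rw [mul_inv_eq_iff_eq_mul] at hcz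
      have h5 : z * (k₂ * z) = k₂ := by
        rw [hcz, ← mul_assoc, mul_inv_cancel, one_mul]
      have h6 := congrArg (fun k : Matrix.GeneralLinearGroup (Fin 2 × Fin n₂) F =>
        (k : Matrix (Fin 2 × Fin n₂) (Fin 2 × Fin n₂) F) *ᵥ pr2 0 y₃) h5
      simp only [Units.val_mul, ← Matrix.mulVec_mulVec] at h6
      have hA1 : β (pr2 0 y₃) w = 0 := by rw [hw, hβpr, hψ0l, e31, add_zero]
      have hB1 : β (pr2 0 y₃) p = 0 := by
        rw [hp, hβpr, hψ0l, hψaddr, e32, e33]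
        ring
      have hA2 : β (pr2 y₃ y₃) w = 0 := by rw [hw, hβpr, e32, e31, add_zero]
      have hB2 : β (pr2 y₃ y₃) p = 0 := by
        rw [hp, hβpr, hψaddr, hψaddr, e31, e32, e33]
        ring
      rw [hzpr, zero_add, hk₂, hk₂, hA1, hB1, hA2, hB2, add_zero, zero_smul, zero_smul, add_zero,
        add_zero, add_zero, add_zero, hzpr] at h6
      have h7 := congrFun h6 (0, s₃)
      simp only [pr2_zero_apply, Pi.zero_apply] at h7
      exact hs₃ h7
  refine ⟨I' ⊓ conjInvSubgroup z, ?_, ?_⟩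
  · refine lt_of_le_of_ne (le_inf inf_le_right (inf_le_left.trans hA)) ?_
    intro heq
    have h1 : k₁ ∈ I' ⊓ conjInvSubgroup z := ⟨hk₁I, hk₁N⟩
    rw [← heq] at h1
    exact hk₁kron h1.1
  · refine lt_of_le_of_ne inf_le_left ?_
    intro heq
    have h1 : k₂ ∈ I' ⊓ conjInvSubgroup z := by
      rw [heq]
      exact hk₂I
    exact hk₂N h1.2

end O2

section O2Final

variable {F : Type*} [Field F] [Fintype F]

/-- a hyperbolic pair and a non-zero vector orthogonal to it, for a symplectic form in dimension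
at least three over the field with two elements -/
theorem f2_symp_triple (hq : Fintype.card F = 2) {n₂ : ℕ} (hn : 2 < n₂)
    {f : (Fin n₂ → F) → (Fin n₂ → F) → F} (hf : Cfsg.Geo.IsSymplecticForm f) :
    ∃ y₁ y₂ y₃ : Fin n₂ → F, f y₁ y₂ = 1 ∧ f y₃ y₁ = 0 ∧ f y₃ y₂ = 0 ∧ y₃ ≠ 0 := by
  have h2 := f2_two hq
  have hb := hf.bilinear
  have hsymm : ∀ u v, f u v = f v u := by
    intro u v
    rw [hf.skew u v]
    linear_combination (-f v u) * h2
  obtain ⟨i0, hi0⟩ : ∃ i : Fin n₂, i = ⟨0, by omega⟩ := ⟨_, rfl⟩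
  obtain ⟨i1, hi1⟩ : ∃ i : Fin n₂, i = ⟨1, by omega⟩ := ⟨_, rfl⟩
  obtain ⟨i2, hi2⟩ : ∃ i : Fin n₂, i = ⟨2, by omega⟩ := ⟨_, rfl⟩
  have h10 : i1 ≠ i0 := by
    rw [hi0, hi1]
    intro h
    have := congrArg Fin.val h
    simp at this
  have h20 : i2 ≠ i0 := by
    rw [hi0, hi2]
    intro h
    have := congrArg Fin.val h
    simp at this
  have h21 : i2 ≠ i1 := by
    rw [hi1, hi2]
    intro h
    have := congrArg Fin.val h
    simp at this
  obtain ⟨y₁, hy₁⟩ : ∃ y₁ : Fin n₂ → F, y₁ = Pi.single i0 1 := ⟨_, rfl⟩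
  have hy₁ne : y₁ ≠ 0 := by
    intro h
    have h5 := congrFun h i0
    rw [hy₁] at h5
    simp at h5
  obtain ⟨y₂, hy₂⟩ := (hf.nondegenerate y₁ hy₁ne).2
  have e12 : f y₁ y₂ = 1 := (f2_cases hq _).resolve_left hy₂
  have e21 : f y₂ y₁ = 1 := by rw [hsymm]; exact e12
  have e11 : f y₁ y₁ = 0 := hf.alternating y₁
  have e22 : f y₂ y₂ = 0 := hf.alternating y₂
  -- the projection to the orthogonal complement of the pair
  have hproj : ∀ v : Fin n₂ → F, f (v + f v y₂ • y₁ + f v y₁ • y₂) y₁ = 0 ∧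
      f (v + f v y₂ • y₁ + f v y₁ • y₂) y₂ = 0 := by
    intro v
    constructor
    · rw [hb.add_left, hb.add_left, hb.smul_left, hb.smul_left, e11, e21]
      linear_combination (f v y₁) * h2
    · rw [hb.add_left, hb.add_left, hb.smul_left, hb.smul_left, e12, e22]
      linear_combination (f v y₂) * h2
  by_cases hc : (Pi.single i1 (1 : F) : Fin n₂ → F) + f (Pi.single i1 1) y₂ • y₁ +
      f (Pi.single i1 1) y₁ • y₂ = 0
  · refine ⟨y₁, y₂, _, e12, (hproj (Pi.single i2 1)).1, (hproj (Pi.single i2 1)).2, ?_⟩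
    intro hc2
    have a1 := congrFun hc i1
    have a2 := congrFun hc i2
    have a3 := congrFun hc2 i2
    rw [hy₁] at a1 a2 a3
    simp only [Pi.add_apply, Pi.smul_apply, smul_eq_mul, Pi.single_eq_same, Pi.zero_apply,
      Pi.single_eq_of_ne h10, Pi.single_eq_of_ne h20, Pi.single_eq_of_ne h21, mul_zero, add_zero,
      zero_add] at a1 a2 a3
    -- a1 : 1 + γ₁ * y₂ i1 = 0 ; a2 : γ₁ * y₂ i2 = 0 ; a3 : 1 + γ₂ * y₂ i2 = 0
    have hγ : f (Pi.single i1 1) (Pi.single i0 1) ≠ 0 := by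
      intro h0
      rw [h0, zero_mul, add_zero] at a1
      exact one_ne_zero a1
    have hy2 : y₂ i2 = 0 := by
      rcases mul_eq_zero.1 a2 with h5 | h5
      · exact absurd h5 hγ
      · exact h5
    rw [hy2, mul_zero, add_zero] at a3
    exact one_ne_zero a3
  · exact ⟨y₁, y₂, _, e12, (hproj (Pi.single i1 1)).1, (hproj (Pi.single i1 1)).2, hc⟩

open Cfsg.Agent.Lib.Helper94 in
/-- over the field with two elements, the part in `Ω(Q)` of the stabiliser of a tensor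
decomposition `2 ⊗ n₂` of the polar form of `Q` into symplectic forms, with `Q` vanishing on
the pure tensors, is not maximal in `Ω(Q)` -/
theorem o2_tensor_not_max {ι : Type} [Fintype ι] [DecidableEq ι] (hq : Fintype.card F = 2)
    (Q : (ι → F) → F) (hQ : Cfsg.Geo.IsNondegenerateQuadraticForm Q) {n₂ : ℕ} (hn₂ : 2 < n₂)
    (e : ι ≃ Fin 2 × Fin n₂) (P : Matrix.GeneralLinearGroup ι F)
    (f₁ : (Fin 2 → F) → (Fin 2 → F) → F) (f₂ : (Fin n₂ → F) → (Fin n₂ → F) → F)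
    (hf₁ : Cfsg.Geo.IsSymplecticForm f₁) (hf₂ : Cfsg.Geo.IsSymplecticForm f₂)
    (hT : Cfsg.Geo.IsTensorFormStructure id (QuadraticMap.polar Q) f₁ f₂ e P)
    (hpure : ∀ (x₁ : Fin 2 → F) (x₂ : Fin n₂ → F),
      Q (Matrix.mulVec (P : Matrix ι ι F) ((fun a : Fin 2 × Fin n₂ => x₁ a.1 * x₂ a.2) ∘ e)) = 0) :
    ∃ K : Subgroup (Matrix.GeneralLinearGroup ι F),
      Cfsg.Geo.tensorProductSubgroup 2 n₂ e P ⊓ Cfsg.Geo.omegaGL Q < K ∧
        K < Cfsg.Geo.omegaGL Q := by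
  classical
  obtain ⟨c, hc, hT⟩ := hT
  have h2 := f2_two hq
  have hid : (id : F → F) = ⇑(RingHom.id F) := rfl
  have hc1 : c = 1 := (f2_cases hq c).resolve_left hc
  have hsymm₂ : ∀ u v, f₂ u v = f₂ v u := by
    intro u v
    rw [hf₂.skew u v]
    linear_combination (-f₂ v u) * h2
  -- the Gram matrix of the first factor
  have hG₁ : Cfsg.Geo.gramMatrix f₁ = jMat F := by
    have h00 : Cfsg.Geo.gramMatrix f₁ 0 0 = 0 := hf₁.alternating _
    have h11 : Cfsg.Geo.gramMatrix f₁ 1 1 = 0 := hf₁.alternating _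
    have hne : (Pi.single (1 : Fin 2) (1 : F) : Fin 2 → F) ≠ 0 := by
      intro h
      have := congrFun h 1
      simp at this
    obtain ⟨x, hx⟩ := (hf₁.nondegenerate _ hne).1
    rw [form_eq_fog hf₁.bilinear, hid, fog_single_right, Fin.sum_univ_two, h11, mul_zero,
      add_zero] at hx
    have h01 : Cfsg.Geo.gramMatrix f₁ 0 1 = 1 :=
      (f2_cases hq _).resolve_left (right_ne_zero_of_mul hx)
    have h10 : Cfsg.Geo.gramMatrix f₁ 1 0 = 1 := by
      have h5 : Cfsg.Geo.gramMatrix f₁ 1 0 = - Cfsg.Geo.gramMatrix f₁ 0 1 := hf₁.skew _ _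
      rw [h5, h01]
      linear_combination (-1 : F) * h2
    ext i j
    fin_cases i <;> fin_cases j
    · simpa [jMat] using h00
    · simpa [jMat] using h01
    · simpa [jMat] using h10
    · simpa [jMat] using h11
  obtain ⟨y₁, y₂, y₃, e12, e31, e32, hy₃⟩ := f2_symp_triple hq hn₂ hf₂
  rw [form_eq_fog hf₂.bilinear] at e12 e31 e32
  apply notMax_transport (tnPhi e P) _ _ (Cfsg.Geo.kroneckerSubgroup 2 n₂ F)
    (tensorProductSubgroup_eq_map e P).symm
  apply o2_main hq Q hQ (tnPhi e P) (tnT e P) (tnT_add e P) (tnT_smul e P)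
    (tnT_injective e P) (tnT_surjective e P) (tnPhi_mulVec e P) (Cfsg.Geo.gramMatrix f₂) ?_ ?_ ?_ ?_
    y₁ y₂ y₃ e12 e31 e32 hy₃
  · intro x y
    have h1 := hT x y
    rw [hc1, one_mul, hG₁] at h1
    exact h1
  · intro A y
    exact hpure A y
  · intro y
    rw [← form_eq_fog hf₂.bilinear]
    exact hf₂.alternating y
  · intro y y'
    rw [← form_eq_fog hf₂.bilinear, ← form_eq_fog hf₂.bilinear]
    exact hsymm₂ y y'

end O2Final

end Cfsg.Agent.Lib.Helper99
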