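import Cfsg.Agent.Lib.Helper99.TensorNM
import Cfsg.Agent.Lib.Helper94.HermFour

set_option autoImplicit false

namespace Cfsg.Agent.Lib.Helper99

open Matrix
open scoped Kronecker

section Sq

variable {F : Type*} [Field F]

/-- squaring as a ring endomorphism in characteristic two -/
def sqHom (h2 : (2 : F) = 0) : F →+* F where
  toFun x := x ^ 2
  map_one' := one_pow 2
  map_mul' x y := mul_pow x y 2
  map_zero' := by simp
  map_add' x y := by linear_combination (x * y) * h2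

theorem sqHom_apply (h2 : (2 : F) = 0) (x : F) : sqHom h2 x = x ^ 2 := rfl

theorem sqHom_coe (h2 : (2 : F) = 0) : (⇑(sqHom h2) : F → F) = fun x => x ^ 2 := rfl

end Sq

section UForm

variable {F : Type*} [Field F] {κ : Type} [Fintype κ] [DecidableEq κ]
variable {f : (κ → F) → (κ → F) → F}

theorem uf_add_right (h2 : (2 : F) = 0) (hf : Cfsg.Geo.IsUnitaryFormPow 2 f) (x y y' : κ → F) :
    f x (y + y') = f x y + f x y' := by
  rw [hf.herm x (y + y'), hf.add_left, hf.herm x y, hf.herm x y']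
  linear_combination (f y x * f y' x) * h2

theorem uf_smul_right (hf : Cfsg.Geo.IsUnitaryFormPow 2 f) (c : F) (x y : κ → F) :
    f x (c • y) = c ^ 2 * f x y := by
  rw [hf.herm x (c • y), hf.smul_left, hf.herm x y]
  ring

theorem uf_zero_left (hf : Cfsg.Geo.IsUnitaryFormPow 2 f) (y : κ → F) : f 0 y = 0 := by
  have h := hf.smul_left 0 0 y
  simpa using h

theorem uf_zero_right (hf : Cfsg.Geo.IsUnitaryFormPow 2 f) (x : κ → F) : f x 0 = 0 := by
  rw [hf.herm, uf_zero_left hf]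
  ring

theorem uf_self (hf : Cfsg.Geo.IsUnitaryFormPow 2 f) (v : κ → F) : f v v = 0 ∨ f v v = 1 := by
  have h := hf.herm v v
  have h1 : f v v * (f v v - 1) = 0 := by linear_combination -h
  rcases mul_eq_zero.1 h1 with h0 | h0
  · exact Or.inl h0
  · exact Or.inr (sub_eq_zero.1 h0)

theorem uf_expand_left (hf : Cfsg.Geo.IsUnitaryFormPow 2 f) (x y : κ → F) :
    f x y = ∑ a, x a * f (Pi.single a 1) y := by
  set L : (κ → F) →ₗ[F] F :=
    { toFun := fun x => f x y
      map_add' := fun x x' => hf.add_left x x' y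
      map_smul' := fun c x => hf.smul_left c x y } with hL
  have hx : x = ∑ a, x a • (Pi.single a (1 : F) : κ → F) := by
    funext i
    simp [Finset.sum_apply, Pi.single_apply]
  have h1 : f x y = L x := rfl
  rw [h1]
  conv_lhs => rw [hx]
  rw [map_sum]
  apply Finset.sum_congr rfl
  intro a _
  rw [map_smul]
  rfl

theorem uf_eq_fog (h2 : (2 : F) = 0) (hf : Cfsg.Geo.IsUnitaryFormPow 2 f) (x y : κ → F) :
    f x y = Cfsg.Geo.formOfGram (fun x => x ^ 2) (Cfsg.Geo.gramMatrix f) x y := by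
  rw [uf_expand_left hf]
  unfold Cfsg.Geo.formOfGram
  apply Finset.sum_congr rfl
  intro a _
  rw [hf.herm, uf_expand_left hf y, Cfsg.Agent.Lib.Helper94.sq_sum_two h2, Finset.mul_sum]
  apply Finset.sum_congr rfl
  intro b _
  have h3 : Cfsg.Geo.gramMatrix f a b = f (Pi.single b 1) (Pi.single a 1) ^ 2 := hf.herm _ _
  rw [h3]
  ring

end UForm

section F4

open Cfsg.Agent.Lib.Helper94

variable {F : Type*} [Field F] [Fintype F]

theorem uf_exists_norm_one (hF : Fintype.card F = 4) {κ : Type} [Fintype κ] [DecidableEq κ]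
    [Nonempty κ] {f : (κ → F) → (κ → F) → F} (hf : Cfsg.Geo.IsUnitaryFormPow 2 f) :
    ∃ v, f v v = 1 := by
  have h2 := two_eq_zero_of_card_four hF
  by_contra hcon
  push Not at hcon
  have h0 : ∀ v, f v v = 0 := fun v => (uf_self hf v).resolve_right (hcon v)
  have hsymm : ∀ v w, f v w = f w v := by
    intro v w
    have h1 := h0 (v + w)
    rw [hf.add_left, uf_add_right h2 hf, uf_add_right h2 hf, h0 v, h0 w] at h1
    linear_combination h1 - (f w v) * h2
  have hsq : ∀ v w, f v w = f v w ^ 2 := by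
    intro v w
    have h1 := hf.herm v w
    rw [← hsymm v w] at h1
    exact h1
  obtain ⟨l, hl0, hl1⟩ := exists_ne_zero_one_of_card_four hF
  have hzero : ∀ v w, f v w = 0 := by
    intro v w
    have h1 := hsq (l • v) w
    rw [hf.smul_left] at h1
    have h3 : l * (1 - l) * f v w = 0 := by
      have h4 := hsq v w
      linear_combination h1 - l ^ 2 * h4
    rcases mul_eq_zero.1 h3 with h5 | h5
    · rcases mul_eq_zero.1 h5 with h6 | h6
      · exact absurd h6 hl0
      · exact absurd (sub_eq_zero.1 h6).symm hl1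
    · exact h5
  obtain ⟨i⟩ := (inferInstance : Nonempty κ)
  have hne : (Pi.single i (1 : F) : κ → F) ≠ 0 := by
    intro h
    have := congrFun h i
    simp at this
  obtain ⟨x, hx⟩ := (hf.nondegenerate _ hne).1
  exact hx (hzero _ _)

/-- an orthonormal frame of a unitary plane over the field with four elements -/
theorem f4_frame (hF : Fintype.card F = 4) {f : (Fin 2 → F) → (Fin 2 → F) → F}
    (hf : Cfsg.Geo.IsUnitaryFormPow 2 f) :
    ∃ u : Fin 2 → (Fin 2 → F), ∀ i j, f (u i) (u j) = if i = j then 1 else 0 := by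
  have h2 := two_eq_zero_of_card_four hF
  obtain ⟨v, hv⟩ := uf_exists_norm_one hF hf
  set α := f (Pi.single 0 1) v with hα
  set β := f (Pi.single 1 1) v with hβ
  have hvexp : v 0 * α + v 1 * β = 1 := by
    rw [← hv]
    conv_rhs => rw [uf_expand_left hf v v]
    rw [Fin.sum_univ_two]
  obtain ⟨u, hu⟩ : ∃ u : Fin 2 → F, u = ![β, α] := ⟨_, rfl⟩
  have hu0 : u 0 = β := by rw [hu]; rfl
  have hu1 : u 1 = α := by rw [hu]; rfl
  have huv : f u v = 0 := by
    rw [uf_expand_left hf u v, Fin.sum_univ_two, hu0, hu1, ← hα, ← hβ]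
    linear_combination (α * β) * h2
  have hvu : f v u = 0 := by
    rw [hf.herm, huv]
    ring
  have hdet : u 0 * v 1 - u 1 * v 0 = 1 := by
    rw [hu0, hu1]
    linear_combination hvexp - (α * v 0) * h2
  have huu : f u u = 1 := by
    rcases uf_self hf u with h0 | h1
    · exfalso
      have hune : u ≠ 0 := by
        intro h
        rw [h] at hdet
        simp at hdet
      obtain ⟨x, hx⟩ := (hf.nondegenerate u hune).1
      have hxe : x = (x 0 * v 1 - x 1 * v 0) • u + (u 0 * x 1 - u 1 * x 0) • v := by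
        funext i
        fin_cases i
        · simp only [Fin.zero_eta, Pi.add_apply, Pi.smul_apply, smul_eq_mul]
          linear_combination (- x 0) * hdet
        · simp only [Fin.mk_one, Pi.add_apply, Pi.smul_apply, smul_eq_mul]
          linear_combination (- x 1) * hdet
      apply hx
      rw [hxe, hf.add_left, hf.smul_left, hf.smul_left, h0, hvu]
      ring
    · exact h1
  refine ⟨![v, u], ?_⟩
  intro i j
  fin_cases i <;> fin_cases j <;> simp [hv, huu, huv, hvu]

/-- a non-zero isotropic vector of a unitary form in dimension at least two over a field of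
characteristic two -/
theorem uf_exists_isotropic (h2 : (2 : F) = 0) {n₂ : ℕ} (hn : 2 ≤ n₂)
    {f : (Fin n₂ → F) → (Fin n₂ → F) → F} (hf : Cfsg.Geo.IsUnitaryFormPow 2 f) :
    ∃ v, v ≠ 0 ∧ f v v = 0 := by
  obtain ⟨i0, hi0⟩ : ∃ i : Fin n₂, i = ⟨0, by omega⟩ := ⟨_, rfl⟩
  obtain ⟨i1, hi1⟩ : ∃ i : Fin n₂, i = ⟨1, by omega⟩ := ⟨_, rfl⟩
  have h01 : i1 ≠ i0 := by
    rw [hi0, hi1]
    intro h
    have := congrArg Fin.val h
    simp at this
  set e0 : Fin n₂ → F := Pi.single i0 1 with he0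
  set e1 : Fin n₂ → F := Pi.single i1 1 with he1
  rcases uf_self hf e0 with h0 | h0
  · refine ⟨e0, ?_, h0⟩
    intro h
    have := congrFun h i0
    simp [he0] at this
  · obtain ⟨w, hw⟩ : ∃ w : Fin n₂ → F, w = e1 + f e1 e0 • e0 := ⟨_, rfl⟩
    have hwe : f w e0 = 0 := by
      rw [hw, hf.add_left, hf.smul_left, h0]
      linear_combination (f e1 e0) * h2
    have hew : f e0 w = 0 := by
      rw [hf.herm, hwe]
      ring
    have hw1 : w i1 = 1 := by
      rw [hw, he0, he1]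
      simp [Pi.single_eq_of_ne h01]
    rcases uf_self hf w with h1 | h1
    · refine ⟨w, ?_, h1⟩
      intro h
      rw [h] at hw1
      simp at hw1
    · refine ⟨e0 + w, ?_, ?_⟩
      · intro h
        have h3 := congrFun h i1
        rw [Pi.add_apply, hw1, he0, Pi.single_eq_of_ne h01] at h3
        simp at h3
      · rw [hf.add_left, uf_add_right h2 hf, uf_add_right h2 hf, h0, h1, hew, hwe]
        linear_combination h2

end F4

section Main

open Cfsg.Agent.Lib.Helper94

variable {F : Type*} [Field F] [Fintype F]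

/-- a `2 × 2` matrix over the field with four elements whose columns are pairwise orthogonal
of common non-zero norm for the standard unitary form is monomial -/
theorem f4_monomial (hF : Fintype.card F = 4) (a : Matrix (Fin 2) (Fin 2) F) (μ : F) (hμ : μ ≠ 0)
    (h : ∀ j j', ∑ i, a i j * a i j' ^ 2 = if j = j' then μ else 0) :
    μ = 1 ∧ ∃ τ : Equiv.Perm (Fin 2), ∀ i j, i ≠ τ j → a i j = 0 := by
  have h2 := two_eq_zero_of_card_four hF
  have hcube : ∀ x : F, x = 0 ∨ x ^ 3 = 1 := fun x => by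
    by_cases hx : x = 0
    · exact Or.inl hx
    · exact Or.inr (pow_three_of_card_four hF x hx)
  have hcol : ∀ j, μ = 1 ∧ ∃ i, a i j ≠ 0 ∧ ∀ i', i' ≠ i → a i' j = 0 := by
    intro j
    have h1 := h j j
    rw [if_pos rfl, Fin.sum_univ_two] at h1
    rcases hcube (a 0 j) with h0 | h0 <;> rcases hcube (a 1 j) with h1' | h1'
    · exfalso
      apply hμ
      rw [← h1, h0, h1']
      ring
    · refine ⟨?_, 1, ?_, ?_⟩
      · rw [← h1, h0]
        linear_combination h1'
      · intro h3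
        rw [h3] at h1'
        simp at h1'
      · intro i' hi'
        fin_cases i'
        · exact h0
        · exact absurd rfl hi'
    · refine ⟨?_, 0, ?_, ?_⟩
      · rw [← h1, h1']
        linear_combination h0
      · intro h3
        rw [h3] at h0
        simp at h0
      · intro i' hi'
        fin_cases i'
        · exact absurd rfl hi'
        · exact h1'
    · exfalso
      apply hμ
      rw [← h1]
      linear_combination h0 + h1' + h2
  refine ⟨(hcol 0).1, ?_⟩
  choose _ τ₀ hτ₀ hτ₀' using hcol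
  have hinj : Function.Injective τ₀ := by
    intro j j' hjj
    by_contra hne
    have h1 := h j j'
    rw [if_neg hne, Finset.sum_eq_single (τ₀ j)] at h1
    · rcases mul_eq_zero.1 h1 with h3 | h3
      · exact hτ₀ j h3
      · rw [hjj] at h3
        exact hτ₀ j' (pow_eq_zero_iff (by norm_num) |>.1 h3)
    · intro i _ hi
      rw [hτ₀' j i hi, zero_mul]
    · intro hh
      exact absurd (Finset.mem_univ _) hh
  refine ⟨Equiv.ofBijective τ₀ ⟨hinj, Finite.injective_iff_surjective.1 hinj⟩, ?_⟩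
  intro i j hij
  exact hτ₀' j i hij

theorem fog_fst_orth {n₁ n₂ : ℕ} (σ : F →+* F) (G₂ : Matrix (Fin n₂) (Fin n₂) F) {j j' : Fin n₁}
    (hjj : j ≠ j') {x y : Fin n₁ × Fin n₂ → F}
    (hx : x ∈ fibSupp (Prod.fst : Fin n₁ × Fin n₂ → Fin n₁) j)
    (hy : y ∈ fibSupp (Prod.fst : Fin n₁ × Fin n₂ → Fin n₁) j') :
    Cfsg.Geo.formOfGram σ ((1 : Matrix (Fin n₁) (Fin n₁) F) ⊗ₖ G₂) x y = 0 := by
  unfold Cfsg.Geo.formOfGram
  apply Finset.sum_eq_zero
  intro p _
  apply Finset.sum_eq_zero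
  intro q _
  by_cases hp : p.1 = j
  · by_cases hq : q.1 = j'
    · have hpq : p.1 ≠ q.1 := by
        rw [hp, hq]
        exact hjj
      rw [Matrix.kroneckerMap_apply, Matrix.one_apply_ne hpq, zero_mul, mul_zero, zero_mul]
    · rw [hy q hq, map_zero, mul_zero]
  · rw [hx p hp, zero_mul, zero_mul]

/-- abstract core: a Kronecker-type subgroup of the special unitary group, transported to the
model space `Fin 2 × Fin n₂`, is not maximal over the field with four elements -/
theorem su4_main {n n₂ : ℕ} (hF : Fintype.card F = 4)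
    (φ : Matrix.GeneralLinearGroup (Fin 2 × Fin n₂) F ≃* Matrix.GeneralLinearGroup (Fin n) F)
    (T : (Fin 2 × Fin n₂ → F) → (Fin n → F))
    (hTadd : ∀ x y, T (x + y) = T x + T y) (hTsmul : ∀ (c : F) x, T (c • x) = c • T x)
    (hTinj : Function.Injective T)
    (hφT : ∀ (k : Matrix.GeneralLinearGroup (Fin 2 × Fin n₂) F) (x : Fin 2 × Fin n₂ → F),
      ((φ k : Matrix.GeneralLinearGroup (Fin n) F) : Matrix (Fin n) (Fin n) F) *ᵥ T x =
        T ((k : Matrix (Fin 2 × Fin n₂) (Fin 2 × Fin n₂) F) *ᵥ x))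
    (G₂ : Matrix (Fin n₂) (Fin n₂) F) (c : F) (hc : c ≠ 0)
    (hform : ∀ x y, Cfsg.hermForm n F 2 (T x) (T y) =
      c * Cfsg.Geo.formOfGram (fun x => x ^ 2) ((1 : Matrix (Fin 2) (Fin 2) F) ⊗ₖ G₂) x y)
    (v₀ y₀ : Fin n₂ → F) (hv₀ : Cfsg.Geo.formOfGram (fun x => x ^ 2) G₂ v₀ v₀ = 0)
    (hy₀ : Cfsg.Geo.formOfGram (fun x => x ^ 2) G₂ y₀ v₀ ≠ 0) :
    ∃ K' : Subgroup (Matrix.GeneralLinearGroup (Fin 2 × Fin n₂) F),
      Cfsg.Geo.kroneckerSubgroup 2 n₂ F ⊓
          (Cfsg.GU n F 2 ⊓ Cfsg.Geo.specialLinear (Fin n) F).comap φ.toMonoidHom < K' ∧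
        K' < (Cfsg.GU n F 2 ⊓ Cfsg.Geo.specialLinear (Fin n) F).comap φ.toMonoidHom := by
  classical
  have h2 := two_eq_zero_of_card_four hF
  have h4 := pow_four_of_card_four hF
  obtain ⟨σ, hσ⟩ : ∃ σ : F →+* F, σ = sqHom h2 := ⟨_, rfl⟩
  have hσc : (fun x : F => x ^ 2) = ⇑σ := by rw [hσ]; rfl
  have hσa : ∀ x : F, σ x = x ^ 2 := fun x => by rw [hσ]; rfl
  rw [hσc] at hform hv₀ hy₀
  set I' := (Cfsg.GU n F 2 ⊓ Cfsg.Geo.specialLinear (Fin n) F).comap φ.toMonoidHom with hI'
  obtain ⟨ψ₀, hψ₀⟩ : ∃ ψ₀ : F, ψ₀ = Cfsg.Geo.formOfGram σ G₂ y₀ v₀ := ⟨_, rfl⟩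
  rw [← hψ₀] at hy₀
  set β : (Fin 2 × Fin n₂ → F) → (Fin 2 × Fin n₂ → F) → F := fun x y =>
    c * Cfsg.Geo.formOfGram σ ((1 : Matrix (Fin 2) (Fin 2) F) ⊗ₖ G₂) x y with hβ
  have hβT : ∀ x y, Cfsg.hermForm n F 2 (T x) (T y) = β x y := hform
  have hβadd : ∀ x x' y, β (x + x') y = β x y + β x' y := by
    intro x x' y
    simp only [hβ]
    rw [fog_add_left, mul_add]
  have hβsmul : ∀ (s : F) x y, β (s • x) y = s * β x y := by
    intro s x y
    simp only [hβ]
    rw [fog_smul_left]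
    ring
  have hβtens : ∀ (A A' : Fin 2 → F) (u u' : Fin n₂ → F), β (tens A u) (tens A' u') =
      c * ((∑ i, A i * A' i ^ 2) * Cfsg.Geo.formOfGram σ G₂ u u') := by
    intro A A' u u'
    simp only [hβ]
    rw [fog_tens, fog_one]
    simp only [hσa]
  have horth : ∀ j j' : Fin 2, j ≠ j' → ∀ x y,
      x ∈ fibSupp (Prod.fst : Fin 2 × Fin n₂ → Fin 2) j →
      y ∈ fibSupp (Prod.fst : Fin 2 × Fin n₂ → Fin 2) j' → β x y = 0 := by
    intro j j' hjj x y hx hy
    simp only [hβ]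
    rw [fog_fst_orth σ G₂ hjj hx hy, mul_zero]
  obtain ⟨s₀, hs₀⟩ : ∃ s, v₀ s ≠ 0 := by
    by_contra hcon
    push Not at hcon
    apply hy₀
    have h0 : v₀ = 0 := funext hcon
    rw [hψ₀, h0]
    unfold Cfsg.Geo.formOfGram
    simp
  -- transvections
  have htv : ∀ w : Fin 2 × Fin n₂ → F, β w w = 0 →
      ∃ t : Matrix.GeneralLinearGroup (Fin 2 × Fin n₂) F,
        t ∈ I' ∧ ∀ x, (t : Matrix (Fin 2 × Fin n₂) (Fin 2 × Fin n₂) F) *ᵥ x = x + β x w • w := by
    intro w hw
    have hTw : Cfsg.hermForm n F 2 (T w) (T w) = 0 := by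
      rw [hβT]
      exact hw
    refine ⟨φ.symm (hermTransGL n h2 (T w) hTw), ?_, ?_⟩
    · show φ (φ.symm _) ∈ Cfsg.GU n F 2 ⊓ Cfsg.Geo.specialLinear (Fin n) F
      rw [MulEquiv.apply_symm_apply]
      exact ⟨hermTransGL_mem_GU n h2 h4 _ hTw, hermTransGL_mem_SL n h2 _ hTw⟩
    · intro x
      apply hTinj
      rw [← hφT, MulEquiv.apply_symm_apply, hermTransGL_mulVec, hTadd, hTsmul, hβT]
  -- the Kronecker isometries are monomial in the first factor
  have hA : Cfsg.Geo.kroneckerSubgroup 2 n₂ F ⊓ I' ≤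
      fibStab F (Prod.fst : Fin 2 × Fin n₂ → Fin 2) := by
    rintro k ⟨hk1, hk2⟩
    obtain ⟨a, b, hkab⟩ := hk1
    have hiso : ∀ x y, β ((k : Matrix (Fin 2 × Fin n₂) (Fin 2 × Fin n₂) F) *ᵥ x)
        ((k : Matrix (Fin 2 × Fin n₂) (Fin 2 × Fin n₂) F) *ᵥ y) = β x y := by
      intro x y
      rw [← hβT, ← hβT, ← hφT, ← hφT]
      exact hk2.1 (T x) (T y)
    obtain ⟨γ, hγ⟩ : ∃ γ : F, γ = Cfsg.Geo.formOfGram σ G₂
      ((b : Matrix (Fin n₂) (Fin n₂) F) *ᵥ y₀) ((b : Matrix (Fin n₂) (Fin n₂) F) *ᵥ v₀) := ⟨_, rfl⟩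
    have key : ∀ i i' : Fin 2,
        (∑ r, (a : Matrix (Fin 2) (Fin 2) F) r i * (a : Matrix (Fin 2) (Fin 2) F) r i' ^ 2) * γ =
          if i = i' then ψ₀ else 0 := by
      intro i i'
      have h1 := hiso (tens (Pi.single i 1) y₀) (tens (Pi.single i' 1) v₀)
      rw [hkab, kron_mulVec_tens, kron_mulVec_tens, hβtens, hβtens, ← hγ, ← hψ₀] at h1
      simp only [Matrix.mulVec_single_one, Matrix.col_apply] at h1
      have h3 := mul_left_cancel₀ hc h1
      rw [h3]
      by_cases hii : i = i'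
      · subst hii
        rw [if_pos rfl, Finset.sum_eq_single i]
        · simp
        · intro r _ hr
          simp [Pi.single_eq_of_ne hr]
        · intro hh
          exact absurd (Finset.mem_univ _) hh
      · rw [if_neg hii]
        have : (∑ r : Fin 2, (Pi.single i (1 : F) : Fin 2 → F) r *
            (Pi.single i' (1 : F) : Fin 2 → F) r ^ 2) = 0 := by
          apply Finset.sum_eq_zero
          intro r _
          by_cases hr : r = i
          · subst hr
            simp [Pi.single_eq_of_ne hii]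
          · simp [Pi.single_eq_of_ne hr]
        rw [this, zero_mul]
    have hγ0 : γ ≠ 0 := by
      intro h0
      have h1 := key 0 0
      rw [h0, mul_zero, if_pos rfl] at h1
      exact hy₀ h1.symm
    have hcol : ∀ i i' : Fin 2,
        (∑ r, (a : Matrix (Fin 2) (Fin 2) F) r i * (a : Matrix (Fin 2) (Fin 2) F) r i' ^ 2) =
          if i = i' then ψ₀ / γ else 0 := by
      intro i i'
      have h1 := key i i'
      by_cases hii : i = i'
      · rw [if_pos hii] at h1 ⊢
        rw [← h1]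
        field_simp
      · rw [if_neg hii] at h1 ⊢
        rcases mul_eq_zero.1 h1 with h3 | h3
        · exact h3
        · exact absurd h3 hγ0
    obtain ⟨hμ1, τ, hτ⟩ := f4_monomial hF (a : Matrix (Fin 2) (Fin 2) F) (ψ₀ / γ)
      (div_ne_zero hy₀ hγ0) hcol
    have hmat : ((a : Matrix (Fin 2) (Fin 2) F).map σ)ᵀ * (a : Matrix (Fin 2) (Fin 2) F) = 1 := by
      ext i' i
      rw [Matrix.mul_apply, Matrix.one_apply]
      simp only [Matrix.transpose_apply, Matrix.map_apply, hσa]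
      have h1 := hcol i i'
      rw [hμ1] at h1
      rw [← (show (∑ r, (a : Matrix (Fin 2) (Fin 2) F) r i *
        (a : Matrix (Fin 2) (Fin 2) F) r i' ^ 2) = ∑ r, (a : Matrix (Fin 2) (Fin 2) F) r i' ^ 2 *
          (a : Matrix (Fin 2) (Fin 2) F) r i from Finset.sum_congr rfl (fun r _ => mul_comm _ _)),
        h1]
      by_cases hii : i = i'
      · rw [if_pos hii, if_pos hii.symm]
      · rw [if_neg hii, if_neg (fun h => hii h.symm)]
    have hX : ((((a : Matrix (Fin 2) (Fin 2) F).map σ)ᵀ) ⊗ₖ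
        ((b⁻¹ : Matrix.GeneralLinearGroup (Fin n₂) F) : Matrix (Fin n₂) (Fin n₂) F)) *
          (k : Matrix (Fin 2 × Fin n₂) (Fin 2 × Fin n₂) F) = 1 := by
      rw [hkab, ← Matrix.mul_kronecker_mul, ← Units.val_mul, inv_mul_cancel, hmat]
      simp
    refine ⟨τ, fun j x => ⟨fun hx => ?_, fun hx => ?_⟩⟩
    · rw [hkab]
      exact kron_fib_fst _ _ τ hτ hx
    · have hx' : x = ((((a : Matrix (Fin 2) (Fin 2) F).map σ)ᵀ) ⊗ₖ
          ((b⁻¹ : Matrix.GeneralLinearGroup (Fin n₂) F) : Matrix (Fin n₂) (Fin n₂) F)) *ᵥ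
            ((k : Matrix (Fin 2 × Fin n₂) (Fin 2 × Fin n₂) F) *ᵥ x) := by
        rw [Matrix.mulVec_mulVec, hX, Matrix.one_mulVec]
      rw [hx']
      have h1 := kron_fib_fst (((a : Matrix (Fin 2) (Fin 2) F).map σ)ᵀ)
        ((b⁻¹ : Matrix.GeneralLinearGroup (Fin n₂) F) : Matrix (Fin n₂) (Fin n₂) F)
        (τ.symm : Fin 2 → Fin 2)
        (fun i j hij => by
          rw [Matrix.transpose_apply, Matrix.map_apply, hτ j i (fun h => hij (by
            rw [h, Equiv.symm_apply_apply])), map_zero]) hx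
      rwa [Equiv.symm_apply_apply] at h1
  -- a transvection in the fibre stabiliser that is not a Kronecker product
  obtain ⟨w, hw⟩ : ∃ w : Fin 2 × Fin n₂ → F, w = tens (Pi.single (0 : Fin 2) (1 : F)) v₀ :=
    ⟨_, rfl⟩
  have hww : β w w = 0 := by
    rw [hw, hβtens, hv₀]
    ring
  obtain ⟨t, htI, ht⟩ := htv w hww
  have hw0 : w ∈ fibSupp (Prod.fst : Fin 2 × Fin n₂ → Fin 2) 0 := by
    intro p hp
    rw [hw]
    simp [tens, Pi.single_eq_of_ne hp]
  have htfib : t ∈ fibStab F (Prod.fst : Fin 2 × Fin n₂ → Fin 2) := by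
    have hD : ∀ (j : Fin 2) (y : Fin 2 × Fin n₂ → F) (s : F),
        y ∈ fibSupp (Prod.fst : Fin 2 × Fin n₂ → Fin 2) j →
        y + (s * β y w) • w ∈ fibSupp (Prod.fst : Fin 2 × Fin n₂ → Fin 2) j := by
      intro j y s hy
      by_cases hj : j = 0
      · subst hj
        exact fibSupp_add hy (fibSupp_smul _ hw0)
      · rw [horth j 0 hj y w hy hw0, mul_zero, zero_smul, add_zero]
        exact hy
    refine ⟨1, fun j x => ⟨fun hx => ?_, fun hx => ?_⟩⟩
    · rw [ht, Equiv.Perm.one_apply]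
      have := hD j x 1 hx
      rwa [one_mul] at this
    · rw [Equiv.Perm.one_apply] at hx
      have h1 : β ((t : Matrix (Fin 2 × Fin n₂) (Fin 2 × Fin n₂) F) *ᵥ x) w = β x w := by
        rw [ht, hβadd, hβsmul, hww, mul_zero, add_zero]
      have h3 : x = (t : Matrix (Fin 2 × Fin n₂) (Fin 2 × Fin n₂) F) *ᵥ x +
          (-1 * β ((t : Matrix (Fin 2 × Fin n₂) (Fin 2 × Fin n₂) F) *ᵥ x) w) • w := by
        rw [h1, ht]
        module
      rw [h3]
      exact hD j _ (-1) hx
  have hβ1 : ∀ u, β (tens (Pi.single (1 : Fin 2) (1 : F)) u) w = 0 := by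
    intro u
    rw [hw, hβtens]
    simp [Fin.sum_univ_two]
  have hβ0 : ∀ u, β (tens (Pi.single (0 : Fin 2) (1 : F)) u) w =
      c * Cfsg.Geo.formOfGram σ G₂ u v₀ := by
    intro u
    rw [hw, hβtens]
    simp [Fin.sum_univ_two]
  have htk : t ∉ Cfsg.Geo.kroneckerSubgroup 2 n₂ F := by
    rintro ⟨a, b, habk⟩
    have hact : ∀ (A : Fin 2 → F) (u : Fin n₂ → F),
        tens ((a : Matrix (Fin 2) (Fin 2) F) *ᵥ A) ((b : Matrix (Fin n₂) (Fin n₂) F) *ᵥ u) =
          tens A u + β (tens A u) w • w := by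
      intro A u
      rw [← kron_mulVec_tens, ← habk, ht]
    have hev : ∀ (i r : Fin 2) (u : Fin n₂ → F) (s : Fin n₂),
        (a : Matrix (Fin 2) (Fin 2) F) r i * ((b : Matrix (Fin n₂) (Fin n₂) F) *ᵥ u) s =
          (Pi.single i (1 : F) : Fin 2 → F) r * u s +
            β (tens (Pi.single i 1) u) w * ((Pi.single (0 : Fin 2) (1 : F) : Fin 2 → F) r * v₀ s) := by
      intro i r u s
      have h1 := congrFun (hact (Pi.single i 1) u) (r, s)
      rw [hw] at h1
      simp only [tens, Matrix.mulVec_single_one, Matrix.col_apply, Pi.add_apply, Pi.smul_apply,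
        smul_eq_mul] at h1
      rw [hw]
      exact h1
    have e1 := hev 1 1 v₀ s₀
    rw [hβ1, zero_mul, add_zero, Pi.single_eq_same, one_mul] at e1
    have e2 := hev 0 0 v₀ s₀
    rw [hβ0, hv₀, mul_zero, zero_mul, add_zero, Pi.single_eq_same, one_mul] at e2
    have e3 := hev 1 1 y₀ s₀
    rw [hβ1, zero_mul, add_zero, Pi.single_eq_same, one_mul] at e3
    have e4 := hev 0 0 y₀ s₀
    rw [hβ0, ← hψ₀, Pi.single_eq_same, one_mul, one_mul] at e4
    have hbv : ((b : Matrix (Fin n₂) (Fin n₂) F) *ᵥ v₀) s₀ ≠ 0 := by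
      intro h0
      rw [h0, mul_zero] at e1
      exact hs₀ e1.symm
    have haa : (a : Matrix (Fin 2) (Fin 2) F) 0 0 = (a : Matrix (Fin 2) (Fin 2) F) 1 1 :=
      mul_right_cancel₀ hbv (e2.trans e1.symm)
    rw [haa, e3] at e4
    have h5 : c * ψ₀ * v₀ s₀ = 0 := by linear_combination -e4
    exact mul_ne_zero (mul_ne_zero hc hy₀) hs₀ h5
  -- a transvection outside the fibre stabiliser
  obtain ⟨w₂, hw₂⟩ : ∃ w₂ : Fin 2 × Fin n₂ → F,
      w₂ = tens (Pi.single (0 : Fin 2) (1 : F) + Pi.single (1 : Fin 2) (1 : F)) v₀ := ⟨_, rfl⟩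
  have hww₂ : β w₂ w₂ = 0 := by
    rw [hw₂, hβtens, hv₀]
    ring
  obtain ⟨t₂, ht₂I, ht₂⟩ := htv w₂ hww₂
  have ht₂fib : t₂ ∉ fibStab F (Prod.fst : Fin 2 × Fin n₂ → Fin 2) := by
    rintro ⟨τ, hτ⟩
    have hx : tens (Pi.single (0 : Fin 2) (1 : F)) y₀ ∈
        fibSupp (Prod.fst : Fin 2 × Fin n₂ → Fin 2) 0 := by
      intro p hp
      simp [tens, Pi.single_eq_of_ne hp]
    have h1 := (hτ 0 _).1 hx
    rw [ht₂] at h1
    have hβv : β (tens (Pi.single (0 : Fin 2) (1 : F)) y₀) w₂ = c * ψ₀ := by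
      rw [hw₂, hβtens, ← hψ₀]
      simp [Fin.sum_univ_two]
    rw [hβv] at h1
    have hval : ∀ (r : Fin 2) (s : Fin n₂),
        (tens (Pi.single (0 : Fin 2) (1 : F)) y₀ + (c * ψ₀) • w₂) (r, s) =
          (Pi.single (0 : Fin 2) (1 : F) : Fin 2 → F) r * y₀ s +
            c * ψ₀ * (((Pi.single (0 : Fin 2) (1 : F) : Fin 2 → F) r +
              (Pi.single (1 : Fin 2) (1 : F) : Fin 2 → F) r) * v₀ s) := by
      intro r s
      rw [hw₂]
      simp only [tens, Pi.add_apply, Pi.smul_apply, smul_eq_mul]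
    have hτ1 : τ 0 = 1 := by
      by_contra hne
      have h3 := h1 (1, s₀) (fun h => hne h.symm)
      rw [hval] at h3
      simp at h3
      rcases h3 with (h3 | h3) | h3
      · exact hc h3
      · exact hy₀ h3
      · exact hs₀ h3
    have hτ0 : τ 0 = 0 := by
      by_contra hne
      have h3 : ∀ s, y₀ s + c * ψ₀ * v₀ s = 0 := by
        intro s
        have h5 := h1 (0, s) (fun h => hne h.symm)
        rw [hval] at h5
        simpa using h5
      have hy : y₀ = (-(c * ψ₀)) • v₀ := by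
        funext s
        rw [Pi.smul_apply, smul_eq_mul]
        linear_combination h3 s
      apply hy₀
      rw [hψ₀, hy, fog_smul_left, hv₀, mul_zero]
    exact (show (1 : Fin 2) ≠ 0 by decide) (hτ1.symm.trans hτ0)
  refine ⟨I' ⊓ fibStab F (Prod.fst : Fin 2 × Fin n₂ → Fin 2), ?_, ?_⟩
  · refine lt_of_le_of_ne (le_inf inf_le_right hA) ?_
    intro heq
    have h1 : t ∈ I' ⊓ fibStab F (Prod.fst : Fin 2 × Fin n₂ → Fin 2) := ⟨htI, htfib⟩
    rw [← heq] at h1
    exact htk h1.1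
  · refine lt_of_le_of_ne inf_le_left ?_
    intro heq
    have h1 : t₂ ∈ I' ⊓ fibStab F (Prod.fst : Fin 2 × Fin n₂ → Fin 2) := by
      rw [heq]
      exact ht₂I
    exact ht₂fib h1.2

end Main

end Cfsg.Agent.Lib.Helper99
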