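import Cfsg.Agent.Lib.Helper99.TensorSp3
import Cfsg.Agent.Lib.Helper99.TensorSu4
import Cfsg.Agent.Lib.Helper94.Refl

set_option autoImplicit false

namespace Cfsg.Agent.Lib.Helper99

open Matrix
open scoped Kronecker

section PermBlock

variable {F : Type*} [Field F]

theorem single_comp_perm {κ : Type} [DecidableEq κ] (σ : Equiv.Perm κ) (hσ : σ * σ = 1) (i : κ) :
    (Pi.single i (1 : F) : κ → F) ∘ σ = Pi.single (σ i) 1 := by
  funext j
  have h1 : σ (σ j) = j := by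
    have := congrArg (fun τ : Equiv.Perm κ => τ j) hσ
    simpa using this
  have h2 : σ (σ i) = i := by
    have := congrArg (fun τ : Equiv.Perm κ => τ i) hσ
    simpa using this
  simp only [Function.comp, Pi.single_apply]
  by_cases h : σ j = i
  · rw [if_pos h, if_pos (by rw [← h, h1])]
  · rw [if_neg h, if_neg (fun h' => h (by rw [h', h2]))]

/-- the block permutation `σ ⊗ 1` for an involution `σ` -/
theorem exists_perm_block {n₁ n₂ : ℕ} (σ : Equiv.Perm (Fin n₁)) (hσ : σ * σ = 1) :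
    ∃ h : Matrix.GeneralLinearGroup (Fin n₁ × Fin n₂) F,
      h⁻¹ = h ∧ h ∈ fibStab F (Prod.fst : Fin n₁ × Fin n₂ → Fin n₁) ∧
      (∀ (A : Fin n₁ → F) (y : Fin n₂ → F),
        (h : Matrix (Fin n₁ × Fin n₂) (Fin n₁ × Fin n₂) F) *ᵥ tens A y = tens (A ∘ σ) y) ∧
      (∀ (G₂ : Matrix (Fin n₂) (Fin n₂) F) (x y : Fin n₁ × Fin n₂ → F),
        Cfsg.Geo.formOfGram id ((1 : Matrix (Fin n₁) (Fin n₁) F) ⊗ₖ G₂)
          ((h : Matrix (Fin n₁ × Fin n₂) (Fin n₁ × Fin n₂) F) *ᵥ x)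
          ((h : Matrix (Fin n₁ × Fin n₂) (Fin n₁ × Fin n₂) F) *ᵥ y) =
        Cfsg.Geo.formOfGram id ((1 : Matrix (Fin n₁) (Fin n₁) F) ⊗ₖ G₂) x y) := by
  classical
  obtain ⟨S, hS⟩ : ∃ S : Matrix (Fin n₁) (Fin n₁) F, S = Equiv.Perm.permMatrix F σ := ⟨_, rfl⟩
  have hSS : S * S = 1 := by
    rw [hS, ← Matrix.permMatrix_mul, hσ, Matrix.permMatrix_one]
  have hσinv : σ⁻¹ = σ := inv_eq_of_mul_eq_one_right hσ
  have hST : Sᵀ = S := by
    rw [hS, Matrix.transpose_permMatrix, hσinv]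
  have hσσ : ∀ i, σ (σ i) = i := by
    intro i
    have := congrArg (fun τ : Equiv.Perm (Fin n₁) => τ i) hσ
    simpa using this
  have hSent : ∀ i j, i ≠ σ j → S i j = 0 := by
    intro i j hij
    rw [hS]
    simp only [Equiv.Perm.permMatrix, PEquiv.toMatrix_apply, Equiv.toPEquiv_apply,
      Option.mem_def, Option.some.injEq]
    rw [if_neg]
    intro h
    apply hij
    rw [← h, hσσ]
  obtain ⟨Sgl, hSgl⟩ : ∃ Sgl : Matrix.GeneralLinearGroup (Fin n₁) F,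
      (Sgl : Matrix (Fin n₁) (Fin n₁) F) = S := ⟨⟨S, S, hSS, hSS⟩, rfl⟩
  obtain ⟨h, hh⟩ : ∃ h : Matrix.GeneralLinearGroup (Fin n₁ × Fin n₂) F,
      h = kronGL Sgl (1 : Matrix.GeneralLinearGroup (Fin n₂) F) := ⟨_, rfl⟩
  have hval : (h : Matrix (Fin n₁ × Fin n₂) (Fin n₁ × Fin n₂) F) =
      S ⊗ₖ (1 : Matrix (Fin n₂) (Fin n₂) F) := by
    rw [hh, kronGL_val, hSgl]
    simp
  have hhh : h * h = 1 := by
    apply Units.ext
    rw [Units.val_mul, hval, ← Matrix.mul_kronecker_mul, hSS]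
    simp
  have hinv : h⁻¹ = h := inv_eq_of_mul_eq_one_right hhh
  have hfwd : ∀ (j : Fin n₁) (x : Fin n₁ × Fin n₂ → F),
      x ∈ fibSupp (Prod.fst : Fin n₁ × Fin n₂ → Fin n₁) j →
      (h : Matrix (Fin n₁ × Fin n₂) (Fin n₁ × Fin n₂) F) *ᵥ x ∈
        fibSupp (Prod.fst : Fin n₁ × Fin n₂ → Fin n₁) (σ j) := by
    intro j x hx
    rw [hval]
    exact kron_fib_fst S 1 σ hSent hx
  refine ⟨h, hinv, ⟨σ, fun j x => ⟨hfwd j x, fun hx => ?_⟩⟩, ?_, ?_⟩
  · have h1 := hfwd (σ j) _ hx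
    rw [hσσ, Matrix.mulVec_mulVec, ← Units.val_mul, hhh, Units.val_one, Matrix.one_mulVec] at h1
    exact h1
  · intro A y
    rw [hval, kron_mulVec_tens, Matrix.one_mulVec, hS, Matrix.permMatrix_mulVec]
  · intro G₂ x y
    have hid : (id : F → F) = ⇑(RingHom.id F) := rfl
    have hmap : (S ⊗ₖ (1 : Matrix (Fin n₂) (Fin n₂) F)).map (RingHom.id F) =
        S ⊗ₖ (1 : Matrix (Fin n₂) (Fin n₂) F) := by
      ext i j
      simp
    rw [hid, fog_map, hval, hmap, ← Matrix.kroneckerMap_transpose, ← Matrix.mul_kronecker_mul,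
      ← Matrix.mul_kronecker_mul, Matrix.transpose_one, Matrix.one_mul, Matrix.mul_one,
      Matrix.mul_one, hST, hSS]

end PermBlock

section O3

open Cfsg.Agent.Lib.Helper94

variable {F : Type*} [Field F] [Fintype F]

/-- abstract core: a Kronecker-type subgroup `O_3 ⊗ O_{n₂}` of `Ω(Q)`, transported to the model
space `Fin 3 × Fin n₂`, is not maximal over the field with three elements -/
theorem o3_main {ι : Type} [Fintype ι] [DecidableEq ι] {n₂ : ℕ} (hq : Fintype.card F = 3)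
    (Q : (ι → F) → F) (hQ : Cfsg.Geo.IsNondegenerateQuadraticForm Q)
    (φ : Matrix.GeneralLinearGroup (Fin 3 × Fin n₂) F ≃* Matrix.GeneralLinearGroup ι F)
    (T : (Fin 3 × Fin n₂ → F) → (ι → F))
    (hTadd : ∀ x y, T (x + y) = T x + T y) (hTsmul : ∀ (c : F) x, T (c • x) = c • T x)
    (hTinj : Function.Injective T) (hTsurj : Function.Surjective T)
    (hφT : ∀ (k : Matrix.GeneralLinearGroup (Fin 3 × Fin n₂) F) (x : Fin 3 × Fin n₂ → F),
      ((φ k : Matrix.GeneralLinearGroup ι F) : Matrix ι ι F) *ᵥ T x =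
        T ((k : Matrix (Fin 3 × Fin n₂) (Fin 3 × Fin n₂) F) *ᵥ x))
    (G₂ : Matrix (Fin n₂) (Fin n₂) F) (c : F) (hc : c ≠ 0)
    (hform : ∀ x y, QuadraticMap.polar Q (T x) (T y) =
      c * Cfsg.Geo.formOfGram id ((1 : Matrix (Fin 3) (Fin 3) F) ⊗ₖ G₂) x y)
    (u y₀ : Fin n₂ → F) (hu : Cfsg.Geo.formOfGram id G₂ u u ≠ 0)
    (hy₀ : Cfsg.Geo.formOfGram id G₂ y₀ u = 0) (hy₀ne : y₀ ≠ 0) :
    ∃ K' : Subgroup (Matrix.GeneralLinearGroup (Fin 3 × Fin n₂) F),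
      Cfsg.Geo.kroneckerSubgroup 3 n₂ F ⊓ (Cfsg.Geo.omegaGL Q).comap φ.toMonoidHom < K' ∧
        K' < (Cfsg.Geo.omegaGL Q).comap φ.toMonoidHom := by
  classical
  have h3 := f3_three hq
  have h2ne : (2 : F) ≠ 0 := by
    intro h
    exact one_ne_zero (α := F) (by linear_combination h3 - h)
  have hid : (id : F → F) = ⇑(RingHom.id F) := rfl
  set I' := (Cfsg.Geo.omegaGL Q).comap φ.toMonoidHom with hI'
  obtain ⟨ψu, hψu⟩ : ∃ ψu : F, ψu = Cfsg.Geo.formOfGram id G₂ u u := ⟨_, rfl⟩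
  rw [← hψu] at hu
  set β : (Fin 3 × Fin n₂ → F) → (Fin 3 × Fin n₂ → F) → F := fun x y =>
    c * Cfsg.Geo.formOfGram id ((1 : Matrix (Fin 3) (Fin 3) F) ⊗ₖ G₂) x y with hβ
  have hβT : ∀ x y, QuadraticMap.polar Q (T x) (T y) = β x y := hform
  have hβtens : ∀ (A A' : Fin 3 → F) (y y' : Fin n₂ → F), β (tens A y) (tens A' y') =
      c * ((∑ i, A i * A' i) * Cfsg.Geo.formOfGram id G₂ y y') := by
    intro A A' y y'
    simp only [hβ]
    rw [hid, fog_tens, fog_one]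
    simp only [RingHom.id_apply]
  have horth : ∀ j j' : Fin 3, j ≠ j' → ∀ x y,
      x ∈ fibSupp (Prod.fst : Fin 3 × Fin n₂ → Fin 3) j →
      y ∈ fibSupp (Prod.fst : Fin 3 × Fin n₂ → Fin 3) j' → β x y = 0 := by
    intro j j' hjj x y hx hy
    simp only [hβ]
    rw [hid, fog_fst_orth (RingHom.id F) G₂ hjj hx hy, mul_zero]
  have hQT : ∀ x, Q (T x) = 2⁻¹ * β x x := by
    intro x
    rw [← hβT]
    have h1 : QuadraticMap.polar Q (T x) (T x) = 2 * Q (T x) := pol_self hQ (T x)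
    rw [h1]
    field_simp
  have hiso_of : ∀ k : Matrix.GeneralLinearGroup (Fin 3 × Fin n₂) F,
      (∀ x, β ((k : Matrix (Fin 3 × Fin n₂) (Fin 3 × Fin n₂) F) *ᵥ x)
        ((k : Matrix (Fin 3 × Fin n₂) (Fin 3 × Fin n₂) F) *ᵥ x) = β x x) →
      φ k ∈ Cfsg.isometryGroup F Q := by
    intro k hk v w
    obtain ⟨x, rfl⟩ := hTsurj v
    show Q (((φ k : Matrix.GeneralLinearGroup ι F) : Matrix ι ι F) *ᵥ T x) = Q (T x)
    rw [hφT, hQT, hQT, hk]
  have hβ_of_iso : ∀ k : Matrix.GeneralLinearGroup (Fin 3 × Fin n₂) F,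
      φ k ∈ Cfsg.isometryGroup F Q → ∀ x y,
      β ((k : Matrix (Fin 3 × Fin n₂) (Fin 3 × Fin n₂) F) *ᵥ x)
        ((k : Matrix (Fin 3 × Fin n₂) (Fin 3 × Fin n₂) F) *ᵥ y) = β x y := by
    intro k hk x y
    rw [← hβT, ← hβT, ← hφT, ← hφT]
    unfold QuadraticMap.polar
    rw [← Matrix.mulVec_add, isometry_apply _ hk, isometry_apply _ hk, isometry_apply _ hk]
  obtain ⟨s₁, hs₁⟩ : ∃ s, u s ≠ 0 := by
    by_contra hcon
    push Not at hcon
    apply hu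
    have h0 : u = 0 := funext hcon
    rw [hψu, h0]
    unfold Cfsg.Geo.formOfGram
    simp
  obtain ⟨s₂, hs₂⟩ : ∃ s, y₀ s ≠ 0 := by
    by_contra hcon
    push Not at hcon
    exact hy₀ne (funext hcon)
  -- reflections of the model space
  have hrefl : ∀ w : Fin 3 × Fin n₂ → F, β w w ≠ 0 →
      ∃ g : Matrix.GeneralLinearGroup (Fin 3 × Fin n₂) F,
        φ g ∈ Cfsg.isometryGroup F Q ∧ g⁻¹ = g ∧
        ∀ x, (g : Matrix (Fin 3 × Fin n₂) (Fin 3 × Fin n₂) F) *ᵥ x =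
          x + (-((2⁻¹ * β w w)⁻¹ * β x w)) • w := by
    intro w hw
    have hQw : Q (T w) ≠ 0 := by
      rw [hQT]
      exact mul_ne_zero (inv_ne_zero h2ne) hw
    refine ⟨φ.symm (reflGL hQ (T w) hQw), ?_, ?_, ?_⟩
    · rw [MulEquiv.apply_symm_apply]
      exact reflGL_mem hQ _ hQw
    · rw [← map_inv, reflGL_inv]
    · intro x
      apply hTinj
      rw [← hφT, MulEquiv.apply_symm_apply, reflGL_mulVec, reflLin_apply, hTadd, hTsmul, hQT]
      show T x - ((2⁻¹ * β w w)⁻¹ * QuadraticMap.polar Q (T x) (T w)) • T w = _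
      rw [hβT]
      module
  -- commutators
  have hcomm : ∀ g h : Matrix.GeneralLinearGroup (Fin 3 × Fin n₂) F,
      φ g ∈ Cfsg.isometryGroup F Q → φ h ∈ Cfsg.isometryGroup F Q → g⁻¹ = g → h⁻¹ = h →
      g * h * g⁻¹ * h⁻¹ ∈ I' ∧ ∀ v, ((g * h * g⁻¹ * h⁻¹ : Matrix.GeneralLinearGroup
        (Fin 3 × Fin n₂) F) : Matrix (Fin 3 × Fin n₂) (Fin 3 × Fin n₂) F) *ᵥ v =
        (g : Matrix (Fin 3 × Fin n₂) (Fin 3 × Fin n₂) F) *ᵥ
          ((h : Matrix (Fin 3 × Fin n₂) (Fin 3 × Fin n₂) F) *ᵥ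
            ((g : Matrix (Fin 3 × Fin n₂) (Fin 3 × Fin n₂) F) *ᵥ
              ((h : Matrix (Fin 3 × Fin n₂) (Fin 3 × Fin n₂) F) *ᵥ v))) := by
    intro g h hg hh hgi hhi
    constructor
    · show φ (g * h * g⁻¹ * h⁻¹) ∈ Cfsg.Geo.omegaGL Q
      rw [map_mul, map_mul, map_mul, map_inv, map_inv]
      exact comm_mem_omegaGL _ _ hg hh
    · intro v
      rw [hgi, hhi]
      simp only [Units.val_mul, Matrix.mulVec_mulVec, Matrix.mul_assoc]
  -- the Kronecker isometries are monomial in the first factor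
  have hA : Cfsg.Geo.kroneckerSubgroup 3 n₂ F ⊓ I' ≤
      fibStab F (Prod.fst : Fin 3 × Fin n₂ → Fin 3) := by
    rintro k ⟨hk1, hk2⟩
    obtain ⟨a, b, hkab⟩ := hk1
    have hiso := hβ_of_iso k (omegaGL_le Q hk2)
    obtain ⟨γ, hγ⟩ : ∃ γ : F, γ = Cfsg.Geo.formOfGram id G₂
      ((b : Matrix (Fin n₂) (Fin n₂) F) *ᵥ u) ((b : Matrix (Fin n₂) (Fin n₂) F) *ᵥ u) := ⟨_, rfl⟩
    have key : ∀ i i' : Fin 3,
        (∑ r, (a : Matrix (Fin 3) (Fin 3) F) r i * (a : Matrix (Fin 3) (Fin 3) F) r i') * γ =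
          if i = i' then ψu else 0 := by
      intro i i'
      have h1 := hiso (tens (Pi.single i 1) u) (tens (Pi.single i' 1) u)
      rw [hkab, kron_mulVec_tens, kron_mulVec_tens, hβtens, hβtens, ← hγ, ← hψu] at h1
      simp only [Matrix.mulVec_single_one, Matrix.col_apply] at h1
      have h4 := mul_left_cancel₀ hc h1
      rw [h4]
      by_cases hii : i = i'
      · subst hii
        rw [if_pos rfl, Finset.sum_eq_single i]
        · simp
        · intro r _ hr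
          simp [Pi.single_eq_of_ne hr]
        · intro hh
          exact absurd (Finset.mem_univ _) hh
      · rw [if_neg hii]
        have : (∑ r : Fin 3, (Pi.single i (1 : F) : Fin 3 → F) r *
            (Pi.single i' (1 : F) : Fin 3 → F) r) = 0 := by
          apply Finset.sum_eq_zero
          intro r _
          by_cases hr : r = i
          · subst hr
            simp [Pi.single_eq_of_ne hii]
          · simp [Pi.single_eq_of_ne hr]
        rw [this, zero_mul]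
    have hγ0 : γ ≠ 0 := by
      intro h0
      have h1 := key 0 0
      rw [h0, mul_zero, if_pos rfl] at h1
      exact hu h1.symm
    have hcol : ∀ i i' : Fin 3,
        (∑ r, (a : Matrix (Fin 3) (Fin 3) F) r i * (a : Matrix (Fin 3) (Fin 3) F) r i') =
          if i = i' then ψu / γ else 0 := by
      intro i i'
      have h1 := key i i'
      by_cases hii : i = i'
      · rw [if_pos hii] at h1 ⊢
        rw [← h1]
        field_simp
      · rw [if_neg hii] at h1 ⊢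
        rcases mul_eq_zero.1 h1 with h4 | h4
        · exact h4
        · exact absurd h4 hγ0
    obtain ⟨hμ1, τ, hτ⟩ := f3_monomial hq (a : Matrix (Fin 3) (Fin 3) F) (ψu / γ)
      (div_ne_zero hu hγ0) hcol
    have hmat : (a : Matrix (Fin 3) (Fin 3) F)ᵀ * (a : Matrix (Fin 3) (Fin 3) F) = 1 := by
      ext i i'
      rw [Matrix.mul_apply, Matrix.one_apply]
      simp only [Matrix.transpose_apply]
      rw [hcol i i', hμ1]
    have hX : ((a : Matrix (Fin 3) (Fin 3) F)ᵀ ⊗ₖ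
        ((b⁻¹ : Matrix.GeneralLinearGroup (Fin n₂) F) : Matrix (Fin n₂) (Fin n₂) F)) *
          (k : Matrix (Fin 3 × Fin n₂) (Fin 3 × Fin n₂) F) = 1 := by
      rw [hkab, ← Matrix.mul_kronecker_mul, ← Units.val_mul, inv_mul_cancel, hmat]
      simp
    refine ⟨τ, fun j x => ⟨fun hx => ?_, fun hx => ?_⟩⟩
    · rw [hkab]
      exact kron_fib_fst _ _ τ hτ hx
    · have hx' : x = ((a : Matrix (Fin 3) (Fin 3) F)ᵀ ⊗ₖ
          ((b⁻¹ : Matrix.GeneralLinearGroup (Fin n₂) F) : Matrix (Fin n₂) (Fin n₂) F)) *ᵥ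
            ((k : Matrix (Fin 3 × Fin n₂) (Fin 3 × Fin n₂) F) *ᵥ x) := by
        rw [Matrix.mulVec_mulVec, hX, Matrix.one_mulVec]
      rw [hx']
      have h1 := kron_fib_fst ((a : Matrix (Fin 3) (Fin 3) F)ᵀ)
        ((b⁻¹ : Matrix.GeneralLinearGroup (Fin n₂) F) : Matrix (Fin n₂) (Fin n₂) F)
        (τ.symm : Fin 3 → Fin 3)
        (fun i j hij => by
          rw [Matrix.transpose_apply]
          apply hτ
          intro h
          apply hij
          rw [h, Equiv.symm_apply_apply]) hx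
      rwa [Equiv.symm_apply_apply] at h1
  -- block permutations
  have hswap01 : (Equiv.swap (0 : Fin 3) 1) * (Equiv.swap (0 : Fin 3) 1) = 1 := Equiv.swap_mul_self _ _
  have hswap12 : (Equiv.swap (1 : Fin 3) 2) * (Equiv.swap (1 : Fin 3) 2) = 1 := Equiv.swap_mul_self _ _
  obtain ⟨h₁, hh₁inv, hh₁fib, hh₁act, hh₁form⟩ :=
    exists_perm_block (F := F) (n₂ := n₂) (Equiv.swap (0 : Fin 3) 1) hswap01
  obtain ⟨h₂, hh₂inv, hh₂fib, hh₂act, hh₂form⟩ :=
    exists_perm_block (F := F) (n₂ := n₂) (Equiv.swap (1 : Fin 3) 2) hswap12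
  have hh₁iso : φ h₁ ∈ Cfsg.isometryGroup F Q := hiso_of h₁ (fun x => by
    simp only [hβ]
    rw [hh₁form])
  have hh₂iso : φ h₂ ∈ Cfsg.isometryGroup F Q := hiso_of h₂ (fun x => by
    simp only [hβ]
    rw [hh₂form])
  have hh₁e : ∀ (i : Fin 3) (y : Fin n₂ → F),
      (h₁ : Matrix (Fin 3 × Fin n₂) (Fin 3 × Fin n₂) F) *ᵥ tens (Pi.single i 1) y =
        tens (Pi.single (Equiv.swap (0 : Fin 3) 1 i) 1) y := by
    intro i y
    rw [hh₁act, single_comp_perm _ hswap01]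
  have hh₂e : ∀ (i : Fin 3) (y : Fin n₂ → F),
      (h₂ : Matrix (Fin 3 × Fin n₂) (Fin 3 × Fin n₂) F) *ᵥ tens (Pi.single i 1) y =
        tens (Pi.single (Equiv.swap (1 : Fin 3) 2 i) 1) y := by
    intro i y
    rw [hh₂act, single_comp_perm _ hswap12]
  have hsw01_0 : Equiv.swap (0 : Fin 3) 1 0 = 1 := by decide
  have hsw01_1 : Equiv.swap (0 : Fin 3) 1 1 = 0 := by decide
  have hsw01_2 : Equiv.swap (0 : Fin 3) 1 2 = 2 := by decide
  have hsw12_0 : Equiv.swap (1 : Fin 3) 2 0 = 0 := by decide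
  have hsw12_1 : Equiv.swap (1 : Fin 3) 2 1 = 2 := by decide
  have hsw12_2 : Equiv.swap (1 : Fin 3) 2 2 = 1 := by decide
  -- an element of the fibre stabiliser that is not a Kronecker product
  obtain ⟨x₁, hx₁⟩ : ∃ x₁ : Fin 3 × Fin n₂ → F, x₁ = tens (Pi.single (0 : Fin 3) (1 : F)) u :=
    ⟨_, rfl⟩
  have hx₁x₁ : β x₁ x₁ = c * ψu := by
    rw [hx₁, hβtens, ← hψu]
    simp [Fin.sum_univ_three]
  have hx₁ne : β x₁ x₁ ≠ 0 := by
    rw [hx₁x₁]
    exact mul_ne_zero hc hu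
  obtain ⟨g₁, hg₁iso, hg₁inv, hg₁⟩ := hrefl x₁ hx₁ne
  have hx₁0 : x₁ ∈ fibSupp (Prod.fst : Fin 3 × Fin n₂ → Fin 3) 0 := by
    intro p hp
    rw [hx₁]
    simp [tens, Pi.single_eq_of_ne hp]
  have hg₁fib : g₁ ∈ fibStab F (Prod.fst : Fin 3 × Fin n₂ → Fin 3) := by
    have hD : ∀ (j : Fin 3) (y : Fin 3 × Fin n₂ → F),
        y ∈ fibSupp (Prod.fst : Fin 3 × Fin n₂ → Fin 3) j →
        (g₁ : Matrix (Fin 3 × Fin n₂) (Fin 3 × Fin n₂) F) *ᵥ y ∈
          fibSupp (Prod.fst : Fin 3 × Fin n₂ → Fin 3) j := by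
      intro j y hy
      rw [hg₁]
      by_cases hj : j = 0
      · subst hj
        exact fibSupp_add hy (fibSupp_smul _ hx₁0)
      · rw [horth j 0 hj y x₁ hy hx₁0, mul_zero, neg_zero, zero_smul, add_zero]
        exact hy
    refine ⟨1, fun j x => ⟨fun hx => ?_, fun hx => ?_⟩⟩
    · rw [Equiv.Perm.one_apply]
      exact hD j x hx
    · rw [Equiv.Perm.one_apply] at hx
      have h1 := hD j _ hx
      have h4 := gl_inv_mulVec g₁ x
      rw [hg₁inv] at h4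
      rw [h4] at h1
      exact h1
  obtain ⟨hk₁I, hk₁⟩ := hcomm g₁ h₁ hg₁iso hh₁iso hg₁inv hh₁inv
  have hk₁fib : g₁ * h₁ * g₁⁻¹ * h₁⁻¹ ∈ fibStab F (Prod.fst : Fin 3 × Fin n₂ → Fin 3) :=
    mul_mem (mul_mem (mul_mem hg₁fib hh₁fib) (inv_mem hg₁fib)) (inv_mem hh₁fib)
  -- the action of the reflection g₁ on pure tensors
  have hg₁fix : ∀ (A : Fin 3 → F) (y : Fin n₂ → F),
      (∑ i, A i * (Pi.single (0 : Fin 3) (1 : F) : Fin 3 → F) i) *
        Cfsg.Geo.formOfGram id G₂ y u = 0 →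
      (g₁ : Matrix (Fin 3 × Fin n₂) (Fin 3 × Fin n₂) F) *ᵥ tens A y = tens A y := by
    intro A y h0
    have hβx : β (tens A y) x₁ = 0 := by
      rw [hx₁, hβtens, h0, mul_zero]
    rw [hg₁, hβx, mul_zero, neg_zero, zero_smul, add_zero]
  have hg₁neg : (g₁ : Matrix (Fin 3 × Fin n₂) (Fin 3 × Fin n₂) F) *ᵥ x₁ = -x₁ := by
    rw [hg₁]
    have h5 : (2⁻¹ * β x₁ x₁)⁻¹ * β x₁ x₁ = 2 := by
      field_simp
    rw [h5]
    module
  have hk₁kron : g₁ * h₁ * g₁⁻¹ * h₁⁻¹ ∉ Cfsg.Geo.kroneckerSubgroup 3 n₂ F := by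
    rintro ⟨a, b, habk⟩
    have hact : ∀ (A : Fin 3 → F) (y : Fin n₂ → F),
        tens ((a : Matrix (Fin 3) (Fin 3) F) *ᵥ A) ((b : Matrix (Fin n₂) (Fin n₂) F) *ᵥ y) =
          (g₁ : Matrix (Fin 3 × Fin n₂) (Fin 3 × Fin n₂) F) *ᵥ
          ((h₁ : Matrix (Fin 3 × Fin n₂) (Fin 3 × Fin n₂) F) *ᵥ
            ((g₁ : Matrix (Fin 3 × Fin n₂) (Fin 3 × Fin n₂) F) *ᵥ
              ((h₁ : Matrix (Fin 3 × Fin n₂) (Fin 3 × Fin n₂) F) *ᵥ tens A y))) := by
      intro A y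
      rw [← kron_mulVec_tens, ← habk, hk₁]
    -- on tens e₂ y: identity
    have f2 : ∀ y : Fin n₂ → F,
        tens ((a : Matrix (Fin 3) (Fin 3) F) *ᵥ Pi.single 2 1)
          ((b : Matrix (Fin n₂) (Fin n₂) F) *ᵥ y) = tens (Pi.single 2 1) y := by
      intro y
      rw [hact, hh₁e, hsw01_2, hg₁fix _ _ (by simp [Fin.sum_univ_three]), hh₁e, hsw01_2,
        hg₁fix _ _ (by simp [Fin.sum_univ_three])]
    -- on tens e₀ u: minus identity
    have f0u : tens ((a : Matrix (Fin 3) (Fin 3) F) *ᵥ Pi.single 0 1)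
        ((b : Matrix (Fin n₂) (Fin n₂) F) *ᵥ u) = - tens (Pi.single 0 1) u := by
      rw [hact, hh₁e, hsw01_0, hg₁fix _ _ (by simp [Fin.sum_univ_three]), hh₁e, hsw01_1,
        ← hx₁, hg₁neg]
    -- on tens e₀ y₀: identity
    have f0y : tens ((a : Matrix (Fin 3) (Fin 3) F) *ᵥ Pi.single 0 1)
        ((b : Matrix (Fin n₂) (Fin n₂) F) *ᵥ y₀) = tens (Pi.single 0 1) y₀ := by
      rw [hact, hh₁e, hsw01_0, hg₁fix _ _ (by simp [Fin.sum_univ_three]), hh₁e, hsw01_1,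
        hg₁fix _ _ (by rw [hy₀, mul_zero])]
    have e1 := congrFun (f2 u) (2, s₁)
    have e2 := congrFun (f2 y₀) (2, s₂)
    have e3 := congrFun f0u (0, s₁)
    have e4 := congrFun f0y (0, s₂)
    simp only [tens, Matrix.mulVec_single_one, Matrix.col_apply, Pi.single_eq_same, one_mul,
      Pi.neg_apply] at e1 e2 e3 e4
    have hbu : ((b : Matrix (Fin n₂) (Fin n₂) F) *ᵥ u) s₁ ≠ 0 := by
      intro h0
      rw [h0, mul_zero] at e1
      exact hs₁ e1.symm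
    have hby : ((b : Matrix (Fin n₂) (Fin n₂) F) *ᵥ y₀) s₂ ≠ 0 := by
      intro h0
      rw [h0, mul_zero] at e2
      exact hs₂ e2.symm
    have ha1 : (a : Matrix (Fin 3) (Fin 3) F) 0 0 = - (a : Matrix (Fin 3) (Fin 3) F) 2 2 := by
      apply mul_right_cancel₀ hbu
      rw [e3, neg_mul, e1]
    have ha2 : (a : Matrix (Fin 3) (Fin 3) F) 0 0 = (a : Matrix (Fin 3) (Fin 3) F) 2 2 := by
      apply mul_right_cancel₀ hby
      rw [e4, e2]
    have ha3 : (a : Matrix (Fin 3) (Fin 3) F) 2 2 = 0 := by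
      have h6 : (2 : F) * (a : Matrix (Fin 3) (Fin 3) F) 2 2 = 0 := by
        linear_combination ha1 - ha2
      rcases mul_eq_zero.1 h6 with h7 | h7
      · exact absurd h7 h2ne
      · exact h7
    rw [ha3, zero_mul] at e1
    exact hs₁ e1.symm
  -- an element outside the fibre stabiliser
  obtain ⟨x₂, hx₂⟩ : ∃ x₂ : Fin 3 × Fin n₂ → F,
      x₂ = tens (Pi.single (0 : Fin 3) (1 : F) + Pi.single (1 : Fin 3) (1 : F)) u := ⟨_, rfl⟩
  have hsum2 : (∑ i : Fin 3, ((Pi.single (0 : Fin 3) (1 : F) : Fin 3 → F) +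
      (Pi.single (1 : Fin 3) (1 : F) : Fin 3 → F)) i *
      ((Pi.single (0 : Fin 3) (1 : F) : Fin 3 → F) +
      (Pi.single (1 : Fin 3) (1 : F) : Fin 3 → F)) i) = 2 := by
    simp [Fin.sum_univ_three]
    norm_num
  have hx₂x₂ : β x₂ x₂ = c * (2 * ψu) := by
    rw [hx₂, hβtens, ← hψu, hsum2]
  have hx₂ne : β x₂ x₂ ≠ 0 := by
    rw [hx₂x₂]
    exact mul_ne_zero hc (mul_ne_zero h2ne hu)
  obtain ⟨g₂, hg₂iso, hg₂inv, hg₂⟩ := hrefl x₂ hx₂ne
  obtain ⟨hk₂I, hk₂⟩ := hcomm g₂ h₂ hg₂iso hh₂iso hg₂inv hh₂inv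
  have hg₂fix : ∀ (A : Fin 3 → F) (y : Fin n₂ → F),
      (∑ i, A i * ((Pi.single (0 : Fin 3) (1 : F) : Fin 3 → F) i +
        (Pi.single (1 : Fin 3) (1 : F) : Fin 3 → F) i)) *
        Cfsg.Geo.formOfGram id G₂ y u = 0 →
      (g₂ : Matrix (Fin 3 × Fin n₂) (Fin 3 × Fin n₂) F) *ᵥ tens A y = tens A y := by
    intro A y h0
    have hβx : β (tens A y) x₂ = 0 := by
      rw [hx₂, hβtens]
      simp only [Pi.add_apply]
      rw [h0, mul_zero]
    rw [hg₂, hβx, mul_zero, neg_zero, zero_smul, add_zero]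
  have hg₂u : ∀ A : Fin 3 → F,
      (g₂ : Matrix (Fin 3 × Fin n₂) (Fin 3 × Fin n₂) F) *ᵥ tens A u =
        tens A u + (-(∑ i, A i * ((Pi.single (0 : Fin 3) (1 : F) : Fin 3 → F) i +
          (Pi.single (1 : Fin 3) (1 : F) : Fin 3 → F) i))) • x₂ := by
    intro A
    have hβx : β (tens A u) x₂ = c * ((∑ i, A i * ((Pi.single (0 : Fin 3) (1 : F) : Fin 3 → F) i +
          (Pi.single (1 : Fin 3) (1 : F) : Fin 3 → F) i)) * ψu) := by
      rw [hx₂, hβtens, ← hψu]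
      simp only [Pi.add_apply]
    rw [hg₂, hx₂x₂, hβx]
    congr 2
    field_simp
  have hk₂fib : g₂ * h₂ * g₂⁻¹ * h₂⁻¹ ∉ fibStab F (Prod.fst : Fin 3 × Fin n₂ → Fin 3) := by
    rintro ⟨τ, hτ⟩
    -- k₂ fixes tens e₂ y₀
    have f1 : ((g₂ * h₂ * g₂⁻¹ * h₂⁻¹ : Matrix.GeneralLinearGroup (Fin 3 × Fin n₂) F) :
        Matrix (Fin 3 × Fin n₂) (Fin 3 × Fin n₂) F) *ᵥ tens (Pi.single 2 1) y₀ =
          tens (Pi.single 2 1) y₀ := by
      rw [hk₂, hh₂e, hsw12_2, hg₂fix _ _ (by rw [hy₀, mul_zero]), hh₂e, hsw12_1,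
        hg₂fix _ _ (by rw [hy₀, mul_zero])]
    -- k₂ maps tens e₂ u to tens e₁ u
    have f2 : ((g₂ * h₂ * g₂⁻¹ * h₂⁻¹ : Matrix.GeneralLinearGroup (Fin 3 × Fin n₂) F) :
        Matrix (Fin 3 × Fin n₂) (Fin 3 × Fin n₂) F) *ᵥ tens (Pi.single 2 1) u =
          tens (Pi.single 1 1) u := by
      have hstep1 : (g₂ : Matrix (Fin 3 × Fin n₂) (Fin 3 × Fin n₂) F) *ᵥ tens (Pi.single 1 1) u =
          - tens (Pi.single 0 1) u := by
        rw [hg₂u, hx₂]
        funext p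
        simp [tens, Fin.sum_univ_three]
        ring
      have hstep2 : (g₂ : Matrix (Fin 3 × Fin n₂) (Fin 3 × Fin n₂) F) *ᵥ tens (Pi.single 0 1) u =
          - tens (Pi.single 1 1) u := by
        rw [hg₂u, hx₂]
        funext p
        simp [tens, Fin.sum_univ_three]
        ring
      rw [hk₂, hh₂e, hsw12_2, hstep1, Matrix.mulVec_neg, hh₂e, hsw12_0, Matrix.mulVec_neg,
        hstep2, neg_neg]
    have hmem2 : ∀ y : Fin n₂ → F, tens (Pi.single (2 : Fin 3) (1 : F)) y ∈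
        fibSupp (Prod.fst : Fin 3 × Fin n₂ → Fin 3) 2 := by
      intro y p hp
      simp [tens, Pi.single_eq_of_ne hp]
    have hτ2 : τ 2 = 2 := by
      by_contra hne
      have h1 := (hτ 2 _).1 (hmem2 y₀)
      rw [f1] at h1
      have h4 := h1 (2, s₂) (fun h => hne h.symm)
      simp [tens] at h4
      exact hs₂ h4
    have h1 := (hτ 2 _).1 (hmem2 u)
    rw [f2, hτ2] at h1
    have h4 := h1 (1, s₁) (show (1 : Fin 3) ≠ 2 by decide)
    simp [tens] at h4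
    exact hs₁ h4
  refine ⟨I' ⊓ fibStab F (Prod.fst : Fin 3 × Fin n₂ → Fin 3), ?_, ?_⟩
  · refine lt_of_le_of_ne (le_inf inf_le_right hA) ?_
    intro heq
    have h1 : g₁ * h₁ * g₁⁻¹ * h₁⁻¹ ∈ I' ⊓ fibStab F (Prod.fst : Fin 3 × Fin n₂ → Fin 3) :=
      ⟨hk₁I, hk₁fib⟩
    rw [← heq] at h1
    exact hk₁kron h1.1
  · refine lt_of_le_of_ne inf_le_left ?_
    intro heq
    have h1 : g₂ * h₂ * g₂⁻¹ * h₂⁻¹ ∈ I' ⊓ fibStab F (Prod.fst : Fin 3 × Fin n₂ → Fin 3) := by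
      rw [heq]
      exact hk₂I
    exact hk₂fib h1.2

end O3

section O3Final

variable {F : Type*} [Field F] [Fintype F]

theorem f3_frame_mat (hq : Fintype.card F = 3) {f : (Fin 3 → F) → (Fin 3 → F) → F}
    (hf : Cfsg.Geo.IsSymmetricForm f) :
    ∃ (U : Matrix.GeneralLinearGroup (Fin 3) F) (d : F), d ≠ 0 ∧
      (U : Matrix (Fin 3) (Fin 3) F)ᵀ * Cfsg.Geo.gramMatrix f * (U : Matrix (Fin 3) (Fin 3) F) =
        d • (1 : Matrix (Fin 3) (Fin 3) F) := by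
  have hid : (id : F → F) = ⇑(RingHom.id F) := rfl
  obtain ⟨u, d, hd, hu⟩ := f3_frame hq hf
  set U : Matrix (Fin 3) (Fin 3) F := fun a j => u j a with hU
  have hUcol : ∀ j, U *ᵥ Pi.single j 1 = u j := by
    intro j
    rw [Matrix.mulVec_single_one]
    rfl
  have hmapU : U.map (RingHom.id F) = U := by
    ext i j
    simp
  have hUG : Uᵀ * Cfsg.Geo.gramMatrix f * U = d • (1 : Matrix (Fin 3) (Fin 3) F) := by
    ext i j
    have h1 := hu i j
    rw [form_eq_fog hf.bilinear, ← hUcol i, ← hUcol j, hid, fog_map, fog_single_single,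
      hmapU] at h1
    rw [Matrix.smul_apply, Matrix.one_apply, smul_eq_mul, mul_ite, mul_one, mul_zero, ← h1]
  have hdetU : U.det ≠ 0 := by
    intro h0
    have h1 := congrArg Matrix.det hUG
    rw [Matrix.det_mul, Matrix.det_mul, h0, mul_zero, Matrix.det_smul, Matrix.det_one,
      mul_one] at h1
    exact pow_ne_zero _ hd h1.symm
  exact ⟨Matrix.GeneralLinearGroup.mkOfDetNeZero U hdetU, d, hd, hUG⟩

omit [Fintype F] in
theorem sym_exists_aniso (h2 : (2 : F) ≠ 0) {n₂ : ℕ} (hn : 1 ≤ n₂)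
    {f : (Fin n₂ → F) → (Fin n₂ → F) → F} (hf : Cfsg.Geo.IsSymmetricForm f) :
    ∃ u, f u u ≠ 0 := by
  by_contra hcon
  push Not at hcon
  have hb := hf.bilinear
  have hzero : ∀ v w, f v w = 0 := by
    intro v w
    have h1 := hcon (v + w)
    rw [hb.add_left, hb.add_right, hb.add_right, hcon v, hcon w, hf.symm w v] at h1
    have h4 : (2 : F) * f v w = 0 := by linear_combination h1
    rcases mul_eq_zero.1 h4 with h5 | h5
    · exact absurd h5 h2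
    · exact h5
  obtain ⟨i0, -⟩ : ∃ i : Fin n₂, i = ⟨0, by omega⟩ := ⟨_, rfl⟩
  have hne : (Pi.single i0 (1 : F) : Fin n₂ → F) ≠ 0 := by
    intro h
    have := congrFun h i0
    simp at this
  obtain ⟨x, hx⟩ := (hf.nondegenerate _ hne).1
  exact hx (hzero _ _)

omit [Fintype F] in
theorem sym_exists_perp {n₂ : ℕ} (hn : 2 ≤ n₂)
    {f : (Fin n₂ → F) → (Fin n₂ → F) → F} (hf : Cfsg.Geo.IsSymmetricForm f) (u : Fin n₂ → F) :
    ∃ y, y ≠ 0 ∧ f y u = 0 := by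
  have hb := hf.bilinear
  obtain ⟨i0, hi0⟩ : ∃ i : Fin n₂, i = ⟨0, by omega⟩ := ⟨_, rfl⟩
  obtain ⟨i1, hi1⟩ : ∃ i : Fin n₂, i = ⟨1, by omega⟩ := ⟨_, rfl⟩
  have h01 : i1 ≠ i0 := by
    rw [hi0, hi1]
    intro h
    have := congrArg Fin.val h
    simp at this
  by_cases hα : f (Pi.single i0 1) u = 0
  · refine ⟨Pi.single i0 1, ?_, hα⟩
    intro h
    have := congrFun h i0
    simp at this
  · refine ⟨f (Pi.single i1 1) u • Pi.single i0 1 + (-f (Pi.single i0 1) u) • Pi.single i1 1,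
      ?_, ?_⟩
    · intro h
      have h4 := congrFun h i1
      simp [Pi.single_eq_of_ne h01] at h4
      exact hα h4
    · rw [hb.add_left, hb.smul_left, hb.smul_left]
      ring

open Cfsg.Agent.Lib.Helper94 in
/-- over the field with three elements, the part in `Ω(Q)` of the stabiliser of a tensor
decomposition `3 ⊗ n₂` of the polar form of `Q` into symmetric forms is not maximal in `Ω(Q)` -/
theorem o3_tensor_not_max {ι : Type} [Fintype ι] [DecidableEq ι] (hq : Fintype.card F = 3)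
    (Q : (ι → F) → F) (hQ : Cfsg.Geo.IsNondegenerateQuadraticForm Q) {n₂ : ℕ} (hn₂ : 2 ≤ n₂)
    (e : ι ≃ Fin 3 × Fin n₂) (P : Matrix.GeneralLinearGroup ι F)
    (f₁ : (Fin 3 → F) → (Fin 3 → F) → F) (f₂ : (Fin n₂ → F) → (Fin n₂ → F) → F)
    (hf₁ : Cfsg.Geo.IsSymmetricForm f₁) (hf₂ : Cfsg.Geo.IsSymmetricForm f₂)
    (hT : Cfsg.Geo.IsTensorFormStructure id (QuadraticMap.polar Q) f₁ f₂ e P) :
    ∃ K : Subgroup (Matrix.GeneralLinearGroup ι F),
      Cfsg.Geo.tensorProductSubgroup 3 n₂ e P ⊓ Cfsg.Geo.omegaGL Q < K ∧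
        K < Cfsg.Geo.omegaGL Q := by
  classical
  obtain ⟨c, hc, hT⟩ := hT
  have hid : (id : F → F) = ⇑(RingHom.id F) := rfl
  have h3 := f3_three hq
  have h2ne : (2 : F) ≠ 0 := by
    intro h
    exact one_ne_zero (α := F) (by linear_combination h3 - h)
  set G₁ := Cfsg.Geo.gramMatrix f₁ with hG₁
  set G₂ := Cfsg.Geo.gramMatrix f₂ with hG₂
  obtain ⟨Ugl, d, hd, hUG⟩ := f3_frame_mat hq hf₁
  set k₀ := kronGL Ugl (1 : Matrix.GeneralLinearGroup (Fin n₂) F) with hk₀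
  obtain ⟨u, hu⟩ := sym_exists_aniso h2ne (by omega) hf₂
  obtain ⟨y₀, hy₀ne, hy₀⟩ := sym_exists_perp hn₂ hf₂ u
  rw [form_eq_fog hf₂.bilinear] at hu hy₀
  apply notMax_transport (tnPhi' e P k₀) _ _ (Cfsg.Geo.kroneckerSubgroup 3 n₂ F)
    (tensorProductSubgroup_eq_map' e P (kronGL_mem Ugl 1))
  apply o3_main hq Q hQ (tnPhi' e P k₀) (tnT' e P k₀) (tnT'_add e P k₀) (tnT'_smul e P k₀)
    (tnT'_injective e P k₀) (tnT'_surjective e P k₀) (tnPhi'_mulVec e P k₀) G₂ (c * d)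
    (mul_ne_zero hc hd) ?_ u y₀ hu hy₀ hy₀ne
  intro x y
  have h1 := hT ((k₀ : Matrix (Fin 3 × Fin n₂) (Fin 3 × Fin n₂) F) *ᵥ x)
    ((k₀ : Matrix (Fin 3 × Fin n₂) (Fin 3 × Fin n₂) F) *ᵥ y)
  change QuadraticMap.polar Q (tnT' e P k₀ x) (tnT' e P k₀ y) = _ at h1
  rw [h1, hid, fog_map]
  have hk₀v : (k₀ : Matrix (Fin 3 × Fin n₂) (Fin 3 × Fin n₂) F) =
      (Ugl : Matrix (Fin 3) (Fin 3) F) ⊗ₖ (1 : Matrix (Fin n₂) (Fin n₂) F) := by
    rw [hk₀, kronGL_val]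
    simp
  have hmap : (k₀ : Matrix (Fin 3 × Fin n₂) (Fin 3 × Fin n₂) F).map (RingHom.id F) =
      (k₀ : Matrix (Fin 3 × Fin n₂) (Fin 3 × Fin n₂) F) := by
    ext i j
    simp
  have h4 : (k₀ : Matrix (Fin 3 × Fin n₂) (Fin 3 × Fin n₂) F)ᵀ * (G₁ ⊗ₖ G₂) *
      (k₀ : Matrix (Fin 3 × Fin n₂) (Fin 3 × Fin n₂) F).map (RingHom.id F) =
        d • ((1 : Matrix (Fin 3) (Fin 3) F) ⊗ₖ G₂) := by
    rw [hmap, hk₀v, ← Matrix.kroneckerMap_transpose, ← Matrix.mul_kronecker_mul,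
      ← Matrix.mul_kronecker_mul, Matrix.transpose_one, Matrix.one_mul, Matrix.mul_one, hUG,
      Matrix.smul_kronecker]
  rw [h4, fog_smul_mat]
  ring

end O3Final

end Cfsg.Agent.Lib.Helper99
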