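import Cfsg.Agent.Lib.Helper99.TensorNM
import Cfsg.Agent.Lib.Helper94.Symp

set_option autoImplicit false

namespace Cfsg.Agent.Lib.Helper99

open Matrix
open scoped Kronecker

section F3

variable {F : Type*} [Field F] [Fintype F]

theorem f3_three (hq : Fintype.card F = 3) : (3 : F) = 0 := by
  haveI : Fact (Nat.Prime 3) := ⟨by norm_num⟩
  haveI := charP_of_card_eq_prime hq
  exact_mod_cast CharP.cast_eq_zero F 3

theorem f3_cube (hq : Fintype.card F = 3) (x : F) : x ^ 3 = x := by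
  have := FiniteField.pow_card x
  rwa [hq] at this

theorem f3_cases (hq : Fintype.card F = 3) (x : F) : x = 0 ∨ x = 1 ∨ x = -1 := by
  have h := f3_cube hq x
  have h1 : x * ((x - 1) * (x + 1)) = 0 := by linear_combination h
  rcases mul_eq_zero.1 h1 with h2 | h2
  · exact Or.inl h2
  · rcases mul_eq_zero.1 h2 with h3 | h3
    · exact Or.inr (Or.inl (by linear_combination h3))
    · exact Or.inr (Or.inr (by linear_combination h3))

theorem f3_sq (hq : Fintype.card F = 3) (x : F) (hx : x ≠ 0) : x ^ 2 = 1 := by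
  rcases f3_cases hq x with h | h | h
  · exact absurd h hx
  · rw [h]; ring
  · rw [h]; ring

theorem f3_col (hq : Fintype.card F = 3) (x y z : F) (h : x ^ 2 + y ^ 2 + z ^ 2 = 1) :
    (x ≠ 0 ∧ y = 0 ∧ z = 0) ∨ (x = 0 ∧ y ≠ 0 ∧ z = 0) ∨ (x = 0 ∧ y = 0 ∧ z ≠ 0) := by
  have h3 := f3_three hq
  rcases f3_cases hq x with rfl | rfl | rfl <;> rcases f3_cases hq y with rfl | rfl | rfl <;>
    rcases f3_cases hq z with rfl | rfl | rfl <;>
    first
    | (exfalso; exact one_ne_zero (α := F) (by linear_combination (-1 : F) * h))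
    | (exfalso; exact one_ne_zero (α := F) (by linear_combination h))
    | (exfalso; exact one_ne_zero (α := F) (by linear_combination h3 - h))
    | simp

/-- a `3 × 3` matrix over the field with three elements whose columns are pairwise orthogonal
of common non-zero norm is monomial -/
theorem f3_monomial (hq : Fintype.card F = 3) (b : Matrix (Fin 3) (Fin 3) F) (μ : F) (hμ : μ ≠ 0)
    (h : ∀ j j', ∑ i, b i j * b i j' = if j = j' then μ else 0) :
    μ = 1 ∧ ∃ τ : Equiv.Perm (Fin 3), ∀ i j, i ≠ τ j → b i j = 0 := by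
  have hmat : bᵀ * b = μ • (1 : Matrix (Fin 3) (Fin 3) F) := by
    ext j j'
    rw [Matrix.mul_apply, Matrix.smul_apply, Matrix.one_apply, smul_eq_mul, mul_ite, mul_one,
      mul_zero]
    simp only [Matrix.transpose_apply]
    exact h j j'
  have hdet : b.det ^ 2 = μ ^ 3 := by
    have h1 := congrArg Matrix.det hmat
    rw [Matrix.det_mul, Matrix.det_transpose, Matrix.det_smul, Matrix.det_one, mul_one,
      Fintype.card_fin] at h1
    rw [← h1]; ring
  have hdet0 : b.det ≠ 0 := by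
    intro h0
    rw [h0] at hdet
    exact pow_ne_zero 3 hμ (by rw [← hdet]; ring)
  have hμ1 : μ = 1 := by
    rw [f3_sq hq _ hdet0, f3_cube hq] at hdet
    exact hdet.symm
  refine ⟨hμ1, ?_⟩
  have hcol : ∀ j, ∃ i, b i j ≠ 0 ∧ ∀ i', i' ≠ i → b i' j = 0 := by
    intro j
    have h1 := h j j
    rw [if_pos rfl, hμ1, Fin.sum_univ_three] at h1
    have h2 : b 0 j ^ 2 + b 1 j ^ 2 + b 2 j ^ 2 = 1 := by rw [← h1]; ring
    rcases f3_col hq _ _ _ h2 with ⟨h0, h1', h2'⟩ | ⟨h0, h1', h2'⟩ | ⟨h0, h1', h2'⟩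
    · refine ⟨0, h0, ?_⟩
      intro i' hi'
      fin_cases i'
      · exact absurd rfl hi'
      · exact h1'
      · exact h2'
    · refine ⟨1, h1', ?_⟩
      intro i' hi'
      fin_cases i'
      · exact h0
      · exact absurd rfl hi'
      · exact h2'
    · refine ⟨2, h2', ?_⟩
      intro i' hi'
      fin_cases i'
      · exact h0
      · exact h1'
      · exact absurd rfl hi'
  choose τ₀ hτ₀ hτ₀' using hcol
  have hinj : Function.Injective τ₀ := by
    intro j j' hjj
    by_contra hne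
    have h1 := h j j'
    rw [if_neg hne, Finset.sum_eq_single (τ₀ j)] at h1
    · rcases mul_eq_zero.1 h1 with h2 | h2
      · exact hτ₀ j h2
      · rw [hjj] at h2
        exact hτ₀ j' h2
    · intro i _ hi
      rw [hτ₀' j i hi, zero_mul]
    · intro hh
      exact absurd (Finset.mem_univ _) hh
  refine ⟨Equiv.ofBijective τ₀ ⟨hinj, Finite.injective_iff_surjective.1 hinj⟩, ?_⟩
  intro i j hij
  exact hτ₀' j i hij

end F3

section Main

variable {F : Type*} [Field F] [Fintype F]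

open Cfsg.Agent.Lib.Helper94 in
/-- abstract core: a Kronecker-type subgroup of the symplectic group, transported to the model
space `Fin n₁ × Fin 3`, is not maximal over the field with three elements -/
theorem sp3_main {m n₁ : ℕ} (hq : Fintype.card F = 3)
    (φ : Matrix.GeneralLinearGroup (Fin n₁ × Fin 3) F ≃* Matrix.GeneralLinearGroup (Fin m ⊕ Fin m) F)
    (T : (Fin n₁ × Fin 3 → F) → (Fin m ⊕ Fin m → F))
    (hTadd : ∀ x y, T (x + y) = T x + T y) (hTsmul : ∀ (c : F) x, T (c • x) = c • T x)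
    (hTinj : Function.Injective T)
    (hφT : ∀ (k : Matrix.GeneralLinearGroup (Fin n₁ × Fin 3) F) (x : Fin n₁ × Fin 3 → F),
      ((φ k : Matrix.GeneralLinearGroup (Fin m ⊕ Fin m) F) : Matrix (Fin m ⊕ Fin m) (Fin m ⊕ Fin m) F)
        *ᵥ T x = T ((k : Matrix (Fin n₁ × Fin 3) (Fin n₁ × Fin 3) F) *ᵥ x))
    (G₁ : Matrix (Fin n₁) (Fin n₁) F) (c : F) (hc : c ≠ 0)
    (hform : ∀ x y, Cfsg.sympForm m F (T x) (T y) =
      c * Cfsg.Geo.formOfGram id (G₁ ⊗ₖ (1 : Matrix (Fin 3) (Fin 3) F)) x y)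
    (a₀ b₀ : Fin n₁) (hab : a₀ ≠ b₀) (hG : G₁ a₀ b₀ ≠ 0) :
    ∃ K' : Subgroup (Matrix.GeneralLinearGroup (Fin n₁ × Fin 3) F),
      Cfsg.Geo.kroneckerSubgroup n₁ 3 F ⊓ (Cfsg.spGL m F).comap φ.toMonoidHom < K' ∧
        K' < (Cfsg.spGL m F).comap φ.toMonoidHom := by
  classical
  have hid : (id : F → F) = ⇑(RingHom.id F) := rfl
  set I' := (Cfsg.spGL m F).comap φ.toMonoidHom with hI'
  set β : (Fin n₁ × Fin 3 → F) → (Fin n₁ × Fin 3 → F) → F := fun x y =>
    c * Cfsg.Geo.formOfGram id (G₁ ⊗ₖ (1 : Matrix (Fin 3) (Fin 3) F)) x y with hβ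
  have hβT : ∀ x y, Cfsg.sympForm m F (T x) (T y) = β x y := hform
  have hβadd : ∀ x x' y, β (x + x') y = β x y + β x' y := by
    intro x x' y
    simp only [hβ]
    rw [fog_add_left, mul_add]
  have hβsmul : ∀ (s : F) x y, β (s • x) y = s * β x y := by
    intro s x y
    simp only [hβ]
    rw [fog_smul_left]
    ring
  have hβself : ∀ w, β w w = 0 := fun w => by
    rw [← hβT]
    exact sf_self m _
  have hβsingle : ∀ x (q : Fin n₁ × Fin 3), β x (Pi.single q 1) =
      c * ∑ p, x p * (G₁ p.1 q.1 * (1 : Matrix (Fin 3) (Fin 3) F) p.2 q.2) := by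
    intro x q
    simp only [hβ]
    rw [hid, fog_single_right]
    rfl
  have hβss : ∀ (p q : Fin n₁ × Fin 3), β (Pi.single p 1) (Pi.single q 1) =
      c * (G₁ p.1 q.1 * (1 : Matrix (Fin 3) (Fin 3) F) p.2 q.2) := by
    intro p q
    simp only [hβ]
    rw [hid, fog_single_single]
    rfl
  -- transvections
  have htv : ∀ w : Fin n₁ × Fin 3 → F, ∃ t : Matrix.GeneralLinearGroup (Fin n₁ × Fin 3) F,
      t ∈ I' ∧ ∀ x, (t : Matrix (Fin n₁ × Fin 3) (Fin n₁ × Fin 3) F) *ᵥ x = x + β x w • w := by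
    intro w
    refine ⟨φ.symm (sympTransGL m (T w) 1), ?_, ?_⟩
    · show φ (φ.symm _) ∈ Cfsg.spGL m F
      rw [MulEquiv.apply_symm_apply]
      exact sympTransGL_mem m _ _
    · intro x
      apply hTinj
      rw [← hφT, MulEquiv.apply_symm_apply, sympTransGL_mulVec, hTadd, hTsmul, one_mul, hβT]
  -- the Kronecker isometries are monomial in the second factor
  have hA : Cfsg.Geo.kroneckerSubgroup n₁ 3 F ⊓ I' ≤
      fibStab F (Prod.snd : Fin n₁ × Fin 3 → Fin 3) := by
    rintro k ⟨hk1, hk2⟩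
    obtain ⟨a, b, hkab⟩ := hk1
    have hiso : ∀ x y, β ((k : Matrix (Fin n₁ × Fin 3) (Fin n₁ × Fin 3) F) *ᵥ x)
        ((k : Matrix (Fin n₁ × Fin 3) (Fin n₁ × Fin 3) F) *ᵥ y) = β x y := by
      intro x y
      rw [← hβT, ← hβT, ← hφT, ← hφT]
      exact hk2 (T x) (T y)
    set γ : F := Cfsg.Geo.formOfGram id G₁
      ((a : Matrix (Fin n₁) (Fin n₁) F) *ᵥ Pi.single a₀ 1)
      ((a : Matrix (Fin n₁) (Fin n₁) F) *ᵥ Pi.single b₀ 1) with hγ
    have key : ∀ j j' : Fin 3,
        γ * (∑ i, (b : Matrix (Fin 3) (Fin 3) F) i j * (b : Matrix (Fin 3) (Fin 3) F) i j') =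
          if j = j' then G₁ a₀ b₀ else 0 := by
      intro j j'
      have h1 := hiso (Pi.single (a₀, j) 1) (Pi.single (b₀, j') 1)
      rw [hβss] at h1
      rw [single_eq_tens, single_eq_tens, hkab, kron_mulVec_tens, kron_mulVec_tens] at h1
      simp only [hβ] at h1
      rw [hid, fog_tens, fog_one] at h1
      simp only [Matrix.mulVec_single_one, Matrix.col_apply, RingHom.id_apply,
        Matrix.one_apply] at h1
      have h2 := mul_left_cancel₀ hc h1
      rw [hγ, hid]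
      simp only [Matrix.mulVec_single_one]
      rw [h2]
      simp
    have hγ0 : γ ≠ 0 := by
      intro h0
      have h1 := key 0 0
      rw [h0, zero_mul, if_pos rfl] at h1
      exact hG h1.symm
    have hcol : ∀ j j' : Fin 3,
        (∑ i, (b : Matrix (Fin 3) (Fin 3) F) i j * (b : Matrix (Fin 3) (Fin 3) F) i j') =
          if j = j' then G₁ a₀ b₀ / γ else 0 := by
      intro j j'
      have h1 := key j j'
      by_cases hjj : j = j'
      · rw [if_pos hjj] at h1 ⊢
        rw [← h1]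
        field_simp
      · rw [if_neg hjj] at h1 ⊢
        rcases mul_eq_zero.1 h1 with h2 | h2
        · exact absurd h2 hγ0
        · exact h2
    obtain ⟨hμ1, τ, hτ⟩ := f3_monomial hq (b : Matrix (Fin 3) (Fin 3) F) (G₁ a₀ b₀ / γ)
      (div_ne_zero hG hγ0) hcol
    have hmat : (b : Matrix (Fin 3) (Fin 3) F)ᵀ * (b : Matrix (Fin 3) (Fin 3) F) = 1 := by
      ext j j'
      rw [Matrix.mul_apply, Matrix.one_apply]
      simp only [Matrix.transpose_apply]
      rw [hcol j j', hμ1]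
    have hX : (((a⁻¹ : Matrix.GeneralLinearGroup (Fin n₁) F) : Matrix (Fin n₁) (Fin n₁) F) ⊗ₖ
        (b : Matrix (Fin 3) (Fin 3) F)ᵀ) * (k : Matrix (Fin n₁ × Fin 3) (Fin n₁ × Fin 3) F) = 1 := by
      rw [hkab, ← Matrix.mul_kronecker_mul, ← Units.val_mul, inv_mul_cancel, hmat]
      simp
    refine ⟨τ, fun j x => ⟨fun hx => ?_, fun hx => ?_⟩⟩
    · rw [hkab]
      exact kron_fib_snd _ _ τ hτ hx
    · have hx' : x = (((a⁻¹ : Matrix.GeneralLinearGroup (Fin n₁) F) : Matrix (Fin n₁) (Fin n₁) F) ⊗ₖ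
          (b : Matrix (Fin 3) (Fin 3) F)ᵀ) *ᵥ
            ((k : Matrix (Fin n₁ × Fin 3) (Fin n₁ × Fin 3) F) *ᵥ x) := by
        rw [Matrix.mulVec_mulVec, hX, Matrix.one_mulVec]
      rw [hx']
      have h1 := kron_fib_snd ((a⁻¹ : Matrix.GeneralLinearGroup (Fin n₁) F) :
        Matrix (Fin n₁) (Fin n₁) F) ((b : Matrix (Fin 3) (Fin 3) F)ᵀ) (τ.symm : Fin 3 → Fin 3)
        (fun i j hij => by
          rw [Matrix.transpose_apply]
          apply hτ
          intro h
          apply hij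
          rw [h, Equiv.symm_apply_apply]) hx
      rwa [Equiv.symm_apply_apply] at h1
  -- a transvection in the fibre stabiliser that is not a Kronecker product
  obtain ⟨t, htI, ht⟩ := htv (Pi.single (b₀, 0) 1)
  have hw0 : (Pi.single (b₀, (0 : Fin 3)) (1 : F) : Fin n₁ × Fin 3 → F) ∈
      fibSupp (Prod.snd : Fin n₁ × Fin 3 → Fin 3) 0 := fibSupp_single Prod.snd (b₀, 0) 1
  have htfib : t ∈ fibStab F (Prod.snd : Fin n₁ × Fin 3 → Fin 3) := by
    have hD : ∀ (j : Fin 3) (y : Fin n₁ × Fin 3 → F) (s : F),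
        y ∈ fibSupp (Prod.snd : Fin n₁ × Fin 3 → Fin 3) j →
        y + (s * β y (Pi.single (b₀, 0) 1)) • (Pi.single (b₀, (0 : Fin 3)) (1 : F) :
          Fin n₁ × Fin 3 → F) ∈ fibSupp (Prod.snd : Fin n₁ × Fin 3 → Fin 3) j := by
      intro j y s hy
      by_cases hj : j = 0
      · subst hj
        exact fibSupp_add hy (fibSupp_smul _ hw0)
      · have h0 : β y (Pi.single (b₀, 0) 1) = 0 := by
          rw [hβsingle]
          have : ∑ p : Fin n₁ × Fin 3, y p * (G₁ p.1 b₀ * (1 : Matrix (Fin 3) (Fin 3) F) p.2 0) = 0 := by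
            apply Finset.sum_eq_zero
            intro p _
            by_cases hp : p.2 = j
            · have : p.2 ≠ 0 := fun h => hj (hp ▸ h)
              rw [Matrix.one_apply_ne this, mul_zero, mul_zero]
            · rw [hy p hp, zero_mul]
          rw [this, mul_zero]
        rw [h0, mul_zero, zero_smul, add_zero]
        exact hy
    refine ⟨1, fun j x => ⟨fun hx => ?_, fun hx => ?_⟩⟩
    · rw [ht, Equiv.Perm.one_apply]
      have := hD j x 1 hx
      rwa [one_mul] at this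
    · rw [Equiv.Perm.one_apply] at hx
      have h1 : β ((t : Matrix (Fin n₁ × Fin 3) (Fin n₁ × Fin 3) F) *ᵥ x) (Pi.single (b₀, 0) 1) =
          β x (Pi.single (b₀, 0) 1) := by
        rw [ht, hβadd, hβsmul, hβself, mul_zero, add_zero]
      have h2 : x = (t : Matrix (Fin n₁ × Fin 3) (Fin n₁ × Fin 3) F) *ᵥ x +
          (-1 * β ((t : Matrix (Fin n₁ × Fin 3) (Fin n₁ × Fin 3) F) *ᵥ x) (Pi.single (b₀, 0) 1)) •
            (Pi.single (b₀, (0 : Fin 3)) (1 : F) : Fin n₁ × Fin 3 → F) := by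
        rw [h1, ht]
        module
      rw [h2]
      exact hD j _ (-1) hx
  have htk : t ∉ Cfsg.Geo.kroneckerSubgroup n₁ 3 F := by
    rintro ⟨a, b, habk⟩
    have hent : ∀ p q : Fin n₁ × Fin 3, (t : Matrix (Fin n₁ × Fin 3) (Fin n₁ × Fin 3) F) p q =
        (Pi.single q (1 : F) : Fin n₁ × Fin 3 → F) p +
          β (Pi.single q 1) (Pi.single (b₀, 0) 1) *
            (Pi.single (b₀, (0 : Fin 3)) (1 : F) : Fin n₁ × Fin 3 → F) p := by
      intro p q
      have h1 := congrFun (ht (Pi.single q 1)) p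
      rw [Matrix.mulVec_single_one, Matrix.col_apply] at h1
      rw [h1]
      rfl
    have e1 := hent (a₀, 1) (a₀, 1)
    rw [habk, Matrix.kroneckerMap_apply, Pi.single_eq_same,
      Pi.single_eq_of_ne (show ((a₀, (1 : Fin 3)) : Fin n₁ × Fin 3) ≠ (b₀, 0) from
        fun h => hab (congrArg Prod.fst h)), mul_zero, add_zero] at e1
    have e2 := hent (b₀, 1) (a₀, 1)
    rw [habk, Matrix.kroneckerMap_apply,
      Pi.single_eq_of_ne (show ((b₀, (1 : Fin 3)) : Fin n₁ × Fin 3) ≠ (a₀, 1) from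
        fun h => hab (congrArg Prod.fst h).symm),
      Pi.single_eq_of_ne (show ((b₀, (1 : Fin 3)) : Fin n₁ × Fin 3) ≠ (b₀, 0) from
        fun h => (show (1 : Fin 3) ≠ 0 by decide) (congrArg Prod.snd h)), mul_zero, add_zero] at e2
    have e3 := hent (b₀, 0) (a₀, 0)
    rw [habk, Matrix.kroneckerMap_apply,
      Pi.single_eq_of_ne (show ((b₀, (0 : Fin 3)) : Fin n₁ × Fin 3) ≠ (a₀, 0) from
        fun h => hab (congrArg Prod.fst h).symm), Pi.single_eq_same, hβss, zero_add, mul_one,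
      Matrix.one_apply_eq, mul_one] at e3
    have hb11 : (b : Matrix (Fin 3) (Fin 3) F) 1 1 ≠ 0 := by
      intro h0
      rw [h0, mul_zero] at e1
      exact zero_ne_one e1
    have ha0 : (a : Matrix (Fin n₁) (Fin n₁) F) b₀ a₀ = 0 := by
      rcases mul_eq_zero.1 e2 with h | h
      · exact h
      · exact absurd h hb11
    rw [ha0, zero_mul] at e3
    exact mul_ne_zero hc hG e3.symm
  -- a transvection outside the fibre stabiliser
  obtain ⟨t₂, ht₂I, ht₂⟩ := htv (Pi.single (b₀, 0) 1 + Pi.single (b₀, 1) 1)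
  have ht₂fib : t₂ ∉ fibStab F (Prod.snd : Fin n₁ × Fin 3 → Fin 3) := by
    rintro ⟨σ, hσ⟩
    have hx : (Pi.single (a₀, (0 : Fin 3)) (1 : F) : Fin n₁ × Fin 3 → F) ∈
        fibSupp (Prod.snd : Fin n₁ × Fin 3 → Fin 3) 0 := fibSupp_single Prod.snd (a₀, 0) 1
    have h1 := (hσ 0 _).1 hx
    rw [ht₂] at h1
    have hsw : ∀ x y, β x y = - β y x := by
      intro x y
      rw [← hβT, ← hβT]
      exact sf_swap m _ _
    have hβaddr : ∀ x y y', β x (y + y') = β x y + β x y' := by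
      intro x y y'
      rw [hsw x, hβadd, hsw y x, hsw y' x]
      ring
    have hβv : β (Pi.single (a₀, 0) 1) (Pi.single (b₀, 0) 1 + Pi.single (b₀, 1) 1) =
        c * G₁ a₀ b₀ := by
      rw [hβaddr, hβss, hβss]
      simp [Matrix.one_apply]
    have hσ1 : σ 0 = 1 := by
      by_contra hne
      have h2 := h1 (b₀, 1) (fun h => hne h.symm)
      rw [Pi.add_apply, Pi.smul_apply, Pi.add_apply, hβv,
        Pi.single_eq_of_ne (show ((b₀, (1 : Fin 3)) : Fin n₁ × Fin 3) ≠ (a₀, 0) from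
          fun h => hab (congrArg Prod.fst h).symm),
        Pi.single_eq_of_ne (show ((b₀, (1 : Fin 3)) : Fin n₁ × Fin 3) ≠ (b₀, 0) from
          fun h => (show (1 : Fin 3) ≠ 0 by decide) (congrArg Prod.snd h)),
        Pi.single_eq_same, zero_add, zero_add, smul_eq_mul, mul_one] at h2
      exact mul_ne_zero hc hG h2
    have hσ0 : σ 0 = 0 := by
      by_contra hne
      have h2 := h1 (a₀, 0) (fun h => hne h.symm)
      rw [Pi.add_apply, Pi.smul_apply, Pi.add_apply, hβv, Pi.single_eq_same,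
        Pi.single_eq_of_ne (show ((a₀, (0 : Fin 3)) : Fin n₁ × Fin 3) ≠ (b₀, 0) from
          fun h => hab (congrArg Prod.fst h)),
        Pi.single_eq_of_ne (show ((a₀, (0 : Fin 3)) : Fin n₁ × Fin 3) ≠ (b₀, 1) from
          fun h => hab (congrArg Prod.fst h)), add_zero, smul_zero, add_zero] at h2
      exact one_ne_zero h2
    exact (show (1 : Fin 3) ≠ 0 by decide) (hσ1.symm.trans hσ0)
  refine ⟨I' ⊓ fibStab F (Prod.snd : Fin n₁ × Fin 3 → Fin 3), ?_, ?_⟩
  · refine lt_of_le_of_ne (le_inf inf_le_right hA) ?_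
    intro heq
    have h1 : t ∈ I' ⊓ fibStab F (Prod.snd : Fin n₁ × Fin 3 → Fin 3) := ⟨htI, htfib⟩
    rw [← heq] at h1
    exact htk h1.1
  · refine lt_of_le_of_ne inf_le_left ?_
    intro heq
    have h1 : t₂ ∈ I' ⊓ fibStab F (Prod.snd : Fin n₁ × Fin 3 → Fin 3) := by
      rw [heq]
      exact ht₂I
    exact ht₂fib h1.2

end Main

section Frame

variable {F : Type*} [Field F] [Fintype F]

theorem f3_mixframe (hq : Fintype.card F = 3) {f : (Fin 3 → F) → (Fin 3 → F) → F}
    (hb : Cfsg.Geo.IsBilinearForm f) (hs : ∀ u v, f u v = f v u)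
    (v w z : Fin 3 → F) (n : F) (hn : n ≠ 0) (hvv : f v v = n) (hww : f w w = n)
    (hzz : f z z = -n) (hvw : f v w = 0) (hvz : f v z = 0) (hwz : f w z = 0) :
    ∃ (u : Fin 3 → (Fin 3 → F)) (d : F), d ≠ 0 ∧
      ∀ i j, f (u i) (u j) = if i = j then d else 0 := by
  have h3 := f3_three hq
  have hwv : f w v = 0 := by rw [hs]; exact hvw
  have hzv : f z v = 0 := by rw [hs]; exact hvz
  have hzw : f z w = 0 := by rw [hs]; exact hwz
  have hsl : ∀ x y t, f (x - y) t = f x t - f y t := by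
    intro x y t
    have : x - y = x + (-1 : F) • y := by module
    rw [this, hb.add_left, hb.smul_left]
    ring
  have hsr : ∀ t x y, f t (x - y) = f t x - f t y := by
    intro t x y
    have : x - y = x + (-1 : F) • y := by module
    rw [this, hb.add_right, hb.smul_right]
    ring
  refine ⟨![v + w, v - w, z], -n, neg_ne_zero.2 hn, ?_⟩
  intro i j
  fin_cases i <;> fin_cases j <;>
    simp [hb.add_left, hb.add_right, hsl, hsr, hvv, hww, hzz, hvw, hvz, hwz,
      hwv, hzv, hzw]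
  · linear_combination n * h3
  · linear_combination n * h3

theorem f3_frame_aux (hq : Fintype.card F = 3) {f : (Fin 3 → F) → (Fin 3 → F) → F}
    (hb : Cfsg.Geo.IsBilinearForm f) (hs : ∀ u v, f u v = f v u)
    (v₀ v₁ v₂ : Fin 3 → F) (h00 : f v₀ v₀ ≠ 0) (h11 : f v₁ v₁ ≠ 0) (h22 : f v₂ v₂ ≠ 0)
    (h01 : f v₀ v₁ = 0) (h02 : f v₀ v₂ = 0) (h12 : f v₁ v₂ = 0) :
    ∃ (u : Fin 3 → (Fin 3 → F)) (d : F), d ≠ 0 ∧
      ∀ i j, f (u i) (u j) = if i = j then d else 0 := by
  have h10 : f v₁ v₀ = 0 := by rw [hs]; exact h01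
  have h20 : f v₂ v₀ = 0 := by rw [hs]; exact h02
  have h21 : f v₂ v₁ = 0 := by rw [hs]; exact h12
  have hdirect : ∀ n : F, n ≠ 0 → f v₀ v₀ = n → f v₁ v₁ = n → f v₂ v₂ = n →
      ∃ (u : Fin 3 → (Fin 3 → F)) (d : F), d ≠ 0 ∧
        ∀ i j, f (u i) (u j) = if i = j then d else 0 := by
    intro n hn e0 e1 e2
    refine ⟨![v₀, v₁, v₂], n, hn, ?_⟩
    intro i j
    fin_cases i <;> fin_cases j <;> simp [e0, e1, e2, h01, h02, h12, h10, h20, h21]
  have hone : (1 : F) ≠ 0 := one_ne_zero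
  have hmone : (-1 : F) ≠ 0 := neg_ne_zero.2 one_ne_zero
  rcases f3_cases hq (f v₀ v₀) with e0 | e0 | e0
  · exact absurd e0 h00
  · rcases f3_cases hq (f v₁ v₁) with e1 | e1 | e1
    · exact absurd e1 h11
    · rcases f3_cases hq (f v₂ v₂) with e2 | e2 | e2
      · exact absurd e2 h22
      · exact hdirect 1 hone e0 e1 e2
      · exact f3_mixframe hq hb hs v₀ v₁ v₂ 1 hone e0 e1 e2 h01 h02 h12
    · rcases f3_cases hq (f v₂ v₂) with e2 | e2 | e2
      · exact absurd e2 h22
      · exact f3_mixframe hq hb hs v₀ v₂ v₁ 1 hone e0 e2 e1 h02 h01 h21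
      · exact f3_mixframe hq hb hs v₁ v₂ v₀ (-1) hmone e1 e2 (by rw [e0, neg_neg]) h12 h10 h20
  · rcases f3_cases hq (f v₁ v₁) with e1 | e1 | e1
    · exact absurd e1 h11
    · rcases f3_cases hq (f v₂ v₂) with e2 | e2 | e2
      · exact absurd e2 h22
      · exact f3_mixframe hq hb hs v₁ v₂ v₀ 1 hone e1 e2 e0 h12 h10 h20
      · exact f3_mixframe hq hb hs v₀ v₂ v₁ (-1) hmone e0 e2 (by rw [e1, neg_neg]) h02 h01 h21
    · rcases f3_cases hq (f v₂ v₂) with e2 | e2 | e2
      · exact absurd e2 h22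
      · exact f3_mixframe hq hb hs v₀ v₁ v₂ (-1) hmone e0 e1 (by rw [e2, neg_neg]) h01 h02 h12
      · exact hdirect (-1) hmone e0 e1 e2

/-- a non-degenerate symmetric bilinear form in dimension three over the field with three
elements has an orthogonal frame of constant norm -/
theorem f3_frame (hq : Fintype.card F = 3) {f : (Fin 3 → F) → (Fin 3 → F) → F}
    (hf : Cfsg.Geo.IsSymmetricForm f) :
    ∃ (u : Fin 3 → (Fin 3 → F)) (d : F), d ≠ 0 ∧
      ∀ i j, f (u i) (u j) = if i = j then d else 0 := by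
  have hb := hf.bilinear
  set B : LinearMap.BilinForm F (Fin 3 → F) :=
    LinearMap.mk₂ F f hb.add_left hb.smul_left hb.add_right hb.smul_right with hB
  have hBf : ∀ x y, B x y = f x y := fun x y => rfl
  have h2 : (2 : F) ≠ 0 := by
    intro h
    have h3 := f3_three hq
    exact one_ne_zero (α := F) (by linear_combination h3 - h)
  haveI : Invertible (2 : F) := invertibleOfNonzero h2
  have hsymm : LinearMap.IsSymm B := ⟨fun x y => by
    rw [RingHom.id_apply, hBf, hBf]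
    exact hf.symm x y⟩
  obtain ⟨v, hv⟩ := LinearMap.BilinForm.exists_orthogonal_basis hsymm
  have hsep : B.SeparatingLeft := by
    intro x hx
    by_contra hne
    obtain ⟨y, hy⟩ := (hf.nondegenerate x hne).2
    exact hy (hx y)
  have hnorm := fun i => hv.not_isOrtho_basis_self_of_separatingLeft hsep i
  rw [LinearMap.isOrthoᵢ_def] at hv
  have h3 : Module.finrank F (Fin 3 → F) = 3 := Module.finrank_fin_fun F
  have hw_ortho : ∀ i j : Fin 3, i ≠ j →
      f (v (Fin.cast h3.symm i)) (v (Fin.cast h3.symm j)) = 0 := fun i j hij =>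
    hv _ _ (fun h => hij (Fin.cast_injective _ h))
  exact f3_frame_aux hq hb hf.symm (v (Fin.cast h3.symm 0)) (v (Fin.cast h3.symm 1))
    (v (Fin.cast h3.symm 2)) (hnorm _) (hnorm _) (hnorm _)
    (hw_ortho 0 1 (by decide)) (hw_ortho 0 2 (by decide)) (hw_ortho 1 2 (by decide))

end Frame

end Cfsg.Agent.Lib.Helper99
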